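import Mathlib
import Cfsg.Prelude.Def_SporadicCombinatorics
import Cfsg.Prelude.Def_Spor_Conway
import Cfsg.Agent.Lib.Helper3.Leech2
import Cfsg.Agent.Lib.Helper3.GolayM24
import Cfsg.Agent.Lib.Helper3.M24Trans

set_option autoImplicit false

namespace Cfsg.Agent.Lib.Helper11.Co0Mono

open Cfsg Cfsg.Agent.Lib.Helper3.Golay Cfsg.Agent.Lib.Helper3.Golay2
open Cfsg.Agent.Lib.Helper3.Leech Cfsg.Agent.Lib.Helper3.Leech2
open Cfsg.Agent.Lib.Helper3.GolayM24

/-! ### Sign changes -/

/-- Sign change on the coordinates of `c`. -/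
def sgnF (c : Finset GolayPt) (x : GolayPt → ℤ) : GolayPt → ℤ := fun i => if i ∈ c then -x i else x i

theorem sgnF_sgnF (c : Finset GolayPt) (x : GolayPt → ℤ) : sgnF c (sgnF c x) = x := by
  funext i
  unfold sgnF
  split_ifs <;> simp

theorem sgnF_mem {c : Finset GolayPt} (hc : c ∈ Cset) {x : GolayPt → ℤ} (hx : x ∈ leechLattice) :
    sgnF c x ∈ leechLattice := by
  rw [mem_leechLattice_iff] at hx ⊢
  exact sign_mem_leechSet hc hx

theorem sgnF_add (c : Finset GolayPt) (x y : GolayPt → ℤ) :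
    sgnF c (x + y) = sgnF c x + sgnF c y := by
  funext i
  unfold sgnF
  simp only [Pi.add_apply]
  split_ifs <;> ring

theorem sqNorm_sgnF (c : Finset GolayPt) (x : GolayPt → ℤ) : sqNorm (sgnF c x) = sqNorm x := by
  unfold sqNorm sgnF
  refine Finset.sum_congr rfl fun i _ => ?_
  split_ifs <;> ring

/-- Sign change by a codeword, as a permutation of the lattice. -/
def sgnP (c : Finset GolayPt) (hc : c ∈ Cset) : Equiv.Perm ↥leechLattice :=
  Function.Involutive.toPerm (fun v => ⟨sgnF c v, sgnF_mem hc v.2⟩) (by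
    intro v
    apply Subtype.ext
    exact sgnF_sgnF c v)

theorem sgnP_apply (c : Finset GolayPt) (hc : c ∈ Cset) (v : ↥leechLattice) :
    ((sgnP c hc v : ↥leechLattice) : GolayPt → ℤ) = sgnF c v := rfl

theorem sgnP_mem (c : Finset GolayPt) (hc : c ∈ Cset) : sgnP c hc ∈ Co0 := by
  refine ⟨fun v w => ?_, fun v => ?_⟩
  · apply Subtype.ext
    rw [AddSubgroup.coe_add, sgnP_apply, sgnP_apply, sgnP_apply, AddSubgroup.coe_add, sgnF_add]
  · rw [sgnP_apply, sqNorm_sgnF]

/-! ### Coordinate permutations -/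

/-- Coordinate permutation. -/
def prmF (σ : Equiv.Perm GolayPt) (x : GolayPt → ℤ) : GolayPt → ℤ := fun i => x (σ.symm i)

theorem prmF_mem {σ : Equiv.Perm GolayPt} (hσ : σ ∈ M24) {x : GolayPt → ℤ}
    (hx : x ∈ leechLattice) : prmF σ x ∈ leechLattice := by
  rw [mem_leechLattice_iff] at hx ⊢
  exact perm_mem_leechSet (inv_mem hσ) hx

theorem prmF_add (σ : Equiv.Perm GolayPt) (x y : GolayPt → ℤ) :
    prmF σ (x + y) = prmF σ x + prmF σ y := rfl

theorem sqNorm_prmF (σ : Equiv.Perm GolayPt) (x : GolayPt → ℤ) : sqNorm (prmF σ x) = sqNorm x := by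
  unfold sqNorm prmF
  exact Equiv.sum_comp σ.symm (fun i => x i ^ 2)

/-- Coordinate permutation by an element of `M24`, as a permutation of the lattice. -/
def prmP (σ : Equiv.Perm GolayPt) (hσ : σ ∈ M24) : Equiv.Perm ↥leechLattice where
  toFun v := ⟨prmF σ v, prmF_mem hσ v.2⟩
  invFun v := ⟨prmF σ⁻¹ v, prmF_mem (inv_mem hσ) v.2⟩
  left_inv v := by
    apply Subtype.ext
    funext i
    simp [prmF, Equiv.Perm.inv_def]
  right_inv v := by
    apply Subtype.ext
    funext i
    simp [prmF, Equiv.Perm.inv_def]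

theorem prmP_apply (σ : Equiv.Perm GolayPt) (hσ : σ ∈ M24) (v : ↥leechLattice) :
    ((prmP σ hσ v : ↥leechLattice) : GolayPt → ℤ) = prmF σ v := rfl

theorem prmP_mem (σ : Equiv.Perm GolayPt) (hσ : σ ∈ M24) : prmP σ hσ ∈ Co0 := by
  refine ⟨fun v w => ?_, fun v => ?_⟩
  · apply Subtype.ext
    rw [AddSubgroup.coe_add, prmP_apply, prmP_apply, prmP_apply, AddSubgroup.coe_add, prmF_add]
  · rw [prmP_apply, sqNorm_prmF]

/-! ### Negation -/

/-- Negation, as a permutation of the lattice. -/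
def negP : Equiv.Perm ↥leechLattice := Equiv.neg ↥leechLattice

theorem negP_apply (v : ↥leechLattice) : negP v = -v := rfl

theorem negP_mem : negP ∈ Co0 := by
  refine ⟨fun v w => ?_, fun v => ?_⟩
  · rw [negP_apply, negP_apply, negP_apply, neg_add]
  · rw [negP_apply, AddSubgroup.coe_neg]
    unfold sqNorm
    simp

/-! ### The vectors `8 e_i` -/

theorem single_mem (i : GolayPt) : (Pi.single i 8 : GolayPt → ℤ) ∈ leechLattice := by
  rw [mem_leechLattice_iff]
  apply Cfsg.Spor.mem_leechSet_of_const_mod_four _ 0 0 (Int.ModEq.refl _)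
  · intro j
    by_cases h : j = i
    · subst h; simp [Int.ModEq]
    · simp [Pi.single_apply, h, Int.ModEq]
  · rw [Finset.sum_pi_single']
    simp [Int.ModEq]

/-- `8 e_i` as a lattice vector. -/
def E (i : GolayPt) : ↥leechLattice := ⟨Pi.single i 8, single_mem i⟩

theorem E_apply (i j : GolayPt) : (E i : GolayPt → ℤ) j = if j = i then 8 else 0 := by
  show (Pi.single i 8 : GolayPt → ℤ) j = _
  rw [Pi.single_apply]

/-- Separation of two points by a codeword. -/
theorem sep_aux : ∀ i j : GolayPt, i ≠ j → ∃ t : ZMod 23,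
    (qrWord t j = 1 ∧ qrWord t i = 0) ∨ (qrWord t j = 0 ∧ qrWord t i = 1) := by
  decide +kernel

theorem sep (i j : GolayPt) (h : i ≠ j) : ∃ d ∈ Cset, j ∈ d ∧ i ∉ d := by
  obtain ⟨t, ht | ht⟩ := sep_aux i j h
  · refine ⟨support₂ (qrWord t), ⟨qrWord t, qrWord_mem t, rfl⟩, ?_, ?_⟩
    · simp [support₂, ht.1]
    · simp [support₂, ht.2]
  · refine ⟨(support₂ (qrWord t))ᶜ, compl_mem_supports ⟨qrWord t, qrWord_mem t, rfl⟩, ?_, ?_⟩
    · simp [support₂, ht.1]
    · simp [support₂, ht.2]


/-! ### Additive permutations -/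

/-- An additive permutation of the lattice as an additive homomorphism. -/
def toHom (Z : Equiv.Perm ↥leechLattice) (h : ∀ v w, Z (v + w) = Z v + Z w) :
    ↥leechLattice →+ ↥leechLattice := AddMonoidHom.mk' Z h

theorem toHom_apply (Z : Equiv.Perm ↥leechLattice) (h : ∀ v w, Z (v + w) = Z v + Z w)
    (v : ↥leechLattice) : toHom Z h v = Z v := rfl

theorem perm_neg (Z : Equiv.Perm ↥leechLattice) (h : ∀ v w, Z (v + w) = Z v + Z w)
    (v : ↥leechLattice) : Z (-v) = -Z v := by
  rw [← toHom_apply Z h, map_neg, toHom_apply]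

theorem eight_smul (v : ↥leechLattice) :
    (8 : ℤ) • v = ∑ i, (v : GolayPt → ℤ) i • E i := by
  apply Subtype.ext
  have h1 : ((∑ i, (v : GolayPt → ℤ) i • E i : ↥leechLattice) : GolayPt → ℤ) =
      ∑ i, (v : GolayPt → ℤ) i • (E i : GolayPt → ℤ) := by
    rw [← AddSubgroup.coe_subtype, map_sum]
    refine Finset.sum_congr rfl fun i _ => ?_
    rw [map_zsmul]
  rw [h1]
  funext j
  rw [AddSubgroup.coe_zsmul, Pi.smul_apply, Finset.sum_apply]
  simp only [Pi.smul_apply, E_apply, smul_eq_mul, mul_ite, mul_zero]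
  rw [Finset.sum_ite_eq]
  simp [mul_comm]

/-- An additive permutation is determined by a common sign on the vectors `8 e_i`. -/
theorem eq_of_E (Z : Equiv.Perm ↥leechLattice) (hadd : ∀ v w, Z (v + w) = Z v + Z w)
    (s : ℤ) (h : ∀ i, Z (E i) = s • E i) (v : ↥leechLattice) : Z v = s • v := by
  have hz : Z ((8 : ℤ) • v) = (8 : ℤ) • Z v := by
    rw [← toHom_apply Z hadd, map_zsmul, toHom_apply]
  have hz2 : Z ((8 : ℤ) • v) = s • ((8 : ℤ) • v) := by
    rw [eight_smul v, ← toHom_apply Z hadd, map_sum, Finset.smul_sum]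
    refine Finset.sum_congr rfl fun i _ => ?_
    rw [map_zsmul, toHom_apply, h i, smul_comm]
  rw [hz] at hz2
  apply Subtype.ext
  funext j
  have := congrFun (congrArg Subtype.val hz2) j
  simp only [AddSubgroup.coe_zsmul, Pi.smul_apply, smul_eq_mul] at this
  simp only [AddSubgroup.coe_zsmul, Pi.smul_apply, smul_eq_mul]
  linarith

theorem sqNorm_E (i : GolayPt) : sqNorm (E i : GolayPt → ℤ) = 64 := by
  unfold sqNorm
  rw [Finset.sum_eq_single i]
  · rw [E_apply, if_pos rfl]; norm_num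
  · intro j _ hj
    rw [E_apply, if_neg hj]; ring
  · intro h; exact absurd (Finset.mem_univ i) h

theorem sgnP_E (d : Finset GolayPt) (hd : d ∈ Cset) (i : GolayPt) (hi : i ∉ d) :
    sgnP d hd (E i) = E i := by
  apply Subtype.ext
  rw [sgnP_apply]
  funext k
  unfold sgnF
  by_cases hk : k ∈ d
  · have hki : k ≠ i := fun h => hi (h ▸ hk)
    rw [if_pos hk, E_apply, if_neg hki]; rfl
  · rw [if_neg hk]

theorem prmP_E (σ : Equiv.Perm GolayPt) (hσ : σ ∈ M24) (i : GolayPt) :
    prmP σ hσ (E i) = E (σ i) := by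
  apply Subtype.ext
  rw [prmP_apply]
  funext k
  unfold prmF
  rw [E_apply, E_apply]
  by_cases hk : k = σ i
  · rw [if_pos hk, if_pos (by rw [hk]; simp)]
  · rw [if_neg hk, if_neg]
    intro h
    apply hk
    rw [← h]; simp

/-- A permutation in `Co0` commuting with all sign changes and all coordinate permutations of the
monomial group is `± 1`. -/
theorem central_eq (Z : Equiv.Perm ↥leechLattice) (hZ : Z ∈ Co0)
    (hs : ∀ (d : Finset GolayPt) (hd : d ∈ Cset), sgnP d hd * Z = Z * sgnP d hd)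
    (hp : ∀ (σ : Equiv.Perm GolayPt) (hσ : σ ∈ M24), prmP σ hσ * Z = Z * prmP σ hσ) :
    Z = 1 ∨ Z = negP := by
  have hadd := hZ.1
  have hnorm := hZ.2
  have h1 : ∀ i j, j ≠ i → ((Z (E i) : ↥leechLattice) : GolayPt → ℤ) j = 0 := by
    intro i j hji
    obtain ⟨d, hd, hjd, hid⟩ := sep i j (Ne.symm hji)
    have hc := hs d hd
    have h := congrArg (fun f : Equiv.Perm ↥leechLattice =>
      ((f (E i) : ↥leechLattice) : GolayPt → ℤ) j) hc
    simp only [Equiv.Perm.mul_apply] at h
    rw [sgnP_E d hd i hid, sgnP_apply] at h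
    unfold sgnF at h
    rw [if_pos hjd] at h
    omega
  have h2 : ∀ i, Z (E i) = E i ∨ Z (E i) = -E i := by
    intro i
    have hn := hnorm (E i)
    have e1 : sqNorm ((Z (E i) : ↥leechLattice) : GolayPt → ℤ) =
        (((Z (E i) : ↥leechLattice) : GolayPt → ℤ) i) ^ 2 := by
      unfold sqNorm
      apply Finset.sum_eq_single i
      · intro j _ hj
        rw [h1 i j hj]; ring
      · intro h; exact absurd (Finset.mem_univ i) h
    rw [e1, sqNorm_E] at hn
    have h8 : ((Z (E i) : ↥leechLattice) : GolayPt → ℤ) i = 8 ∨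
        ((Z (E i) : ↥leechLattice) : GolayPt → ℤ) i = -8 := by
      have hm : (((Z (E i) : ↥leechLattice) : GolayPt → ℤ) i - 8) *
          (((Z (E i) : ↥leechLattice) : GolayPt → ℤ) i + 8) = 0 := by
        ring_nf; linarith
      rcases mul_eq_zero.mp hm with h | h
      · left; omega
      · right; omega
    rcases h8 with h | h
    · left
      apply Subtype.ext
      funext j
      by_cases hj : j = i
      · rw [hj, h, E_apply, if_pos rfl]
      · rw [h1 i j hj, E_apply, if_neg hj]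
    · right
      apply Subtype.ext
      funext j
      rw [AddSubgroup.coe_neg, Pi.neg_apply]
      by_cases hj : j = i
      · rw [hj, h, E_apply, if_pos rfl]
      · rw [h1 i j hj, E_apply, if_neg hj]; rfl
  have h3 : ∀ i i', Z (E i) = E i → Z (E i') = E i' := by
    intro i i' hi
    obtain ⟨σ, hσ, hσi⟩ := Cfsg.Agent.Lib.Helper3.M24Trans.trans1 i i'
    have hc := hp σ hσ
    have h := congrArg (fun f : Equiv.Perm ↥leechLattice => f (E i)) hc
    simp only [Equiv.Perm.mul_apply] at h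
    rw [hi, prmP_E, hσi] at h
    exact h.symm
  by_cases hpos : Z (E none) = E none
  · left
    ext v : 1
    rw [eq_of_E Z hadd 1 (fun i => by rw [one_smul]; exact h3 none i hpos) v, one_smul]
    rfl
  · right
    have hall : ∀ i, Z (E i) = (-1 : ℤ) • E i := by
      intro i
      rcases h2 i with h | h
      · exact absurd (h3 i none h) hpos
      · rw [h]; simp
    ext v : 1
    rw [eq_of_E Z hadd (-1) hall v, negP_apply]
    simp

end Cfsg.Agent.Lib.Helper11.Co0Mono
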