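import Mathlib
import Cfsg.Prelude.Def_Sporadic_a
import Cfsg.Agent.Lib.Helper3.Golay
import Cfsg.Agent.Lib.Helper3.Golay2
import Cfsg.Agent.Lib.Helper3.Leech
import Cfsg.Agent.Lib.Helper3.Leech2

set_option autoImplicit false

namespace Cfsg.Agent.Lib.Helper11.LeechGF

open Cfsg Cfsg.Agent.Lib.Helper3.Golay Cfsg.Agent.Lib.Helper3.Golay2
open Cfsg.Agent.Lib.Helper3.Leech Cfsg.Agent.Lib.Helper3.Leech2
open Polynomial

/-! ### Generating functions -/

/-- Counting points of a product set by total weight: coefficients of a product of local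
generating polynomials. -/
theorem gf_count {ι : Type*} [Fintype ι] [DecidableEq ι] (S : ι → Finset ℤ) (w : ℤ → ℕ)
    (K : Finset ℕ) :
    ((Fintype.piFinset S).filter (fun x => ∑ i, w (x i) ∈ K)).card =
      ∑ k ∈ K, (∏ i, ∑ v ∈ S i, (X : ℕ[X]) ^ w v).coeff k := by
  rw [Finset.prod_univ_sum]
  simp_rw [Finset.prod_pow_eq_pow_sum, Polynomial.finset_sum_coeff, Polynomial.coeff_X_pow]
  rw [Finset.sum_comm, Finset.card_filter]
  refine Finset.sum_congr rfl fun x _ => ?_
  rw [Finset.sum_ite_eq']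

/-- Kronecker substitution: a coefficient of a polynomial over `ℕ` is a base-`B` digit of its
value at `B`, as soon as `B` exceeds the sum of the coefficients. -/
theorem coeff_eq_digit (B : ℕ) :
    ∀ (k : ℕ) (F : ℕ[X]), F.eval 1 < B → F.coeff k = F.eval B / B ^ k % B := by
  have key : ∀ (F : ℕ[X]) (b : ℕ), F.eval b = F.divX.eval b * b + F.coeff 0 := by
    intro F b
    conv_lhs => rw [← Polynomial.divX_mul_X_add F]
    simp
  intro k
  induction k with
  | zero =>
    intro F hF
    have h1 := key F 1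
    have hB := key F B
    rw [pow_zero, Nat.div_one, hB, Nat.mul_add_mod_self_right, Nat.mod_eq_of_lt (by omega)]
  | succ k ih =>
    intro F hF
    have h1 := key F 1
    have hB := key F B
    have hdiv : F.eval B / B = F.divX.eval B := by
      rw [hB]
      have hc : F.coeff 0 < B := by omega
      have hBpos : 0 < B := by omega
      rw [Nat.add_comm, Nat.add_mul_div_right _ _ hBpos, Nat.div_eq_of_lt hc, zero_add]
    rw [pow_succ', ← Nat.div_div_eq_div_mul, hdiv, ← ih F.divX (by omega), Polynomial.coeff_divX]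

/-- A product of two kinds of factors. -/
theorem prod_pattern {ι : Type*} [Fintype ι] [DecidableEq ι] {R : Type*} [CommSemiring R]
    (c : Finset ι) (P Q : R) :
    ∏ i, (if i ∈ c then P else Q) = P ^ c.card * Q ^ (Fintype.card ι - c.card) := by
  rw [Finset.prod_ite, Finset.prod_const, Finset.prod_const]
  congr 2
  · congr 1
    ext i; simp
  · rw [← Finset.card_compl]
    congr 1
    ext i; simp


/-! ### Local data -/

/-- Bit 2 of an integer. -/
def tb (v : ℤ) : ℕ := (v / 4 % 2).toNat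

theorem tb_le (v : ℤ) : tb v ≤ 1 := by unfold tb; omega

theorem tb_cast (v : ℤ) : (tb v : ℤ) = v / 4 % 2 := by unfold tb; omega

/-- Local weight: `1024 v² + 32 (marker) + (bit 2)`. -/
def W (mk : ℤ → ℕ) (v : ℤ) : ℕ := 1024 * v.natAbs ^ 2 + 32 * mk v + tb v

def b0 : Finset ℤ := {-8, -4, 0, 4, 8}
def b2 : Finset ℤ := {-6, -2, 2, 6}
def b1 : Finset ℤ := {-7, -3, 1, 5}
def b3 : Finset ℤ := {-5, -1, 3, 7}

theorem mem_b0 (v : ℤ) : v ∈ b0 ↔ (-8 ≤ v ∧ v ≤ 8) ∧ v % 4 = 0 := by
  simp only [b0, Finset.mem_insert, Finset.mem_singleton]; omega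

theorem mem_b2 (v : ℤ) : v ∈ b2 ↔ (-8 ≤ v ∧ v ≤ 8) ∧ v % 4 = 2 := by
  simp only [b2, Finset.mem_insert, Finset.mem_singleton]; omega

theorem mem_b1 (v : ℤ) : v ∈ b1 ↔ (-8 ≤ v ∧ v ≤ 8) ∧ v % 4 = 1 := by
  simp only [b1, Finset.mem_insert, Finset.mem_singleton]; omega

theorem mem_b3 (v : ℤ) : v ∈ b3 ↔ (-8 ≤ v ∧ v ≤ 8) ∧ v % 4 = 3 := by
  simp only [b3, Finset.mem_insert, Finset.mem_singleton]; omega

/-- Local value sets of the even pattern `c`. -/
def SE (c : Finset GolayPt) (i : GolayPt) : Finset ℤ := if i ∈ c then b2 else b0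

/-- Local value sets of the odd pattern `c`. -/
def SO (c : Finset GolayPt) (i : GolayPt) : Finset ℤ := if i ∈ c then b1 else b3

theorem mem_SE (c : Finset GolayPt) (i : GolayPt) (v : ℤ) :
    v ∈ SE c i ↔ (-8 ≤ v ∧ v ≤ 8) ∧ v % 4 = if i ∈ c then 2 else 0 := by
  unfold SE
  split_ifs
  · exact mem_b2 v
  · exact mem_b0 v

theorem mem_SO (c : Finset GolayPt) (i : GolayPt) (v : ℤ) :
    v ∈ SO c i ↔ (-8 ≤ v ∧ v ≤ 8) ∧ v % 4 = if i ∈ c then 1 else 3 := by
  unfold SO
  split_ifs
  · exact mem_b1 v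
  · exact mem_b3 v

/-- Local generating polynomial. -/
noncomputable def lp (mk : ℤ → ℕ) (S : Finset ℤ) : ℕ[X] := ∑ v ∈ S, X ^ W mk v

theorem card_pt : Fintype.card GolayPt = 24 := by
  simp [GolayPt]

/-! ### The lattice in terms of patterns -/

theorem leechSet_iff (x : GolayPt → ℤ) : x ∈ leechSet ↔
    (∃ c ∈ Cset, (∀ i, x i % 4 = if i ∈ c then 2 else 0) ∧ (∑ i, x i) % 8 = 0) ∨
    (∃ c ∈ Cset, (∀ i, x i % 4 = if i ∈ c then 1 else 3) ∧ (∑ i, x i) % 8 = 4) := by
  rw [mem_leechSet_iff]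
  constructor
  · rintro ⟨m, h1, h2, h3⟩
    rcases Int.emod_two_eq_zero_or_one m with hm | hm
    · left
      refine ⟨lev x 2, h3 2, fun i => ?_, ?_⟩
      · have h := h1 i
        by_cases hi : i ∈ lev x 2
        · rw [if_pos hi]
          rw [mem_lev] at hi
          unfold Int.ModEq at hi
          omega
        · rw [if_neg hi]
          rw [mem_lev] at hi
          unfold Int.ModEq at *
          omega
      · unfold Int.ModEq at h2
        omega
    · right
      refine ⟨lev x 1, h3 1, fun i => ?_, ?_⟩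
      · have h := h1 i
        by_cases hi : i ∈ lev x 1
        · rw [if_pos hi]
          rw [mem_lev] at hi
          unfold Int.ModEq at hi
          omega
        · rw [if_neg hi]
          rw [mem_lev] at hi
          unfold Int.ModEq at *
          omega
      · unfold Int.ModEq at h2
        omega
  · rintro (⟨c, hc, hp, hs⟩ | ⟨c, hc, hp, hs⟩)
    · refine ⟨0, fun i => ?_, ?_, fun k => ?_⟩
      · have h := hp i
        unfold Int.ModEq
        split_ifs at h <;> omega
      · unfold Int.ModEq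
        omega
      · have hk : k % 4 = 0 ∨ k % 4 = 1 ∨ k % 4 = 2 ∨ k % 4 = 3 := by omega
        rcases hk with hk | hk | hk | hk
        · have : lev x k = cᶜ := by
            ext i
            rw [mem_lev, Finset.mem_compl]
            have h := hp i
            unfold Int.ModEq
            split_ifs at h with hi
            · simp only [hi, not_true_eq_false, iff_false]; omega
            · simp only [hi, not_false_eq_true, iff_true]; omega
          rw [this]
          exact compl_mem_supports hc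
        · have : lev x k = ∅ := by
            ext i
            rw [mem_lev]
            have h := hp i
            unfold Int.ModEq
            simp only [Finset.notMem_empty, iff_false]
            split_ifs at h <;> omega
          rw [this]
          exact empty_mem_supports
        · have : lev x k = c := by
            ext i
            rw [mem_lev]
            have h := hp i
            unfold Int.ModEq
            split_ifs at h with hi
            · simp only [hi, iff_true]; omega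
            · simp only [hi, iff_false]; omega
          rw [this]
          exact hc
        · have : lev x k = ∅ := by
            ext i
            rw [mem_lev]
            have h := hp i
            unfold Int.ModEq
            simp only [Finset.notMem_empty, iff_false]
            split_ifs at h <;> omega
          rw [this]
          exact empty_mem_supports
    · refine ⟨1, fun i => ?_, ?_, fun k => ?_⟩
      · have h := hp i
        unfold Int.ModEq
        split_ifs at h <;> omega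
      · unfold Int.ModEq
        omega
      · have hk : k % 4 = 0 ∨ k % 4 = 1 ∨ k % 4 = 2 ∨ k % 4 = 3 := by omega
        rcases hk with hk | hk | hk | hk
        · have : lev x k = ∅ := by
            ext i
            rw [mem_lev]
            have h := hp i
            unfold Int.ModEq
            simp only [Finset.notMem_empty, iff_false]
            split_ifs at h <;> omega
          rw [this]
          exact empty_mem_supports
        · have : lev x k = c := by
            ext i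
            rw [mem_lev]
            have h := hp i
            unfold Int.ModEq
            split_ifs at h with hi
            · simp only [hi, iff_true]; omega
            · simp only [hi, iff_false]; omega
          rw [this]
          exact hc
        · have : lev x k = ∅ := by
            ext i
            rw [mem_lev]
            have h := hp i
            unfold Int.ModEq
            simp only [Finset.notMem_empty, iff_false]
            split_ifs at h <;> omega
          rw [this]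
          exact empty_mem_supports
        · have : lev x k = cᶜ := by
            ext i
            rw [mem_lev, Finset.mem_compl]
            have h := hp i
            unfold Int.ModEq
            split_ifs at h with hi
            · simp only [hi, not_true_eq_false, iff_false]; omega
            · simp only [hi, not_false_eq_true, iff_true]; omega
          rw [this]
          exact compl_mem_supports hc

theorem sum_split (x : GolayPt → ℤ) :
    ∑ i, x i = ∑ i, (x i % 4) + 4 * ∑ i, (x i / 4) := by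
  rw [Finset.mul_sum, ← Finset.sum_add_distrib]
  refine Finset.sum_congr rfl fun i _ => ?_
  omega

theorem sum_tb (x : GolayPt → ℤ) :
    (∑ i, (x i / 4) - ((∑ i, tb (x i) : ℕ) : ℤ)) % 2 = 0 := by
  rw [Nat.cast_sum, ← Finset.sum_sub_distrib]
  apply Int.emod_eq_zero_of_dvd
  apply Finset.dvd_sum
  intro i _
  rw [tb_cast]
  omega

theorem sum_mod8_even (x : GolayPt → ℤ) (c : Finset GolayPt) (hc : c ∈ Cset)
    (hp : ∀ i, x i % 4 = if i ∈ c then 2 else 0) :
    (∑ i, x i) % 8 = 0 ↔ (∑ i, tb (x i)) % 2 = 0 := by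
  have e1 := sum_split x
  have e2 : ∑ i, (x i % 4) = 2 * (c.card : ℤ) := by
    simp_rw [hp]
    rw [Finset.sum_ite, Finset.sum_const, Finset.sum_const, Finset.filter_mem_eq_inter,
      Finset.univ_inter]
    simp
    ring
  have e3 := sum_tb x
  obtain ⟨q, hq⟩ := four_dvd_card hc
  omega

theorem sum_mod8_odd (x : GolayPt → ℤ) (c : Finset GolayPt) (hc : c ∈ Cset)
    (hp : ∀ i, x i % 4 = if i ∈ c then 1 else 3) :
    (∑ i, x i) % 8 = 4 ↔ (∑ i, tb (x i)) % 2 = 1 := by
  have e1 := sum_split x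
  have e2 : ∑ i, (x i % 4) = (c.card : ℤ) + 3 * (24 - (c.card : ℤ)) := by
    simp_rw [hp]
    rw [Finset.sum_ite, Finset.sum_const, Finset.sum_const, Finset.filter_mem_eq_inter,
      Finset.univ_inter, Finset.filter_not, Finset.filter_mem_eq_inter, Finset.univ_inter,
      ← Finset.compl_eq_univ_sdiff, Finset.card_compl, card_pt]
    have : c.card ≤ 24 := by
      rw [← card_pt]; exact Finset.card_le_univ c
    simp only [smul_eq_mul, nsmul_eq_mul]
    rw [Nat.cast_sub this]
    push_cast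
    ring
  have e3 := sum_tb x
  obtain ⟨q, hq⟩ := four_dvd_card hc
  omega

theorem sqNorm_eq (x : GolayPt → ℤ) : sqNorm x = ((∑ i, (x i).natAbs ^ 2 : ℕ) : ℤ) := by
  unfold sqNorm
  push_cast
  refine Finset.sum_congr rfl fun i _ => ?_
  rw [sq_abs]

theorem sumW (mk : ℤ → ℕ) (x : GolayPt → ℤ) :
    ∑ i, W mk (x i) =
      1024 * ∑ i, (x i).natAbs ^ 2 + 32 * ∑ i, mk (x i) + ∑ i, tb (x i) := by
  unfold W
  rw [Finset.sum_add_distrib, Finset.sum_add_distrib, Finset.mul_sum, Finset.mul_sum]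

theorem box_of_norm (x : GolayPt → ℤ) (n : ℕ) (hn : n ≤ 64) (hx : sqNorm x = (n : ℤ)) (i : GolayPt) :
    -8 ≤ x i ∧ x i ≤ 8 := by
  have h1 : x i ^ 2 ≤ sqNorm x := by
    unfold sqNorm
    exact Finset.single_le_sum (f := fun i => x i ^ 2) (fun j _ => sq_nonneg (x j)) (Finset.mem_univ i)
  have h2 : x i ^ 2 ≤ 8 ^ 2 := by
    have : (n : ℤ) ≤ 64 := by exact_mod_cast hn
    omega
  exact abs_le_of_sq_le_sq' h2 (by norm_num)

/-! ### Exponent sets -/

def KE (n : ℕ) (A : Finset ℕ) : Finset ℕ :=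
  (A ×ˢ Finset.range 13).image fun p => 1024 * n + 32 * p.1 + 2 * p.2

def KO (n : ℕ) (A : Finset ℕ) : Finset ℕ :=
  (A ×ˢ Finset.range 13).image fun p => 1024 * n + 32 * p.1 + (2 * p.2 + 1)

theorem mem_KE (n : ℕ) (A : Finset ℕ) (hA : ∀ a ∈ A, a ≤ 24) (N M T : ℕ) (hM : M ≤ 24)
    (hT : T ≤ 24) : 1024 * N + 32 * M + T ∈ KE n A ↔ N = n ∧ M ∈ A ∧ T % 2 = 0 := by
  unfold KE
  simp only [Finset.mem_image, Finset.mem_product, Finset.mem_range, Prod.exists]
  constructor
  · rintro ⟨a, j, ⟨ha, hj⟩, h⟩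
    have h24 := hA a ha
    have hMa : M = a := by omega
    refine ⟨by omega, ?_, by omega⟩
    rw [hMa]; exact ha
  · rintro ⟨h1, h2, h3⟩
    exact ⟨M, T / 2, ⟨h2, by omega⟩, by omega⟩

theorem mem_KO (n : ℕ) (A : Finset ℕ) (hA : ∀ a ∈ A, a ≤ 24) (N M T : ℕ) (hM : M ≤ 24)
    (hT : T ≤ 24) : 1024 * N + 32 * M + T ∈ KO n A ↔ N = n ∧ M ∈ A ∧ T % 2 = 1 := by
  unfold KO
  simp only [Finset.mem_image, Finset.mem_product, Finset.mem_range, Prod.exists]
  constructor
  · rintro ⟨a, j, ⟨ha, hj⟩, h⟩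
    have h24 := hA a ha
    have hMa : M = a := by omega
    refine ⟨by omega, ?_, by omega⟩
    rw [hMa]; exact ha
  · rintro ⟨h1, h2, h3⟩
    exact ⟨M, T / 2, ⟨h2, by omega⟩, by omega⟩


/-! ### The pieces -/

/-- Vectors of even pattern `c` with weight in `KE n A`. -/
def FE (mk : ℤ → ℕ) (n : ℕ) (A : Finset ℕ) (c : Finset GolayPt) : Finset (GolayPt → ℤ) :=
  (Fintype.piFinset (SE c)).filter (fun x => ∑ i, W mk (x i) ∈ KE n A)

/-- Vectors of odd pattern `c` with weight in `KO n A`. -/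
def FO (mk : ℤ → ℕ) (n : ℕ) (A : Finset ℕ) (c : Finset GolayPt) : Finset (GolayPt → ℤ) :=
  (Fintype.piFinset (SO c)).filter (fun x => ∑ i, W mk (x i) ∈ KO n A)

theorem pat_FE (mk : ℤ → ℕ) (n : ℕ) (A : Finset ℕ) (c : Finset GolayPt) (x : GolayPt → ℤ)
    (hx : x ∈ FE mk n A c) (i : GolayPt) : x i % 4 = if i ∈ c then 2 else 0 := by
  unfold FE at hx
  rw [Finset.mem_filter, Fintype.mem_piFinset] at hx
  exact ((mem_SE c i (x i)).mp (hx.1 i)).2

theorem pat_FO (mk : ℤ → ℕ) (n : ℕ) (A : Finset ℕ) (c : Finset GolayPt) (x : GolayPt → ℤ)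
    (hx : x ∈ FO mk n A c) (i : GolayPt) : x i % 4 = if i ∈ c then 1 else 3 := by
  unfold FO at hx
  rw [Finset.mem_filter, Fintype.mem_piFinset] at hx
  exact ((mem_SO c i (x i)).mp (hx.1 i)).2

theorem sum_mk_le (mk : ℤ → ℕ) (hmk : ∀ v, mk v ≤ 1) (x : GolayPt → ℤ) :
    ∑ i, mk (x i) ≤ 24 := by
  have h := Finset.sum_le_card_nsmul (Finset.univ : Finset GolayPt) (fun i => mk (x i)) 1
    (fun i _ => hmk _)
  rw [Finset.card_univ, card_pt] at h
  simpa using h

theorem sum_tb_le (x : GolayPt → ℤ) : ∑ i, tb (x i) ≤ 24 := by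
  have h := Finset.sum_le_card_nsmul (Finset.univ : Finset GolayPt) (fun i => tb (x i)) 1
    (fun i _ => tb_le _)
  rw [Finset.card_univ, card_pt] at h
  simpa using h

theorem mem_FE (mk : ℤ → ℕ) (hmk : ∀ v, mk v ≤ 1) (n : ℕ) (A : Finset ℕ)
    (hA : ∀ a ∈ A, a ≤ 24) (c : Finset GolayPt) (hc : c ∈ Cset) (x : GolayPt → ℤ) :
    x ∈ FE mk n A c ↔ (∀ i, -8 ≤ x i ∧ x i ≤ 8) ∧ (∀ i, x i % 4 = if i ∈ c then 2 else 0) ∧
      (∑ i, x i) % 8 = 0 ∧ sqNorm x = (n : ℤ) ∧ ∑ i, mk (x i) ∈ A := by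
  unfold FE
  rw [Finset.mem_filter, Fintype.mem_piFinset, sumW,
    mem_KE n A hA _ _ _ (sum_mk_le mk hmk x) (sum_tb_le x), sqNorm_eq]
  simp only [mem_SE]
  constructor
  · rintro ⟨h1, h2, h3, h4⟩
    have hp : ∀ i, x i % 4 = if i ∈ c then 2 else 0 := fun i => (h1 i).2
    exact ⟨fun i => (h1 i).1, hp, (sum_mod8_even x c hc hp).mpr h4, by rw [h2], h3⟩
  · rintro ⟨h1, hp, h3, h4, h5⟩
    exact ⟨fun i => ⟨h1 i, hp i⟩, by exact_mod_cast h4, h5, (sum_mod8_even x c hc hp).mp h3⟩

theorem mem_FO (mk : ℤ → ℕ) (hmk : ∀ v, mk v ≤ 1) (n : ℕ) (A : Finset ℕ)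
    (hA : ∀ a ∈ A, a ≤ 24) (c : Finset GolayPt) (hc : c ∈ Cset) (x : GolayPt → ℤ) :
    x ∈ FO mk n A c ↔ (∀ i, -8 ≤ x i ∧ x i ≤ 8) ∧ (∀ i, x i % 4 = if i ∈ c then 1 else 3) ∧
      (∑ i, x i) % 8 = 4 ∧ sqNorm x = (n : ℤ) ∧ ∑ i, mk (x i) ∈ A := by
  unfold FO
  rw [Finset.mem_filter, Fintype.mem_piFinset, sumW,
    mem_KO n A hA _ _ _ (sum_mk_le mk hmk x) (sum_tb_le x), sqNorm_eq]
  simp only [mem_SO]
  constructor
  · rintro ⟨h1, h2, h3, h4⟩
    have hp : ∀ i, x i % 4 = if i ∈ c then 1 else 3 := fun i => (h1 i).2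
    exact ⟨fun i => (h1 i).1, hp, (sum_mod8_odd x c hc hp).mpr h4, by rw [h2], h3⟩
  · rintro ⟨h1, hp, h3, h4, h5⟩
    exact ⟨fun i => ⟨h1 i, hp i⟩, by exact_mod_cast h4, h5, (sum_mod8_odd x c hc hp).mp h3⟩

theorem card_FE (mk : ℤ → ℕ) (n : ℕ) (A : Finset ℕ) (c : Finset GolayPt) :
    (FE mk n A c).card =
      ∑ e ∈ KE n A, (lp mk b2 ^ c.card * lp mk b0 ^ (24 - c.card)).coeff e := by
  unfold FE
  rw [gf_count]
  have : ∏ i, ∑ v ∈ SE c i, (X : ℕ[X]) ^ W mk v =
      lp mk b2 ^ c.card * lp mk b0 ^ (24 - c.card) := by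
    rw [← card_pt, ← prod_pattern]
    refine Finset.prod_congr rfl fun i _ => ?_
    unfold SE lp
    split_ifs <;> rfl
  rw [this]

theorem card_FO (mk : ℤ → ℕ) (n : ℕ) (A : Finset ℕ) (c : Finset GolayPt) :
    (FO mk n A c).card =
      ∑ e ∈ KO n A, (lp mk b1 ^ c.card * lp mk b3 ^ (24 - c.card)).coeff e := by
  unfold FO
  rw [gf_count]
  have : ∏ i, ∑ v ∈ SO c i, (X : ℕ[X]) ^ W mk v =
      lp mk b1 ^ c.card * lp mk b3 ^ (24 - c.card) := by
    rw [← card_pt, ← prod_pattern]
    refine Finset.prod_congr rfl fun i _ => ?_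
    unfold SO lp
    split_ifs <;> rfl
  rw [this]

theorem pat_inj_E (c c' : Finset GolayPt) (x : GolayPt → ℤ)
    (h : ∀ i, x i % 4 = if i ∈ c then 2 else 0) (h' : ∀ i, x i % 4 = if i ∈ c' then 2 else 0) :
    c = c' := by
  ext i
  have h1 := h i
  have h2 := h' i
  split_ifs at h1 h2 <;> simp_all

theorem pat_inj_O (c c' : Finset GolayPt) (x : GolayPt → ℤ)
    (h : ∀ i, x i % 4 = if i ∈ c then 1 else 3) (h' : ∀ i, x i % 4 = if i ∈ c' then 1 else 3) :
    c = c' := by
  ext i
  have h1 := h i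
  have h2 := h' i
  split_ifs at h1 h2 <;> simp_all

theorem pat_EO (c c' : Finset GolayPt) (x : GolayPt → ℤ)
    (h : ∀ i, x i % 4 = if i ∈ c then 2 else 0) (h' : ∀ i, x i % 4 = if i ∈ c' then 1 else 3) :
    False := by
  have h1 := h none
  have h2 := h' none
  split_ifs at h1 h2 <;> omega

/-- **The counting theorem.**  The number of lattice vectors of sum of squares `n ≤ 64` whose
number of marked coordinates lies in `A`, as a sum over the 4096 codewords of coefficients of
explicit polynomials. -/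
theorem count_main (mk : ℤ → ℕ) (hmk : ∀ v, mk v ≤ 1) (n : ℕ) (hn : n ≤ 64) (A : Finset ℕ)
    (hA : ∀ a ∈ A, a ≤ 24) :
    {x : GolayPt → ℤ | x ∈ leechLattice ∧ sqNorm x = (n : ℤ) ∧ ∑ i, mk (x i) ∈ A}.ncard =
      ∑ k ∈ Finset.range 4096,
        (∑ e ∈ KE n A, (lp mk b2 ^ pc (cw k) * lp mk b0 ^ (24 - pc (cw k))).coeff e +
         ∑ e ∈ KO n A, (lp mk b1 ^ pc (cw k) * lp mk b3 ^ (24 - pc (cw k))).coeff e) := by
  classical
  have hset : {x : GolayPt → ℤ | x ∈ leechLattice ∧ sqNorm x = (n : ℤ) ∧ ∑ i, mk (x i) ∈ A} =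
      ↑((Finset.range 4096).biUnion fun k => FE mk n A (supp k) ∪ FO mk n A (supp k)) := by
    ext x
    simp only [Set.mem_ofPred_eq, Finset.coe_biUnion, Finset.mem_coe, Finset.mem_range,
      Set.mem_iUnion, Finset.coe_union, Set.mem_union, exists_prop]
    constructor
    · rintro ⟨hL, hN, hM⟩
      have hbox : ∀ i, -8 ≤ x i ∧ x i ≤ 8 := box_of_norm x n hn hN
      rw [mem_leechLattice_iff, leechSet_iff] at hL
      rcases hL with ⟨c, hc, hp, hs⟩ | ⟨c, hc, hp, hs⟩
      · obtain ⟨k, hk, rfl⟩ := (mem_supports_iff c).mp hc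
        exact ⟨k, hk, Or.inl ((mem_FE mk hmk n A hA _ hc x).mpr ⟨hbox, hp, hs, hN, hM⟩)⟩
      · obtain ⟨k, hk, rfl⟩ := (mem_supports_iff c).mp hc
        exact ⟨k, hk, Or.inr ((mem_FO mk hmk n A hA _ hc x).mpr ⟨hbox, hp, hs, hN, hM⟩)⟩
    · rintro ⟨k, hk, h | h⟩
      · have hc : supp k ∈ Cset := (mem_supports_iff _).mpr ⟨k, hk, rfl⟩
        obtain ⟨hbox, hp, hs, hN, hM⟩ := (mem_FE mk hmk n A hA _ hc x).mp h
        exact ⟨(mem_leechLattice_iff x).mpr ((leechSet_iff x).mpr (Or.inl ⟨_, hc, hp, hs⟩)),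
          hN, hM⟩
      · have hc : supp k ∈ Cset := (mem_supports_iff _).mpr ⟨k, hk, rfl⟩
        obtain ⟨hbox, hp, hs, hN, hM⟩ := (mem_FO mk hmk n A hA _ hc x).mp h
        exact ⟨(mem_leechLattice_iff x).mpr ((leechSet_iff x).mpr (Or.inr ⟨_, hc, hp, hs⟩)),
          hN, hM⟩
  rw [hset, Set.ncard_coe_finset, Finset.card_biUnion]
  · refine Finset.sum_congr rfl fun k hk => ?_
    have hd : Disjoint (FE mk n A (supp k)) (FO mk n A (supp k)) := by
      rw [Finset.disjoint_left]
      intro x hx hx'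
      exact pat_EO _ _ x (pat_FE mk n A _ x hx) (pat_FO mk n A _ x hx')
    rw [Finset.card_union_of_disjoint hd, card_FE, card_FO, card_supp]
  · intro k hk k' hk' hkk'
    rw [Finset.mem_coe, Finset.mem_range] at hk hk'
    show Disjoint (FE mk n A (supp k) ∪ FO mk n A (supp k))
      (FE mk n A (supp k') ∪ FO mk n A (supp k'))
    rw [Finset.disjoint_left]
    intro x hx hx'
    rw [Finset.mem_union] at hx hx'
    rcases hx with hx | hx <;> rcases hx' with hx' | hx'
    · exact hkk' (supp_injOn k hk k' hk'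
        (pat_inj_E _ _ x (pat_FE mk n A _ x hx) (pat_FE mk n A _ x hx')))
    · exact pat_EO _ _ x (pat_FE mk n A _ x hx) (pat_FO mk n A _ x hx')
    · exact pat_EO _ _ x (pat_FE mk n A _ x hx') (pat_FO mk n A _ x hx)
    · exact hkk' (supp_injOn k hk k' hk'
        (pat_inj_O _ _ x (pat_FO mk n A _ x hx) (pat_FO mk n A _ x hx')))


/-! ### Evaluation -/

theorem count_w0 : ((Finset.range 4096).filter (fun k => pc (cw k) = 0)).card = 1 := by
  decide +kernel

theorem count_w16 : ((Finset.range 4096).filter (fun k => pc (cw k) = 16)).card = 759 := by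
  decide +kernel

theorem count_w24 : ((Finset.range 4096).filter (fun k => pc (cw k) = 24)).card = 1 := by
  decide +kernel

theorem sum_weights (G : ℕ → ℕ) :
    ∑ k ∈ Finset.range 4096, G (pc (cw k)) =
      G 0 + 759 * G 8 + 2576 * G 12 + 759 * G 16 + G 24 := by
  have hw : ∀ k ∈ Finset.range 4096, pc (cw k) ∈ ({0, 8, 12, 16, 24} : Finset ℕ) := by
    intro k hk
    have h := check_weights
    rw [List.all_eq_true] at h
    have h2 := h k (by simpa using hk)
    rw [wtOK_iff] at h2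
    simp only [Finset.mem_insert, Finset.mem_singleton]
    exact h2
  rw [← Finset.sum_fiberwise_of_maps_to hw]
  have hin : ∀ y : ℕ, ∑ k ∈ Finset.range 4096 with pc (cw k) = y, G (pc (cw k)) =
      ((Finset.range 4096).filter (fun k => pc (cw k) = y)).card * G y := by
    intro y
    rw [← smul_eq_mul, ← Finset.sum_const]
    refine Finset.sum_congr rfl fun k hk => ?_
    rw [(Finset.mem_filter.mp hk).2]
  simp only [hin]
  rw [Finset.sum_insert (by decide), Finset.sum_insert (by decide), Finset.sum_insert (by decide),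
    Finset.sum_insert (by decide), Finset.sum_singleton, count_w0, count_weight_eight,
    count_weight_twelve, count_w16, count_w24]
  ring

/-- Kronecker value of a local polynomial at `2 ^ 56`. -/
def kv (mk : ℤ → ℕ) (S : Finset ℤ) : ℕ := ∑ v ∈ S, (2 ^ 56) ^ W mk v

/-- Sum of the base-`2 ^ 56` digits at the positions of `K`. -/
def dig (mk : ℤ → ℕ) (S T : Finset ℤ) (K : Finset ℕ) (w : ℕ) : ℕ :=
  ∑ e ∈ K, ((kv mk S ^ w * kv mk T ^ (24 - w)) >>> (56 * e)) % 2 ^ 56

theorem coeff_dig (mk : ℤ → ℕ) (S T : Finset ℤ) (hS : S.card ≤ 5) (hT : T.card ≤ 5)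
    (K : Finset ℕ) (w : ℕ) (hw : w ≤ 24) :
    ∑ e ∈ K, (lp mk S ^ w * lp mk T ^ (24 - w)).coeff e = dig mk S T K w := by
  unfold dig
  refine Finset.sum_congr rfl fun e _ => ?_
  have hlt : (lp mk S ^ w * lp mk T ^ (24 - w)).eval 1 < 2 ^ 56 := by
    have h1 : (lp mk S ^ w * lp mk T ^ (24 - w)).eval 1 = S.card ^ w * T.card ^ (24 - w) := by
      simp [lp, Polynomial.eval_finsetSum]
    rw [h1]
    calc S.card ^ w * T.card ^ (24 - w) ≤ 5 ^ w * 5 ^ (24 - w) :=
          Nat.mul_le_mul (Nat.pow_le_pow_left hS w) (Nat.pow_le_pow_left hT _)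
      _ = 5 ^ 24 := by rw [← pow_add]; congr 1; omega
      _ < 2 ^ 56 := by norm_num
  rw [coeff_eq_digit (2 ^ 56) e _ hlt, Nat.shiftRight_eq_div_pow, pow_mul]
  simp [lp, kv, Polynomial.eval_finsetSum]

/-- The contribution of a codeword of weight `w`. -/
def gw (mk : ℤ → ℕ) (n : ℕ) (A : Finset ℕ) (w : ℕ) : ℕ :=
  dig mk b2 b0 (KE n A) w + dig mk b1 b3 (KO n A) w

/-- **The counting theorem, in computable form.** -/
theorem count_eval (mk : ℤ → ℕ) (hmk : ∀ v, mk v ≤ 1) (n : ℕ) (hn : n ≤ 64) (A : Finset ℕ)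
    (hA : ∀ a ∈ A, a ≤ 24) :
    {x : GolayPt → ℤ | x ∈ leechLattice ∧ sqNorm x = (n : ℤ) ∧ ∑ i, mk (x i) ∈ A}.ncard =
      gw mk n A 0 + 759 * gw mk n A 8 + 2576 * gw mk n A 12 + 759 * gw mk n A 16 +
        gw mk n A 24 := by
  rw [count_main mk hmk n hn A hA, ← sum_weights (gw mk n A)]
  refine Finset.sum_congr rfl fun k _ => ?_
  have hw : pc (cw k) ≤ 24 := by
    rw [← card_supp, ← card_pt]
    exact Finset.card_le_univ _
  unfold gw
  rw [coeff_dig mk b2 b0 (by decide) (by decide) _ _ hw,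
    coeff_dig mk b1 b3 (by decide) (by decide) _ _ hw]

end Cfsg.Agent.Lib.Helper11.LeechGF
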