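import Mathlib
import Cfsg.Prelude.Def_SporadicCombinatorics
import Cfsg.Agent.Lib.Helper3.Leech3
import Cfsg.Agent.Lib.Helper3.Leech4
import Cfsg.Agent.Lib.Helper3.M24Order
import Cfsg.Agent.Lib.Helper11.Co0Mono
import Cfsg.Agent.Lib.Helper11.LeechGF

set_option autoImplicit false

namespace Cfsg.Agent.Lib.Helper11.Co0Mono

open Cfsg Cfsg.Agent.Lib.Helper3.Golay Cfsg.Agent.Lib.Helper3.Golay2
open Cfsg.Agent.Lib.Helper3.Leech Cfsg.Agent.Lib.Helper3.Leech2
open Cfsg.Agent.Lib.Helper3.GolayM24 Cfsg.Agent.Lib.Helper3.Leech3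

/-! ### Monomial elements -/

/-- The monomial element with permutation part `σ` and sign set `c`. -/
def monoP (σ : Equiv.Perm GolayPt) (hσ : σ ∈ M24) (c : Finset GolayPt) (hc : c ∈ Cset) :
    Equiv.Perm ↥leechLattice := sgnP c hc * prmP σ hσ

theorem monoP_mem (σ : Equiv.Perm GolayPt) (hσ : σ ∈ M24) (c : Finset GolayPt) (hc : c ∈ Cset) :
    monoP σ hσ c hc ∈ Co0 := Co0.mul_mem (sgnP_mem c hc) (prmP_mem σ hσ)

theorem monoP_apply (σ : Equiv.Perm GolayPt) (hσ : σ ∈ M24) (c : Finset GolayPt) (hc : c ∈ Cset)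
    (v : ↥leechLattice) :
    ((monoP σ hσ c hc v : ↥leechLattice) : GolayPt → ℤ) = signedPerm σ c v := rfl

theorem signedPerm_single (σ : Equiv.Perm GolayPt) (c : Finset GolayPt) (i : GolayPt) (s : ℤ) :
    signedPerm σ c (Pi.single i s) = Pi.single (σ i) (if σ i ∈ c then -s else s) := by
  funext j
  unfold signedPerm
  rw [Pi.single_apply, Pi.single_apply]
  by_cases hj : j = σ i
  · subst hj
    simp
  · have : σ.symm j ≠ i := by
      intro h
      apply hj
      rw [← h]; simp
    simp [hj, this]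

theorem monoP_std (σ : Equiv.Perm GolayPt) (hσ : σ ∈ M24) (c : Finset GolayPt) (hc : c ∈ Cset)
    (v : ↥leechLattice) (hv : (v : GolayPt → ℤ) ∈ stdCross) :
    ((monoP σ hσ c hc v : ↥leechLattice) : GolayPt → ℤ) ∈ stdCross := by
  obtain ⟨i, s, hs, hvs⟩ := hv
  rw [monoP_apply, hvs, signedPerm_single]
  refine ⟨σ i, _, ?_, rfl⟩
  split_ifs <;> rcases hs with h | h <;> rw [h] <;> simp

theorem E_inj {i i' : GolayPt} (h : E i = E i') : i = i' := by
  have h1 := congrFun (congrArg Subtype.val h) i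
  rw [E_apply, E_apply, if_pos rfl] at h1
  by_contra hne
  rw [if_neg hne] at h1
  omega

theorem E_ne_neg (i i' : GolayPt) : E i ≠ -E i' := by
  intro h
  have h1 := congrFun (congrArg Subtype.val h) i
  rw [AddSubgroup.coe_neg, Pi.neg_apply, E_apply, E_apply, if_pos rfl] at h1
  split_ifs at h1 <;> omega

/-- The vector `2` on a codeword support. -/
theorem two_mem {b : Finset GolayPt} (hb : b ∈ Cset) :
    (fun i => if i ∈ b then (2 : ℤ) else 0) ∈ leechLattice := by
  rw [mem_leechLattice_iff, Cfsg.Agent.Lib.Helper11.LeechGF.leechSet_iff]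
  left
  refine ⟨b, hb, fun i => ?_, ?_⟩
  · split_ifs <;> rfl
  · rw [Finset.sum_ite_mem, Finset.univ_inter, Finset.sum_const]
    obtain ⟨q, hq⟩ := four_dvd_card hb
    rw [hq]
    simp only [smul_eq_mul, nsmul_eq_mul]
    push_cast
    omega

/-- An automorphism preserving the standard cross is monomial. -/
theorem cross_stab (Z : Equiv.Perm ↥leechLattice) (hZ : Z ∈ Co0)
    (hstd : ∀ v : ↥leechLattice, (v : GolayPt → ℤ) ∈ stdCross →
      ((Z v : ↥leechLattice) : GolayPt → ℤ) ∈ stdCross) :
    ∃ σ ∈ M24, ∃ c ∈ Cset, ∀ v : ↥leechLattice,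
      ((Z v : ↥leechLattice) : GolayPt → ℤ) = signedPerm σ c v := by
  classical
  have hadd := hZ.1
  have hE : ∀ i, ∃ j s, (s = 8 ∨ s = -8) ∧
      ((Z (E i) : ↥leechLattice) : GolayPt → ℤ) = Pi.single j s :=
    fun i => hstd (E i) ⟨i, 8, Or.inl rfl, rfl⟩
  choose π s hs hπ using hE
  have hinj : Function.Injective π := by
    intro i i' h
    rcases hs i with h1 | h1 <;> rcases hs i' with h2 | h2
    · apply E_inj
      apply Z.injective
      apply Subtype.ext
      rw [hπ i, hπ i', h, h1, h2]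
    · exfalso
      apply E_ne_neg i i'
      apply Z.injective
      rw [perm_neg Z hadd]
      apply Subtype.ext
      rw [AddSubgroup.coe_neg, hπ i, hπ i', h, h1, h2, ← Pi.single_neg, neg_neg]
    · exfalso
      apply E_ne_neg i i'
      apply Z.injective
      rw [perm_neg Z hadd]
      apply Subtype.ext
      rw [AddSubgroup.coe_neg, hπ i, hπ i', h, h1, h2, ← Pi.single_neg]
    · apply E_inj
      apply Z.injective
      apply Subtype.ext
      rw [hπ i, hπ i', h, h1, h2]
  let σ : Equiv.Perm GolayPt := Equiv.ofBijective π (Finite.injective_iff_bijective.mp hinj)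
  have hσ : ∀ i, σ i = π i := fun i => rfl
  let c : Finset GolayPt := Finset.univ.filter fun j => s (σ.symm j) = -8
  have hform : ∀ v : ↥leechLattice,
      ((Z v : ↥leechLattice) : GolayPt → ℤ) = signedPerm σ c v := by
    intro v
    have hz : Z ((8 : ℤ) • v) = (8 : ℤ) • Z v := by
      rw [← toHom_apply Z hadd, map_zsmul, toHom_apply]
    have hz2 : ((Z ((8 : ℤ) • v) : ↥leechLattice) : GolayPt → ℤ) =
        ∑ i, (v : GolayPt → ℤ) i • (Pi.single (π i) (s i) : GolayPt → ℤ) := by
      rw [eight_smul v, ← toHom_apply Z hadd, map_sum, ← AddSubgroup.coe_subtype, map_sum]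
      refine Finset.sum_congr rfl fun i _ => ?_
      rw [map_zsmul, toHom_apply, map_zsmul, AddSubgroup.coe_subtype, hπ i]
    rw [hz] at hz2
    funext j
    have h := congrFun hz2 j
    rw [AddSubgroup.coe_zsmul, Pi.smul_apply, Finset.sum_apply,
      Finset.sum_eq_single (σ.symm j)] at h
    · have hj : π (σ.symm j) = j := by rw [← hσ]; simp
      rw [Pi.smul_apply, hj, Pi.single_eq_same] at h
      simp only [smul_eq_mul] at h
      unfold signedPerm
      by_cases hc : j ∈ c
      · rw [if_pos hc]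
        have : s (σ.symm j) = -8 := (Finset.mem_filter.mp hc).2
        rw [this] at h
        omega
      · rw [if_neg hc]
        have : s (σ.symm j) = 8 := by
          rcases hs (σ.symm j) with h8 | h8
          · exact h8
          · have hmem : j ∈ c := Finset.mem_filter.mpr ⟨Finset.mem_univ j, h8⟩
            exact absurd hmem hc
        rw [this] at h
        omega
    · intro i _ hi
      have : j ≠ π i := by
        intro hji
        apply hi
        rw [hji, ← hσ]; simp
      rw [Pi.smul_apply, Pi.single_apply, if_neg this, smul_zero]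
    · intro h; exact absurd (Finset.mem_univ _) h
  have hσM : σ ∈ M24 := by
    apply mem_M24_of_comp
    intro w hw
    have hb : support₂ w ∈ Cset := ⟨w, hw, rfl⟩
    have hmem := (Z ⟨_, two_mem hb⟩).2
    rw [hform, mem_leechLattice_iff, mem_leechSet_iff] at hmem
    obtain ⟨m, -, -, h3⟩ := hmem
    obtain ⟨w', hw', h2⟩ := h3 2
    have : support₂ (w ∘ σ.symm) = support₂ w' := by
      rw [h2]
      ext j
      rw [mem_lev]
      unfold signedPerm
      simp only [support₂, Finset.mem_filter, Finset.mem_univ, true_and, Function.comp_apply,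
        Int.ModEq]
      split_ifs <;> simp_all
    rw [support_injective this]
    exact hw'
  have hcC : c ∈ Cset := by
    have hmem := (Z ⟨u0, u0_mem⟩).2
    rw [hform, mem_leechLattice_iff, mem_leechSet_iff] at hmem
    obtain ⟨m, -, -, h3⟩ := hmem
    have h33 := h3 3
    have : lev (signedPerm σ c u0) 3 = c := by
      ext j
      rw [mem_lev]
      unfold signedPerm
      have hu := u0_mod4 (σ.symm j)
      unfold Int.ModEq
      by_cases hj : j ∈ c
      · simp only [hj, if_true, iff_true]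
        omega
      · simp only [hj, if_false, iff_false]
        omega
    rw [this] at h33
    exact h33
  exact ⟨σ, hσM, c, hcC, hform⟩


/-! ### The order of the stabiliser of the standard cross -/

/-- Parametrisation of the stabiliser of the standard cross by the monomial group. -/
def Phi (p : ↥M24 × ↥(Cset : Set (Finset GolayPt))) :
    {g : ↥Co0 // ∀ v : ↥leechLattice, (v : GolayPt → ℤ) ∈ stdCross →
      ((g • v : ↥leechLattice) : GolayPt → ℤ) ∈ stdCross} :=
  ⟨⟨monoP p.1.1 p.1.2 p.2.1 p.2.2, monoP_mem p.1.1 p.1.2 p.2.1 p.2.2⟩,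
    fun v hv => monoP_std p.1.1 p.1.2 p.2.1 p.2.2 v hv⟩

theorem Phi_inj : Function.Injective Phi := by
  rintro ⟨⟨σ, hσ⟩, ⟨c, hc⟩⟩ ⟨⟨σ', hσ'⟩, ⟨c', hc'⟩⟩ h
  have h1 : monoP σ hσ c hc = monoP σ' hσ' c' hc' :=
    congrArg (fun x => (x.1.1 : Equiv.Perm ↥leechLattice)) h
  have h2 : ∀ v : ↥leechLattice, signedPerm σ c v = signedPerm σ' c' v := by
    intro v
    rw [← monoP_apply σ hσ c hc, ← monoP_apply σ' hσ' c' hc', h1]
  have hσσ : σ = σ' := by
    apply Equiv.ext
    intro i
    have h3 := congrFun (h2 (E i)) (σ i)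
    rw [show ((E i : ↥leechLattice) : GolayPt → ℤ) = Pi.single i 8 from rfl,
      signedPerm_single, signedPerm_single, Pi.single_eq_same, Pi.single_apply] at h3
    by_contra hne
    rw [if_neg hne] at h3
    split_ifs at h3 <;> omega
  subst hσσ
  have hcc : c = c' := by
    ext j
    have h3 := congrFun (h2 (E (σ.symm j))) j
    rw [show ((E (σ.symm j) : ↥leechLattice) : GolayPt → ℤ) = Pi.single (σ.symm j) 8 from rfl,
      signedPerm_single, signedPerm_single] at h3
    simp only [Equiv.apply_symm_apply, Pi.single_eq_same] at h3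
    by_cases ha : j ∈ c <;> by_cases hb : j ∈ c' <;> simp [ha, hb] at h3 ⊢
  subst hcc
  rfl

theorem Phi_surj : Function.Surjective Phi := by
  rintro ⟨g, hg⟩
  obtain ⟨σ, hσ, c, hc, hform⟩ := cross_stab g.1 g.2 hg
  refine ⟨(⟨σ, hσ⟩, ⟨c, hc⟩), ?_⟩
  apply Subtype.ext
  apply Subtype.ext
  ext v : 1
  apply Subtype.ext
  show ((monoP σ hσ c hc v : ↥leechLattice) : GolayPt → ℤ) = _
  rw [monoP_apply]
  exact (hform v).symm

theorem stab_card :
    Nat.card {g : ↥Co0 // ∀ v : ↥leechLattice, (v : GolayPt → ℤ) ∈ stdCross →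
      ((g • v : ↥leechLattice) : GolayPt → ℤ) ∈ stdCross} = 4096 * 244823040 := by
  rw [← Nat.card_congr (Equiv.ofBijective Phi ⟨Phi_inj, Phi_surj⟩), Nat.card_prod,
    Cfsg.Agent.Lib.Helper3.M24Order.card_M24, Nat.card_coe_set_eq,
    Cfsg.Agent.Lib.Helper3.Leech4.ncard_Cset]

end Cfsg.Agent.Lib.Helper11.Co0Mono
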