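import Mathlib

set_option autoImplicit false

namespace Cfsg.Agent.Lib.Helper11.GL23

variable {X : Type*}

/-- `g` acts on the image of `η` as the linear map `A` -/
def LinAs (η : (Fin 2 → ZMod 3) → X) (g : Equiv.Perm X) (A : GL (Fin 2) (ZMod 3)) : Prop :=
  ∀ v, g (η v) = η ((A : Matrix (Fin 2) (Fin 2) (ZMod 3)).mulVec v)

theorem linAs_unique {η : (Fin 2 → ZMod 3) → X} (hη : Function.Injective η) {g : Equiv.Perm X}
    {A A' : GL (Fin 2) (ZMod 3)} (h : LinAs η g A) (h' : LinAs η g A') : A = A' := by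
  apply Units.ext
  apply Matrix.toLin'.injective
  apply LinearMap.ext
  intro v
  have := hη ((h v).symm.trans (h' v))
  simpa [Matrix.toLin'_apply] using this

theorem linAs_one (η : (Fin 2 → ZMod 3) → X) : LinAs η 1 1 := fun v => by simp

theorem linAs_mul {η : (Fin 2 → ZMod 3) → X} {g g' : Equiv.Perm X} {A A' : GL (Fin 2) (ZMod 3)}
    (h : LinAs η g A) (h' : LinAs η g' A') : LinAs η (g * g') (A * A') := fun v => by
  rw [Equiv.Perm.mul_apply, h', h, Units.val_mul, ← Matrix.mulVec_mulVec]

theorem linAs_inv {η : (Fin 2 → ZMod 3) → X} {g : Equiv.Perm X} {A : GL (Fin 2) (ZMod 3)}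
    (h : LinAs η g A) : LinAs η g⁻¹ A⁻¹ := fun v => by
  rw [Equiv.Perm.inv_eq_iff_eq, h, Matrix.mulVec_mulVec, ← Units.val_mul, mul_inv_cancel,
    Units.val_one, Matrix.one_mulVec]

/-- the permutations acting linearly on the image of `η` -/
def Lin (η : (Fin 2 → ZMod 3) → X) : Subgroup (Equiv.Perm X) where
  carrier := {g | ∃ A, LinAs η g A}
  mul_mem' := fun ⟨A, h⟩ ⟨A', h'⟩ => ⟨A * A', linAs_mul h h'⟩
  one_mem' := ⟨1, linAs_one η⟩
  inv_mem' := fun ⟨A, h⟩ => ⟨A⁻¹, linAs_inv h⟩

theorem card_GL23 : Nat.card (GL (Fin 2) (ZMod 3)) = 48 := by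
  rw [Matrix.card_GL_field, Fin.prod_univ_two, ZMod.card]
  norm_num

/-- a group of order 48 of permutations acting linearly and faithfully on the image of an
injective map from the plane over the field with three elements is `GL(2,3)` -/
theorem gl23_iso (η : (Fin 2 → ZMod 3) → X) (hη : Function.Injective η)
    (K : Subgroup (Equiv.Perm X)) (hK : K ≤ Lin η)
    (hf : ∀ g ∈ K, (∀ v, g (η v) = η v) → g = 1) (hc : Nat.card K = 48) :
    Nonempty (K ≃* GL (Fin 2) (ZMod 3)) := by
  let f : K →* GL (Fin 2) (ZMod 3) :=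
    { toFun := fun g => Classical.choose (hK g.2)
      map_one' := linAs_unique hη (Classical.choose_spec (hK (1 : K).2)) (linAs_one η)
      map_mul' := fun g h => linAs_unique hη (Classical.choose_spec (hK (g * h).2))
        (linAs_mul (Classical.choose_spec (hK g.2)) (Classical.choose_spec (hK h.2))) }
  have hspec : ∀ g : K, LinAs η g.1 (f g) := fun g => Classical.choose_spec (hK g.2)
  have hinj : Function.Injective f := by
    rw [injective_iff_map_eq_one]
    intro g hg
    apply Subtype.ext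
    apply hf g.1 g.2
    intro v
    have := hspec g v
    rw [hg] at this
    simpa using this
  have hbij : Function.Bijective f := hinj.bijective_of_nat_card_le (by rw [card_GL23, hc])
  exact ⟨MulEquiv.ofBijective f hbij⟩

/-- transport of a subgroup of a subgroup of a subgroup along conjugation -/
theorem conj_iso2 {G : Type*} [Group G] (M : Subgroup G) (N : Subgroup ↥M) (K : Subgroup ↥N)
    (K0 : Subgroup G) (τ : G)
    (h1 : ∀ k : ↥N, k ∈ K → τ⁻¹ * ((k : ↥M) : G) * τ ∈ K0)
    (h2 : ∀ y ∈ K0, ∃ k : ↥N, k ∈ K ∧ ((k : ↥M) : G) = τ * y * τ⁻¹) : Nonempty (↥K ≃* ↥K0) := by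
  let φ : ↥N →* G := M.subtype.comp N.subtype
  have hφ : Function.Injective φ :=
    (Subgroup.subtype_injective M).comp (Subgroup.subtype_injective N)
  have e : K.map φ = K0.map (MulAut.conj τ).toMonoidHom := by
    ext y
    rw [Subgroup.mem_map_equiv, MulAut.conj_symm_apply]
    constructor
    · rintro ⟨k, hk, rfl⟩
      exact h1 k hk
    · intro hy
      obtain ⟨k, hk, e⟩ := h2 _ hy
      refine ⟨k, hk, ?_⟩
      show ((k : ↥M) : G) = y
      rw [e]
      group
  exact ⟨(K.equivMapOfInjective φ hφ).trans ((MulEquiv.subgroupCongr e).trans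
    ((MulAut.conj τ).subgroupMap K0).symm)⟩

end Cfsg.Agent.Lib.Helper11.GL23
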