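import Mathlib

set_option autoImplicit false

namespace Cfsg.Agent.Lib.Helper11.PrimSimple

open MulAction

/-- A group of order twice an odd number is not perfect. -/
theorem commutator_ne_top {K : Type*} [Group K] [Finite K] (m : ℕ) (hm : Odd m)
    (hK : Nat.card K = 2 * m) : commutator K ≠ ⊤ := by
  classical
  have : Fintype K := Fintype.ofFinite K
  have : Fact (Nat.Prime 2) := ⟨Nat.prime_two⟩
  obtain ⟨t, ht⟩ := exists_prime_orderOf_dvd_card' (G := K) 2 (by rw [hK]; exact dvd_mul_right 2 m)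
  have ht1 : t ≠ 1 := by
    rintro rfl
    rw [orderOf_one] at ht
    norm_num at ht
  let f : K →* ℤˣ := Equiv.Perm.sign.comp (MulAction.toPermHom K K)
  have hσ2 : orderOf (MulAction.toPermHom K K t) = 2 := by
    rw [orderOf_injective (MulAction.toPermHom K K) MulAction.toPerm_injective t, ht]
  have hsupp : (MulAction.toPermHom K K t).support = Finset.univ := by
    ext k
    simp only [Equiv.Perm.mem_support, Finset.mem_univ, iff_true]
    show t * k ≠ k
    intro h
    exact ht1 (mul_eq_right.mp h)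
  obtain ⟨n, hn⟩ := Equiv.Perm.cycleType_prime_order (σ := MulAction.toPermHom K K t)
    (by rw [hσ2]; exact Nat.prime_two)
  rw [hσ2] at hn
  have hsum := Equiv.Perm.sum_cycleType (MulAction.toPermHom K K t)
  rw [hn, hsupp, Multiset.sum_replicate, Finset.card_univ, ← Nat.card_eq_fintype_card, hK,
    smul_eq_mul] at hsum
  have hnm : n + 1 = m := by omega
  have hsign : f t = -1 := by
    show Equiv.Perm.sign (MulAction.toPermHom K K t) = -1
    rw [Equiv.Perm.sign_of_cycleType, hn, Multiset.sum_replicate, Multiset.card_replicate,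
      smul_eq_mul, hnm]
    apply Odd.neg_one_pow
    obtain ⟨k, rfl⟩ := hm
    exact ⟨3 * k + 1, by ring⟩
  intro htop
  have hle : commutator K ≤ f.ker := Abelianization.commutator_subset_ker f
  have : t ∈ f.ker := hle (by rw [htop]; exact Subgroup.mem_top t)
  rw [MonoidHom.mem_ker, hsign] at this
  exact absurd this (by decide)

variable {G α : Type*} [Group G] [MulAction G α]

/-- A nontrivial normal subgroup is transitive on the orbit of `x`, provided that the point
stabiliser is simple, moves some point, and that the only sets containing `x`, contained in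
the orbit, invariant under the stabiliser and of cardinality dividing the order of the group
are `{x}` and the orbit. -/
theorem normal_trans [Finite G] (x : α)
    (hH : IsSimpleGroup ↥(stabilizer G x))
    (hB : ∀ B : Set α, x ∈ B → B ⊆ orbit G x →
      (∀ h ∈ stabilizer G x, ∀ b ∈ B, h • b ∈ B) → B.ncard ∣ Nat.card G →
      B = {x} ∨ B = orbit G x)
    (hmove : ∃ h ∈ stabilizer G x, ∃ g : G, h • (g • x) ≠ g • x)
    (N : Subgroup G) (hNn : N.Normal) (hN : N ≠ ⊥) :
    ∀ y ∈ orbit G x, ∃ n ∈ N, n • x = y := by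
  have hBx : x ∈ {y : α | ∃ n ∈ N, n • x = y} := ⟨1, N.one_mem, one_smul G x⟩
  have hBsub : {y : α | ∃ n ∈ N, n • x = y} ⊆ orbit G x := by
    rintro y ⟨n, -, rfl⟩
    exact ⟨n, rfl⟩
  have hBinv : ∀ h ∈ stabilizer G x, ∀ b ∈ {y : α | ∃ n ∈ N, n • x = y},
      h • b ∈ {y : α | ∃ n ∈ N, n • x = y} := by
    rintro h hh b ⟨n, hn, rfl⟩
    refine ⟨h * n * h⁻¹, hNn.conj_mem n hn h, ?_⟩
    have hx : h⁻¹ • x = x := by
      rw [inv_smul_eq_iff]
      exact (mem_stabilizer_iff.mp hh).symm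
    rw [mul_smul, mul_smul, hx]
  have hBeq : {y : α | ∃ n ∈ N, n • x = y} = orbit ↥N x := by
    ext y
    constructor
    · rintro ⟨n, hn, rfl⟩
      exact ⟨⟨n, hn⟩, rfl⟩
    · rintro ⟨n, rfl⟩
      exact ⟨n.1, n.2, rfl⟩
  have hBcard : ({y : α | ∃ n ∈ N, n • x = y}).ncard ∣ Nat.card G := by
    rw [hBeq, ← MulAction.index_stabilizer]
    exact (Subgroup.index_dvd_card _).trans (Subgroup.card_subgroup_dvd_card N)
  rcases hB _ hBx hBsub hBinv hBcard with h1 | h2
  · exfalso
    have hfix : ∀ n ∈ N, n • x = x := by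
      intro n hn
      have : n • x ∈ {y : α | ∃ n ∈ N, n • x = y} := ⟨n, hn, rfl⟩
      rw [h1] at this
      exact this
    have hNle : N ≤ stabilizer G x := fun n hn => mem_stabilizer_iff.mpr (hfix n hn)
    have hnorm : (N.subgroupOf (stabilizer G x)).Normal := hNn.subgroupOf _
    rcases hnorm.eq_bot_or_eq_top with hb | ht
    · rw [Subgroup.subgroupOf_eq_bot] at hb
      exact hN (le_bot_iff.mp (hb (le_refl N) hNle))
    · rw [Subgroup.subgroupOf_eq_top] at ht
      obtain ⟨h, hh, g, hg⟩ := hmove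
      apply hg
      have hn : g⁻¹ * h * g ∈ N := by
        have := hNn.conj_mem h (ht hh) g⁻¹
        rwa [inv_inv] at this
      have := hfix _ hn
      rw [mul_smul, mul_smul, inv_smul_eq_iff] at this
      exact this
  · intro y hy
    rw [← h2] at hy
    exact hy

theorem eq_top_of_inter [Finite G] (x : α)
    (hH : IsSimpleGroup ↥(stabilizer G x))
    (hB : ∀ B : Set α, x ∈ B → B ⊆ orbit G x →
      (∀ h ∈ stabilizer G x, ∀ b ∈ B, h • b ∈ B) → B.ncard ∣ Nat.card G →
      B = {x} ∨ B = orbit G x)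
    (hmove : ∃ h ∈ stabilizer G x, ∃ g : G, h • (g • x) ≠ g • x)
    (N : Subgroup G) (hNn : N.Normal) (hNH : N ⊓ stabilizer G x ≠ ⊥) : N = ⊤ := by
  have hN : N ≠ ⊥ := by
    rintro rfl
    exact hNH (bot_inf_eq _)
  have htr := normal_trans x hH hB hmove N hNn hN
  have hnorm : (N.subgroupOf (stabilizer G x)).Normal := hNn.subgroupOf _
  have hle : stabilizer G x ≤ N := by
    rcases hnorm.eq_bot_or_eq_top with hb | ht
    · rw [Subgroup.subgroupOf_eq_bot] at hb
      exact absurd hb.eq_bot hNH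
    · exact Subgroup.subgroupOf_eq_top.mp ht
  rw [eq_top_iff]
  intro g _
  obtain ⟨n, hn, e⟩ := htr (g • x) ⟨g, rfl⟩
  have : n⁻¹ * g ∈ stabilizer G x := by
    rw [mem_stabilizer_iff, mul_smul, inv_smul_eq_iff]
    exact e.symm
  have h2 := N.mul_mem hn (hle this)
  rwa [mul_inv_cancel_left] at h2

theorem regular_false [Finite G] (x : α)
    (hH : IsSimpleGroup ↥(stabilizer G x))
    (hB : ∀ B : Set α, x ∈ B → B ⊆ orbit G x →
      (∀ h ∈ stabilizer G x, ∀ b ∈ B, h • b ∈ B) → B.ncard ∣ Nat.card G →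
      B = {x} ∨ B = orbit G x)
    (hmove : ∃ h ∈ stabilizer G x, ∃ g : G, h • (g • x) ≠ g • x)
    (N : Subgroup G) (hNn : N.Normal) (hN : N ≠ ⊥) (hNH : N ⊓ stabilizer G x = ⊥)
    (m : ℕ) (hm : Odd m) (hcard : (orbit G x).ncard = 2 * m)
    (p q : ℕ) (hp : p.Prime) (hq : q.Prime) (hpq : p ≠ q) (hpd : p ∣ 2 * m)
    (hqd : q ∣ 2 * m) : False := by
  have htr := normal_trans x hH hB hmove N hNn hN
  have hinj : ∀ n ∈ N, ∀ n' ∈ N, n • x = n' • x → n = n' := by
    intro n hn n' hn' e
    have h1 : n'⁻¹ * n ∈ N ⊓ stabilizer G x := by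
      refine Subgroup.mem_inf.mpr ⟨N.mul_mem (N.inv_mem hn') hn, mem_stabilizer_iff.mpr ?_⟩
      rw [mul_smul, inv_smul_eq_iff]
      exact e
    rw [hNH, Subgroup.mem_bot] at h1
    exact (inv_mul_eq_one.mp h1).symm
  -- the order of `N`
  have hNcard : Nat.card ↥N = 2 * m := by
    rw [← hcard, ← Nat.card_coe_set_eq]
    apply Nat.card_congr
    refine Equiv.ofBijective (fun n : ↥N => (⟨n.1 • x, ⟨n.1, rfl⟩⟩ : ↥(orbit G x))) ⟨?_, ?_⟩
    · intro a b hab
      apply Subtype.ext
      exact hinj a.1 a.2 b.1 b.2 (congrArg Subtype.val hab)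
    · rintro ⟨y, hy⟩
      obtain ⟨n, hn, e⟩ := htr y hy
      exact ⟨⟨n, hn⟩, Subtype.ext e⟩
  -- normal subgroups inside `N`
  have hmin : ∀ M : Subgroup G, M.Normal → M ≠ ⊥ → M ≤ N → N ≤ M := by
    intro M hMn hM hMN n hn
    obtain ⟨k, hk, e⟩ := normal_trans x hH hB hmove M hMn hM (n • x) ⟨n, rfl⟩
    rw [← hinj k (hMN hk) n hn e]
    exact hk
  have hcn : (⁅N, N⁆ : Subgroup G).Normal := Subgroup.commutator_normal N N
  have hcle : (⁅N, N⁆ : Subgroup G) ≤ N := Subgroup.commutator_le_right N N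
  by_cases hc : (⁅N, N⁆ : Subgroup G) = ⊥
  · -- `N` is abelian
    have hcomm : ∀ a ∈ N, ∀ b ∈ N, a * b = b * a := by
      intro a ha b hb
      have h1 := (Subgroup.commutator_eq_bot_iff_le_centralizer.mp hc) ha
      exact (Subgroup.mem_centralizer_iff.mp h1 b hb).symm
    let M : Subgroup G :=
      { carrier := {n | n ∈ N ∧ n ^ p = 1}
        mul_mem' := by
          rintro a b ⟨ha, ha'⟩ ⟨hb, hb'⟩
          refine ⟨N.mul_mem ha hb, ?_⟩
          rw [(show Commute a b from hcomm a ha b hb).mul_pow, ha', hb', one_mul]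
        one_mem' := ⟨N.one_mem, one_pow p⟩
        inv_mem' := by
          rintro a ⟨ha, ha'⟩
          exact ⟨N.inv_mem ha, by rw [inv_pow, ha', inv_one]⟩ }
    have hMn : M.Normal := by
      constructor
      rintro n ⟨hn, hn'⟩ g
      exact ⟨hNn.conj_mem n hn g, by rw [conj_pow, hn', mul_one, mul_inv_cancel]⟩
    have hMN : M ≤ N := fun n hn => hn.1
    have : Fact p.Prime := ⟨hp⟩
    have : Fact q.Prime := ⟨hq⟩
    obtain ⟨a, ha⟩ := exists_prime_orderOf_dvd_card' (G := ↥N) p (by rw [hNcard]; exact hpd)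
    obtain ⟨b, hb⟩ := exists_prime_orderOf_dvd_card' (G := ↥N) q (by rw [hNcard]; exact hqd)
    have hM : M ≠ ⊥ := by
      intro hbot
      have h1 : a.1 ∈ M := by
        refine ⟨a.2, ?_⟩
        have := pow_orderOf_eq_one a
        rw [ha] at this
        exact congrArg Subtype.val this
      rw [hbot, Subgroup.mem_bot] at h1
      have h2 : a = 1 := Subtype.ext h1
      rw [h2, orderOf_one] at ha
      exact hp.one_lt.ne ha
    have hb2 : b.1 ∈ M := hmin M hMn hM hMN b.2
    have hb3 : b ^ p = 1 := Subtype.ext hb2.2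
    have hdvd := orderOf_dvd_of_pow_eq_one hb3
    rw [hb] at hdvd
    exact hpq ((Nat.prime_dvd_prime_iff_eq hq hp).mp hdvd).symm
  · -- `N` is perfect
    have hperf : N ≤ (⁅N, N⁆ : Subgroup G) := hmin _ hcn hc hcle
    have hfin : Finite ↥N := inferInstance
    apply commutator_ne_top (K := ↥N) m hm hNcard
    rw [eq_top_iff]
    intro k _
    have h1 : k.1 ∈ (⁅N, N⁆ : Subgroup G) := hperf k.2
    rw [← Subgroup.map_subtype_commutator] at h1
    obtain ⟨k', hk', e⟩ := h1
    have : k' = k := Subtype.ext e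
    rw [← this]
    exact hk'

/-- **Simplicity from a primitive action with a simple point stabiliser.** -/
theorem simple_of_prim [Finite G] [Nontrivial G] (x : α)
    (hH : IsSimpleGroup ↥(stabilizer G x))
    (hB : ∀ B : Set α, x ∈ B → B ⊆ orbit G x →
      (∀ h ∈ stabilizer G x, ∀ b ∈ B, h • b ∈ B) → B.ncard ∣ Nat.card G →
      B = {x} ∨ B = orbit G x)
    (hmove : ∃ h ∈ stabilizer G x, ∃ g : G, h • (g • x) ≠ g • x)
    (m : ℕ) (hm : Odd m) (hcard : (orbit G x).ncard = 2 * m)
    (p q : ℕ) (hp : p.Prime) (hq : q.Prime) (hpq : p ≠ q) (hpd : p ∣ 2 * m)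
    (hqd : q ∣ 2 * m) : IsSimpleGroup G := by
  refine ⟨fun N hNn => ?_⟩
  by_cases hN : N = ⊥
  · exact Or.inl hN
  · right
    by_cases hNH : N ⊓ stabilizer G x = ⊥
    · exact (regular_false x hH hB hmove N hNn hN hNH m hm hcard p q hp hq hpq hpd hqd).elim
    · exact eq_top_of_inter x hH hB hmove N hNn hNH

end Cfsg.Agent.Lib.Helper11.PrimSimple
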