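import Mathlib
import Cfsg.Agent.Lib.Helper11.PrimSimple

set_option autoImplicit false

namespace Cfsg.Agent.Lib.Helper11.Rank4Simple

open MulAction Cfsg.Agent.Lib.Helper11.PrimSimple

/-- The number of solutions of `n ^ p = 1` in a subgroup of order divisible by the prime `p`
is divisible by `p`. -/
theorem frob_count {G : Type*} [Group G] [Finite G] (N : Subgroup G) (p : ℕ) (hp : p.Prime)
    (hdvd : p ∣ Nat.card ↥N) : p ∣ {n : G | n ∈ N ∧ n ^ p = 1}.ncard := by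
  classical
  have : Fintype G := Fintype.ofFinite G
  have : Fact p.Prime := ⟨hp⟩
  obtain ⟨c', hc'⟩ := exists_prime_orderOf_dvd_card' (G := ↥N) p hdvd
  obtain ⟨c, hcN⟩ := c'
  have hcp : c ^ p = 1 := by
    have := pow_orderOf_eq_one (⟨c, hcN⟩ : ↥N)
    rw [hc'] at this
    exact congrArg Subtype.val this
  have hc1 : c ≠ 1 := by
    rintro rfl
    have : (⟨1, hcN⟩ : ↥N) = 1 := rfl
    rw [this, orderOf_one] at hc'
    exact hp.one_lt.ne hc'
  -- the fixed point free map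
  obtain ⟨f, hf⟩ : ∃ f : G → G, ∀ n, f n = if Commute c n then c * n else c * n * c⁻¹ :=
    ⟨_, fun _ => rfl⟩
  have iter : ∀ (k : ℕ) (n : G),
      f^[k] n = if Commute c n then c ^ k * n else c ^ k * n * (c ^ k)⁻¹ := by
    intro k
    induction k with
    | zero => intro n; simp
    | succ k ih =>
      intro n
      rw [Function.iterate_succ_apply', ih, hf]
      have hk : Commute c (c ^ k) := (Commute.refl c).pow_right k
      by_cases h : Commute c n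
      · rw [if_pos h, if_pos h, if_pos (hk.mul_right h), pow_succ', mul_assoc]
      · rw [if_neg h, if_neg h]
        have h' : ¬ Commute c (c ^ k * n * (c ^ k)⁻¹) := by
          intro hc
          have h2 : Commute c ((c ^ k)⁻¹ * (c ^ k * n * (c ^ k)⁻¹) * c ^ k) :=
            (hk.inv_right.mul_right hc).mul_right hk
          have e : (c ^ k)⁻¹ * (c ^ k * n * (c ^ k)⁻¹) * c ^ k = n := by group
          rw [e] at h2
          exact h h2
        rw [if_neg h', pow_succ']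
        group
  have iterp : ∀ n : G, f^[p] n = n := by
    intro n
    rw [iter p n, hcp]
    simp
  have hp1 : (p - 1).succ = p := Nat.sub_add_cancel hp.one_lt.le
  let τ : Equiv.Perm G :=
    { toFun := f
      invFun := f^[p - 1]
      left_inv := fun n => by
        rw [← Function.iterate_succ_apply f (p - 1) n, hp1]
        exact iterp n
      right_inv := fun n => by
        rw [← Function.iterate_succ_apply' f (p - 1) n, hp1]
        exact iterp n }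
  have hτ : ∀ n : G, τ n = if Commute c n then c * n else c * n * c⁻¹ := fun n => hf n
  have hτp : τ ^ p = 1 := by
    apply Equiv.Perm.ext
    intro n
    rw [← Equiv.Perm.iterate_eq_pow]
    exact iterp n
  have hfix : ∀ n : G, τ n ≠ n := by
    intro n hn
    rw [hτ] at hn
    by_cases h : Commute c n
    · rw [if_pos h] at hn
      exact hc1 (mul_eq_right.mp hn)
    · rw [if_neg h] at hn
      apply h
      show c * n = n * c
      rw [mul_inv_eq_iff_eq_mul] at hn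
      exact hn
  have hS : ∀ n : G, (τ n ∈ N ∧ τ n ^ p = 1) ↔ (n ∈ N ∧ n ^ p = 1) := by
    intro n
    rw [hτ]
    by_cases h : Commute c n
    · rw [if_pos h, h.mul_pow, hcp, one_mul, N.mul_mem_cancel_left hcN]
    · rw [if_neg h, conj_pow, conj_eq_one_iff, N.mul_mem_cancel_right (N.inv_mem hcN),
        N.mul_mem_cancel_left hcN]
  have hσ : (τ.subtypePerm (p := fun n : G => n ∈ N ∧ n ^ p = 1) hS) ^ p ^ 1 = 1 := by
    rw [pow_one, Equiv.Perm.subtypePerm_pow]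
    apply Equiv.Perm.ext
    intro a
    apply Subtype.ext
    show (τ ^ p) a.1 = a.1
    rw [hτp]
    rfl
  by_contra hnd
  have hcard : {n : G | n ∈ N ∧ n ^ p = 1}.ncard = Fintype.card {n : G // n ∈ N ∧ n ^ p = 1} := by
    rw [← Nat.card_eq_fintype_card]
    exact (Nat.card_coe_set_eq _).symm
  rw [hcard] at hnd
  obtain ⟨a, ha⟩ := Equiv.Perm.exists_fixed_point_of_prime (p := p) (n := 1) hnd hσ
  exact hfix a.1 (congrArg Subtype.val ha)

theorem ncard_union4 {α : Type*} (S₀ S₁ S₂ S₃ : Set α) (f₀ : S₀.Finite) (f₁ : S₁.Finite)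
    (f₂ : S₂.Finite) (f₃ : S₃.Finite) (d01 : Disjoint S₀ S₁) (d02 : Disjoint S₀ S₂)
    (d03 : Disjoint S₀ S₃) (d12 : Disjoint S₁ S₂) (d13 : Disjoint S₁ S₃)
    (d23 : Disjoint S₂ S₃) :
    (S₀ ∪ S₁ ∪ S₂ ∪ S₃).ncard = S₀.ncard + S₁.ncard + S₂.ncard + S₃.ncard := by
  rw [Set.ncard_union_eq (Set.disjoint_union_left.mpr ⟨Set.disjoint_union_left.mpr ⟨d03, d13⟩, d23⟩)
      ((f₀.union f₁).union f₂) f₃,
    Set.ncard_union_eq (Set.disjoint_union_left.mpr ⟨d02, d12⟩) (f₀.union f₁) f₂,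
    Set.ncard_union_eq d01 f₀ f₁]

variable {G α : Type*} [Group G] [MulAction G α]

theorem orbit_stab_self (x : α) : orbit ↥(stabilizer G x) x = {x} := by
  ext z
  constructor
  · rintro ⟨h, rfl⟩
    exact mem_stabilizer_iff.mp h.2
  · rintro rfl
    exact mem_orbit_self _

/-- Invariant sets of a point stabiliser in a rank `4` action. -/
theorem rank4_blocks [Finite G] (x y₁ y₂ y₃ : α) (n₁ n₂ n₃ : ℕ)
    (hy₁ : y₁ ∈ orbit G x) (hy₂ : y₂ ∈ orbit G x) (hy₃ : y₃ ∈ orbit G x)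
    (h₁ : (orbit ↥(stabilizer G x) y₁).ncard = n₁)
    (h₂ : (orbit ↥(stabilizer G x) y₂).ncard = n₂)
    (h₃ : (orbit ↥(stabilizer G x) y₃).ncard = n₃)
    (hcard : (orbit G x).ncard = 1 + n₁ + n₂ + n₃)
    (h12 : n₁ ≠ n₂) (h13 : n₁ ≠ n₃) (h23 : n₂ ≠ n₃)
    (hn₁ : 1 < n₁) (hn₂ : 1 < n₂) (hn₃ : 1 < n₃)
    (B : Set α) (hxB : x ∈ B) (hBsub : B ⊆ orbit G x)
    (hinv : ∀ h ∈ stabilizer G x, ∀ b ∈ B, h • b ∈ B) :
    x ∉ orbit ↥(stabilizer G x) y₃ ∧
    ∃ a₁ a₂ a₃ : ℕ, B.ncard = 1 + a₁ + a₂ + a₃ ∧ (a₁ = 0 ∨ a₁ = n₁) ∧ (a₂ = 0 ∨ a₂ = n₂) ∧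
      (a₃ = 0 ∨ a₃ = n₃) ∧ (a₃ = n₃ → orbit ↥(stabilizer G x) y₃ ⊆ B) := by
  have fΩ : (orbit G x).Finite := Set.finite_range _
  have fO : ∀ y : α, (orbit ↥(stabilizer G x) y).Finite := fun y => Set.finite_range _
  have sub : ∀ y ∈ orbit G x, orbit ↥(stabilizer G x) y ⊆ orbit G x := by
    rintro y ⟨g, rfl⟩ z ⟨h, rfl⟩
    exact ⟨h.1 * g, mul_smul _ _ _⟩
  have notx : ∀ (y : α) (n : ℕ), (orbit ↥(stabilizer G x) y).ncard = n → 1 < n →
      x ∉ orbit ↥(stabilizer G x) y := by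
    intro y n hn h1 hx
    have := orbit_eq_iff.mpr hx
    rw [orbit_stab_self] at this
    rw [← this, Set.ncard_singleton] at hn
    omega
  have disj : ∀ (y y' : α) (n n' : ℕ), (orbit ↥(stabilizer G x) y).ncard = n →
      (orbit ↥(stabilizer G x) y').ncard = n' → n ≠ n' →
      Disjoint (orbit ↥(stabilizer G x) y) (orbit ↥(stabilizer G x) y') := by
    intro y y' n n' hn hn' hne
    rw [Set.disjoint_left]
    intro z hz hz'
    apply hne
    rw [← hn, ← hn', ← orbit_eq_iff.mpr hz, ← orbit_eq_iff.mpr hz']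
  have dx : ∀ (y : α), x ∉ orbit ↥(stabilizer G x) y →
      Disjoint ({x} : Set α) (orbit ↥(stabilizer G x) y) := by
    intro y hy
    rw [Set.disjoint_singleton_left]
    exact hy
  have nx1 := notx y₁ n₁ h₁ hn₁
  have nx2 := notx y₂ n₂ h₂ hn₂
  have nx3 := notx y₃ n₃ h₃ hn₃
  have d12 := disj y₁ y₂ n₁ n₂ h₁ h₂ h12
  have d13 := disj y₁ y₃ n₁ n₃ h₁ h₃ h13
  have d23 := disj y₂ y₃ n₂ n₃ h₂ h₃ h23
  -- the orbit is the union of the four suborbits
  have hU : ({x} : Set α) ∪ orbit ↥(stabilizer G x) y₁ ∪ orbit ↥(stabilizer G x) y₂ ∪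
      orbit ↥(stabilizer G x) y₃ = orbit G x := by
    apply Set.eq_of_subset_of_ncard_le _ _ fΩ
    · intro z hz
      rcases hz with ((rfl | hz) | hz) | hz
      · exact mem_orbit_self _
      · exact sub y₁ hy₁ hz
      · exact sub y₂ hy₂ hz
      · exact sub y₃ hy₃ hz
    · rw [ncard_union4 _ _ _ _ (Set.finite_singleton x) (fO y₁) (fO y₂) (fO y₃) (dx y₁ nx1)
        (dx y₂ nx2) (dx y₃ nx3) d12 d13 d23, Set.ncard_singleton, h₁, h₂, h₃, hcard]
  -- each suborbit is inside `B` or disjoint from it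
  have dich : ∀ y : α, B ∩ orbit ↥(stabilizer G x) y = ∅ ∨
      B ∩ orbit ↥(stabilizer G x) y = orbit ↥(stabilizer G x) y := by
    intro y
    by_cases h : ∃ z ∈ orbit ↥(stabilizer G x) y, z ∈ B
    · right
      obtain ⟨z, ⟨k, rfl⟩, hzB⟩ := h
      apply Set.inter_eq_right.mpr
      rintro z' ⟨k', rfl⟩
      have := hinv (k' * k⁻¹ : ↥(stabilizer G x)).1 (k' * k⁻¹ : ↥(stabilizer G x)).2 _ hzB
      have e : ((k' * k⁻¹ : ↥(stabilizer G x)) : G) • (k • y) = k' • y := by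
        show ((k' * k⁻¹ : ↥(stabilizer G x)) • (k • y)) = k' • y
        rw [smul_smul, inv_mul_cancel_right]
      rw [e] at this
      exact this
    · left
      rw [Set.eq_empty_iff_forall_notMem]
      rintro z ⟨hzB, hz⟩
      exact h ⟨z, hz, hzB⟩
  have hBU : B = ({x} : Set α) ∪ B ∩ orbit ↥(stabilizer G x) y₁ ∪
      B ∩ orbit ↥(stabilizer G x) y₂ ∪ B ∩ orbit ↥(stabilizer G x) y₃ := by
    ext z
    constructor
    · intro hz
      have hz' := hBsub hz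
      rw [← hU] at hz'
      rcases hz' with ((h | h) | h) | h
      · exact Or.inl (Or.inl (Or.inl h))
      · exact Or.inl (Or.inl (Or.inr ⟨hz, h⟩))
      · exact Or.inl (Or.inr ⟨hz, h⟩)
      · exact Or.inr ⟨hz, h⟩
    · intro hz
      rcases hz with ((h | h) | h) | h
      · rw [Set.mem_singleton_iff.mp h]; exact hxB
      · exact h.1
      · exact h.1
      · exact h.1
  have hBn : B.ncard = 1 + (B ∩ orbit ↥(stabilizer G x) y₁).ncard +
      (B ∩ orbit ↥(stabilizer G x) y₂).ncard + (B ∩ orbit ↥(stabilizer G x) y₃).ncard := by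
    conv_lhs => rw [hBU]
    rw [ncard_union4 _ _ _ _ (Set.finite_singleton x) ((fO y₁).subset Set.inter_subset_right)
      ((fO y₂).subset Set.inter_subset_right) ((fO y₃).subset Set.inter_subset_right)
      ((dx y₁ nx1).mono_right Set.inter_subset_right)
      ((dx y₂ nx2).mono_right Set.inter_subset_right)
      ((dx y₃ nx3).mono_right Set.inter_subset_right)
      (d12.mono Set.inter_subset_right Set.inter_subset_right)
      (d13.mono Set.inter_subset_right Set.inter_subset_right)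
      (d23.mono Set.inter_subset_right Set.inter_subset_right), Set.ncard_singleton]
  have val : ∀ (y : α) (n : ℕ), (orbit ↥(stabilizer G x) y).ncard = n →
      (B ∩ orbit ↥(stabilizer G x) y).ncard = 0 ∨ (B ∩ orbit ↥(stabilizer G x) y).ncard = n := by
    intro y n hn
    rcases dich y with h | h
    · left; rw [h, Set.ncard_empty]
    · right; rw [h, hn]
  refine ⟨nx3, _, _, _, hBn, val y₁ n₁ h₁, val y₂ n₂ h₂, val y₃ n₃ h₃, ?_⟩
  intro h
  rcases dich y₃ with h' | h'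
  · rw [h', Set.ncard_empty] at h
    omega
  · rw [← h']
    exact Set.inter_subset_left

/-- **Simplicity from a rank `4` action with a simple point stabiliser.** -/
theorem simple_of_rank4 [Finite G] [Nontrivial G] (x y₁ y₂ y₃ : α) (n₁ n₂ n₃ : ℕ)
    (hH : IsSimpleGroup ↥(stabilizer G x))
    (hy₁ : y₁ ∈ orbit G x) (hy₂ : y₂ ∈ orbit G x) (hy₃ : y₃ ∈ orbit G x)
    (h₁ : (orbit ↥(stabilizer G x) y₁).ncard = n₁)
    (h₂ : (orbit ↥(stabilizer G x) y₂).ncard = n₂)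
    (h₃ : (orbit ↥(stabilizer G x) y₃).ncard = n₃)
    (hcard : (orbit G x).ncard = 1 + n₁ + n₂ + n₃)
    (h12 : n₁ ≠ n₂) (h13 : n₁ ≠ n₃) (h23 : n₂ ≠ n₃)
    (hn₁ : 1 < n₁) (hn₂ : 1 < n₂) (hn₃ : 1 < n₃)
    (hdiv : ∀ a₁ a₂ a₃ : ℕ, (a₁ = 0 ∨ a₁ = n₁) → (a₂ = 0 ∨ a₂ = n₂) → (a₃ = 0 ∨ a₃ = n₃) →
      1 + a₁ + a₂ + a₃ ∣ Nat.card G →
      (a₁ = 0 ∧ a₂ = 0 ∧ a₃ = 0) ∨ (a₁ = n₁ ∧ a₂ = n₂ ∧ a₃ = n₃))
    (p q : ℕ) (hp : p.Prime) (hq : q.Prime) (hpq : p ≠ q)
    (hpd : p ∣ 1 + n₁ + n₂ + n₃) (hqd : q ∣ 1 + n₁ + n₂ + n₃)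
    (hpa : ∀ a₁ a₂ a₃ : ℕ, (a₁ = 0 ∨ a₁ = n₁) → (a₂ = 0 ∨ a₂ = n₂) → (a₃ = 0 ∨ a₃ = n₃) →
      p ∣ 1 + a₁ + a₂ + a₃ → a₃ = n₃)
    (hqa : ∀ a₁ a₂ a₃ : ℕ, (a₁ = 0 ∨ a₁ = n₁) → (a₂ = 0 ∨ a₂ = n₂) → (a₃ = 0 ∨ a₃ = n₃) →
      q ∣ 1 + a₁ + a₂ + a₃ → a₃ = n₃) : IsSimpleGroup G := by
  have fΩ : (orbit G x).Finite := Set.finite_range _
  have blocks := rank4_blocks x y₁ y₂ y₃ n₁ n₂ n₃ hy₁ hy₂ hy₃ h₁ h₂ h₃ hcard h12 h13 h23
    hn₁ hn₂ hn₃
  have hB : ∀ B : Set α, x ∈ B → B ⊆ orbit G x →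
      (∀ h ∈ stabilizer G x, ∀ b ∈ B, h • b ∈ B) → B.ncard ∣ Nat.card G →
      B = {x} ∨ B = orbit G x := by
    intro B hxB hBsub hinv hd
    obtain ⟨-, a₁, a₂, a₃, hn, c1, c2, c3, -⟩ := blocks B hxB hBsub hinv
    rw [hn] at hd
    rcases hdiv a₁ a₂ a₃ c1 c2 c3 hd with ⟨e1, e2, e3⟩ | ⟨e1, e2, e3⟩
    · left
      rw [e1, e2, e3] at hn
      obtain ⟨a, ha⟩ := Set.ncard_eq_one.mp hn
      rw [ha] at hxB ⊢
      rw [Set.mem_singleton_iff.mp hxB]
    · right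
      apply Set.eq_of_subset_of_ncard_le hBsub _ fΩ
      rw [hn, hcard, e1, e2, e3]
  have hmove : ∃ h ∈ stabilizer G x, ∃ g : G, h • (g • x) ≠ g • x := by
    by_contra hcon
    push Not at hcon
    have hsub : orbit ↥(stabilizer G x) y₁ ⊆ {y₁} := by
      rintro z ⟨h, rfl⟩
      obtain ⟨g, rfl⟩ := hy₁
      exact hcon h.1 h.2 g
    have := Set.ncard_le_ncard hsub (Set.finite_singleton y₁)
    rw [h₁, Set.ncard_singleton] at this
    omega
  refine ⟨fun N hNn => ?_⟩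
  by_cases hN : N = ⊥
  · exact Or.inl hN
  right
  by_cases hNH : N ⊓ stabilizer G x = ⊥
  swap
  · exact eq_top_of_inter x hH hB hmove N hNn hNH
  exfalso
  have htr := normal_trans x hH hB hmove N hNn hN
  have hinj : ∀ n ∈ N, ∀ n' ∈ N, n • x = n' • x → n = n' := by
    intro n hn n' hn' e
    have h1 : n'⁻¹ * n ∈ N ⊓ stabilizer G x := by
      refine Subgroup.mem_inf.mpr ⟨N.mul_mem (N.inv_mem hn') hn, mem_stabilizer_iff.mpr ?_⟩
      rw [mul_smul, inv_smul_eq_iff]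
      exact e
    rw [hNH, Subgroup.mem_bot] at h1
    exact (inv_mul_eq_one.mp h1).symm
  have hNcard : Nat.card ↥N = 1 + n₁ + n₂ + n₃ := by
    rw [← hcard, ← Nat.card_coe_set_eq]
    apply Nat.card_congr
    refine Equiv.ofBijective (fun n : ↥N => (⟨n.1 • x, ⟨n.1, rfl⟩⟩ : ↥(orbit G x))) ⟨?_, ?_⟩
    · intro a b hab
      apply Subtype.ext
      exact hinj a.1 a.2 b.1 b.2 (congrArg Subtype.val hab)
    · rintro ⟨y, hy⟩
      obtain ⟨n, hn, e⟩ := htr y hy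
      exact ⟨⟨n, hn⟩, Subtype.ext e⟩
  have key : ∀ r : ℕ, r.Prime → r ∣ 1 + n₁ + n₂ + n₃ →
      (∀ a₁ a₂ a₃ : ℕ, (a₁ = 0 ∨ a₁ = n₁) → (a₂ = 0 ∨ a₂ = n₂) → (a₃ = 0 ∨ a₃ = n₃) →
        r ∣ 1 + a₁ + a₂ + a₃ → a₃ = n₃) →
      ∃ n ∈ N, n ^ r = 1 ∧ n • x = y₃ := by
    intro r hr hrd hra
    have hfr := frob_count N r hr (by rw [hNcard]; exact hrd)
    have hinjOn : Set.InjOn (fun n : G => n • x) {n : G | n ∈ N ∧ n ^ r = 1} := by
      intro n hn n' hn' e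
      exact hinj n hn.1 n' hn'.1 e
    rw [← hinjOn.ncard_image] at hfr
    obtain ⟨-, a₁, a₂, a₃, hn, c1, c2, c3, c4⟩ :=
      blocks ((fun n : G => n • x) '' {n : G | n ∈ N ∧ n ^ r = 1})
        ⟨1, ⟨N.one_mem, one_pow r⟩, one_smul G x⟩
        (by
          rintro z ⟨n, -, rfl⟩
          exact ⟨n, rfl⟩)
        (by
          rintro h hh z ⟨n, ⟨hnN, hnr⟩, rfl⟩
          refine ⟨h * n * h⁻¹, ⟨hNn.conj_mem n hnN h, ?_⟩, ?_⟩
          · rw [conj_pow, hnr, mul_one, mul_inv_cancel]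
          · have hx : h⁻¹ • x = x := by
              rw [inv_smul_eq_iff]
              exact (mem_stabilizer_iff.mp hh).symm
            show (h * n * h⁻¹) • x = h • n • x
            rw [mul_smul, mul_smul, hx])
    rw [hn] at hfr
    have e3 := hra a₁ a₂ a₃ c1 c2 c3 hfr
    obtain ⟨n, ⟨hnN, hnr⟩, e⟩ := c4 e3 (mem_orbit_self y₃)
    exact ⟨n, hnN, hnr, e⟩
  obtain ⟨n, hnN, hnp, e⟩ := key p hp hpd hpa
  obtain ⟨n', hnN', hnq, e'⟩ := key q hq hqd hqa
  have hnn : n = n' := hinj n hnN n' hnN' (e.trans e'.symm)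
  rw [← hnn] at hnq
  have o1 := orderOf_dvd_of_pow_eq_one hnp
  have o2 := orderOf_dvd_of_pow_eq_one hnq
  have hn1 : n = 1 := by
    rcases (Nat.dvd_prime hp).mp o1 with h | h
    · exact orderOf_eq_one_iff.mp h
    · rw [h] at o2
      exact absurd ((Nat.prime_dvd_prime_iff_eq hp hq).mp o2) hpq
  rw [hn1, one_smul] at e
  have nx3 := (blocks {x} rfl (by
      rintro z rfl
      exact mem_orbit_self _) (by
      rintro h hh b rfl
      exact mem_stabilizer_iff.mp hh)).1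
  apply nx3
  rw [e]
  exact mem_orbit_self y₃

end Cfsg.Agent.Lib.Helper11.Rank4Simple
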