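import Mathlib
import Cfsg.Agent.Lib.Helper11.Rank4Simple

set_option autoImplicit false

namespace Cfsg.Agent.Lib.Helper11.PrimSimple2

open MulAction Cfsg.Agent.Lib.Helper11.PrimSimple Cfsg.Agent.Lib.Helper11.Rank4Simple

/-- For an odd prime `p`, the number of solutions of `n ^ p = 1` in a subgroup is odd. -/
theorem odd_count {G : Type*} [Group G] [Finite G] (N : Subgroup G) (p : ℕ) (hp : p.Prime)
    (hp2 : p ≠ 2) : ¬ 2 ∣ {n : G | n ∈ N ∧ n ^ p = 1}.ncard := by
  classical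
  have : Fintype G := Fintype.ofFinite G
  have : Fact (Nat.Prime 2) := ⟨Nat.prime_two⟩
  have hS : ∀ n : G, (n⁻¹ ∈ N ∧ n⁻¹ ^ p = 1) ↔ (n ∈ N ∧ n ^ p = 1) := by
    intro n
    rw [N.inv_mem_iff, inv_pow, inv_eq_one]
  have hσ : ((Equiv.inv G).subtypePerm (p := fun n : G => n ∈ N ∧ n ^ p = 1) hS) ^ 2 ^ 1 = 1 := by
    rw [pow_one, pow_two]
    apply Equiv.Perm.ext
    intro a
    apply Subtype.ext
    show ((a.1)⁻¹)⁻¹ = a.1
    exact inv_inv a.1
  intro hdvd
  have hcard : {n : G | n ∈ N ∧ n ^ p = 1}.ncard =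
      Fintype.card {n : G // n ∈ N ∧ n ^ p = 1} := by
    rw [← Nat.card_eq_fintype_card]
    exact (Nat.card_coe_set_eq _).symm
  rw [hcard] at hdvd
  obtain ⟨b, hb, hne⟩ := Equiv.Perm.exists_fixed_point_of_prime' (p := 2) (n := 1) hdvd hσ
    (a := ⟨1, N.one_mem, one_pow p⟩) (Subtype.ext inv_one)
  have hb1 : (b.1)⁻¹ = b.1 := congrArg Subtype.val hb
  have hb2 : b.1 ^ 2 = 1 := by
    rw [pow_two]
    calc b.1 * b.1 = (b.1)⁻¹ * b.1 := by rw [hb1]
      _ = 1 := inv_mul_cancel b.1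
  have o1 := orderOf_dvd_of_pow_eq_one hb2
  have o2 := orderOf_dvd_of_pow_eq_one b.2.2
  have ho : orderOf b.1 = 1 := by
    rcases (Nat.dvd_prime Nat.prime_two).mp o1 with h | h
    · exact h
    · rw [h] at o2
      exact absurd ((Nat.prime_dvd_prime_iff_eq Nat.prime_two hp).mp o2).symm hp2
  apply hne
  apply Subtype.ext
  exact orderOf_eq_one_iff.mp ho

variable {G α : Type*} [Group G] [MulAction G α]

/-- The orbit of a normal subgroup has cardinality dividing that of the orbit of the group. -/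
theorem normal_orbit_dvd [Finite G] (x : α) (N : Subgroup G) (hNn : N.Normal) :
    ({y : α | ∃ n ∈ N, n • x = y}).ncard ∣ (orbit G x).ncard := by
  have hle : stabilizer G x ≤ N ⊔ stabilizer G x := le_sup_right
  have hset : {y : α | ∃ n ∈ N, n • x = y} = orbit ↥(N ⊔ stabilizer G x) x := by
    ext y
    constructor
    · rintro ⟨n, hn, rfl⟩
      exact ⟨⟨n, (le_sup_left : N ≤ N ⊔ stabilizer G x) hn⟩, rfl⟩
    · rintro ⟨k, rfl⟩
      have hk : (k : G) ∈ (↑(N ⊔ stabilizer G x) : Set G) := k.2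
      rw [Subgroup.normal_mul] at hk
      obtain ⟨n, hn, h, hh, e⟩ := Set.mem_mul.mp hk
      refine ⟨n, hn, ?_⟩
      show n • x = (k : G) • x
      rw [← e, mul_smul, mem_stabilizer_iff.mp hh]
  have hstab : stabilizer ↥(N ⊔ stabilizer G x) x =
      (stabilizer G x).subgroupOf (N ⊔ stabilizer G x) := by
    ext k
    rw [Subgroup.mem_subgroupOf, mem_stabilizer_iff, mem_stabilizer_iff]
    exact Iff.rfl
  rw [hset, ← index_stabilizer, hstab, ← index_stabilizer]
  exact Dvd.intro _ (Subgroup.relIndex_mul_index hle)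

theorem normal_trans2 [Finite G] (x : α)
    (hH : IsSimpleGroup ↥(stabilizer G x))
    (hB : ∀ B : Set α, x ∈ B → B ⊆ orbit G x →
      (∀ h ∈ stabilizer G x, ∀ b ∈ B, h • b ∈ B) → B.ncard ∣ (orbit G x).ncard →
      B = {x} ∨ B = orbit G x)
    (hmove : ∃ h ∈ stabilizer G x, ∃ g : G, h • (g • x) ≠ g • x)
    (N : Subgroup G) (hNn : N.Normal) (hN : N ≠ ⊥) :
    ∀ y ∈ orbit G x, ∃ n ∈ N, n • x = y := by
  have hBx : x ∈ {y : α | ∃ n ∈ N, n • x = y} := ⟨1, N.one_mem, one_smul G x⟩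
  have hBsub : {y : α | ∃ n ∈ N, n • x = y} ⊆ orbit G x := by
    rintro y ⟨n, -, rfl⟩
    exact ⟨n, rfl⟩
  have hBinv : ∀ h ∈ stabilizer G x, ∀ b ∈ {y : α | ∃ n ∈ N, n • x = y},
      h • b ∈ {y : α | ∃ n ∈ N, n • x = y} := by
    rintro h hh b ⟨n, hn, rfl⟩
    refine ⟨h * n * h⁻¹, hNn.conj_mem n hn h, ?_⟩
    have hx : h⁻¹ • x = x := by
      rw [inv_smul_eq_iff]
      exact (mem_stabilizer_iff.mp hh).symm
    rw [mul_smul, mul_smul, hx]
  rcases hB _ hBx hBsub hBinv (normal_orbit_dvd x N hNn) with h1 | h2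
  · exfalso
    have hfix : ∀ n ∈ N, n • x = x := by
      intro n hn
      have : n • x ∈ {y : α | ∃ n ∈ N, n • x = y} := ⟨n, hn, rfl⟩
      rw [h1] at this
      exact this
    have hNle : N ≤ stabilizer G x := fun n hn => mem_stabilizer_iff.mpr (hfix n hn)
    have hnorm : (N.subgroupOf (stabilizer G x)).Normal := hNn.subgroupOf _
    rcases hnorm.eq_bot_or_eq_top with hb | ht
    · rw [Subgroup.subgroupOf_eq_bot] at hb
      exact hN (le_bot_iff.mp (hb (le_refl N) hNle))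
    · rw [Subgroup.subgroupOf_eq_top] at ht
      obtain ⟨h, hh, g, hg⟩ := hmove
      apply hg
      have hn : g⁻¹ * h * g ∈ N := by
        have := hNn.conj_mem h (ht hh) g⁻¹
        rwa [inv_inv] at this
      have := hfix _ hn
      rw [mul_smul, mul_smul, inv_smul_eq_iff] at this
      exact this
  · intro y hy
    rw [← h2] at hy
    exact hy

theorem eq_top_of_inter2 [Finite G] (x : α)
    (hH : IsSimpleGroup ↥(stabilizer G x))
    (hB : ∀ B : Set α, x ∈ B → B ⊆ orbit G x →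
      (∀ h ∈ stabilizer G x, ∀ b ∈ B, h • b ∈ B) → B.ncard ∣ (orbit G x).ncard →
      B = {x} ∨ B = orbit G x)
    (hmove : ∃ h ∈ stabilizer G x, ∃ g : G, h • (g • x) ≠ g • x)
    (N : Subgroup G) (hNn : N.Normal) (hNH : N ⊓ stabilizer G x ≠ ⊥) : N = ⊤ := by
  have hN : N ≠ ⊥ := by
    rintro rfl
    exact hNH (bot_inf_eq _)
  have htr := normal_trans2 x hH hB hmove N hNn hN
  have hnorm : (N.subgroupOf (stabilizer G x)).Normal := hNn.subgroupOf _
  have hle : stabilizer G x ≤ N := by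
    rcases hnorm.eq_bot_or_eq_top with hb | ht
    · rw [Subgroup.subgroupOf_eq_bot] at hb
      exact absurd hb.eq_bot hNH
    · exact Subgroup.subgroupOf_eq_top.mp ht
  rw [eq_top_iff]
  intro g _
  obtain ⟨n, hn, e⟩ := htr (g • x) ⟨g, rfl⟩
  have : n⁻¹ * g ∈ stabilizer G x := by
    rw [mem_stabilizer_iff, mul_smul, inv_smul_eq_iff]
    exact e.symm
  have h2 := N.mul_mem hn (hle this)
  rwa [mul_inv_cancel_left] at h2

/-- **Simplicity from the possible sizes of the invariant sets of a simple point stabiliser.**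
`P` holds for the cardinality of every set containing `x`, contained in the orbit and invariant
under the stabiliser; the only such cardinalities dividing the degree are `1` and the degree;
and those divisible by the odd prime `p` (which divides the degree) are even. -/
theorem simple_of_sizes [Finite G] [Nontrivial G] (x : α)
    (hH : IsSimpleGroup ↥(stabilizer G x))
    (hmove : ∃ h ∈ stabilizer G x, ∃ g : G, h • (g • x) ≠ g • x)
    (P : ℕ → Prop)
    (hP : ∀ B : Set α, x ∈ B → B ⊆ orbit G x →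
      (∀ h ∈ stabilizer G x, ∀ b ∈ B, h • b ∈ B) → P B.ncard)
    (hdiv : ∀ n, P n → n ∣ (orbit G x).ncard → n = 1 ∨ n = (orbit G x).ncard)
    (p : ℕ) (hp : p.Prime) (hp2 : p ≠ 2) (hpd : p ∣ (orbit G x).ncard)
    (hpar : ∀ n, P n → p ∣ n → 2 ∣ n) : IsSimpleGroup G := by
  have fΩ : (orbit G x).Finite := Set.finite_range _
  have hB : ∀ B : Set α, x ∈ B → B ⊆ orbit G x →
      (∀ h ∈ stabilizer G x, ∀ b ∈ B, h • b ∈ B) → B.ncard ∣ (orbit G x).ncard →
      B = {x} ∨ B = orbit G x := by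
    intro B hxB hBsub hinv hd
    rcases hdiv _ (hP B hxB hBsub hinv) hd with h1 | h2
    · left
      obtain ⟨a, ha⟩ := Set.ncard_eq_one.mp h1
      rw [ha] at hxB ⊢
      rw [Set.mem_singleton_iff.mp hxB]
    · right
      exact Set.eq_of_subset_of_ncard_le hBsub (le_of_eq h2.symm) fΩ
  refine ⟨fun N hNn => ?_⟩
  by_cases hN : N = ⊥
  · exact Or.inl hN
  right
  by_cases hNH : N ⊓ stabilizer G x = ⊥
  swap
  · exact eq_top_of_inter2 x hH hB hmove N hNn hNH
  exfalso
  have htr := normal_trans2 x hH hB hmove N hNn hN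
  have hinj : ∀ n ∈ N, ∀ n' ∈ N, n • x = n' • x → n = n' := by
    intro n hn n' hn' e
    have h1 : n'⁻¹ * n ∈ N ⊓ stabilizer G x := by
      refine Subgroup.mem_inf.mpr ⟨N.mul_mem (N.inv_mem hn') hn, mem_stabilizer_iff.mpr ?_⟩
      rw [mul_smul, inv_smul_eq_iff]
      exact e
    rw [hNH, Subgroup.mem_bot] at h1
    exact (inv_mul_eq_one.mp h1).symm
  have hNcard : Nat.card ↥N = (orbit G x).ncard := by
    rw [← Nat.card_coe_set_eq]
    apply Nat.card_congr
    refine Equiv.ofBijective (fun n : ↥N => (⟨n.1 • x, ⟨n.1, rfl⟩⟩ : ↥(orbit G x))) ⟨?_, ?_⟩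
    · intro a b hab
      apply Subtype.ext
      exact hinj a.1 a.2 b.1 b.2 (congrArg Subtype.val hab)
    · rintro ⟨y, hy⟩
      obtain ⟨n, hn, e⟩ := htr y hy
      exact ⟨⟨n, hn⟩, Subtype.ext e⟩
  have hfr := frob_count N p hp (by rw [hNcard]; exact hpd)
  have hodd := odd_count N p hp hp2
  have hinjOn : Set.InjOn (fun n : G => n • x) {n : G | n ∈ N ∧ n ^ p = 1} := by
    intro n hn n' hn' e
    exact hinj n hn.1 n' hn'.1 e
  rw [← hinjOn.ncard_image] at hfr hodd
  have hPB := hP ((fun n : G => n • x) '' {n : G | n ∈ N ∧ n ^ p = 1})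
    ⟨1, ⟨N.one_mem, one_pow p⟩, one_smul G x⟩
    (by
      rintro z ⟨n, -, rfl⟩
      exact ⟨n, rfl⟩)
    (by
      rintro h hh z ⟨n, ⟨hnN, hnr⟩, rfl⟩
      refine ⟨h * n * h⁻¹, ⟨hNn.conj_mem n hnN h, ?_⟩, ?_⟩
      · rw [conj_pow, hnr, mul_one, mul_inv_cancel]
      · have hx : h⁻¹ • x = x := by
          rw [inv_smul_eq_iff]
          exact (mem_stabilizer_iff.mp hh).symm
        show (h * n * h⁻¹) • x = h • n • x
        rw [mul_smul, mul_smul, hx])
  exact hodd (hpar _ hPB hfr)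

end Cfsg.Agent.Lib.Helper11.PrimSimple2
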