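import Mathlib
import Cfsg.Agent.Lib.Helper11.J2Data
import Cfsg.Agent.Lib.Helper11.PrimSimple2

set_option autoImplicit false

namespace Cfsg.Agent.Lib.Helper11.J2L

open Cfsg.Agent.Lib.Helper11.J2D

/-! ### Computations on natural numbers -/

/-- The entry number `n` of a list. -/
def nth : List ℕ → ℕ → ℕ
  | [], _ => 0
  | a :: _, 0 => a
  | _ :: l, n + 1 => nth l n

/-- The image of a point under the map listed by `l`. -/
def ap (l : List ℕ) (x : ℕ) : ℕ := nth l x % 100

theorem ap_lt (l : List ℕ) (x : ℕ) : ap l x < 100 := Nat.mod_lt _ (by norm_num)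

/-- The relation between two points: `2` equal, `1` adjacent, `0` otherwise. -/
def relN (x y : ℕ) : ℕ := if x = y then 2 else if Nat.testBit (nth adjL x) y then 1 else 0

/-- The lists of the four letters. -/
def gl : ℕ → List ℕ
  | 0 => g0
  | 1 => g1
  | 2 => g2
  | _ => g3

/-- The image of a point under a word. -/
def wact : List ℕ → ℕ → ℕ
  | [], x => x
  | c :: w, x => ap (gl c) (wact w x)

def invOK (l li : List ℕ) : Bool :=
  (List.range 100).all (fun x => ap li (ap l x) == x && ap l (ap li x) == x)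

def autOK (l : List ℕ) : Bool :=
  (List.range 100).all (fun x => (List.range 100).all (fun y =>
    relN (ap l x) (ap l y) == relN x y))

def pow5OK (l : List ℕ) : Bool :=
  (List.range 100).all (fun x => ap l (ap l (ap l (ap l (ap l x)))) == x)

/-- The sum of the first `n` values of a function. -/
def sumTo (n : ℕ) (f : ℕ → ℕ) : ℕ := Nat.rec 0 (fun k s => Nat.add s (f k)) n

theorem sumTo_eq (n : ℕ) (f : ℕ → ℕ) : sumTo n f = ∑ k ∈ Finset.range n, f k := by
  induction n with
  | zero => rfl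
  | succ n ih =>
    rw [Finset.sum_range_succ, ← ih]
    rfl

/-- The code of the relations of a point to the points of a list. -/
def codeF (F : List ℕ) (u : ℕ) : ℕ := F.foldl (fun c f => 3 * c + relN u f) 0

def gS (F : List ℕ) (u z : ℕ) : ℕ := if relN u z = 1 then 128 ^ codeF F u else 0

/-- The counts of the neighbours of a point by their codes. -/
def SF (F : List ℕ) (z : ℕ) : ℕ := sumTo 100 (fun u => gS F u z)

/-- The class of `b` with respect to the list `F`. -/
def clsP (F : List ℕ) (b z : ℕ) : Bool :=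
  F.all (fun f => relN z f == relN b f) && SF F z == SF F b

def nthW : List (List ℕ) → ℕ → List ℕ
  | [], _ => []
  | a :: _, 0 => a
  | _ :: l, n + 1 => nthW l n

def orbOK (W : List (List ℕ)) : List ℕ → List (ℕ × ℕ × ℕ) → Bool
  | _, [] => true
  | acc, (p, q, g) :: rest =>
    acc.contains q && (wact (nthW W g) q == p) && orbOK W (p :: acc) rest

def fixOK (W : List (List ℕ)) (F : List ℕ) : Bool :=
  W.all (fun w => F.all (fun f => wact w f == f))

def seenL (root : ℕ) (C : List (ℕ × ℕ × ℕ)) : List ℕ := root :: C.map (fun t => t.1)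

def covP (p : ℕ → Bool) (seen : List ℕ) : Bool :=
  (List.range 100).all (fun z => !(p z) || seen.contains z)

def propOK : List ℕ → List (ℕ × List ℕ) → Bool
  | _, [] => true
  | fx, (w, D) :: rest =>
    D.all (fun f => fx.contains f && decide (f < 100)) &&
      (List.range 100).all (fun z => z == w || D.any (fun f => relN z f != relN w f)) &&
      propOK (w :: fx) rest

def sw1 (a b y : ℕ) : ℕ := if y = a then b else if y = b then a else y

def swact : List (ℕ × ℕ) → ℕ → ℕ
  | [], x => x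
  | s :: l, x => sw1 (s.1 % 100) (s.2 % 100) (swact l x)

theorem range_all {p : ℕ → Bool} (h : (List.range 100).all p = true) (x : ℕ) (hx : x < 100) :
    p x = true :=
  List.all_eq_true.mp h x (List.mem_range.mpr hx)

/-! ### Permutations -/

abbrev P := Equiv.Perm (Fin 100)

/-- The permutation listed by `l`, with inverse listed by `li`. -/
def permOf (l li : List ℕ) (h : invOK l li = true) : P where
  toFun x := ⟨ap l x, ap_lt l x⟩
  invFun x := ⟨ap li x, ap_lt li x⟩
  left_inv x := by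
    have := range_all h x x.2
    simp only [Bool.and_eq_true, beq_iff_eq] at this
    exact Fin.ext this.1
  right_inv x := by
    have := range_all h x x.2
    simp only [Bool.and_eq_true, beq_iff_eq] at this
    exact Fin.ext this.2

theorem permOf_apply (l li : List ℕ) (h : invOK l li = true) (x : Fin 100) :
    ((permOf l li h x : Fin 100) : ℕ) = ap l x := rfl

theorem permOf_inv_apply (l li : List ℕ) (h : invOK l li = true) (x : Fin 100) :
    (((permOf l li h)⁻¹ x : Fin 100) : ℕ) = ap li x := rfl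

/-- The group of the automorphisms of the graph. -/
def Aut : Subgroup P where
  carrier := {σ | ∀ x y : Fin 100, relN (σ x) (σ y) = relN x y}
  mul_mem' := by
    intro a b ha hb x y
    show relN (a (b x)) (a (b y)) = relN x y
    rw [ha, hb]
  one_mem' := fun x y => rfl
  inv_mem' := by
    intro a ha x y
    have := ha (a⁻¹ x) (a⁻¹ y)
    have e1 : a (a⁻¹ x) = x := Equiv.apply_symm_apply a x
    have e2 : a (a⁻¹ y) = y := Equiv.apply_symm_apply a y
    rw [e1, e2] at this
    exact this.symm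

theorem permOf_mem_Aut (l li : List ℕ) (h : invOK l li = true) (ha : autOK l = true) :
    permOf l li h ∈ Aut := by
  intro x y
  have := range_all (range_all ha x x.2) y y.2
  exact beq_iff_eq.mp this

/-- The elements of `H` fixing every point of the list `F`. -/
def fixS (H : Subgroup P) (F : List ℕ) : Subgroup P where
  carrier := {σ | σ ∈ H ∧ ∀ f ∈ F, ∀ h : f < 100, σ ⟨f, h⟩ = ⟨f, h⟩}
  mul_mem' := by
    rintro a b ⟨ha, ha'⟩ ⟨hb, hb'⟩
    refine ⟨H.mul_mem ha hb, fun f hf h => ?_⟩
    rw [Equiv.Perm.mul_apply, hb' f hf h, ha' f hf h]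
  one_mem' := ⟨H.one_mem, fun f hf h => rfl⟩
  inv_mem' := by
    rintro a ⟨ha, ha'⟩
    refine ⟨H.inv_mem ha, fun f hf h => ?_⟩
    rw [Equiv.Perm.inv_eq_iff_eq]
    exact (ha' f hf h).symm

theorem fixS_nil (H : Subgroup P) : fixS H [] = H := by
  ext σ
  constructor
  · exact fun h => h.1
  · exact fun h => ⟨h, fun f hf => absurd hf List.not_mem_nil⟩

theorem fixS_mono {H H' : Subgroup P} (hle : H ≤ H') (F : List ℕ) : fixS H F ≤ fixS H' F :=
  fun _ h => ⟨hle h.1, h.2⟩

theorem fixS_cons_le (H : Subgroup P) (b : ℕ) (F : List ℕ) : fixS H (b :: F) ≤ fixS H F :=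
  fun _ h => ⟨h.1, fun f hf => h.2 f (List.mem_cons_of_mem _ hf)⟩

theorem chain (H : Subgroup P) (F : List ℕ) (b : ℕ) (hb : b < 100) :
    Nat.card ↥(fixS H F) =
      (MulAction.orbit ↥(fixS H F) (⟨b, hb⟩ : Fin 100)).ncard * Nat.card ↥(fixS H (b :: F)) := by
  have hst : MulAction.stabilizer ↥(fixS H F) (⟨b, hb⟩ : Fin 100) =
      (fixS H (b :: F)).subgroupOf (fixS H F) := by
    ext k
    rw [Subgroup.mem_subgroupOf, MulAction.mem_stabilizer_iff]
    constructor
    · intro h
      refine ⟨k.2.1, fun f hf hf' => ?_⟩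
      rcases List.mem_cons.mp hf with rfl | hf
      · exact h
      · exact k.2.2 f hf hf'
    · intro h
      exact h.2 b List.mem_cons_self hb
  have h1 := Subgroup.card_mul_index (MulAction.stabilizer ↥(fixS H F) (⟨b, hb⟩ : Fin 100))
  rw [MulAction.index_stabilizer, hst,
    Nat.card_congr (Subgroup.subgroupOfEquivOfLe (fixS_cons_le H b F)).toEquiv] at h1
  rw [← h1, mul_comm]

/-! ### Invariants -/

theorem foldl_congr' (F : List ℕ) (g g' : ℕ → ℕ → ℕ) (h : ∀ f ∈ F, ∀ c, g c f = g' c f)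
    (c0 : ℕ) : F.foldl g c0 = F.foldl g' c0 := by
  induction F generalizing c0 with
  | nil => rfl
  | cons a l ih =>
    simp only [List.foldl_cons]
    rw [h a List.mem_cons_self c0]
    exact ih (fun f hf c => h f (List.mem_cons_of_mem _ hf) c) _

theorem rel_fix (F : List ℕ) (hF : ∀ f ∈ F, f < 100) (σ : P) (hσ : σ ∈ fixS Aut F)
    (u : Fin 100) (f : ℕ) (hf : f ∈ F) : relN (σ u) f = relN u f := by
  have h := hσ.1 u ⟨f, hF f hf⟩
  rw [hσ.2 f hf (hF f hf)] at h
  exact h

theorem codeF_fix (F : List ℕ) (hF : ∀ f ∈ F, f < 100) (σ : P) (hσ : σ ∈ fixS Aut F)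
    (u : Fin 100) : codeF F (σ u) = codeF F u := by
  unfold codeF
  apply foldl_congr'
  intro f hf c
  show 3 * c + relN (σ u) f = 3 * c + relN u f
  rw [rel_fix F hF σ hσ u f hf]

theorem SF_sum (F : List ℕ) (z : ℕ) : SF F z = ∑ u : Fin 100, gS F (u : ℕ) z := by
  unfold SF
  rw [sumTo_eq]
  exact (Fin.sum_univ_eq_sum_range (fun u => gS F u z) 100).symm

theorem SF_fix (F : List ℕ) (hF : ∀ f ∈ F, f < 100) (σ : P) (hσ : σ ∈ fixS Aut F)
    (z : Fin 100) : SF F (σ z) = SF F z := by
  calc SF F (σ z) = ∑ u : Fin 100, gS F (u : ℕ) (σ z) := SF_sum F _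
    _ = ∑ u : Fin 100, gS F ((σ u : Fin 100) : ℕ) (σ z) :=
        (Equiv.sum_comp σ (fun u : Fin 100 => gS F (u : ℕ) (σ z))).symm
    _ = ∑ u : Fin 100, gS F (u : ℕ) z := by
        apply Finset.sum_congr rfl
        intro u _
        unfold gS
        rw [hσ.1 u z, codeF_fix F hF σ hσ u]
    _ = SF F z := (SF_sum F _).symm

theorem cls_of_fix (F : List ℕ) (hF : ∀ f ∈ F, f < 100) (σ : P) (hσ : σ ∈ fixS Aut F)
    (b : Fin 100) : clsP F b (σ b) = true := by
  unfold clsP
  rw [Bool.and_eq_true, List.all_eq_true]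
  refine ⟨fun f hf => ?_, ?_⟩
  · rw [beq_iff_eq]
    exact rel_fix F hF σ hσ b f hf
  · rw [beq_iff_eq]
    exact SF_fix F hF σ hσ b

theorem orbit_sub (H : Subgroup P) (hH : H ≤ Aut) (F : List ℕ) (hF : ∀ f ∈ F, f < 100)
    (b : Fin 100) : MulAction.orbit ↥(fixS H F) b ⊆ {z : Fin 100 | clsP F b z = true} := by
  rintro z ⟨σ, rfl⟩
  exact cls_of_fix F hF σ.1 (fixS_mono hH F σ.2) b

theorem cls_card (p : ℕ → Bool) :
    Set.ncard {z : Fin 100 | p z = true} = sumTo 100 (fun z => if p z then 1 else 0) := by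
  rw [sumTo_eq, ← Fin.sum_univ_eq_sum_range (fun z => if p z then 1 else 0) 100,
    ← Finset.card_filter, ← Set.ncard_coe_finset]
  congr 1
  ext z
  simp

theorem ub (H : Subgroup P) (hH : H ≤ Aut) (F : List ℕ) (hF : ∀ f ∈ F, f < 100)
    (b : ℕ) (hb : b < 100) (n : ℕ)
    (hcnt : sumTo 100 (fun z => if clsP F b z then 1 else 0) = n) :
    (MulAction.orbit ↥(fixS H F) (⟨b, hb⟩ : Fin 100)).ncard ≤ n := by
  rw [← hcnt, ← cls_card]
  exact Set.ncard_le_ncard (orbit_sub H hH F hF ⟨b, hb⟩) (Set.toFinite _)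

/-! ### The generators -/

theorem inv02 : invOK g0 g2 = true := by decide +kernel

theorem inv13 : invOK g1 g3 = true := by decide +kernel

theorem invtt : invOK tauL tauL = true := by decide +kernel

theorem aut0 : autOK g0 = true := by decide +kernel

theorem aut1 : autOK g1 = true := by decide +kernel

theorem autt : autOK tauL = true := by decide +kernel

theorem pow0 : pow5OK g0 = true := by decide +kernel

theorem pow1 : pow5OK g1 = true := by decide +kernel

def p0 : P := permOf g0 g2 inv02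

def p1 : P := permOf g1 g3 inv13

def pt : P := permOf tauL tauL invtt

def pl : ℕ → P
  | 0 => p0
  | 1 => p1
  | 2 => p0⁻¹
  | _ => p1⁻¹

theorem pl_apply (c : ℕ) (x : Fin 100) : ((pl c x : Fin 100) : ℕ) = ap (gl c) x := by
  rcases c with _ | _ | _ | c <;> rfl

def wperm : List ℕ → P
  | [] => 1
  | c :: w => pl c * wperm w

theorem wperm_apply (w : List ℕ) (x : Fin 100) : ((wperm w x : Fin 100) : ℕ) = wact w x := by
  induction w with
  | nil => rfl
  | cons c w ih =>
    show ((pl c (wperm w x) : Fin 100) : ℕ) = ap (gl c) (wact w x)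
    rw [pl_apply, ih]

/-- The group generated by the two elements of order five. -/
def K : Subgroup P := Subgroup.closure {p0, p1}

/-- The group of the even automorphisms of the graph. -/
def G : Subgroup P := Aut ⊓ alternatingGroup (Fin 100)

theorem pow5_eq (l li : List ℕ) (h : invOK l li = true) (h5 : pow5OK l = true) :
    (permOf l li h) ^ 5 = 1 := by
  have e : (permOf l li h) ^ 5 = permOf l li h * (permOf l li h * (permOf l li h *
      (permOf l li h * permOf l li h))) := by
    simp only [pow_succ, pow_zero, one_mul, mul_assoc]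
  rw [e]
  apply Equiv.ext
  intro x
  apply Fin.ext
  exact beq_iff_eq.mp (range_all h5 x x.2)

theorem sign_of_pow5 (σ : P) (h : σ ^ 5 = 1) : Equiv.Perm.sign σ = 1 := by
  have h5 : (Equiv.Perm.sign σ) ^ 5 = 1 := by rw [← map_pow, h, map_one]
  rcases Int.units_eq_one_or (Equiv.Perm.sign σ) with e | e
  · exact e
  · rw [e] at h5
    exact absurd h5 (by decide)

theorem p0_pow : p0 ^ 5 = 1 := pow5_eq _ _ _ pow0

theorem p1_pow : p1 ^ 5 = 1 := pow5_eq _ _ _ pow1

theorem p0_mem : p0 ∈ G :=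
  ⟨permOf_mem_Aut _ _ _ aut0, Equiv.Perm.mem_alternatingGroup.mpr (sign_of_pow5 _ p0_pow)⟩

theorem p1_mem : p1 ∈ G :=
  ⟨permOf_mem_Aut _ _ _ aut1, Equiv.Perm.mem_alternatingGroup.mpr (sign_of_pow5 _ p1_pow)⟩

theorem K_le : K ≤ G := by
  refine (Subgroup.closure_le G).mpr ?_
  intro σ hσ
  rcases hσ with rfl | rfl
  · exact p0_mem
  · exact p1_mem

theorem pl_mem (c : ℕ) : pl c ∈ K := by
  have h0 : p0 ∈ K := Subgroup.subset_closure (Set.mem_insert _ _)
  have h1 : p1 ∈ K := Subgroup.subset_closure (Set.mem_insert_of_mem _ rfl)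
  rcases c with _ | _ | _ | c
  · exact h0
  · exact h1
  · exact K.inv_mem h0
  · exact K.inv_mem h1

theorem wperm_mem (w : List ℕ) : wperm w ∈ K := by
  induction w with
  | nil => exact K.one_mem
  | cons c w ih => exact K.mul_mem (pl_mem c) ih

theorem nthW_mem : ∀ (W : List (List ℕ)) (g : ℕ), nthW W g = [] ∨ nthW W g ∈ W
  | [], _ => Or.inl rfl
  | _ :: _, 0 => Or.inr List.mem_cons_self
  | _ :: l, n + 1 => by
    rcases nthW_mem l n with h | h
    · exact Or.inl h
    · exact Or.inr (List.mem_cons_of_mem _ h)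

theorem wperm_fix (W : List (List ℕ)) (F : List ℕ) (h : fixOK W F = true) (w : List ℕ)
    (hw : w ∈ W) : wperm w ∈ fixS K F := by
  refine ⟨wperm_mem w, fun f hf hlt => Fin.ext ?_⟩
  have := List.all_eq_true.mp (List.all_eq_true.mp h w hw) f hf
  rw [wperm_apply]
  exact beq_iff_eq.mp this

/-- The point `a` is in the orbit of `root` under the elements of `K` fixing `F`. -/
def InOrb (F : List ℕ) (root : Fin 100) (a : ℕ) : Prop :=
  ∃ σ ∈ fixS K F, ((σ root : Fin 100) : ℕ) = a

theorem orb_step (W : List (List ℕ)) (F : List ℕ) (hfix : fixOK W F = true) (root : Fin 100) :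
    ∀ (C : List (ℕ × ℕ × ℕ)) (acc : List ℕ), (∀ a ∈ acc, InOrb F root a) →
      orbOK W acc C = true → ∀ t ∈ C, InOrb F root t.1
  | [], _, _, _ => fun t ht => absurd ht List.not_mem_nil
  | (p, q, g) :: rest, acc, hacc, hok => by
    simp only [orbOK, Bool.and_eq_true, beq_iff_eq] at hok
    obtain ⟨⟨hq, hp⟩, hrest⟩ := hok
    have hpO : InOrb F root p := by
      obtain ⟨σ, hσ, e⟩ := hacc q (by simpa using hq)
      have hw : wperm (nthW W g) ∈ fixS K F := by
        rcases nthW_mem W g with h0 | hm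
        · rw [h0]
          exact (fixS K F).one_mem
        · exact wperm_fix W F hfix _ hm
      refine ⟨wperm (nthW W g) * σ, (fixS K F).mul_mem hw hσ, ?_⟩
      rw [Equiv.Perm.mul_apply, wperm_apply, e, hp]
    intro t ht
    rcases List.mem_cons.mp ht with rfl | ht
    · exact hpO
    · refine orb_step W F hfix root rest (p :: acc) (fun a ha => ?_) hrest t ht
      rcases List.mem_cons.mp ha with rfl | ha
      · exact hpO
      · exact hacc a ha

theorem orb_cover (W : List (List ℕ)) (F : List ℕ) (root : ℕ) (hr : root < 100)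
    (C : List (ℕ × ℕ × ℕ)) (p : ℕ → Bool) (hfix : fixOK W F = true)
    (hok : orbOK W [root] C = true) (hcov : covP p (seenL root C) = true) :
    ∀ z : Fin 100, p z = true → ∃ σ ∈ fixS K F, σ (⟨root, hr⟩ : Fin 100) = z := by
  intro z hz
  have h1 := range_all hcov z z.2
  rw [hz] at h1
  have hmem : (z : ℕ) ∈ seenL root C := by simpa using h1
  have hroot : InOrb F ⟨root, hr⟩ root := ⟨1, (fixS K F).one_mem, rfl⟩
  have hin : InOrb F ⟨root, hr⟩ z := by
    rcases List.mem_cons.mp hmem with e | hm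
    · rw [e]
      exact hroot
    · obtain ⟨t, ht, e⟩ := List.mem_map.mp hm
      rw [← e]
      exact orb_step W F hfix ⟨root, hr⟩ C [root]
        (fun a ha => by rw [List.mem_singleton.mp ha]; exact hroot) hok t ht
  obtain ⟨σ, hσ, e⟩ := hin
  exact ⟨σ, hσ, Fin.ext e⟩

theorem orb_pair (W : List (List ℕ)) (F : List ℕ) (root : ℕ) (hr : root < 100)
    (C : List (ℕ × ℕ × ℕ)) (p : ℕ → Bool) (hfix : fixOK W F = true)
    (hok : orbOK W [root] C = true) (hcov : covP p (seenL root C) = true)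
    (z z' : Fin 100) (hz : p z = true) (hz' : p z' = true) : ∃ σ ∈ fixS K F, σ z = z' := by
  obtain ⟨σ, hσ, e⟩ := orb_cover W F root hr C p hfix hok hcov z hz
  obtain ⟨σ', hσ', e'⟩ := orb_cover W F root hr C p hfix hok hcov z' hz'
  refine ⟨σ' * σ⁻¹, (fixS K F).mul_mem hσ' ((fixS K F).inv_mem hσ), ?_⟩
  have e1 : σ⁻¹ z = ⟨root, hr⟩ := by
    rw [Equiv.Perm.inv_eq_iff_eq]
    exact e.symm
  rw [Equiv.Perm.mul_apply, e1]
  exact e'

theorem lb (W : List (List ℕ)) (F : List ℕ) (root : ℕ) (hr : root < 100)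
    (C : List (ℕ × ℕ × ℕ)) (n : ℕ) (hfix : fixOK W F = true)
    (hok : orbOK W [root] C = true) (hcov : covP (clsP F root) (seenL root C) = true)
    (hcnt : sumTo 100 (fun z => if clsP F root z then 1 else 0) = n) :
    n ≤ (MulAction.orbit ↥(fixS K F) (⟨root, hr⟩ : Fin 100)).ncard := by
  rw [← hcnt, ← cls_card]
  refine Set.ncard_le_ncard (fun z hz => ?_) (Set.toFinite _)
  obtain ⟨σ, hσ, e⟩ := orb_cover W F root hr C _ hfix hok hcov z hz
  exact ⟨⟨σ, hσ⟩, e⟩

/-! ### Propagation -/

theorem prop_step (σ : P) (hσ : σ ∈ Aut) :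
    ∀ (C : List (ℕ × List ℕ)) (fx : List ℕ),
      (∀ f ∈ fx, ∀ h : f < 100, σ ⟨f, h⟩ = ⟨f, h⟩) → propOK fx C = true →
      ∀ t ∈ C, ∀ h : t.1 < 100, σ ⟨t.1, h⟩ = ⟨t.1, h⟩
  | [], _, _, _ => fun t ht => absurd ht List.not_mem_nil
  | (w, D) :: rest, fx, hfx, hok => by
    simp only [propOK, Bool.and_eq_true] at hok
    obtain ⟨⟨hD, hz⟩, hrest⟩ := hok
    have hw : ∀ h : w < 100, σ ⟨w, h⟩ = ⟨w, h⟩ := by
      intro h
      have h1 := range_all hz (σ ⟨w, h⟩ : Fin 100) (σ ⟨w, h⟩).2
      rw [Bool.or_eq_true] at h1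
      rcases h1 with h1 | h2
      · exact Fin.ext (beq_iff_eq.mp h1)
      · exfalso
        rw [List.any_eq_true] at h2
        obtain ⟨f, hf, hne⟩ := h2
        have hDf := List.all_eq_true.mp hD f hf
        rw [Bool.and_eq_true, decide_eq_true_eq] at hDf
        have hffx : f ∈ fx := by simpa using hDf.1
        have e := hσ ⟨w, h⟩ ⟨f, hDf.2⟩
        rw [hfx f hffx hDf.2] at e
        rw [bne_iff_ne] at hne
        exact hne e
    intro t ht
    rcases List.mem_cons.mp ht with rfl | ht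
    · exact hw
    · refine prop_step σ hσ rest (w :: fx) (fun f hf => ?_) hrest t ht
      rcases List.mem_cons.mp hf with rfl | hf
      · exact hw
      · exact hfx f hf

/-! ### The odd automorphism -/

def mkF (a : ℕ) : Fin 100 := ⟨a % 100, Nat.mod_lt _ (by norm_num)⟩

def swapsP : List (ℕ × ℕ) → P
  | [] => 1
  | s :: l => Equiv.swap (mkF s.1) (mkF s.2) * swapsP l

theorem swapsP_apply (l : List (ℕ × ℕ)) (x : Fin 100) :
    ((swapsP l x : Fin 100) : ℕ) = swact l x := by
  induction l with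
  | nil => rfl
  | cons s l ih =>
    show ((Equiv.swap (mkF s.1) (mkF s.2) (swapsP l x) : Fin 100) : ℕ) =
      sw1 (s.1 % 100) (s.2 % 100) (swact l x)
    rw [← ih]
    generalize swapsP l x = y
    unfold sw1
    rw [Equiv.swap_apply_def]
    by_cases h1 : y = mkF s.1
    · rw [if_pos h1, if_pos (by rw [h1]; rfl)]
      rfl
    · have n1 : ¬ (y : ℕ) = s.1 % 100 := fun e => h1 (Fin.ext e)
      rw [if_neg h1, if_neg n1]
      by_cases h2 : y = mkF s.2
      · rw [if_pos h2, if_pos (by rw [h2]; rfl)]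
        rfl
      · have n2 : ¬ (y : ℕ) = s.2 % 100 := fun e => h2 (Fin.ext e)
        rw [if_neg h2, if_neg n2]

theorem sign_swapsP : ∀ l : List (ℕ × ℕ), (∀ s ∈ l, mkF s.1 ≠ mkF s.2) →
    Equiv.Perm.sign (swapsP l) = (-1) ^ l.length
  | [], _ => by
    rw [swapsP, map_one, List.length_nil, pow_zero]
  | s :: l, h => by
    rw [swapsP, map_mul, Equiv.Perm.sign_swap (h s List.mem_cons_self),
      sign_swapsP l (fun t ht => h t (List.mem_cons_of_mem _ ht)), List.length_cons, pow_succ,
      mul_comm]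

theorem swOK : (List.range 100).all (fun x => ap tauL x == swact swapsL x) = true := by
  decide +kernel

theorem swne : swapsL.all (fun s => s.1 % 100 != s.2 % 100) = true := by decide +kernel

theorem swlen : swapsL.length = 43 := by decide +kernel

theorem pt_eq : pt = swapsP swapsL := by
  apply Equiv.ext
  intro x
  apply Fin.ext
  rw [swapsP_apply]
  exact beq_iff_eq.mp (range_all swOK x x.2)

theorem sign_pt : Equiv.Perm.sign pt = -1 := by
  have hne : ∀ s ∈ swapsL, mkF s.1 ≠ mkF s.2 := by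
    intro s hs h
    have := List.all_eq_true.mp swne s hs
    rw [bne_iff_ne] at this
    exact this (congrArg Fin.val h)
  rw [pt_eq, sign_swapsP swapsL hne, swlen]
  exact Odd.neg_one_pow (by decide)

/-! ### The checks -/

theorem fix0 : fixOK W0 [] = true := by decide +kernel

theorem fix1 : fixOK W1 [0] = true := by decide +kernel

theorem fix2 : fixOK W2 [1, 0] = true := by decide +kernel

theorem fix3 : fixOK W3 [99, 1, 0] = true := by decide +kernel

theorem ok0 : orbOK W0 [0] C0 = true := by decide +kernel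

theorem ok1 : orbOK W1 [1] C1 = true := by decide +kernel

theorem ok2 : orbOK W2 [99] C2 = true := by decide +kernel

theorem ok3 : orbOK W3 [78] C3 = true := by decide +kernel

theorem ok63 : orbOK W1 [37] C63 = true := by decide +kernel

theorem cov0 : covP (clsP [] 0) (seenL 0 C0) = true := by decide +kernel

theorem cov1 : covP (clsP [0] 1) (seenL 1 C1) = true := by decide +kernel

theorem cov2 : covP (clsP [1, 0] 99) (seenL 99 C2) = true := by decide +kernel

theorem cov3 : covP (clsP [99, 1, 0] 78) (seenL 78 C3) = true := by decide +kernel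

theorem cnt0 : sumTo 100 (fun z => if clsP [] 0 z then 1 else 0) = 100 := by decide +kernel

theorem cnt1 : sumTo 100 (fun z => if clsP [0] 1 z then 1 else 0) = 36 := by decide +kernel

theorem cnt2 : sumTo 100 (fun z => if clsP [1, 0] 99 z then 1 else 0) = 42 := by decide +kernel

theorem cnt3 : sumTo 100 (fun z => if clsP [99, 1, 0] 78 z then 1 else 0) = 4 := by
  decide +kernel

theorem covT : covP (fun _ => true) (seenL 0 C0) = true := by decide +kernel

theorem covA : covP (fun z => relN z 0 == 1) (seenL 1 C1) = true := by decide +kernel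

theorem covN : covP (fun z => relN z 0 == 0) (seenL 37 C63) = true := by decide +kernel

theorem cnt37 : sumTo 100 (fun z => if (fun z : ℕ => relN z 0 != 0) z then 1 else 0) = 37 := by
  decide +kernel

theorem cnt64 : sumTo 100 (fun z => if (fun z : ℕ => relN z 0 != 1) z then 1 else 0) = 64 := by
  decide +kernel

theorem last2 : (List.range 100).all
    (fun z => !(clsP [78, 99, 1, 0] 2 z) || (z == 2 || z == 33)) = true := by decide +kernel

theorem propc : propOK [2, 78, 99, 1, 0] pcert = true := by decide +kernel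

theorem covall : (List.range 100).all
    (fun z => ([2, 78, 99, 1, 0] ++ pcert.map (fun t : ℕ × List ℕ => t.1)).contains z) = true := by
  decide +kernel

theorem taufix : [78, 99, 1, 0].all (fun f => ap tauL f == f) = true := by decide +kernel

theorem tau2 : ap tauL 2 = 33 := by decide +kernel

/-! ### The last stabiliser -/

theorem trivial_of_fix5 (σ : P) (hσ : σ ∈ Aut)
    (hfix : ∀ f ∈ [2, 78, 99, 1, 0], ∀ h : f < 100, σ ⟨f, h⟩ = ⟨f, h⟩) : σ = 1 := by
  apply Equiv.ext
  intro x
  have h1 := range_all covall x x.2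
  have hm : (x : ℕ) ∈ [2, 78, 99, 1, 0] ++ pcert.map (fun t : ℕ × List ℕ => t.1) := by simpa using h1
  rcases List.mem_append.mp hm with h | h
  · exact hfix x h x.2
  · obtain ⟨t, ht, e⟩ := List.mem_map.mp h
    have hlt : t.1 < 100 := by
      rw [e]
      exact x.2
    have key := prop_step σ hσ pcert [2, 78, 99, 1, 0] hfix propc t ht hlt
    have hx : x = ⟨t.1, hlt⟩ := Fin.ext e.symm
    rw [hx]
    exact key

theorem hF4 : ∀ f ∈ [78, 99, 1, 0], f < 100 := by decide

theorem fix4_trivial (σ : P) (hσ : σ ∈ fixS G [78, 99, 1, 0]) : σ = 1 := by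
  have hA : σ ∈ Aut := hσ.1.1
  have hsign : Equiv.Perm.sign σ = 1 := Equiv.Perm.mem_alternatingGroup.mp hσ.1.2
  have hc : clsP [78, 99, 1, 0] 2 (σ (⟨2, by norm_num⟩ : Fin 100)) = true :=
    cls_of_fix [78, 99, 1, 0] hF4 σ ⟨hA, hσ.2⟩ (⟨2, by norm_num⟩ : Fin 100)
  have h1 := range_all last2 (σ (⟨2, by norm_num⟩ : Fin 100)) (σ (⟨2, by norm_num⟩ : Fin 100)).2
  rw [hc] at h1
  simp only [Bool.not_true, Bool.false_or, Bool.or_eq_true, beq_iff_eq] at h1
  rcases h1 with h2 | h33
  · apply trivial_of_fix5 σ hA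
    intro f hf h
    rcases List.mem_cons.mp hf with rfl | hf
    · exact Fin.ext h2
    · exact hσ.2 f hf h
  · exfalso
    have hpt : pt ∈ Aut := permOf_mem_Aut _ _ _ autt
    have hρ : pt⁻¹ * σ = 1 := by
      apply trivial_of_fix5 _ (Aut.mul_mem (Aut.inv_mem hpt) hA)
      intro f hf h
      rw [Equiv.Perm.mul_apply, Equiv.Perm.inv_eq_iff_eq]
      rcases List.mem_cons.mp hf with rfl | hf
      · apply Fin.ext
        exact h33.trans tau2.symm
      · rw [hσ.2 f hf h]
        apply Fin.ext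
        have := List.all_eq_true.mp taufix f hf
        exact (beq_iff_eq.mp this).symm
    have hσpt : pt = σ := eq_of_inv_mul_eq_one hρ
    rw [← hσpt, sign_pt] at hsign
    exact absurd hsign (by decide)

/-! ### The order -/

theorem G_le_Aut : G ≤ Aut := inf_le_left

theorem card_G_le : Nat.card ↥G ≤ 604800 := by
  have c0 := chain G [] 0 (by norm_num)
  have c1 := chain G [0] 1 (by norm_num)
  have c2 := chain G [1, 0] 99 (by norm_num)
  have c3 := chain G [99, 1, 0] 78 (by norm_num)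
  have u0 := ub G G_le_Aut [] (by decide) 0 (by norm_num) 100 cnt0
  have u1 := ub G G_le_Aut [0] (by decide) 1 (by norm_num) 36 cnt1
  have u2 := ub G G_le_Aut [1, 0] (by decide) 99 (by norm_num) 42 cnt2
  have u3 := ub G G_le_Aut [99, 1, 0] (by decide) 78 (by norm_num) 4 cnt3
  have h4 : Nat.card ↥(fixS G [78, 99, 1, 0]) = 1 := by
    rw [Subgroup.card_eq_one, Subgroup.eq_bot_iff_forall]
    exact fun σ hσ => fix4_trivial σ hσ
  have e : Nat.card ↥(fixS G []) = Nat.card ↥G := by rw [fixS_nil]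
  rw [← e, c0, c1, c2, c3, h4]
  calc _ ≤ 100 * (36 * (42 * (4 * 1))) :=
        Nat.mul_le_mul u0 (Nat.mul_le_mul u1 (Nat.mul_le_mul u2 (Nat.mul_le_mul u3 le_rfl)))
    _ = 604800 := by norm_num

theorem card_K_ge : 604800 ≤ Nat.card ↥K := by
  have c0 := chain K [] 0 (by norm_num)
  have c1 := chain K [0] 1 (by norm_num)
  have c2 := chain K [1, 0] 99 (by norm_num)
  have c3 := chain K [99, 1, 0] 78 (by norm_num)
  have l0 := lb W0 [] 0 (by norm_num) C0 100 fix0 ok0 cov0 cnt0
  have l1 := lb W1 [0] 1 (by norm_num) C1 36 fix1 ok1 cov1 cnt1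
  have l2 := lb W2 [1, 0] 99 (by norm_num) C2 42 fix2 ok2 cov2 cnt2
  have l3 := lb W3 [99, 1, 0] 78 (by norm_num) C3 4 fix3 ok3 cov3 cnt3
  have e : Nat.card ↥(fixS K []) = Nat.card ↥K := by rw [fixS_nil]
  rw [← e, c0, c1, c2, c3]
  calc 604800 = 100 * (36 * (42 * (4 * 1))) := by norm_num
    _ ≤ _ := Nat.mul_le_mul l0 (Nat.mul_le_mul l1 (Nat.mul_le_mul l2
        (Nat.mul_le_mul l3 Nat.card_pos)))

theorem card_G : Nat.card ↥G = 604800 :=
  le_antisymm card_G_le (card_K_ge.trans (Subgroup.card_le_of_le K_le))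

theorem K_eq : K = G :=
  Subgroup.eq_of_le_of_card_ge K_le (by rw [card_G]; exact card_K_ge)

/-! ### Simplicity -/

theorem x0_orbit (z : Fin 100) : ∃ g ∈ G, g (⟨0, by norm_num⟩ : Fin 100) = z := by
  obtain ⟨σ, hσ, e⟩ := orb_cover W0 [] 0 (by norm_num) C0 (fun _ => true) fix0 ok0 covT z rfl
  exact ⟨σ, K_le hσ.1, e⟩

theorem adj_pair (z z' : Fin 100) (hz : relN z 0 = 1) (hz' : relN z' 0 = 1) :
    ∃ g ∈ G, g (⟨0, by norm_num⟩ : Fin 100) = ⟨0, by norm_num⟩ ∧ g z = z' := by
  obtain ⟨σ, hσ, e⟩ := orb_pair W1 [0] 1 (by norm_num) C1 (fun z => relN z 0 == 1) fix1 ok1 covA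
    z z' (beq_iff_eq.mpr hz) (beq_iff_eq.mpr hz')
  exact ⟨σ, K_le hσ.1, hσ.2 0 List.mem_cons_self (by norm_num), e⟩

theorem non_pair (z z' : Fin 100) (hz : relN z 0 = 0) (hz' : relN z' 0 = 0) :
    ∃ g ∈ G, g (⟨0, by norm_num⟩ : Fin 100) = ⟨0, by norm_num⟩ ∧ g z = z' := by
  obtain ⟨σ, hσ, e⟩ := orb_pair W1 [0] 37 (by norm_num) C63 (fun z => relN z 0 == 0) fix1 ok63
    covN z z' (beq_iff_eq.mpr hz) (beq_iff_eq.mpr hz')
  exact ⟨σ, K_le hσ.1, hσ.2 0 List.mem_cons_self (by norm_num), e⟩

theorem rel_cases (z : ℕ) : relN z 0 = 2 ∨ relN z 0 = 1 ∨ relN z 0 = 0 := by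
  unfold relN
  split_ifs
  · exact Or.inl rfl
  · exact Or.inr (Or.inl rfl)
  · exact Or.inr (Or.inr rfl)

theorem rel_two (z : Fin 100) (h : relN z 0 = 2) : z = ⟨0, by norm_num⟩ := by
  unfold relN at h
  split_ifs at h with h1 h2
  · exact Fin.ext h1
  · exact absurd h (by norm_num)

theorem simpleG : IsSimpleGroup ↥G := by
  have hcard := card_G
  have : Nontrivial ↥G := Finite.one_lt_card_iff_nontrivial.mp (by rw [hcard]; norm_num)
  refine ⟨fun N hNn => ?_⟩
  by_cases hN : N = ⊥
  · exact Or.inl hN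
  right
  have hx0 : ∃ x0 : Fin 100, x0 = ⟨0, by norm_num⟩ := ⟨_, rfl⟩
  obtain ⟨x0, hx0⟩ := hx0
  have hdvd : ({y : Fin 100 | ∃ n ∈ N, n • x0 = y}).ncard ∣ 100 := by
    have h := PrimSimple2.normal_orbit_dvd x0 N hNn
    have horb : MulAction.orbit ↥G x0 = Set.univ := by
      ext z
      simp only [Set.mem_univ, iff_true]
      obtain ⟨g, hg, e⟩ := x0_orbit z
      rw [hx0]
      exact ⟨⟨g, hg⟩, e⟩
    rw [horb, Set.ncard_univ, Nat.card_eq_fintype_card, Fintype.card_fin] at h
    exact h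
  have hx0B : x0 ∈ {y : Fin 100 | ∃ n ∈ N, n • x0 = y} := ⟨1, N.one_mem, one_smul _ _⟩
  have hinv : ∀ g : ↥G, (g : P) x0 = x0 → ∀ y ∈ {y : Fin 100 | ∃ n ∈ N, n • x0 = y},
      (g : P) y ∈ {y : Fin 100 | ∃ n ∈ N, n • x0 = y} := by
    rintro g hg y ⟨n, hn, rfl⟩
    refine ⟨g * n * g⁻¹, hNn.conj_mem n hn g, ?_⟩
    have hgi : ((g : P)⁻¹) x0 = x0 := by
      rw [Equiv.Perm.inv_eq_iff_eq]
      exact hg.symm
    show (g : P) ((n : P) ((g : P)⁻¹ x0)) = (g : P) ((n : P) x0)
    rw [hgi]
  have hadj : ∀ z z' : Fin 100, relN z 0 = 1 → relN z' 0 = 1 →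
      z ∈ {y : Fin 100 | ∃ n ∈ N, n • x0 = y} → z' ∈ {y : Fin 100 | ∃ n ∈ N, n • x0 = y} := by
    intro z z' hz hz' hzB
    obtain ⟨g, hg, hg0, e⟩ := adj_pair z z' hz hz'
    have := hinv ⟨g, hg⟩ (by rw [hx0]; exact hg0) z hzB
    rw [← e]
    exact this
  have hnon : ∀ z z' : Fin 100, relN z 0 = 0 → relN z' 0 = 0 →
      z ∈ {y : Fin 100 | ∃ n ∈ N, n • x0 = y} → z' ∈ {y : Fin 100 | ∃ n ∈ N, n • x0 = y} := by
    intro z z' hz hz' hzB
    obtain ⟨g, hg, hg0, e⟩ := non_pair z z' hz hz'
    have := hinv ⟨g, hg⟩ (by rw [hx0]; exact hg0) z hzB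
    rw [← e]
    exact this
  have hB : {y : Fin 100 | ∃ n ∈ N, n • x0 = y} = Set.univ := by
    by_cases c1 : ∃ z ∈ {y : Fin 100 | ∃ n ∈ N, n • x0 = y}, relN z 0 = 1
    · obtain ⟨a, haB, ha⟩ := c1
      by_cases c0 : ∃ z ∈ {y : Fin 100 | ∃ n ∈ N, n • x0 = y}, relN z 0 = 0
      · obtain ⟨b, hbB, hb⟩ := c0
        ext z
        simp only [Set.mem_univ, iff_true]
        rcases rel_cases z with h | h | h
        · rw [rel_two z h, ← hx0]
          exact hx0B
        · exact hadj a z ha h haB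
        · exact hnon b z hb h hbB
      · exfalso
        have hBeq : {y : Fin 100 | ∃ n ∈ N, n • x0 = y} =
            {z : Fin 100 | (fun z : ℕ => relN z 0 != 0) z = true} := by
          ext z
          constructor
          · intro hz
            show (relN z 0 != 0) = true
            rw [bne_iff_ne]
            intro h
            exact c0 ⟨z, hz, h⟩
          · intro hz
            have hz' : relN z 0 ≠ 0 := bne_iff_ne.mp hz
            rcases rel_cases z with h | h | h
            · rw [rel_two z h, ← hx0]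
              exact hx0B
            · exact hadj a z ha h haB
            · exact absurd h hz'
        rw [hBeq, cls_card (fun z : ℕ => relN z 0 != 0), cnt37] at hdvd
        exact absurd hdvd (by norm_num)
    · by_cases c0 : ∃ z ∈ {y : Fin 100 | ∃ n ∈ N, n • x0 = y}, relN z 0 = 0
      · exfalso
        obtain ⟨b, hbB, hb⟩ := c0
        have hBeq : {y : Fin 100 | ∃ n ∈ N, n • x0 = y} =
            {z : Fin 100 | (fun z : ℕ => relN z 0 != 1) z = true} := by
          ext z
          constructor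
          · intro hz
            show (relN z 0 != 1) = true
            rw [bne_iff_ne]
            intro h
            exact c1 ⟨z, hz, h⟩
          · intro hz
            have hz' : relN z 0 ≠ 1 := bne_iff_ne.mp hz
            rcases rel_cases z with h | h | h
            · rw [rel_two z h, ← hx0]
              exact hx0B
            · exact absurd h hz'
            · exact hnon b z hb h hbB
        rw [hBeq, cls_card (fun z : ℕ => relN z 0 != 1), cnt64] at hdvd
        exact absurd hdvd (by norm_num)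
      · exfalso
        have hfixN : ∀ n ∈ N, (n : P) x0 = x0 := by
          intro n hn
          have hmem : (n : P) x0 ∈ {y : Fin 100 | ∃ n ∈ N, n • x0 = y} := ⟨n, hn, rfl⟩
          rcases rel_cases ((n : P) x0) with h | h | h
          · rw [rel_two _ h, hx0]
          · exact absurd ⟨_, hmem, h⟩ c1
          · exact absurd ⟨_, hmem, h⟩ c0
        apply hN
        rw [Subgroup.eq_bot_iff_forall]
        intro n hn
        apply Subtype.ext
        apply Equiv.ext
        intro y
        obtain ⟨g, hg, e⟩ := x0_orbit y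
        have hc : (⟨g, hg⟩ : ↥G)⁻¹ * n * (⟨g, hg⟩ : ↥G) ∈ N := by
          have := hNn.conj_mem n hn (⟨g, hg⟩ : ↥G)⁻¹
          rwa [inv_inv] at this
        have hfix := hfixN _ hc
        have hfix' : g⁻¹ ((n : P) (g x0)) = x0 := hfix
        rw [Equiv.Perm.inv_eq_iff_eq] at hfix'
        rw [← e, ← hx0]
        exact hfix'
  have h100 : 100 ∣ Nat.card ↥N := by
    have h1 := Subgroup.card_mul_index (MulAction.stabilizer ↥N x0)
    have horbN : MulAction.orbit ↥N x0 = Set.univ := by
      ext z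
      simp only [Set.mem_univ, iff_true]
      have hz : z ∈ {y : Fin 100 | ∃ n ∈ N, n • x0 = y} := by
        rw [hB]
        trivial
      obtain ⟨n, hn, e⟩ := hz
      exact ⟨⟨n, hn⟩, e⟩
    rw [MulAction.index_stabilizer, horbN, Set.ncard_univ,
      Nat.card_eq_fintype_card (α := Fin 100), Fintype.card_fin] at h1
    exact Dvd.intro_left _ h1
  have hidx : Nat.card ↥N * N.index = 604800 := by rw [Subgroup.card_mul_index, hcard]
  have hcop : Nat.Coprime 5 N.index := by
    obtain ⟨m, hm⟩ := h100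
    rw [hm] at hidx
    have h6 : m * N.index = 6048 := by
      have : 100 * (m * N.index) = 100 * 6048 := by
        rw [← mul_assoc]
        exact hidx
      exact Nat.eq_of_mul_eq_mul_left (by norm_num) this
    refine (Nat.Prime.coprime_iff_not_dvd Nat.prime_five).mpr (fun h5 => ?_)
    have : 5 ∣ 6048 := by
      rw [← h6]
      exact Dvd.dvd.mul_left h5 m
    exact absurd this (by norm_num)
  have h5N : ∀ t : ↥G, t ^ 5 = 1 → t ∈ N := by
    intro t ht
    have := hNn
    have hq5 : ((t : ↥G ⧸ N)) ^ 5 = 1 := by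
      rw [← QuotientGroup.mk_pow, ht]
      rfl
    have hqi : ((t : ↥G ⧸ N)) ^ N.index = 1 := pow_card_eq_one'
    have ho : orderOf (t : ↥G ⧸ N) ∣ Nat.gcd 5 N.index :=
      Nat.dvd_gcd (orderOf_dvd_of_pow_eq_one hq5) (orderOf_dvd_of_pow_eq_one hqi)
    rw [hcop.gcd_eq_one] at ho
    have h1 : (t : ↥G ⧸ N) = 1 := orderOf_eq_one_iff.mp (Nat.dvd_one.mp ho)
    exact (QuotientGroup.eq_one_iff t).mp h1
  have hp0 : (⟨p0, p0_mem⟩ : ↥G) ∈ N := h5N _ (Subtype.ext p0_pow)
  have hp1 : (⟨p1, p1_mem⟩ : ↥G) ∈ N := h5N _ (Subtype.ext p1_pow)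
  rw [eq_top_iff]
  intro g _
  have hgK : (g : P) ∈ K := by
    rw [K_eq]
    exact g.2
  have hle : K ≤ N.map G.subtype := by
    refine (Subgroup.closure_le _).mpr ?_
    intro σ hσ
    rcases hσ with rfl | rfl
    · exact ⟨_, hp0, rfl⟩
    · exact ⟨_, hp1, rfl⟩
  obtain ⟨n, hn, e⟩ := hle hgK
  have : n = g := Subtype.ext e
  rw [← this]
  exact hn

theorem isJ2 : IsSimpleGroup ↥G ∧ Nat.card ↥G = 604800 := ⟨simpleG, card_G⟩

end Cfsg.Agent.Lib.Helper11.J2L
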