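import Mathlib
import Cfsg.Prelude.Def_SporadicCombinatorics
import Cfsg.Agent.Lib.Helper3.Leech3
import Cfsg.Agent.S5592
import Cfsg.Agent.S1588
import Cfsg.Agent.S0394
import Cfsg.Agent.S0395
import Cfsg.Agent.S0396

set_option autoImplicit false

namespace Cfsg.Agent.Lib.Helper11.LeechCross

open Cfsg Cfsg.Agent.Lib.Helper3.Golay2 Cfsg.Agent.Lib.Helper3.Leech
open Cfsg.Agent.Lib.Helper3.Leech3
open Matrix

/-! ### The sublattice `2Λ` and the classes modulo it -/

/-- `2Λ`. -/
def twoL : AddSubgroup (GolayPt → ℤ) := leechLattice.map dbl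

theorem dbl_eq (z : GolayPt → ℤ) : dbl z = 2 • z := by
  funext i
  simp [dbl_apply]

theorem mem_twoL (y : GolayPt → ℤ) : y ∈ twoL ↔ ∃ z ∈ leechLattice, y = 2 • z := by
  unfold twoL
  rw [AddSubgroup.mem_map]
  constructor
  · rintro ⟨z, hz, rfl⟩
    exact ⟨z, hz, dbl_eq z⟩
  · rintro ⟨z, hz, rfl⟩
    exact ⟨z, hz, dbl_eq z⟩

theorem twoL_le : twoL ≤ leechLattice := by
  intro y hy
  obtain ⟨z, hz, rfl⟩ := (mem_twoL y).mp hy
  rw [two_nsmul]
  exact add_mem hz hz

theorem index_twoL : twoL.index = 2 ^ 60 := by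
  unfold twoL
  rw [AddSubgroup.index_map, (AddMonoidHom.ker_eq_bot_iff dbl).mpr dbl_inj, sup_bot_eq,
    index_leech, index_range_dbl]
  norm_num

theorem relIndex_twoL : twoL.relIndex leechLattice = 2 ^ 24 := by
  have h := AddSubgroup.relIndex_mul_index twoL_le
  rw [index_twoL, index_leech] at h
  have h2 : (2 : ℕ) ^ 60 = 2 ^ 24 * 2 ^ 36 := by norm_num
  rw [h2] at h
  exact Nat.eq_of_mul_eq_mul_right (by norm_num) h

/-- `Λ / 2Λ`. -/
abbrev Q : Type := ↥leechLattice ⧸ twoL.addSubgroupOf leechLattice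

theorem card_Q : Nat.card Q = 2 ^ 24 := relIndex_twoL

/-- The class of a lattice vector. -/
def cls (v : ↥leechLattice) : Q := QuotientAddGroup.mk v

theorem cls_eq_iff (v w : ↥leechLattice) :
    cls v = cls w ↔ ∃ z ∈ leechLattice, (v : GolayPt → ℤ) - (w : GolayPt → ℤ) = 2 • z := by
  unfold cls
  rw [QuotientAddGroup.eq, AddSubgroup.mem_addSubgroupOf, mem_twoL]
  constructor
  · rintro ⟨z, hz, h⟩
    refine ⟨-z, neg_mem hz, ?_⟩
    have h1 : (v : GolayPt → ℤ) - (w : GolayPt → ℤ) = -(((-v + w : ↥leechLattice)) : GolayPt → ℤ) := by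
      push_cast
      abel
    rw [h1, h, smul_neg]
  · rintro ⟨z, hz, h⟩
    refine ⟨-z, neg_mem hz, ?_⟩
    have h1 : (((-v + w : ↥leechLattice)) : GolayPt → ℤ) = -((v : GolayPt → ℤ) - (w : GolayPt → ℤ)) := by
      push_cast
      abel
    rw [h1, h, smul_neg]


/-! ### At most 48 vectors in a frame -/

open Cfsg.Agent.S1588 in
/-- A set of vectors of the same nonzero norm, pairwise equal, opposite or orthogonal, has at
most 48 elements. -/
theorem card_le_48_gen (B : Matrix (Fin 24) (Fin 24) ℤ) (A : Finset (Fin 24 → ℤ)) (N : ℤ)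
    (hN : N ≠ 0) (h8 : ∀ y ∈ A, bl B y y = N)
    (horth : ∀ y ∈ A, ∀ z ∈ A, z ≠ y → z ≠ -y → bl B y z = 0) : A.card ≤ 48 := by
  classical
  have hbl : ∀ y z : Fin 24 → ℤ, bl B (rep y) (rep z) = bl B y z ∨
      bl B (rep y) (rep z) = - bl B y z := by
    intro y z
    rcases rep_cases y with h | h <;> rcases rep_cases z with h' | h' <;> rw [h, h'] <;>
      simp [bl_neg_left, bl_neg_right]
  have hnz : ∀ y ∈ A, y ≠ 0 := by
    intro y hy h0
    have := h8 y hy
    rw [h0, bl_zero_left] at this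
    exact hN this.symm
  have hP : (A.image rep).card ≤ 24 := by
    apply card_le_of_orth B
    · intro p hp
      obtain ⟨y, hy, rfl⟩ := Finset.mem_image.mp hp
      rcases hbl y y with h | h <;> rw [h, h8 y hy]
      · exact hN
      · exact neg_ne_zero.mpr hN
    · intro p hp q hq hpq
      obtain ⟨y, hy, rfl⟩ := Finset.mem_image.mp hp
      obtain ⟨z, hz, rfl⟩ := Finset.mem_image.mp hq
      have hzy : z ≠ y := fun h => hpq (by rw [h])
      have hzy' : z ≠ -y := by
        intro h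
        have h1 := rep_pos y (hnz y hy)
        have h2 := rep_pos z (hnz z hz)
        rcases rep_cases y with e | e <;> rcases rep_cases z with e' | e'
        · rw [e] at h1; rw [e', h] at h2
          simp only [neg_neg] at h1 h2
          exact lt_asymm h1 h2
        · apply hpq; rw [e, e', h, neg_neg]
        · apply hpq; rw [e, e', h]
        · rw [e] at h1; rw [e', h] at h2
          simp only [neg_neg] at h1 h2
          exact lt_asymm h1 h2
      have := horth y hy z hz hzy hzy'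
      rcases hbl y z with h | h <;> rw [h, this] <;> simp
  have hA : A.card ≤ 2 * (A.image rep).card := by
    apply Finset.card_le_mul_card_image
    intro p _
    have : (A.filter fun x => rep x = p) ⊆ {p, -p} := by
      intro y hy
      rw [Finset.mem_filter] at hy
      rw [Finset.mem_insert, Finset.mem_singleton]
      rcases rep_cases y with e | e
      · left; rw [← hy.2, e]
      · right; rw [← hy.2, e, neg_neg]
    exact (Finset.card_le_card this).trans Finset.card_le_two
  omega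

/-- Coordinates indexed by `Fin 24`. -/
noncomputable def eqv : GolayPt ≃ Fin 24 := Fintype.equivFinOfCardEq card_golayPt

/-- Transport of lattice vectors to `Fin 24 → ℤ`. -/
noncomputable def psi (v : ↥leechLattice) : Fin 24 → ℤ := fun j => (v : GolayPt → ℤ) (eqv.symm j)

theorem psi_inj : Function.Injective psi := by
  intro v w h
  apply Subtype.ext
  funext i
  have := congrFun h (eqv i)
  simpa [psi] using this

theorem psi_neg (v : ↥leechLattice) : psi (-v) = -psi v := by
  funext j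
  simp [psi]

theorem bl_psi (v w : ↥leechLattice) :
    Cfsg.Agent.S1588.bl 1 (psi v) (psi w) = dotInt (v : GolayPt → ℤ) (w : GolayPt → ℤ) := by
  unfold Cfsg.Agent.S1588.bl dotInt
  rw [Matrix.one_mulVec]
  unfold dotProduct psi
  exact Equiv.sum_comp eqv.symm (fun i => (v : GolayPt → ℤ) i * (w : GolayPt → ℤ) i)

theorem dotInt_self (x : GolayPt → ℤ) : dotInt x x = sqNorm x := by
  unfold dotInt sqNorm
  refine Finset.sum_congr rfl fun i _ => ?_
  ring

theorem frame_card_le (A : Finset ↥leechLattice)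
    (h64 : ∀ v ∈ A, sqNorm (v : GolayPt → ℤ) = 64)
    (horth : ∀ v ∈ A, ∀ w ∈ A, w ≠ v → w ≠ -v →
      dotInt (v : GolayPt → ℤ) (w : GolayPt → ℤ) = 0) : A.card ≤ 48 := by
  classical
  rw [← Finset.card_image_of_injective A psi_inj]
  apply card_le_48_gen 1 _ 64 (by norm_num)
  · intro y hy
    obtain ⟨v, hv, rfl⟩ := Finset.mem_image.mp hy
    rw [bl_psi, dotInt_self, h64 v hv]
  · intro y hy z hz hzy hzy'
    obtain ⟨v, hv, rfl⟩ := Finset.mem_image.mp hy
    obtain ⟨w, hw, rfl⟩ := Finset.mem_image.mp hz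
    rw [bl_psi]
    apply horth v hv w hw
    · intro h; exact hzy (by rw [h])
    · intro h; exact hzy' (by rw [h, psi_neg])

/-! ### Weights and the class bound -/

/-- The weight of a short vector. -/
noncomputable def wt (v : ↥leechLattice) : ℕ :=
  haveI := Classical.dec (v = 0)
  haveI := Classical.dec (sqNorm (v : GolayPt → ℤ) = 64)
  if v = 0 then 48 else if sqNorm (v : GolayPt → ℤ) = 64 then 1 else 24

theorem sqNorm_zero : sqNorm (0 : GolayPt → ℤ) = 0 := by
  unfold sqNorm; simp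

theorem sqNorm_neg (x : GolayPt → ℤ) : sqNorm (-x) = sqNorm x := by
  unfold sqNorm; simp

theorem wt_zero : wt 0 = 48 := by
  unfold wt; simp

theorem wt_64 (v : ↥leechLattice) (h : sqNorm (v : GolayPt → ℤ) = 64) : wt v = 1 := by
  have hv : v ≠ 0 := by
    rintro rfl
    rw [AddSubgroup.coe_zero, sqNorm_zero] at h
    omega
  unfold wt
  rw [if_neg hv, if_pos h]

theorem wt_other (v : ↥leechLattice) (hv : v ≠ 0) (h : sqNorm (v : GolayPt → ℤ) ≠ 64) :
    wt v = 24 := by
  unfold wt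
  rw [if_neg hv, if_neg h]

/-- Short vectors in one class (from `S5592`). -/
theorem key (v w : ↥leechLattice) (hv : sqNorm (v : GolayPt → ℤ) ≤ 64)
    (hw : sqNorm (w : GolayPt → ℤ) ≤ 64) (hc : cls v = cls w) (h1 : w ≠ v) (h2 : w ≠ -v) :
    sqNorm (v : GolayPt → ℤ) = 64 ∧ sqNorm (w : GolayPt → ℤ) = 64 ∧
      dotInt (v : GolayPt → ℤ) (w : GolayPt → ℤ) = 0 := by
  have hne : (v : GolayPt → ℤ) ≠ (w : GolayPt → ℤ) := fun h => h1 (Subtype.ext h).symm
  rcases Cfsg.Agent.S5592.result v w v.2 w.2 hne hv hw ((cls_eq_iff v w).mp hc) with h | h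
  · exfalso
    apply h2
    apply Subtype.ext
    rw [AddSubgroup.coe_neg, h, neg_neg]
  · exact h

theorem class_bound (A : Finset ↥leechLattice)
    (hle : ∀ v ∈ A, sqNorm (v : GolayPt → ℤ) ≤ 64) (hcls : ∀ v ∈ A, ∀ w ∈ A, cls v = cls w) :
    ∑ v ∈ A, wt v ≤ 48 := by
  classical
  rcases A.eq_empty_or_nonempty with hA | ⟨x, hxA⟩
  · rw [hA]; simp
  have hk : ∀ v ∈ A, ∀ w ∈ A, w ≠ v → w ≠ -v →
      sqNorm (v : GolayPt → ℤ) = 64 ∧ sqNorm (w : GolayPt → ℤ) = 64 ∧
        dotInt (v : GolayPt → ℤ) (w : GolayPt → ℤ) = 0 := by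
    intro v hv w hw h1 h2
    exact key v w (hle v hv) (hle w hw) (hcls v hv w hw) h1 h2
  by_cases hx8 : sqNorm (x : GolayPt → ℤ) = 64
  · have all8 : ∀ v ∈ A, sqNorm (v : GolayPt → ℤ) = 64 := by
      intro v hv
      by_cases e1 : v = x
      · rw [e1]; exact hx8
      by_cases e2 : v = -x
      · rw [e2, AddSubgroup.coe_neg, sqNorm_neg]; exact hx8
      exact (hk x hxA v hv e1 e2).2.1
    have : ∑ v ∈ A, wt v = A.card := by
      rw [Finset.card_eq_sum_ones]
      exact Finset.sum_congr rfl fun v hv => wt_64 v (all8 v hv)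
    rw [this]
    exact frame_card_le A all8 fun v hv w hw h1 h2 => (hk v hv w hw h1 h2).2.2
  · have sub : A ⊆ {x, -x} := by
      intro v hv
      rw [Finset.mem_insert, Finset.mem_singleton]
      by_contra h
      rw [not_or] at h
      exact hx8 (hk x hxA v hv h.1 h.2).1
    by_cases hx0 : x = 0
    · subst hx0
      have sub' : A ⊆ {0} := by
        intro v hv
        have := sub hv
        simpa using this
      calc ∑ v ∈ A, wt v ≤ ∑ v ∈ ({0} : Finset ↥leechLattice), wt v :=
            Finset.sum_le_sum_of_subset sub'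
        _ = 48 := by rw [Finset.sum_singleton, wt_zero]
    · have hw : ∀ v ∈ A, wt v ≤ 24 := by
        intro v hv
        have := sub hv
        rw [Finset.mem_insert, Finset.mem_singleton] at this
        rcases this with e | e
        · rw [e, wt_other x hx0 hx8]
        · have hne : -x ≠ 0 := fun h => hx0 (neg_eq_zero.mp h)
          have hb : sqNorm ((-x : ↥leechLattice) : GolayPt → ℤ) ≠ 64 := by
            rw [AddSubgroup.coe_neg, sqNorm_neg]; exact hx8
          rw [e, wt_other (-x) hne hb]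
      have h1 : ∑ v ∈ A, wt v ≤ A.card • 24 := Finset.sum_le_card_nsmul A wt 24 hw
      have h3 : A.card ≤ 2 := (Finset.card_le_card sub).trans Finset.card_le_two
      rw [smul_eq_mul] at h1
      omega


/-! ### The count -/

theorem ncard_sub (n : ℤ) :
    {v : ↥leechLattice | sqNorm (v : GolayPt → ℤ) = n}.ncard =
      {x : GolayPt → ℤ | x ∈ leechLattice ∧ sqNorm x = n}.ncard := by
  rw [← Set.ncard_image_of_injective _ Subtype.val_injective]
  congr 1
  ext x
  simp only [Set.mem_image, Set.mem_ofPred_eq]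
  constructor
  · rintro ⟨v, hv, rfl⟩
    exact ⟨v.2, hv⟩
  · rintro ⟨hx, hn⟩
    exact ⟨⟨x, hx⟩, hn, rfl⟩

open Classical in
/-- Every class of `Λ / 2Λ` has total weight exactly 48. -/
theorem core : ∃ T : Finset ↥leechLattice,
    (∀ v ∈ T, sqNorm (v : GolayPt → ℤ) ≤ 64) ∧
    (∀ v : ↥leechLattice, sqNorm (v : GolayPt → ℤ) = 64 → v ∈ T) ∧
    ∀ u : ↥leechLattice, ∑ v ∈ T.filter (fun v => cls v = cls u), wt v = 48 := by
  have h4 : {v : ↥leechLattice | sqNorm (v : GolayPt → ℤ) = 32}.ncard = 196560 := by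
    rw [ncard_sub]; exact Cfsg.Agent.S0394.result
  have h6 : {v : ↥leechLattice | sqNorm (v : GolayPt → ℤ) = 48}.ncard = 16773120 := by
    rw [ncard_sub]; exact Cfsg.Agent.S0395.result
  have h8 : {v : ↥leechLattice | sqNorm (v : GolayPt → ℤ) = 64}.ncard = 398034000 := by
    rw [ncard_sub]; exact Cfsg.Agent.S0396.result
  have f4 : {v : ↥leechLattice | sqNorm (v : GolayPt → ℤ) = 32}.Finite :=
    Set.finite_of_ncard_ne_zero (by rw [h4]; norm_num)
  have f6 : {v : ↥leechLattice | sqNorm (v : GolayPt → ℤ) = 48}.Finite :=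
    Set.finite_of_ncard_ne_zero (by rw [h6]; norm_num)
  have f8 : {v : ↥leechLattice | sqNorm (v : GolayPt → ℤ) = 64}.Finite :=
    Set.finite_of_ncard_ne_zero (by rw [h8]; norm_num)
  have c4 : f4.toFinset.card = 196560 := by rw [← h4, Set.ncard_eq_toFinset_card _ f4]
  have c6 : f6.toFinset.card = 16773120 := by rw [← h6, Set.ncard_eq_toFinset_card _ f6]
  have c8 : f8.toFinset.card = 398034000 := by rw [← h8, Set.ncard_eq_toFinset_card _ f8]
  have m4 : ∀ v, v ∈ f4.toFinset ↔ sqNorm (v : GolayPt → ℤ) = 32 := fun v => by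
    rw [Set.Finite.mem_toFinset]; rfl
  have m6 : ∀ v, v ∈ f6.toFinset ↔ sqNorm (v : GolayPt → ℤ) = 48 := fun v => by
    rw [Set.Finite.mem_toFinset]; rfl
  have m8 : ∀ v, v ∈ f8.toFinset ↔ sqNorm (v : GolayPt → ℤ) = 64 := fun v => by
    rw [Set.Finite.mem_toFinset]; rfl
  generalize f4.toFinset = F4 at c4 m4
  generalize f6.toFinset = F6 at c6 m6
  generalize f8.toFinset = F8 at c8 m8
  have hT : ∀ v, v ∈ insert 0 (F4 ∪ F6 ∪ F8) ↔
      (v = 0 ∨ sqNorm (v : GolayPt → ℤ) = 32 ∨ sqNorm (v : GolayPt → ℤ) = 48 ∨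
        sqNorm (v : GolayPt → ℤ) = 64) := by
    intro v
    rw [Finset.mem_insert, Finset.mem_union, Finset.mem_union, m4, m6, m8, or_assoc]
  have hTle : ∀ v ∈ insert 0 (F4 ∪ F6 ∪ F8), sqNorm (v : GolayPt → ℤ) ≤ 64 := by
    intro v hv
    rcases (hT v).mp hv with h | h | h | h
    · rw [h, AddSubgroup.coe_zero, sqNorm_zero]; norm_num
    all_goals omega
  have hsum : ∑ v ∈ insert 0 (F4 ∪ F6 ∪ F8), wt v = 48 * 2 ^ 24 := by
    have z0 : sqNorm ((0 : ↥leechLattice) : GolayPt → ℤ) = 0 := by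
      rw [AddSubgroup.coe_zero, sqNorm_zero]
    have d0 : (0 : ↥leechLattice) ∉ F4 ∪ F6 ∪ F8 := by
      rw [Finset.mem_union, Finset.mem_union, m4, m6, m8, z0]
      omega
    have d1 : Disjoint (F4 ∪ F6) F8 := by
      rw [Finset.disjoint_left]; intro y hy hy'
      rw [Finset.mem_union, m4, m6] at hy; rw [m8] at hy'; omega
    have d2 : Disjoint F4 F6 := by
      rw [Finset.disjoint_left]; intro y hy hy'
      rw [m4] at hy; rw [m6] at hy'; omega
    rw [Finset.sum_insert d0, Finset.sum_union d1, Finset.sum_union d2, wt_zero]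
    have hne : ∀ v : ↥leechLattice, sqNorm (v : GolayPt → ℤ) ≠ 0 → v ≠ 0 := by
      rintro v h rfl
      exact h z0
    have w4 : ∑ v ∈ F4, wt v = F4.card * 24 :=
      Finset.sum_const_nat fun v hv => by
        rw [m4] at hv
        exact wt_other v (hne v (by omega)) (by omega)
    have w6 : ∑ v ∈ F6, wt v = F6.card * 24 :=
      Finset.sum_const_nat fun v hv => by
        rw [m6] at hv
        exact wt_other v (hne v (by omega)) (by omega)
    have w8 : ∑ v ∈ F8, wt v = F8.card * 1 :=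
      Finset.sum_const_nat fun v hv => by
        rw [m8] at hv
        exact wt_64 v hv
    rw [w4, w6, w8, c4, c6, c8]
    norm_num
  haveI : Finite Q := Nat.finite_of_card_ne_zero (by rw [card_Q]; norm_num)
  letI : Fintype Q := Fintype.ofFinite Q
  have hcard : Fintype.card Q = 2 ^ 24 := by rw [← Nat.card_eq_fintype_card, card_Q]
  have hfib := Finset.sum_fiberwise (insert 0 (F4 ∪ F6 ∪ F8)) cls wt
  have hle : ∀ c ∈ (Finset.univ : Finset Q),
      ∑ v ∈ insert 0 (F4 ∪ F6 ∪ F8) with cls v = c, wt v ≤ 48 := by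
    intro c _
    apply class_bound
    · intro v hv; exact hTle v (Finset.mem_filter.mp hv).1
    · intro v hv w hw; rw [(Finset.mem_filter.mp hv).2, (Finset.mem_filter.mp hw).2]
  have heq := (Finset.sum_eq_sum_iff_of_le hle).mp (by
    rw [hfib, hsum, Finset.sum_const, Finset.card_univ, hcard, smul_eq_mul, mul_comm])
  refine ⟨insert 0 (F4 ∪ F6 ∪ F8), hTle, fun v hv => (hT v).mpr (Or.inr (Or.inr (Or.inr hv))),
    fun u => ?_⟩
  exact heq (cls u) (Finset.mem_univ _)

/-- Every class of the lattice modulo twice the lattice contains a short vector. -/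
theorem exists_short (x : GolayPt → ℤ) (hx : x ∈ leechLattice) :
    ∃ y ∈ leechLattice, sqNorm y ≤ 64 ∧ ∃ z ∈ leechLattice, x - y = 2 • z := by
  classical
  obtain ⟨T, h1, -, h3⟩ := core
  have h := h3 ⟨x, hx⟩
  have hne : (T.filter (fun v => cls v = cls ⟨x, hx⟩)).Nonempty := by
    rw [Finset.nonempty_iff_ne_empty]
    intro he
    rw [he, Finset.sum_empty] at h
    omega
  obtain ⟨v, hv⟩ := hne
  rw [Finset.mem_filter] at hv
  exact ⟨v, v.2, h1 v hv.1, (cls_eq_iff ⟨x, hx⟩ v).mp hv.2.symm⟩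

/-- The cross through a vector of sum of squares 64 has 48 members. -/
theorem cross_card (x : GolayPt → ℤ) (hx : x ∈ leechLattice) (hxn : sqNorm x = 64) :
    (cross x).ncard = 48 := by
  classical
  obtain ⟨T, h1, h2, h3⟩ := core
  have h := h3 ⟨x, hx⟩
  have hmem : ∀ v ∈ T, cls v = cls ⟨x, hx⟩ → sqNorm (v : GolayPt → ℤ) = 64 := by
    intro v hv hc
    by_cases e1 : v = ⟨x, hx⟩
    · rw [e1]; exact hxn
    by_cases e2 : v = -⟨x, hx⟩
    · rw [e2, AddSubgroup.coe_neg, sqNorm_neg]; exact hxn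
    exact (key ⟨x, hx⟩ v (le_of_eq hxn) (h1 v hv) hc.symm e1 e2).2.1
  have hset : cross x = Subtype.val '' (↑(T.filter (fun v => cls v = cls ⟨x, hx⟩)) :
      Set ↥leechLattice) := by
    ext y
    unfold cross
    simp only [Set.mem_ofPred_eq, Set.mem_image, Finset.coe_filter]
    constructor
    · rintro ⟨hy, hn, hz⟩
      refine ⟨⟨y, hy⟩, ⟨h2 _ (by rw [hn, hxn]), ?_⟩, rfl⟩
      exact ((cls_eq_iff ⟨x, hx⟩ ⟨y, hy⟩).mpr hz).symm
    · rintro ⟨v, ⟨hv, hc⟩, rfl⟩
      exact ⟨v.2, by rw [hmem v hv hc, hxn], (cls_eq_iff ⟨x, hx⟩ v).mp hc.symm⟩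
  rw [hset, Set.ncard_image_of_injective _ Subtype.val_injective, Set.ncard_coe_finset, ← h,
    Finset.card_eq_sum_ones]
  refine Finset.sum_congr rfl fun v hv => ?_
  rw [Finset.mem_filter] at hv
  exact (wt_64 v (hmem v hv.1 hv.2)).symm

end Cfsg.Agent.Lib.Helper11.LeechCross
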