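import Mathlib
import Cfsg.Agent.Lib.Helper11.LeechGF

set_option autoImplicit false

namespace Cfsg.Agent.Lib.Helper11.LeechGF

open Cfsg Cfsg.Agent.Lib.Helper3.Golay Cfsg.Agent.Lib.Helper3.Golay2
open Cfsg.Agent.Lib.Helper3.Leech Cfsg.Agent.Lib.Helper3.Leech2

/-! ### Truncated digit extraction (keeps the numbers small in the kernel) -/

/-- Digits of a truncation. -/
theorem digit_trunc (E m e : ℕ) (he : e < m) :
    ((E &&& (2 ^ (56 * m) - 1)) >>> (56 * e)) % 2 ^ 56 = (E >>> (56 * e)) % 2 ^ 56 := by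
  rw [Nat.and_two_pow_sub_one_eq_mod, Nat.shiftRight_eq_div_pow, Nat.shiftRight_eq_div_pow]
  have h1 : 56 * m = 56 * e + 56 * (m - e) := by
    rw [← Nat.mul_add]; congr 1; omega
  rw [h1, pow_add, Nat.mod_mul_right_div_self]
  apply Nat.mod_mod_of_dvd
  exact pow_dvd_pow 2 (by omega)

/-- Sum of the base-`2 ^ 56` digits at the positions of `K`, after truncation below `m`. -/
def digT (mk : ℤ → ℕ) (S T : Finset ℤ) (m : ℕ) (K : Finset ℕ) (w : ℕ) : ℕ :=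
  ∑ e ∈ K, (((kv mk S ^ w * kv mk T ^ (24 - w)) &&& (2 ^ (56 * m) - 1)) >>> (56 * e)) % 2 ^ 56

theorem dig_eq_digT (mk : ℤ → ℕ) (S T : Finset ℤ) (m : ℕ) (K : Finset ℕ) (w : ℕ)
    (hK : ∀ e ∈ K, e < m) : dig mk S T K w = digT mk S T m K w := by
  unfold dig digT
  refine Finset.sum_congr rfl fun e he => ?_
  rw [digit_trunc _ m e (hK e he)]

theorem lt_of_mem_KE (n : ℕ) (A : Finset ℕ) (hA : ∀ a ∈ A, a ≤ 24) (e : ℕ) (he : e ∈ KE n A) :
    e < 1024 * (n + 1) := by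
  unfold KE at he
  simp only [Finset.mem_image, Finset.mem_product, Finset.mem_range, Prod.exists] at he
  obtain ⟨a, j, ⟨ha, hj⟩, rfl⟩ := he
  have := hA a ha
  omega

theorem lt_of_mem_KO (n : ℕ) (A : Finset ℕ) (hA : ∀ a ∈ A, a ≤ 24) (e : ℕ) (he : e ∈ KO n A) :
    e < 1024 * (n + 1) := by
  unfold KO at he
  simp only [Finset.mem_image, Finset.mem_product, Finset.mem_range, Prod.exists] at he
  obtain ⟨a, j, ⟨ha, hj⟩, rfl⟩ := he
  have := hA a ha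
  omega

/-- The contribution of a codeword of weight `w`, truncated form. -/
def gwT (mk : ℤ → ℕ) (n : ℕ) (A : Finset ℕ) (w : ℕ) : ℕ :=
  digT mk b2 b0 (1024 * (n + 1)) (KE n A) w + digT mk b1 b3 (1024 * (n + 1)) (KO n A) w

theorem gw_eq_gwT (mk : ℤ → ℕ) (n : ℕ) (A : Finset ℕ) (hA : ∀ a ∈ A, a ≤ 24) (w : ℕ) :
    gw mk n A w = gwT mk n A w := by
  unfold gw gwT
  rw [dig_eq_digT mk b2 b0 (1024 * (n + 1)) _ w (lt_of_mem_KE n A hA),
    dig_eq_digT mk b1 b3 (1024 * (n + 1)) _ w (lt_of_mem_KO n A hA)]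

/-- **The counting theorem, in computable truncated form.** -/
theorem count_evalT (mk : ℤ → ℕ) (hmk : ∀ v, mk v ≤ 1) (n : ℕ) (hn : n ≤ 64) (A : Finset ℕ)
    (hA : ∀ a ∈ A, a ≤ 24) :
    {x : GolayPt → ℤ | x ∈ leechLattice ∧ sqNorm x = (n : ℤ) ∧ ∑ i, mk (x i) ∈ A}.ncard =
      gwT mk n A 0 + 759 * gwT mk n A 8 + 2576 * gwT mk n A 12 + 759 * gwT mk n A 16 +
        gwT mk n A 24 := by
  rw [count_eval mk hmk n hn A hA]
  simp only [gw_eq_gwT mk n A hA]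

end Cfsg.Agent.Lib.Helper11.LeechGF
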