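import Mathlib
import Cfsg.Agent.Lib.Helper3.M24Perm
import Cfsg.Agent.Lib.Helper3.M24Orb
import Cfsg.Agent.Lib.Helper11.LeechGF
import Cfsg.Agent.Lib.Helper11.LeechGF2

set_option autoImplicit false

namespace Cfsg.Agent.Lib.Helper11.LeechGF

open Cfsg Cfsg.Agent.Lib.Helper3.Golay Cfsg.Agent.Lib.Helper3.Golay2
open Cfsg.Agent.Lib.Helper3.Leech Cfsg.Agent.Lib.Helper3.Leech2
open Cfsg.Agent.Lib.Helper3.M24Perm
open Polynomial

/-! ### Coordinate-dependent weights -/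

/-- `gf_count` with weights depending on the coordinate. -/
theorem gf_count' {ι : Type*} [Fintype ι] [DecidableEq ι] (S : ι → Finset ℤ) (w : ι → ℤ → ℕ)
    (K : Finset ℕ) :
    ((Fintype.piFinset S).filter (fun x => ∑ i, w i (x i) ∈ K)).card =
      ∑ k ∈ K, (∏ i, ∑ v ∈ S i, (X : ℕ[X]) ^ w i v).coeff k := by
  rw [Finset.prod_univ_sum]
  simp_rw [Finset.prod_pow_eq_pow_sum, Polynomial.finset_sum_coeff, Polynomial.coeff_X_pow]
  rw [Finset.sum_comm, Finset.card_filter]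
  refine Finset.sum_congr rfl fun x _ => ?_
  rw [Finset.sum_ite_eq']

/-- A product of four kinds of factors. -/
theorem prod_pattern4 {ι : Type*} [Fintype ι] [DecidableEq ι] {M : Type*} [CommMonoid M]
    (Sp c : Finset ι) (a1 a0 b1 b0 : M) :
    ∏ i, (if i ∈ Sp then (if i ∈ c then a1 else a0) else (if i ∈ c then b1 else b0)) =
      a1 ^ (c ∩ Sp).card * a0 ^ (Sp \ c).card * (b1 ^ (c \ Sp).card * b0 ^ ((c ∪ Sp)ᶜ).card) := by
  rw [Finset.prod_ite, Finset.prod_ite, Finset.prod_ite, Finset.prod_const, Finset.prod_const,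
    Finset.prod_const, Finset.prod_const]
  have e1 : ((Finset.univ.filter fun i => i ∈ Sp).filter fun i => i ∈ c) = c ∩ Sp := by
    ext i; simp [and_comm]
  have e2 : ((Finset.univ.filter fun i => i ∈ Sp).filter fun i => i ∉ c) = Sp \ c := by
    ext i; simp
  have e3 : ((Finset.univ.filter fun i => i ∉ Sp).filter fun i => i ∈ c) = c \ Sp := by
    ext i; simp [and_comm]
  have e4 : ((Finset.univ.filter fun i => i ∉ Sp).filter fun i => i ∉ c) = (c ∪ Sp)ᶜ := by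
    ext i; simp [and_comm]
  rw [e1, e2, e3, e4]

/-- The marker of coordinate `i`. -/
def um (Sp : Finset GolayPt) (u1 u2 : ℤ → ℕ) (i : GolayPt) (v : ℤ) : ℕ :=
  if i ∈ Sp then u1 v else u2 v

/-- Local weight with radix `R` for the marker field. -/
def Wg (R : ℕ) (u : ℤ → ℕ) (v : ℤ) : ℕ := 32 * R * v.natAbs ^ 2 + 32 * u v + tb v

theorem sumWg (R : ℕ) (u : GolayPt → ℤ → ℕ) (x : GolayPt → ℤ) :
    ∑ i, Wg R (u i) (x i) =
      32 * R * ∑ i, (x i).natAbs ^ 2 + 32 * ∑ i, u i (x i) + ∑ i, tb (x i) := by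
  unfold Wg
  rw [Finset.sum_add_distrib, Finset.sum_add_distrib, Finset.mul_sum, Finset.mul_sum]

def KEg (R n : ℕ) (A : Finset ℕ) : Finset ℕ :=
  (A ×ˢ Finset.range 13).image fun p => 32 * R * n + 32 * p.1 + 2 * p.2

def KOg (R n : ℕ) (A : Finset ℕ) : Finset ℕ :=
  (A ×ˢ Finset.range 13).image fun p => 32 * R * n + 32 * p.1 + (2 * p.2 + 1)

theorem decode (R N U n a : ℕ) (hU : U < R) (ha : a < R) (h : R * N + U = R * n + a) :
    N = n ∧ U = a := by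
  have hN : N = n := by
    rcases Nat.lt_trichotomy N n with h1 | h1 | h1
    · exfalso
      have : R * (N + 1) ≤ R * n := Nat.mul_le_mul_left R h1
      rw [Nat.mul_add, Nat.mul_one] at this
      omega
    · exact h1
    · exfalso
      have : R * (n + 1) ≤ R * N := Nat.mul_le_mul_left R h1
      rw [Nat.mul_add, Nat.mul_one] at this
      omega
  subst hN
  exact ⟨rfl, by omega⟩

theorem mem_KEg (R n : ℕ) (A : Finset ℕ) (hA : ∀ a ∈ A, a < R) (N U T : ℕ) (hU : U < R)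
    (hT : T ≤ 24) : 32 * R * N + 32 * U + T ∈ KEg R n A ↔ N = n ∧ U ∈ A ∧ T % 2 = 0 := by
  unfold KEg
  simp only [Finset.mem_image, Finset.mem_product, Finset.mem_range, Prod.exists]
  constructor
  · rintro ⟨a, j, ⟨ha, hj⟩, h⟩
    have haR := hA a ha
    have e1 : 32 * R * n = 32 * (R * n) := by ring
    have e2 : 32 * R * N = 32 * (R * N) := by ring
    rw [e1, e2] at h
    have hT2 : T = 2 * j := by omega
    have h3 : R * N + U = R * n + a := by omega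
    obtain ⟨h4, h5⟩ := decode R N U n a hU haR h3
    exact ⟨h4, h5 ▸ ha, by omega⟩
  · rintro ⟨h1, h2, h3⟩
    refine ⟨U, T / 2, ⟨h2, by omega⟩, ?_⟩
    rw [h1]
    omega

theorem mem_KOg (R n : ℕ) (A : Finset ℕ) (hA : ∀ a ∈ A, a < R) (N U T : ℕ) (hU : U < R)
    (hT : T ≤ 24) : 32 * R * N + 32 * U + T ∈ KOg R n A ↔ N = n ∧ U ∈ A ∧ T % 2 = 1 := by
  unfold KOg
  simp only [Finset.mem_image, Finset.mem_product, Finset.mem_range, Prod.exists]
  constructor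
  · rintro ⟨a, j, ⟨ha, hj⟩, h⟩
    have haR := hA a ha
    have e1 : 32 * R * n = 32 * (R * n) := by ring
    have e2 : 32 * R * N = 32 * (R * N) := by ring
    rw [e1, e2] at h
    have hT2 : T = 2 * j + 1 := by omega
    have h3 : R * N + U = R * n + a := by omega
    obtain ⟨h4, h5⟩ := decode R N U n a hU haR h3
    exact ⟨h4, h5 ▸ ha, by omega⟩
  · rintro ⟨h1, h2, h3⟩
    refine ⟨U, T / 2, ⟨h2, by omega⟩, ?_⟩
    rw [h1]
    omega


/-! ### The pieces -/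

def FEg (u : GolayPt → ℤ → ℕ) (R n : ℕ) (A : Finset ℕ) (c : Finset GolayPt) :
    Finset (GolayPt → ℤ) :=
  (Fintype.piFinset (SE c)).filter (fun x => ∑ i, Wg R (u i) (x i) ∈ KEg R n A)

def FOg (u : GolayPt → ℤ → ℕ) (R n : ℕ) (A : Finset ℕ) (c : Finset GolayPt) :
    Finset (GolayPt → ℤ) :=
  (Fintype.piFinset (SO c)).filter (fun x => ∑ i, Wg R (u i) (x i) ∈ KOg R n A)

theorem pat_FEg (u : GolayPt → ℤ → ℕ) (R n : ℕ) (A : Finset ℕ) (c : Finset GolayPt)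
    (x : GolayPt → ℤ) (hx : x ∈ FEg u R n A c) (i : GolayPt) :
    x i % 4 = if i ∈ c then 2 else 0 := by
  unfold FEg at hx
  rw [Finset.mem_filter, Fintype.mem_piFinset] at hx
  exact ((mem_SE c i (x i)).mp (hx.1 i)).2

theorem pat_FOg (u : GolayPt → ℤ → ℕ) (R n : ℕ) (A : Finset ℕ) (c : Finset GolayPt)
    (x : GolayPt → ℤ) (hx : x ∈ FOg u R n A c) (i : GolayPt) :
    x i % 4 = if i ∈ c then 1 else 3 := by
  unfold FOg at hx
  rw [Finset.mem_filter, Fintype.mem_piFinset] at hx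
  exact ((mem_SO c i (x i)).mp (hx.1 i)).2

theorem mem_FEg (u : GolayPt → ℤ → ℕ) (R n : ℕ) (A : Finset ℕ)
    (hU : ∀ x : GolayPt → ℤ, (∀ i, -8 ≤ x i ∧ x i ≤ 8) → ∑ i, u i (x i) < R)
    (hA : ∀ a ∈ A, a < R) (c : Finset GolayPt) (hc : c ∈ Cset) (x : GolayPt → ℤ) :
    x ∈ FEg u R n A c ↔ (∀ i, -8 ≤ x i ∧ x i ≤ 8) ∧ (∀ i, x i % 4 = if i ∈ c then 2 else 0) ∧
      (∑ i, x i) % 8 = 0 ∧ sqNorm x = (n : ℤ) ∧ ∑ i, u i (x i) ∈ A := by
  unfold FEg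
  rw [Finset.mem_filter, Fintype.mem_piFinset, sumWg, sqNorm_eq]
  simp only [mem_SE]
  constructor
  · rintro ⟨h1, h⟩
    have hbox : ∀ i, -8 ≤ x i ∧ x i ≤ 8 := fun i => (h1 i).1
    rw [mem_KEg R n A hA _ _ _ (hU x hbox) (sum_tb_le x)] at h
    obtain ⟨h2, h3, h4⟩ := h
    have hp : ∀ i, x i % 4 = if i ∈ c then 2 else 0 := fun i => (h1 i).2
    exact ⟨hbox, hp, (sum_mod8_even x c hc hp).mpr h4, by rw [h2], h3⟩
  · rintro ⟨h1, hp, h3, h4, h5⟩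
    refine ⟨fun i => ⟨h1 i, hp i⟩, ?_⟩
    rw [mem_KEg R n A hA _ _ _ (hU x h1) (sum_tb_le x)]
    exact ⟨by exact_mod_cast h4, h5, (sum_mod8_even x c hc hp).mp h3⟩

theorem mem_FOg (u : GolayPt → ℤ → ℕ) (R n : ℕ) (A : Finset ℕ)
    (hU : ∀ x : GolayPt → ℤ, (∀ i, -8 ≤ x i ∧ x i ≤ 8) → ∑ i, u i (x i) < R)
    (hA : ∀ a ∈ A, a < R) (c : Finset GolayPt) (hc : c ∈ Cset) (x : GolayPt → ℤ) :
    x ∈ FOg u R n A c ↔ (∀ i, -8 ≤ x i ∧ x i ≤ 8) ∧ (∀ i, x i % 4 = if i ∈ c then 1 else 3) ∧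
      (∑ i, x i) % 8 = 4 ∧ sqNorm x = (n : ℤ) ∧ ∑ i, u i (x i) ∈ A := by
  unfold FOg
  rw [Finset.mem_filter, Fintype.mem_piFinset, sumWg, sqNorm_eq]
  simp only [mem_SO]
  constructor
  · rintro ⟨h1, h⟩
    have hbox : ∀ i, -8 ≤ x i ∧ x i ≤ 8 := fun i => (h1 i).1
    rw [mem_KOg R n A hA _ _ _ (hU x hbox) (sum_tb_le x)] at h
    obtain ⟨h2, h3, h4⟩ := h
    have hp : ∀ i, x i % 4 = if i ∈ c then 1 else 3 := fun i => (h1 i).2
    exact ⟨hbox, hp, (sum_mod8_odd x c hc hp).mpr h4, by rw [h2], h3⟩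
  · rintro ⟨h1, hp, h3, h4, h5⟩
    refine ⟨fun i => ⟨h1 i, hp i⟩, ?_⟩
    rw [mem_KOg R n A hA _ _ _ (hU x h1) (sum_tb_le x)]
    exact ⟨by exact_mod_cast h4, h5, (sum_mod8_odd x c hc hp).mp h3⟩

/-- Local generating polynomial with marker `u`. -/
noncomputable def lpg (R : ℕ) (u : ℤ → ℕ) (S : Finset ℤ) : ℕ[X] := ∑ v ∈ S, X ^ Wg R u v

/-- The product polynomial of a pattern. -/
noncomputable def PP (R : ℕ) (u1 u2 : ℤ → ℕ) (S1 S0 : Finset ℤ) (Sp c : Finset GolayPt) : ℕ[X] :=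
  lpg R u1 S1 ^ (c ∩ Sp).card * lpg R u1 S0 ^ (Sp \ c).card *
    (lpg R u2 S1 ^ (c \ Sp).card * lpg R u2 S0 ^ ((c ∪ Sp)ᶜ).card)

theorem card_FEg (Sp : Finset GolayPt) (u1 u2 : ℤ → ℕ) (R n : ℕ) (A : Finset ℕ)
    (c : Finset GolayPt) :
    (FEg (um Sp u1 u2) R n A c).card = ∑ e ∈ KEg R n A, (PP R u1 u2 b2 b0 Sp c).coeff e := by
  unfold FEg
  rw [gf_count']
  have : ∏ i, ∑ v ∈ SE c i, (X : ℕ[X]) ^ Wg R (um Sp u1 u2 i) v = PP R u1 u2 b2 b0 Sp c := by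
    unfold PP
    rw [← prod_pattern4]
    refine Finset.prod_congr rfl fun i _ => ?_
    unfold SE lpg um
    split_ifs <;> rfl
  rw [this]

theorem card_FOg (Sp : Finset GolayPt) (u1 u2 : ℤ → ℕ) (R n : ℕ) (A : Finset ℕ)
    (c : Finset GolayPt) :
    (FOg (um Sp u1 u2) R n A c).card = ∑ e ∈ KOg R n A, (PP R u1 u2 b1 b3 Sp c).coeff e := by
  unfold FOg
  rw [gf_count']
  have : ∏ i, ∑ v ∈ SO c i, (X : ℕ[X]) ^ Wg R (um Sp u1 u2 i) v = PP R u1 u2 b1 b3 Sp c := by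
    unfold PP
    rw [← prod_pattern4]
    refine Finset.prod_congr rfl fun i _ => ?_
    unfold SO lpg um
    split_ifs <;> rfl
  rw [this]

/-- **The counting theorem with a special set of coordinates.** -/
theorem count_main_g (Sp : Finset GolayPt) (u1 u2 : ℤ → ℕ) (R : ℕ)
    (hU : ∀ x : GolayPt → ℤ, (∀ i, -8 ≤ x i ∧ x i ≤ 8) → ∑ i, um Sp u1 u2 i (x i) < R)
    (n : ℕ) (hn : n ≤ 64) (A : Finset ℕ) (hA : ∀ a ∈ A, a < R) :
    {x : GolayPt → ℤ | x ∈ leechLattice ∧ sqNorm x = (n : ℤ) ∧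
        ∑ i, um Sp u1 u2 i (x i) ∈ A}.ncard =
      ∑ k ∈ Finset.range 4096,
        (∑ e ∈ KEg R n A, (PP R u1 u2 b2 b0 Sp (supp k)).coeff e +
         ∑ e ∈ KOg R n A, (PP R u1 u2 b1 b3 Sp (supp k)).coeff e) := by
  classical
  have hset : {x : GolayPt → ℤ | x ∈ leechLattice ∧ sqNorm x = (n : ℤ) ∧
        ∑ i, um Sp u1 u2 i (x i) ∈ A} =
      ↑((Finset.range 4096).biUnion fun k =>
        FEg (um Sp u1 u2) R n A (supp k) ∪ FOg (um Sp u1 u2) R n A (supp k)) := by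
    ext x
    simp only [Set.mem_ofPred_eq, Finset.coe_biUnion, Finset.mem_coe, Finset.mem_range,
      Set.mem_iUnion, Finset.coe_union, Set.mem_union, exists_prop]
    constructor
    · rintro ⟨hL, hN, hM⟩
      have hbox : ∀ i, -8 ≤ x i ∧ x i ≤ 8 := box_of_norm x n hn hN
      rw [mem_leechLattice_iff, leechSet_iff] at hL
      rcases hL with ⟨c, hc, hp, hs⟩ | ⟨c, hc, hp, hs⟩
      · obtain ⟨k, hk, rfl⟩ := (mem_supports_iff c).mp hc
        exact ⟨k, hk, Or.inl ((mem_FEg _ R n A hU hA _ hc x).mpr ⟨hbox, hp, hs, hN, hM⟩)⟩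
      · obtain ⟨k, hk, rfl⟩ := (mem_supports_iff c).mp hc
        exact ⟨k, hk, Or.inr ((mem_FOg _ R n A hU hA _ hc x).mpr ⟨hbox, hp, hs, hN, hM⟩)⟩
    · rintro ⟨k, hk, h | h⟩
      · have hc : supp k ∈ Cset := (mem_supports_iff _).mpr ⟨k, hk, rfl⟩
        obtain ⟨hbox, hp, hs, hN, hM⟩ := (mem_FEg _ R n A hU hA _ hc x).mp h
        exact ⟨(mem_leechLattice_iff x).mpr ((leechSet_iff x).mpr (Or.inl ⟨_, hc, hp, hs⟩)),
          hN, hM⟩
      · have hc : supp k ∈ Cset := (mem_supports_iff _).mpr ⟨k, hk, rfl⟩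
        obtain ⟨hbox, hp, hs, hN, hM⟩ := (mem_FOg _ R n A hU hA _ hc x).mp h
        exact ⟨(mem_leechLattice_iff x).mpr ((leechSet_iff x).mpr (Or.inr ⟨_, hc, hp, hs⟩)),
          hN, hM⟩
  rw [hset, Set.ncard_coe_finset, Finset.card_biUnion]
  · refine Finset.sum_congr rfl fun k hk => ?_
    have hd : Disjoint (FEg (um Sp u1 u2) R n A (supp k)) (FOg (um Sp u1 u2) R n A (supp k)) := by
      rw [Finset.disjoint_left]
      intro x hx hx'
      exact pat_EO _ _ x (pat_FEg _ R n A _ x hx) (pat_FOg _ R n A _ x hx')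
    rw [Finset.card_union_of_disjoint hd, card_FEg, card_FOg]
  · intro k hk k' hk' hkk'
    rw [Finset.mem_coe, Finset.mem_range] at hk hk'
    show Disjoint (FEg (um Sp u1 u2) R n A (supp k) ∪ FOg (um Sp u1 u2) R n A (supp k))
      (FEg (um Sp u1 u2) R n A (supp k') ∪ FOg (um Sp u1 u2) R n A (supp k'))
    rw [Finset.disjoint_left]
    intro x hx hx'
    rw [Finset.mem_union] at hx hx'
    rcases hx with hx | hx <;> rcases hx' with hx' | hx'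
    · exact hkk' (supp_injOn k hk k' hk'
        (pat_inj_E _ _ x (pat_FEg _ R n A _ x hx) (pat_FEg _ R n A _ x hx')))
    · exact pat_EO _ _ x (pat_FEg _ R n A _ x hx) (pat_FOg _ R n A _ x hx')
    · exact pat_EO _ _ x (pat_FEg _ R n A _ x hx') (pat_FOg _ R n A _ x hx)
    · exact hkk' (supp_injOn k hk k' hk'
        (pat_inj_O _ _ x (pat_FOg _ R n A _ x hx) (pat_FOg _ R n A _ x hx')))


/-! ### Truncated arithmetic -/

/-- Multiplication followed by masking. -/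
def tmul (M a b : ℕ) : ℕ := (a * b) &&& M

/-- Truncated power. -/
def tpow (M a : ℕ) : ℕ → ℕ
  | 0 => 1 &&& M
  | k + 1 => tmul M (tpow M a k) a

theorem tmul_eq (m a b : ℕ) : tmul (2 ^ m - 1) a b = (a * b) % 2 ^ m := by
  unfold tmul
  rw [Nat.and_two_pow_sub_one_eq_mod]

theorem tpow_eq (m a : ℕ) : ∀ k, tpow (2 ^ m - 1) a k = a ^ k % 2 ^ m
  | 0 => by
    show 1 &&& (2 ^ m - 1) = _
    rw [Nat.and_two_pow_sub_one_eq_mod, pow_zero]
  | k + 1 => by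
    show tmul (2 ^ m - 1) (tpow (2 ^ m - 1) a k) a = _
    rw [tmul_eq, tpow_eq m a k, Nat.mod_mul_mod, pow_succ]

/-- The mask of the low `m` bits, written with a shift (the kernel refuses large powers). -/
def mk2 (m : ℕ) : ℕ := 1 <<< m - 1

theorem mk2_eq (m : ℕ) : mk2 m = 2 ^ m - 1 := by
  unfold mk2
  rw [Nat.one_shiftLeft]

/-- Truncated value of a product of four powers. -/
def val4 (m x1 x0 y1 y0 a b c d : ℕ) : ℕ :=
  tmul (mk2 m)
    (tmul (mk2 m) (tpow (mk2 m) (x1 &&& (mk2 m)) a)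
      (tpow (mk2 m) (x0 &&& (mk2 m)) b))
    (tmul (mk2 m) (tpow (mk2 m) (y1 &&& (mk2 m)) c)
      (tpow (mk2 m) (y0 &&& (mk2 m)) d))

theorem val4_eq (m x1 x0 y1 y0 a b c d : ℕ) :
    val4 m x1 x0 y1 y0 a b c d = (x1 ^ a * x0 ^ b * (y1 ^ c * y0 ^ d)) % 2 ^ m := by
  unfold val4
  rw [mk2_eq]
  simp only [tmul_eq, tpow_eq, Nat.and_two_pow_sub_one_eq_mod]
  have h1 : (x1 % 2 ^ m) ^ a % 2 ^ m ≡ x1 ^ a [MOD 2 ^ m] :=
    (Nat.mod_modEq _ _).trans ((Nat.mod_modEq _ _).pow a)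
  have h2 : (x0 % 2 ^ m) ^ b % 2 ^ m ≡ x0 ^ b [MOD 2 ^ m] :=
    (Nat.mod_modEq _ _).trans ((Nat.mod_modEq _ _).pow b)
  have h3 : (y1 % 2 ^ m) ^ c % 2 ^ m ≡ y1 ^ c [MOD 2 ^ m] :=
    (Nat.mod_modEq _ _).trans ((Nat.mod_modEq _ _).pow c)
  have h4 : (y0 % 2 ^ m) ^ d % 2 ^ m ≡ y0 ^ d [MOD 2 ^ m] :=
    (Nat.mod_modEq _ _).trans ((Nat.mod_modEq _ _).pow d)
  have h5 : (x1 % 2 ^ m) ^ a % 2 ^ m * ((x0 % 2 ^ m) ^ b % 2 ^ m) % 2 ^ m ≡
      x1 ^ a * x0 ^ b [MOD 2 ^ m] := (Nat.mod_modEq _ _).trans (h1.mul h2)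
  have h6 : (y1 % 2 ^ m) ^ c % 2 ^ m * ((y0 % 2 ^ m) ^ d % 2 ^ m) % 2 ^ m ≡
      y1 ^ c * y0 ^ d [MOD 2 ^ m] := (Nat.mod_modEq _ _).trans (h3.mul h4)
  exact h5.mul h6

/-- Sum of base-`2 ^ 56` digits at the positions of `K`. -/
def digS (Y : ℕ) (K : Finset ℕ) : ℕ := ∑ e ∈ K, (Y >>> (56 * e)) % 2 ^ 56

theorem coeff_digS (F : ℕ[X]) (hF : F.eval 1 < 2 ^ 56) (m : ℕ) (K : Finset ℕ)
    (hK : ∀ e ∈ K, e < m) :
    ∑ e ∈ K, F.coeff e = digS (F.eval (2 ^ 56) % 2 ^ (56 * m)) K := by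
  unfold digS
  refine Finset.sum_congr rfl fun e he => ?_
  have h := digit_trunc (F.eval (2 ^ 56)) m e (hK e he)
  rw [Nat.and_two_pow_sub_one_eq_mod] at h
  rw [h, coeff_eq_digit (2 ^ 56) e F hF, Nat.shiftRight_eq_div_pow, pow_mul]

/-- Kronecker value of a local polynomial. -/
def kvg (R : ℕ) (u : ℤ → ℕ) (S : Finset ℤ) : ℕ := ∑ v ∈ S, (2 ^ 56) ^ Wg R u v

theorem eval_PP (R : ℕ) (u1 u2 : ℤ → ℕ) (S1 S0 : Finset ℤ) (Sp c : Finset GolayPt) :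
    (PP R u1 u2 S1 S0 Sp c).eval (2 ^ 56) =
      kvg R u1 S1 ^ (c ∩ Sp).card * kvg R u1 S0 ^ (Sp \ c).card *
        (kvg R u2 S1 ^ (c \ Sp).card * kvg R u2 S0 ^ ((c ∪ Sp)ᶜ).card) := by
  simp [PP, lpg, kvg, Polynomial.eval_finsetSum]

theorem card_four (Sp c : Finset GolayPt) :
    (c ∩ Sp).card + (Sp \ c).card + ((c \ Sp).card + ((c ∪ Sp)ᶜ).card) = 24 := by
  have h1 : (Sp ∩ c).card + (Sp \ c).card = Sp.card := Finset.card_inter_add_card_sdiff Sp c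
  have h2 : (Spᶜ ∩ c).card + (Spᶜ \ c).card = Spᶜ.card := Finset.card_inter_add_card_sdiff Spᶜ c
  have e1 : Spᶜ ∩ c = c \ Sp := by
    ext i; simp [and_comm]
  have e2 : Spᶜ \ c = (c ∪ Sp)ᶜ := by
    ext i; simp [and_comm]
  have h3 := Finset.card_add_card_compl Sp
  rw [card_pt] at h3
  rw [e1, e2] at h2
  rw [Finset.inter_comm] at h1
  omega

theorem eval_one_PP (R : ℕ) (u1 u2 : ℤ → ℕ) (S1 S0 : Finset ℤ) (hS1 : S1.card ≤ 5)
    (hS0 : S0.card ≤ 5) (Sp c : Finset GolayPt) :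
    (PP R u1 u2 S1 S0 Sp c).eval 1 < 2 ^ 56 := by
  have h1 : (PP R u1 u2 S1 S0 Sp c).eval 1 =
      S1.card ^ (c ∩ Sp).card * S0.card ^ (Sp \ c).card *
        (S1.card ^ (c \ Sp).card * S0.card ^ ((c ∪ Sp)ᶜ).card) := by
    simp [PP, lpg, Polynomial.eval_finsetSum]
  rw [h1]
  calc S1.card ^ (c ∩ Sp).card * S0.card ^ (Sp \ c).card *
        (S1.card ^ (c \ Sp).card * S0.card ^ ((c ∪ Sp)ᶜ).card)
      ≤ 5 ^ (c ∩ Sp).card * 5 ^ (Sp \ c).card * (5 ^ (c \ Sp).card * 5 ^ ((c ∪ Sp)ᶜ).card) :=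
        Nat.mul_le_mul
          (Nat.mul_le_mul (Nat.pow_le_pow_left hS1 _) (Nat.pow_le_pow_left hS0 _))
          (Nat.mul_le_mul (Nat.pow_le_pow_left hS1 _) (Nat.pow_le_pow_left hS0 _))
    _ = 5 ^ 24 := by rw [← pow_add, ← pow_add, ← pow_add, card_four]
    _ < 2 ^ 56 := by norm_num

theorem lt_of_mem_KEg (R n : ℕ) (A : Finset ℕ) (hA : ∀ a ∈ A, a < R) (e : ℕ)
    (he : e ∈ KEg R n A) : e < 32 * R * (n + 1) := by
  unfold KEg at he
  simp only [Finset.mem_image, Finset.mem_product, Finset.mem_range, Prod.exists] at he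
  obtain ⟨a, j, ⟨ha, hj⟩, rfl⟩ := he
  have := hA a ha
  have e1 : 32 * R * (n + 1) = 32 * R * n + 32 * R := by ring
  omega

theorem lt_of_mem_KOg (R n : ℕ) (A : Finset ℕ) (hA : ∀ a ∈ A, a < R) (e : ℕ)
    (he : e ∈ KOg R n A) : e < 32 * R * (n + 1) := by
  unfold KOg at he
  simp only [Finset.mem_image, Finset.mem_product, Finset.mem_range, Prod.exists] at he
  obtain ⟨a, j, ⟨ha, hj⟩, rfl⟩ := he
  have := hA a ha
  have e1 : 32 * R * (n + 1) = 32 * R * n + 32 * R := by ring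
  omega

/-- The computable contribution of a codeword meeting the special set (of size `s`) in `p`
points and its complement in `q` points. -/
def gS (s : ℕ) (u1 u2 : ℤ → ℕ) (R n : ℕ) (A : Finset ℕ) (p q : ℕ) : ℕ :=
  digS (val4 (56 * (32 * R * (n + 1))) (kvg R u1 b2) (kvg R u1 b0) (kvg R u2 b2) (kvg R u2 b0)
      p (s - p) q (24 - s - q)) (KEg R n A) +
  digS (val4 (56 * (32 * R * (n + 1))) (kvg R u1 b1) (kvg R u1 b3) (kvg R u2 b1) (kvg R u2 b3)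
      p (s - p) q (24 - s - q)) (KOg R n A)

/-- The class of a codeword with respect to the special set. -/
def clsS (MSp k : ℕ) : ℕ × ℕ := (pc (cw k &&& MSp), pc (cw k) - pc (cw k &&& MSp))

/-- The number of codewords of a class. -/
def cntS (MSp : ℕ) (y : ℕ × ℕ) : ℕ := ((Finset.range 4096).filter fun k => clsS MSp k = y).card

theorem cards_ms (MSp k : ℕ) :
    (supp k ∩ ms MSp).card = pc (cw k &&& MSp) ∧
    (ms MSp \ supp k).card = pc MSp - pc (cw k &&& MSp) ∧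
    (supp k \ ms MSp).card = pc (cw k) - pc (cw k &&& MSp) ∧
    ((supp k ∪ ms MSp)ᶜ).card = 24 - pc MSp - (pc (cw k) - pc (cw k &&& MSp)) := by
  have h0 : (supp k ∩ ms MSp).card = pc (cw k &&& MSp) := by
    rw [← ms_cw, Cfsg.Agent.Lib.Helper3.M24Orb.card_ms_inter]
  have h1 : (ms MSp ∩ supp k).card + (ms MSp \ supp k).card = (ms MSp).card :=
    Finset.card_inter_add_card_sdiff _ _
  have h2 : (supp k ∩ ms MSp).card + (supp k \ ms MSp).card = (supp k).card :=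
    Finset.card_inter_add_card_sdiff _ _
  have h3 := card_four (ms MSp) (supp k)
  rw [Finset.inter_comm] at h1
  rw [card_ms] at h1
  rw [card_supp] at h2
  refine ⟨h0, by omega, by omega, by omega⟩

/-- **The counting theorem with a special set of coordinates, in computable form.** -/
theorem count_special (MSp : ℕ) (u1 u2 : ℤ → ℕ) (R : ℕ)
    (hU : ∀ x : GolayPt → ℤ, (∀ i, -8 ≤ x i ∧ x i ≤ 8) → ∑ i, um (ms MSp) u1 u2 i (x i) < R)
    (n : ℕ) (hn : n ≤ 64) (A : Finset ℕ) (hA : ∀ a ∈ A, a < R) (Y : Finset (ℕ × ℕ))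
    (hY : ∀ k ∈ Finset.range 4096, clsS MSp k ∈ Y) :
    {x : GolayPt → ℤ | x ∈ leechLattice ∧ sqNorm x = (n : ℤ) ∧
        ∑ i, um (ms MSp) u1 u2 i (x i) ∈ A}.ncard =
      ∑ y ∈ Y, (if cntS MSp y = 0 then 0 else
        cntS MSp y * gS (pc MSp) u1 u2 R n A y.1 y.2) := by
  rw [count_main_g (ms MSp) u1 u2 R hU n hn A hA]
  have hk : ∀ k ∈ Finset.range 4096,
      (∑ e ∈ KEg R n A, (PP R u1 u2 b2 b0 (ms MSp) (supp k)).coeff e +
        ∑ e ∈ KOg R n A, (PP R u1 u2 b1 b3 (ms MSp) (supp k)).coeff e) =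
      gS (pc MSp) u1 u2 R n A (clsS MSp k).1 (clsS MSp k).2 := by
    intro k _
    obtain ⟨c1, c2, c3, c4⟩ := cards_ms MSp k
    unfold gS clsS
    rw [coeff_digS _ (eval_one_PP R u1 u2 b2 b0 (by decide) (by decide) _ _) (32 * R * (n + 1))
        _ (lt_of_mem_KEg R n A hA),
      coeff_digS _ (eval_one_PP R u1 u2 b1 b3 (by decide) (by decide) _ _) (32 * R * (n + 1))
        _ (lt_of_mem_KOg R n A hA),
      eval_PP, eval_PP, c1, c2, c3, c4, val4_eq, val4_eq]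
  rw [Finset.sum_congr rfl hk, ← Finset.sum_fiberwise_of_maps_to hY]
  refine Finset.sum_congr rfl fun y _ => ?_
  have hin : ∑ k ∈ Finset.range 4096 with clsS MSp k = y,
      gS (pc MSp) u1 u2 R n A (clsS MSp k).1 (clsS MSp k).2 =
      cntS MSp y * gS (pc MSp) u1 u2 R n A y.1 y.2 := by
    unfold cntS
    rw [← smul_eq_mul, ← Finset.sum_const]
    refine Finset.sum_congr rfl fun k hk => ?_
    rw [(Finset.mem_filter.mp hk).2]
  rw [hin]
  split_ifs with h0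
  · rw [h0, zero_mul]
  · rfl

end Cfsg.Agent.Lib.Helper11.LeechGF
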