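import Mathlib
import Cfsg.Agent.Lib.Helper3.Leech4
import Cfsg.Agent.Lib.Helper3.M24Trans
import Cfsg.Agent.Lib.Helper11.Co0Mono
import Cfsg.Agent.Lib.Helper11.Co0Cross
import Cfsg.Agent.Lib.Helper11.LeechGF3

set_option autoImplicit false

namespace Cfsg.Agent.Lib.Helper11.LeechIP

open Cfsg Cfsg.Agent.Lib.Helper3.Golay Cfsg.Agent.Lib.Helper3.Golay2
open Cfsg.Agent.Lib.Helper3.Leech Cfsg.Agent.Lib.Helper3.Leech2 Cfsg.Agent.Lib.Helper3.Leech4
open Cfsg.Agent.Lib.Helper3.GolayM24 Cfsg.Agent.Lib.Helper3.M24Perm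
open Cfsg.Agent.Lib.Helper3.M24Trans
open Cfsg.Agent.Lib.Helper11.LeechGF Cfsg.Agent.Lib.Helper11.Co0Mono
open scoped Pointwise

/-! ### Inner products and automorphisms -/

theorem sqNorm_add (x y : GolayPt → ℤ) :
    sqNorm (x + y) = sqNorm x + sqNorm y + 2 * dotInt x y := by
  unfold sqNorm dotInt
  rw [Finset.mul_sum, ← Finset.sum_add_distrib, ← Finset.sum_add_distrib]
  refine Finset.sum_congr rfl fun i _ => ?_
  simp only [Pi.add_apply]
  ring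

theorem dot_co0 {g : Equiv.Perm ↥leechLattice} (hg : g ∈ Co0) (v w : ↥leechLattice) :
    dotInt ((g v : ↥leechLattice) : GolayPt → ℤ) ((g w : ↥leechLattice) : GolayPt → ℤ) =
      dotInt (v : GolayPt → ℤ) (w : GolayPt → ℤ) := by
  have h1 := hg.2 (v + w)
  rw [hg.1 v w, AddSubgroup.coe_add, AddSubgroup.coe_add, sqNorm_add, sqNorm_add, hg.2 v,
    hg.2 w] at h1
  linarith

/-- The minimal vectors with a given inner product with `v`. -/
def ipSet (v : GolayPt → ℤ) (d : ℤ) : Set (GolayPt → ℤ) :=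
  {w | w ∈ leechLattice ∧ sqNorm w = 32 ∧ dotInt v w = d}

theorem ipSet_co0 {g : Equiv.Perm ↥leechLattice} (hg : g ∈ Co0) (v : ↥leechLattice) (d : ℤ) :
    (ipSet ((g v : ↥leechLattice) : GolayPt → ℤ) d).ncard =
      (ipSet (v : GolayPt → ℤ) d).ncard := by
  symm
  apply Set.ncard_congr (fun w hw => ((g ⟨w, hw.1⟩ : ↥leechLattice) : GolayPt → ℤ))
  · intro w hw
    refine ⟨(g ⟨w, hw.1⟩).2, ?_, ?_⟩
    · rw [hg.2]; exact hw.2.1
    · rw [dot_co0 hg]; exact hw.2.2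
  · intro a b ha hb h
    have := g.injective (Subtype.ext h)
    exact congrArg Subtype.val this
  · intro b hb
    refine ⟨((g.symm ⟨b, hb.1⟩ : ↥leechLattice) : GolayPt → ℤ),
      ⟨(g.symm ⟨b, hb.1⟩).2, ?_, ?_⟩, ?_⟩
    · have := hg.2 (g.symm ⟨b, hb.1⟩)
      rw [Equiv.apply_symm_apply] at this
      rw [← this]; exact hb.2.1
    · have := dot_co0 hg v (g.symm ⟨b, hb.1⟩)
      rw [Equiv.apply_symm_apply] at this
      rw [← this]; exact hb.2.2
    · simp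

/-! ### Markers for a two-valued vector -/

/-- The two-valued vector: `a1` on `Sp`, `a2` elsewhere. -/
def cv (Sp : Finset GolayPt) (a1 a2 : ℤ) : GolayPt → ℤ := fun i => if i ∈ Sp then a1 else a2

/-- The affine marker. -/
def mkr (a c : ℤ) (v : ℤ) : ℕ := (a * v + c).toNat

theorem mkr_cast (a n c : ℤ) (ha : -n ≤ a ∧ a ≤ n) (hc : n * 8 ≤ c) (v : ℤ)
    (hv : -8 ≤ v ∧ v ≤ 8) : ((mkr a c v : ℕ) : ℤ) = a * v + c ∧ a * v + c ≤ c + n * 8 := by
  have hn : 0 ≤ n := by linarith [ha.1, ha.2]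
  have h1 : -(n * 8) ≤ a * v ∧ a * v ≤ n * 8 := by
    have h2 : |a * v| ≤ n * 8 := by
      rw [abs_mul]
      exact mul_le_mul (abs_le.mpr ha) (abs_le.mpr hv) (abs_nonneg v) hn
    exact abs_le.mp h2
  unfold mkr
  rw [Int.toNat_of_nonneg (by linarith [h1.1])]
  exact ⟨rfl, by linarith [h1.2]⟩

theorem sum_const_ite (Sp : Finset GolayPt) (c1 c2 : ℤ) :
    ∑ i : GolayPt, (if i ∈ Sp then c1 else c2) = c1 * Sp.card + c2 * (24 - Sp.card) := by
  rw [Finset.sum_ite, Finset.sum_const, Finset.sum_const]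
  have e1 : (Finset.univ.filter fun i => i ∈ Sp) = Sp := by ext i; simp
  have e2 : (Finset.univ.filter fun i => i ∉ Sp) = Spᶜ := by ext i; simp
  rw [e1, e2, Finset.card_compl, card_golayPt, nsmul_eq_mul, nsmul_eq_mul,
    Nat.cast_sub (by rw [← card_golayPt]; exact Finset.card_le_univ Sp)]
  push_cast
  ring

theorem marker (Sp : Finset GolayPt) (a1 n1 c1 a2 n2 c2 : ℤ) (ha1 : -n1 ≤ a1 ∧ a1 ≤ n1)
    (ha2 : -n2 ≤ a2 ∧ a2 ≤ n2) (h1 : n1 * 8 ≤ c1) (h2 : n2 * 8 ≤ c2) (w : GolayPt → ℤ)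
    (hw : ∀ i, -8 ≤ w i ∧ w i ≤ 8) :
    ((∑ i, um Sp (mkr a1 c1) (mkr a2 c2) i (w i) : ℕ) : ℤ) =
        dotInt (cv Sp a1 a2) w + (c1 * Sp.card + c2 * (24 - Sp.card)) ∧
      ((∑ i, um Sp (mkr a1 c1) (mkr a2 c2) i (w i) : ℕ) : ℤ) ≤
        (c1 + n1 * 8) * Sp.card + (c2 + n2 * 8) * (24 - Sp.card) := by
  have hterm : ∀ i, ((um Sp (mkr a1 c1) (mkr a2 c2) i (w i) : ℕ) : ℤ) =
      cv Sp a1 a2 i * w i + (if i ∈ Sp then c1 else c2) ∧
      ((um Sp (mkr a1 c1) (mkr a2 c2) i (w i) : ℕ) : ℤ) ≤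
        (if i ∈ Sp then c1 + n1 * 8 else c2 + n2 * 8) := by
    intro i
    unfold um cv
    by_cases hi : i ∈ Sp
    · rw [if_pos hi, if_pos hi, if_pos hi, if_pos hi]
      have := mkr_cast a1 n1 c1 ha1 h1 (w i) (hw i)
      exact ⟨this.1, by rw [this.1]; exact this.2⟩
    · rw [if_neg hi, if_neg hi, if_neg hi, if_neg hi]
      have := mkr_cast a2 n2 c2 ha2 h2 (w i) (hw i)
      exact ⟨this.1, by rw [this.1]; exact this.2⟩
  constructor
  · rw [Nat.cast_sum, Finset.sum_congr rfl (fun i _ => (hterm i).1), Finset.sum_add_distrib,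
      sum_const_ite]
    rfl
  · rw [Nat.cast_sum, ← sum_const_ite]
    exact Finset.sum_le_sum fun i _ => (hterm i).2

theorem dot_smul (m : ℤ) (x w : GolayPt → ℤ) : dotInt (m • x) w = m * dotInt x w := by
  unfold dotInt
  rw [Finset.mul_sum]
  refine Finset.sum_congr rfl fun i _ => ?_
  simp only [Pi.smul_apply, smul_eq_mul]
  ring

/-- **Inner-product count for a multiple of a two-valued vector, in computable form.** -/
theorem ip_count (MSp s : ℕ) (hs : pc MSp = s) (a1 n1 c1 a2 n2 c2 : ℤ)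
    (ha1 : -n1 ≤ a1 ∧ a1 ≤ n1) (ha2 : -n2 ≤ a2 ∧ a2 ≤ n2) (h1 : n1 * 8 ≤ c1) (h2 : n2 * 8 ≤ c2)
    (m : ℤ) (hm : m ≠ 0) (R : ℕ)
    (hR : (c1 + n1 * 8) * (s : ℤ) + (c2 + n2 * 8) * (24 - (s : ℤ)) < (R : ℤ))
    (d : ℤ) (a : ℕ) (ha : a < R)
    (hd : d = m * ((a : ℤ) - (c1 * (s : ℤ) + c2 * (24 - (s : ℤ)))))
    (Y : Finset (ℕ × ℕ)) (hY : ∀ k ∈ Finset.range 4096, clsS MSp k ∈ Y) :
    (ipSet (m • cv (ms MSp) a1 a2) d).ncard =
      ∑ y ∈ Y, (if cntS MSp y = 0 then 0 else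
        cntS MSp y * gS (pc MSp) (mkr a1 c1) (mkr a2 c2) R 32 {a} y.1 y.2) := by
  have hcard : (ms MSp).card = s := by rw [card_ms, hs]
  have hU : ∀ x : GolayPt → ℤ, (∀ i, -8 ≤ x i ∧ x i ≤ 8) →
      ∑ i, um (ms MSp) (mkr a1 c1) (mkr a2 c2) i (x i) < R := by
    intro x hx
    have := (marker (ms MSp) a1 n1 c1 a2 n2 c2 ha1 ha2 h1 h2 x hx).2
    rw [hcard] at this
    have h3 : ((∑ i, um (ms MSp) (mkr a1 c1) (mkr a2 c2) i (x i) : ℕ) : ℤ) < (R : ℤ) :=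
      lt_of_le_of_lt this hR
    exact_mod_cast h3
  have hset : ipSet (m • cv (ms MSp) a1 a2) d =
      {x : GolayPt → ℤ | x ∈ leechLattice ∧ sqNorm x = ((32 : ℕ) : ℤ) ∧
        ∑ i, um (ms MSp) (mkr a1 c1) (mkr a2 c2) i (x i) ∈ ({a} : Finset ℕ)} := by
    ext w
    unfold ipSet
    simp only [Set.mem_ofPred_eq, Finset.mem_singleton, Nat.cast_ofNat]
    refine and_congr_right fun _ => and_congr_right fun hn => ?_
    have hbox := box_of_norm w 32 (by norm_num) (by rw [hn]; norm_num)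
    have hmk := (marker (ms MSp) a1 n1 c1 a2 n2 c2 ha1 ha2 h1 h2 w hbox).1
    rw [hcard] at hmk
    rw [dot_smul, hd]
    constructor
    · intro h
      have h4 := mul_left_cancel₀ hm h
      have h5 : ((∑ i, um (ms MSp) (mkr a1 c1) (mkr a2 c2) i (w i) : ℕ) : ℤ) = (a : ℤ) := by
        rw [hmk]; linarith
      exact_mod_cast h5
    · intro h
      rw [h] at hmk
      have h6 : dotInt (cv (ms MSp) a1 a2) w = (a : ℤ) - (c1 * (s : ℤ) + c2 * (24 - (s : ℤ))) := by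
        linarith
      rw [h6]
  rw [hset]
  exact count_special MSp (mkr a1 c1) (mkr a2 c2) R hU 32 (by norm_num) {a}
    (by intro b hb; rw [Finset.mem_singleton] at hb; rw [hb]; exact ha) Y hY


theorem hY_of_all (MSp : ℕ) (Y : Finset (ℕ × ℕ))
    (h : (List.range 4096).all (fun k => decide (clsS MSp k ∈ Y)) = true) :
    ∀ k ∈ Finset.range 4096, clsS MSp k ∈ Y := by
  intro k hk
  exact of_decide_eq_true
    (List.all_eq_true.mp h k (List.mem_range.mpr (Finset.mem_range.mp hk)))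

end Cfsg.Agent.Lib.Helper11.LeechIP
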