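import Mathlib
import Cfsg.Agent.Lib.Helper11.LeechIP

set_option autoImplicit false

namespace Cfsg.Agent.Lib.Helper11.LeechIP

open Cfsg Cfsg.Agent.Lib.Helper3.Golay Cfsg.Agent.Lib.Helper3.Golay2
open Cfsg.Agent.Lib.Helper3.Leech Cfsg.Agent.Lib.Helper3.Leech2 Cfsg.Agent.Lib.Helper3.Leech4
open Cfsg.Agent.Lib.Helper3.GolayM24 Cfsg.Agent.Lib.Helper3.M24Perm
open Cfsg.Agent.Lib.Helper3.M24Trans
open Cfsg.Agent.Lib.Helper11.LeechGF Cfsg.Agent.Lib.Helper11.Co0Mono
open scoped Pointwise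

/-! ### The three standard minimal vectors -/

/-- `(4, 4, 0, …)` at the points `∞` and `0`. -/
def VA : GolayPt → ℤ := (4 : ℤ) • cv (ms 8388609) 1 0

/-- `2` on the standard octad. -/
def VB : GolayPt → ℤ := (2 : ℤ) • cv (ms 5279) 1 0

/-- `-3` at `∞` and `1` elsewhere. -/
def VC : GolayPt → ℤ := (1 : ℤ) • cv (ms 8388608) (-3) 1

theorem mem_msA : ∀ j : GolayPt, j ∈ ms 8388609 ↔ (j = none ∨ j = some 0) := by
  decide +kernel

theorem mem_msC : ∀ j : GolayPt, j ∈ ms 8388608 ↔ j = none := by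
  decide +kernel

theorem O0_mem : ms 5279 ∈ octads := by
  have h : ms 5279 = supp 345 := ms_cw 345
  rw [h]
  exact mem_octads.mpr ⟨(mem_supports_iff _).mpr ⟨345, by norm_num, rfl⟩,
    by rw [card_supp]; decide⟩

/-! ### Cutting out subsets by codewords -/

theorem pair_cut (p q : GolayPt) (hpq : p ≠ q) (s : Finset GolayPt) :
    ∃ d ∈ Cset, ∀ k ∈ ({p, q} : Finset GolayPt), (k ∈ d ↔ k ∈ s) := by
  by_cases hp : p ∈ s <;> by_cases hq : q ∈ s
  · refine ⟨Finset.univ, univ_mem_supports, fun k hk => ?_⟩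
    rw [Finset.mem_insert, Finset.mem_singleton] at hk
    rcases hk with rfl | rfl
    · simp [hp]
    · simp [hq]
  · obtain ⟨d, hd, h1, h2⟩ := sep q p hpq.symm
    refine ⟨d, hd, fun k hk => ?_⟩
    rw [Finset.mem_insert, Finset.mem_singleton] at hk
    rcases hk with rfl | rfl
    · simp [h1, hp]
    · simp [h2, hq]
  · obtain ⟨d, hd, h1, h2⟩ := sep p q hpq
    refine ⟨d, hd, fun k hk => ?_⟩
    rw [Finset.mem_insert, Finset.mem_singleton] at hk
    rcases hk with rfl | rfl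
    · simp [h2, hp]
    · simp [h1, hq]
  · refine ⟨∅, empty_mem_supports, fun k hk => ?_⟩
    rw [Finset.mem_insert, Finset.mem_singleton] at hk
    rcases hk with rfl | rfl
    · simp [hp]
    · simp [hq]

theorem sgn_pt (c : ℤ) (D S Pp M : Prop) [Decidable D] [Decidable S] [Decidable Pp]
    [Decidable M] (hM : M ↔ Pp) (h2 : Pp → (D ↔ S)) (h3 : S → Pp) :
    (if D then -(if S then -c else if Pp then c else 0) else (if S then -c else if Pp then c else 0))
      = c * (if M then 1 else 0) := by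
  by_cases hd : D <;> by_cases hm : M <;> by_cases hs : S <;> by_cases ho : Pp <;>
    simp only [hd, hm, hs, ho, if_true, if_false] <;>
    first | (exfalso; tauto) | ring

theorem odd_pt (c : Finset GolayPt) (i k : GolayPt) (M : Prop) [Decidable M] (hM : M ↔ k = i) :
    (if k ∈ cᶜ then -(oddv c i k) else oddv c i k) = (1 : ℤ) * (if M then -3 else 1) := by
  unfold oddv
  by_cases h2 : k = i
  · subst h2
    have hm : M := hM.mpr rfl
    by_cases h1 : k ∈ c <;>
      simp only [Finset.mem_compl, h1, hm, if_true, if_false, not_true_eq_false,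
        not_false_eq_true, eq_self_iff_true] <;> ring
  · have hm : ¬M := fun h => h2 (hM.mp h)
    by_cases h1 : k ∈ c <;>
      simp only [Finset.mem_compl, h1, h2, hm, if_true, if_false, not_true_eq_false,
        not_false_eq_true] <;> ring

theorem pair_dec : (List.range 24).all (fun i => (List.range 24).all (fun j =>
    !(Nat.testBit 5279 i) || !(Nat.testBit 5279 j) || (i == j) ||
      (List.range 4096).any (fun k => cw k &&& 5279 == 2 ^ i ||| 2 ^ j))) = true := by
  decide +kernel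

theorem idx_inj {a b : GolayPt} (h : idx a = idx b) : a = b := by
  rw [← pt_idx a, ← pt_idx b, h]

theorem pairO0 (a b : GolayPt) (ha : a ∈ ms 5279) (hb : b ∈ ms 5279) (hab : a ≠ b) :
    ∃ d ∈ Cset, d ∩ ms 5279 = {a, b} := by
  have h := pair_dec
  rw [List.all_eq_true] at h
  have h1 := h (idx a) (List.mem_range.mpr (idx_lt a))
  rw [List.all_eq_true] at h1
  have h2 := h1 (idx b) (List.mem_range.mpr (idx_lt b))
  rw [mem_ms] at ha hb
  have hne : idx a ≠ idx b := fun e => hab (idx_inj e)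
  simp only [Bool.or_eq_true, Bool.not_eq_true', beq_iff_eq, List.any_eq_true,
    List.mem_range] at h2
  rcases h2 with ((h2 | h2) | h2) | ⟨k, hk, hk2⟩
  · rw [ha] at h2; exact absurd h2 (by decide)
  · rw [hb] at h2; exact absurd h2 (by decide)
  · exact absurd h2 hne
  refine ⟨supp k, (mem_supports_iff _).mpr ⟨k, hk, rfl⟩, ?_⟩
  rw [← ms_cw, Cfsg.Agent.Lib.Helper3.M24Orb.ms_and, hk2]
  ext p
  rw [mem_ms, Nat.testBit_or, Nat.testBit_two_pow, Nat.testBit_two_pow, Finset.mem_insert,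
    Finset.mem_singleton, Bool.or_eq_true, decide_eq_true_eq, decide_eq_true_eq]
  constructor
  · rintro (e | e)
    · exact Or.inl (idx_inj e.symm)
    · exact Or.inr (idx_inj e.symm)
  · rintro (rfl | rfl)
    · exact Or.inl rfl
    · exact Or.inr rfl

theorem even_cut : ∀ (n : ℕ) (s : Finset GolayPt), s ⊆ ms 5279 → s.card = 2 * n →
    ∃ d ∈ Cset, d ∩ ms 5279 = s
  | 0, s, _, hc => by
    have hs0 : s = ∅ := Finset.card_eq_zero.mp (by omega)
    exact ⟨∅, empty_mem_supports, by rw [hs0, Finset.empty_inter]⟩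
  | n + 1, s, hs, hc => by
    obtain ⟨a, ha⟩ : s.Nonempty := Finset.card_pos.mp (by omega)
    have hc1 : (s.erase a).card = 2 * n + 1 := by rw [Finset.card_erase_of_mem ha]; omega
    obtain ⟨b, hb⟩ : (s.erase a).Nonempty := Finset.card_pos.mp (by omega)
    have hc2 : ((s.erase a).erase b).card = 2 * n := by
      rw [Finset.card_erase_of_mem hb]; omega
    have hbs : b ∈ s := Finset.mem_of_mem_erase hb
    have hba : b ≠ a := Finset.ne_of_mem_erase hb
    obtain ⟨d', hd', e'⟩ := even_cut n ((s.erase a).erase b)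
      (fun x hx => hs (Finset.mem_of_mem_erase (Finset.mem_of_mem_erase hx))) hc2
    obtain ⟨d'', hd'', e''⟩ := pairO0 a b (hs ha) (hs hbs) hba.symm
    refine ⟨symmDiff d' d'', symmDiff_mem_supports hd' hd'', ?_⟩
    ext x
    have e1 : (x ∈ d' ∧ x ∈ ms 5279) ↔ (x ≠ b ∧ x ≠ a ∧ x ∈ s) := by
      rw [← Finset.mem_inter, e', Finset.mem_erase, Finset.mem_erase]
    have e2 : (x ∈ d'' ∧ x ∈ ms 5279) ↔ (x = a ∨ x = b) := by
      rw [← Finset.mem_inter, e'', Finset.mem_insert, Finset.mem_singleton]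
    have h3 : x ∈ s → x ∈ ms 5279 := fun h => hs h
    have h4 : x = a → x ∈ s := fun h => h ▸ ha
    have h5 : x = b → x ∈ s := fun h => h ▸ hbs
    rw [Finset.mem_inter, Finset.mem_symmDiff]
    tauto

theorem even_cut' (s : Finset GolayPt) (hs : s ⊆ ms 5279) (he : Even s.card) :
    ∃ d ∈ Cset, d ∩ ms 5279 = s := by
  obtain ⟨n, hn⟩ := he
  exact even_cut n s hs (by omega)

/-! ### Every minimal vector is equivalent to a standard one -/

theorem shape_reps (v : ↥leechLattice) (hv : sqNorm (v : GolayPt → ℤ) = 32) :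
    ∃ g ∈ Co0, ((g v : ↥leechLattice) : GolayPt → ℤ) = VA ∨
      ((g v : ↥leechLattice) : GolayPt → ℤ) = VB ∨
      ((g v : ↥leechLattice) : GolayPt → ℤ) = VC := by
  have hm : (v : GolayPt → ℤ) ∈ Mn := ⟨v.2, hv⟩
  rw [cover] at hm
  rcases hm with (⟨⟨c, i⟩, hp, hx⟩ | ⟨⟨o, s⟩, hp, hx⟩) | ⟨⟨P, s⟩, hp, hx⟩
  · -- odd vectors
    rw [Finset.mem_coe, mem_I1] at hp
    simp only at hp
    obtain ⟨σ, hσ, hσi⟩ := trans1 i none
    refine ⟨prmP σ hσ * sgnP cᶜ (compl_mem_supports hp), Co0.mul_mem (prmP_mem σ hσ)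
      (sgnP_mem _ _), Or.inr (Or.inr ?_)⟩
    rw [Equiv.Perm.mul_apply, prmP_apply, sgnP_apply, ← hx]
    funext j
    have hk : σ.symm j = i ↔ j = none := by rw [Equiv.symm_apply_eq, hσi]
    have hmem := mem_msC j
    unfold prmF sgnF VC cv f1
    simp only [Pi.smul_apply, smul_eq_mul]
    exact odd_pt c i (σ.symm j) (j ∈ ms 8388608) (hmem.trans hk.symm)
  · -- octad vectors
    rw [Finset.mem_coe, mem_I2] at hp
    simp only at hp
    obtain ⟨ho, hso, hse⟩ := hp
    obtain ⟨σ, hσ, hσo⟩ := octad_trans ho O0_mem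
    have hs' : s.map σ.toEmbedding ⊆ ms 5279 := by
      intro j hj
      rw [Finset.mem_map_equiv] at hj
      rw [← hσo]
      exact Finset.mem_smul_finset.mpr ⟨σ.symm j, hso hj, by simp⟩
    obtain ⟨d, hd, hdO⟩ := even_cut' (s.map σ.toEmbedding) hs' (by rw [Finset.card_map]; exact hse)
    refine ⟨sgnP d hd * prmP σ hσ, Co0.mul_mem (sgnP_mem _ _) (prmP_mem σ hσ),
      Or.inr (Or.inl ?_)⟩
    rw [Equiv.Perm.mul_apply, sgnP_apply, prmP_apply, ← hx]
    funext j
    have e1 : (j ∈ d ∧ j ∈ ms 5279) ↔ σ.symm j ∈ s := by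
      rw [← Finset.mem_inter, hdO, Finset.mem_map_equiv]
    have e2 : σ.symm j ∈ o ↔ j ∈ ms 5279 := by
      rw [← hσo]
      constructor
      · intro h
        exact Finset.mem_smul_finset.mpr ⟨σ.symm j, h, by simp⟩
      · intro h
        obtain ⟨y, hy, hyj⟩ := Finset.mem_smul_finset.mp h
        rw [← hyj]
        simpa using hy
    have e3 : σ.symm j ∈ s → σ.symm j ∈ o := fun h => hso h
    unfold prmF sgnF VB cv f2 vec
    simp only [Pi.smul_apply, smul_eq_mul]
    exact sgn_pt 2 (j ∈ d) (σ.symm j ∈ s) (σ.symm j ∈ o) (j ∈ ms 5279) e2.symm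
      (fun h => ⟨fun h' => e1.mp ⟨h', e2.mp h⟩, fun h' => (e1.mpr h').1⟩) e3
  · -- vectors of shape (4, 4, 0, …)
    rw [Finset.mem_coe, mem_I4] at hp
    simp only at hp
    obtain ⟨hP, hsP⟩ := hp
    obtain ⟨p, q, hpq, rfl⟩ := Finset.card_eq_two.mp hP
    obtain ⟨d, hd, hdP⟩ := pair_cut p q hpq s
    obtain ⟨σ, hσ, hσp, hσq⟩ := trans2 p q none (some 0) hpq (by decide)
    refine ⟨prmP σ hσ * sgnP d hd, Co0.mul_mem (prmP_mem σ hσ) (sgnP_mem _ _), Or.inl ?_⟩
    rw [Equiv.Perm.mul_apply, prmP_apply, sgnP_apply, ← hx]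
    funext j
    have hmem := mem_msA j
    have e1 : σ.symm j ∈ ({p, q} : Finset GolayPt) ↔ (j = none ∨ j = some 0) := by
      rw [Finset.mem_insert, Finset.mem_singleton, Equiv.symm_apply_eq, Equiv.symm_apply_eq,
        hσp, hσq]
    have e2 := hdP (σ.symm j)
    have e3 : σ.symm j ∈ s → σ.symm j ∈ ({p, q} : Finset GolayPt) := fun h => hsP h
    unfold prmF sgnF VA cv f4 vec
    simp only [Pi.smul_apply, smul_eq_mul]
    exact sgn_pt 4 (σ.symm j ∈ d) (σ.symm j ∈ s) (σ.symm j ∈ ({p, q} : Finset GolayPt))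
      (j ∈ ms 8388609) (hmem.trans e1.symm) e2 e3

end Cfsg.Agent.Lib.Helper11.LeechIP
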