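import Mathlib
import Cfsg.Agent.Lib.Helper11.LeechShape

set_option autoImplicit false

namespace Cfsg.Agent.Lib.Helper11.LeechXi

open Cfsg Cfsg.Agent.Lib.Helper3.Golay Cfsg.Agent.Lib.Helper3.Golay2
open Cfsg.Agent.Lib.Helper3.Leech Cfsg.Agent.Lib.Helper3.Leech2 Cfsg.Agent.Lib.Helper3.Leech4
open Cfsg.Agent.Lib.Helper3.GolayM24 Cfsg.Agent.Lib.Helper3.M24Perm
open Cfsg.Agent.Lib.Helper11.LeechGF Cfsg.Agent.Lib.Helper11.Co0Mono
open Cfsg.Agent.Lib.Helper11.LeechIP

/-! ### A standard sextet -/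

/-- The table of tetrad indices (base 8). -/
def TAB : ℕ := 412064805866980286465

/-- The index of the tetrad of a point. -/
def tet (i : GolayPt) : ℕ := (TAB / 8 ^ idx i) % 8

/-- The masks of the six tetrads. -/
def Tm : ℕ → ℕ
  | 0 => 8388622
  | 1 => 147489
  | 2 => 294992
  | 3 => 537088
  | 4 => 2165760
  | _ => 5243264

theorem tet_lt : ∀ i : GolayPt, tet i < 6 := by decide +kernel

theorem card_tet : ∀ k < 6, (Finset.univ.filter fun j : GolayPt => tet j = k).card = 4 := by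
  decide +kernel

/-- Union of the tetrads selected by six booleans, as a mask. -/
def um6 (b0 b1 b2 b3 b4 b5 : Bool) : ℕ :=
  (if b0 then Tm 0 else 0) ||| (if b1 then Tm 1 else 0) ||| (if b2 then Tm 2 else 0) |||
    (if b3 then Tm 3 else 0) ||| (if b4 then Tm 4 else 0) ||| (if b5 then Tm 5 else 0)

/-- Selection among six booleans. -/
def sel6 (b0 b1 b2 b3 b4 b5 : Bool) : ℕ → Bool
  | 0 => b0
  | 1 => b1
  | 2 => b2
  | 3 => b3
  | 4 => b4
  | _ => b5

theorem um6_code : ∀ b0 b1 b2 b3 b4 b5 : Bool, (b0 ^^ b1 ^^ b2 ^^ b3 ^^ b4 ^^ b5) = false →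
    cw (kOf (um6 b0 b1 b2 b3 b4 b5)) = um6 b0 b1 b2 b3 b4 b5 := by
  decide +kernel

theorem um6_bit : ∀ (b0 b1 b2 b3 b4 b5 : Bool) (i : GolayPt),
    (um6 b0 b1 b2 b3 b4 b5).testBit (idx i) = sel6 b0 b1 b2 b3 b4 b5 (tet i) := by
  decide +kernel

theorem kOf_lt : ∀ b0 b1 b2 b3 b4 b5 : Bool, kOf (um6 b0 b1 b2 b3 b4 b5) < 4096 := by
  decide +kernel

/-- The union of the tetrads selected by `f`. -/
def U (f : ℕ → Bool) : Finset GolayPt := Finset.univ.filter fun i : GolayPt => f (tet i) = true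

theorem mem_U (f : ℕ → Bool) (i : GolayPt) : i ∈ U f ↔ f (tet i) = true := by
  unfold U
  rw [Finset.mem_filter]
  exact ⟨fun h => h.2, fun h => ⟨Finset.mem_univ _, h⟩⟩

/-- A union of an even number of tetrads is a codeword. -/
theorem union_mem (f : ℕ → Bool) (hf : (f 0 ^^ f 1 ^^ f 2 ^^ f 3 ^^ f 4 ^^ f 5) = false) :
    U f ∈ Cset := by
  have h1 := um6_code (f 0) (f 1) (f 2) (f 3) (f 4) (f 5) hf
  have h2 : U f = supp (kOf (um6 (f 0) (f 1) (f 2) (f 3) (f 4) (f 5))) := by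
    rw [← ms_cw, h1]
    ext i
    rw [mem_U, mem_ms, um6_bit]
    have hi := tet_lt i
    have : sel6 (f 0) (f 1) (f 2) (f 3) (f 4) (f 5) (tet i) = f (tet i) := by
      generalize tet i = k at hi
      interval_cases k <;> rfl
    rw [this]
  rw [h2]
  exact (mem_supports_iff _).mpr ⟨_, kOf_lt _ _ _ _ _ _, rfl⟩

/-! ### Tetrad sums -/

/-- The sum of the coordinates over the tetrad `k`. -/
def S (x : GolayPt → ℤ) (k : ℕ) : ℤ := ∑ j, if tet j = k then x j else 0

theorem S_add (x y : GolayPt → ℤ) (k : ℕ) : S (x + y) k = S x k + S y k := by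
  unfold S
  rw [← Finset.sum_add_distrib]
  refine Finset.sum_congr rfl fun j _ => ?_
  split_ifs <;> simp

/-- Sums of functions that are affine on each tetrad. -/
theorem sum_tet (x : GolayPt → ℤ) (g c : ℕ → ℤ) :
    ∑ i, (g (tet i) * x i + c (tet i)) = ∑ k ∈ Finset.range 6, (g k * S x k + 4 * c k) := by
  have h1 : ∀ i : GolayPt, g (tet i) * x i + c (tet i) =
      ∑ k ∈ Finset.range 6, if tet i = k then g k * x i + c k else 0 := by
    intro i
    rw [Finset.sum_ite_eq, if_pos (Finset.mem_range.mpr (tet_lt i))]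
  rw [Finset.sum_congr rfl fun i _ => h1 i, Finset.sum_comm]
  refine Finset.sum_congr rfl fun k hk => ?_
  have h2 : ∀ i : GolayPt, (if tet i = k then g k * x i + c k else 0) =
      g k * (if tet i = k then x i else 0) + (if tet i = k then c k else 0) := by
    intro i
    split_ifs <;> ring
  have h3 : ∑ i : GolayPt, (if tet i = k then c k else 0) = 4 * c k := by
    rw [Finset.sum_ite, Finset.sum_const, Finset.sum_const_zero, add_zero,
      card_tet k (Finset.mem_range.mp hk)]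
    simp
  rw [Finset.sum_congr rfl fun i _ => h2 i, Finset.sum_add_distrib, ← Finset.mul_sum, h3]
  rfl

theorem sum_eq_S (x : GolayPt → ℤ) :
    ∑ i, x i = S x 0 + S x 1 + S x 2 + S x 3 + S x 4 + S x 5 := by
  have h := sum_tet x (fun _ => 1) (fun _ => 0)
  simp only [one_mul, add_zero, mul_zero] at h
  rw [h]
  simp [Finset.sum_range_succ]


/-! ### Tetrad sums of lattice vectors -/

theorem S_oct {x : GolayPt → ℤ} (hx : x ∈ leechSet) (k l : ℕ) (hk : k < 6) (hl : l < 6)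
    (hkl : k ≠ l) : (S x k + S x l) % 4 = 0 := by
  rw [mem_leechSet_iff] at hx
  obtain ⟨m, h1, h2, h3⟩ := hx
  have hf : ((fun j : ℕ => decide (j = k) || decide (j = l)) 0 ^^
      (fun j : ℕ => decide (j = k) || decide (j = l)) 1 ^^
      (fun j : ℕ => decide (j = k) || decide (j = l)) 2 ^^
      (fun j : ℕ => decide (j = k) || decide (j = l)) 3 ^^
      (fun j : ℕ => decide (j = k) || decide (j = l)) 4 ^^
      (fun j : ℕ => decide (j = k) || decide (j = l)) 5) = false := by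
    interval_cases k <;> interval_cases l <;> first | (exact absurd rfl hkl) | decide
  have hU := union_mem (fun j : ℕ => decide (j = k) || decide (j = l)) hf
  have hs := sum_on_cset h1 h3 hU
  have e : ∑ i ∈ U (fun j : ℕ => decide (j = k) || decide (j = l)), x i = S x k + S x l := by
    unfold U
    rw [Finset.sum_filter]
    unfold S
    rw [← Finset.sum_add_distrib]
    refine Finset.sum_congr rfl fun i _ => ?_
    by_cases ha : tet i = k
    · have hb : tet i ≠ l := fun h => hkl (ha.symm.trans h)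
      simp [ha, hb]
      intro h
      exact absurd h hkl
    · by_cases hb : tet i = l
      · simp [ha, hb]
        intro h
        exact absurd h.symm hkl
      · simp [ha, hb]
  rw [e] at hs
  exact hs

theorem S_mod4 {x : GolayPt → ℤ} (hx : x ∈ leechSet) :
    (∀ k < 6, S x k % 4 = S x 0 % 4) ∧ (S x 0 % 4 = 0 ∨ S x 0 % 4 = 2) := by
  have h01 := S_oct hx 0 1 (by norm_num) (by norm_num) (by norm_num)
  have h02 := S_oct hx 0 2 (by norm_num) (by norm_num) (by norm_num)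
  have h12 := S_oct hx 1 2 (by norm_num) (by norm_num) (by norm_num)
  have h0 : S x 0 % 4 = 0 ∨ S x 0 % 4 = 2 := by omega
  refine ⟨fun k hk => ?_, h0⟩
  by_cases hk0 : k = 0
  · rw [hk0]
  · have := S_oct hx 0 k (by norm_num) hk (fun h => hk0 h.symm)
    omega

theorem S_even {x : GolayPt → ℤ} (hx : x ∈ leechSet) (k : ℕ) : S x k % 2 = 0 := by
  by_cases hk : k < 6
  · have h := S_mod4 hx
    have := h.1 k hk
    omega
  · have : S x k = 0 := by
      unfold S
      refine Finset.sum_eq_zero fun j _ => ?_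
      rw [if_neg]
      intro h
      exact hk (h ▸ tet_lt j)
    rw [this]
    rfl

/-! ### The map -/

/-- The sign of a tetrad index. -/
def epk (k : ℕ) : ℤ := if k = 0 then -1 else 1

/-- The map `ξ` of the standard sextet: on each tetrad, `x ↦ x - (sum of the tetrad) / 2`,
followed by the change of sign on the first tetrad. -/
def xiF (x : GolayPt → ℤ) : GolayPt → ℤ := fun i => epk (tet i) * (x i - S x (tet i) / 2)

theorem xiF_add {x y : GolayPt → ℤ} (hx : ∀ k, S x k % 2 = 0) (hy : ∀ k, S y k % 2 = 0) :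
    xiF (x + y) = xiF x + xiF y := by
  funext i
  unfold xiF
  simp only [Pi.add_apply]
  rw [S_add]
  have h1 := hx (tet i)
  have h2 := hy (tet i)
  have h3 : (S x (tet i) + S y (tet i)) / 2 = S x (tet i) / 2 + S y (tet i) / 2 := by omega
  rw [h3]
  ring

theorem S_xiF (x : GolayPt → ℤ) (k : ℕ) (hk : k < 6) :
    S (xiF x) k = epk k * (S x k - 4 * (S x k / 2)) := by
  have h1 : ∀ j : GolayPt, (if tet j = k then xiF x j else 0) =
      epk k * (if tet j = k then x j else 0) + (if tet j = k then -(epk k * (S x k / 2)) else 0) := by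
    intro j
    unfold xiF
    by_cases hj : tet j = k
    · rw [if_pos hj, if_pos hj, if_pos hj, hj]
      ring
    · rw [if_neg hj, if_neg hj, if_neg hj]
      ring
  have h3 : ∑ j : GolayPt, (if tet j = k then -(epk k * (S x k / 2)) else 0) =
      4 * -(epk k * (S x k / 2)) := by
    rw [Finset.sum_ite, Finset.sum_const, Finset.sum_const_zero, add_zero, card_tet k hk]
    simp
  show ∑ j, (if tet j = k then xiF x j else 0) = _
  rw [Finset.sum_congr rfl fun j _ => h1 j, Finset.sum_add_distrib, ← Finset.mul_sum, h3]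
  show epk k * S x k + _ = _
  ring

theorem xiF_xiF {x : GolayPt → ℤ} (hx : ∀ k, S x k % 2 = 0) : xiF (xiF x) = x := by
  funext i
  have hk := tet_lt i
  show epk (tet i) * (xiF x i - S (xiF x) (tet i) / 2) = x i
  rw [S_xiF x _ hk]
  show epk (tet i) * (epk (tet i) * (x i - S x (tet i) / 2) -
    epk (tet i) * (S x (tet i) - 4 * (S x (tet i) / 2)) / 2) = x i
  have h1 := hx (tet i)
  unfold epk
  by_cases h0 : tet i = 0
  · rw [if_pos h0]
    omega
  · rw [if_neg h0]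
    omega

theorem sum_xiF {x : GolayPt → ℤ} (hx : ∀ k, S x k % 2 = 0) :
    ∑ i, xiF x i = 2 * S x 0 - ∑ i, x i := by
  have h1 : ∀ i : GolayPt, xiF x i =
      epk (tet i) * x i + -(epk (tet i) * (S x (tet i) / 2)) := by
    intro i
    unfold xiF
    ring
  have h := sum_tet x (fun k => epk k) (fun k => -(epk k * (S x k / 2)))
  beta_reduce at h
  rw [Finset.sum_congr rfl fun i _ => h1 i, h, sum_eq_S]
  have e0 := hx 0
  have e1 := hx 1
  have e2 := hx 2
  have e3 := hx 3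
  have e4 := hx 4
  have e5 := hx 5
  simp only [Finset.sum_range_succ, Finset.sum_range_zero, epk]
  norm_num
  omega

theorem sqNorm_xiF {x : GolayPt → ℤ} (hx : ∀ k, S x k % 2 = 0) : sqNorm (xiF x) = sqNorm x := by
  have h1 : ∀ i : GolayPt, xiF x i ^ 2 - x i ^ 2 =
      -2 * (S x (tet i) / 2) * x i + (S x (tet i) / 2) ^ 2 := by
    intro i
    unfold xiF epk
    by_cases h0 : tet i = 0
    · rw [if_pos h0]; ring
    · rw [if_neg h0]; ring
  have h := sum_tet x (fun k => -2 * (S x k / 2)) (fun k => (S x k / 2) ^ 2)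
  beta_reduce at h
  have h2 : sqNorm (xiF x) - sqNorm x = 0 := by
    unfold sqNorm
    rw [← Finset.sum_sub_distrib, Finset.sum_congr rfl fun i _ => h1 i, h]
    refine Finset.sum_eq_zero fun k _ => ?_
    obtain ⟨t, ht⟩ : ∃ t, S x k = 2 * t := ⟨S x k / 2, by have := hx k; omega⟩
    rw [ht, Int.mul_ediv_cancel_left _ (by norm_num : (2 : ℤ) ≠ 0)]
    ring
  linarith


/-! ### The map preserves the lattice -/

theorem xor_decide (P Q : Prop) [Decidable P] [Decidable Q] :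
    (decide P ^^ decide Q) = true ↔ ¬(P ↔ Q) := by
  by_cases hP : P <;> by_cases hQ : Q <;> simp [hP, hQ]

theorem patE0 (xi s : ℤ) (A B C T : Prop) [Decidable A] [Decidable C] [Decidable T]
    (hC : C ↔ (A ∧ ¬B ∨ B ∧ ¬A)) (hB : B ↔ s % 8 = 4)
    (hp : xi % 4 = if A then 2 else 0) (hs : s % 4 = 0) :
    ((if T then (-1 : ℤ) else 1) * (xi - s / 2)) % 4 = if C then 2 else 0 := by
  by_cases h8 : s % 8 = 4 <;> by_cases hT : T <;> by_cases hA : A <;> by_cases hC' : C <;>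
    simp only [hT, hA, hC', if_true, if_false] at hp ⊢ <;>
    first | omega | (exfalso; tauto)

theorem patE1 (xi s : ℤ) (A B C T : Prop) [Decidable A] [Decidable C] [Decidable T]
    (hC : C ↔ (A ∧ ¬B ∨ B ∧ ¬A)) (hB : B ↔ ¬(s % 8 = 6 ↔ T))
    (hp : xi % 4 = if A then 2 else 0) (hs : s % 4 = 2) :
    ((if T then (-1 : ℤ) else 1) * (xi - s / 2)) % 4 = if C then 1 else 3 := by
  by_cases h8 : s % 8 = 6 <;> by_cases hT : T <;> by_cases hA : A <;> by_cases hC' : C <;>
    simp only [hT, hA, hC', if_true, if_false] at hp ⊢ <;>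
    first | omega | (exfalso; tauto)

theorem patO0 (xi s : ℤ) (A B C T : Prop) [Decidable A] [Decidable C] [Decidable T]
    (hC : C ↔ (A ∧ ¬B ∨ B ∧ ¬A)) (hB : B ↔ ¬(s % 8 = 4 ↔ T))
    (hp : xi % 4 = if A then 1 else 3) (hs : s % 4 = 0) :
    ((if T then (-1 : ℤ) else 1) * (xi - s / 2)) % 4 = if C then 1 else 3 := by
  by_cases h8 : s % 8 = 4 <;> by_cases hT : T <;> by_cases hA : A <;> by_cases hC' : C <;>
    simp only [hT, hA, hC', if_true, if_false] at hp ⊢ <;>
    first | omega | (exfalso; tauto)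

theorem patO1 (xi s : ℤ) (A B C T : Prop) [Decidable A] [Decidable C] [Decidable T]
    (hC : C ↔ (A ∧ ¬B ∨ B ∧ ¬A)) (hB : B ↔ s % 8 = 2)
    (hp : xi % 4 = if A then 1 else 3) (hs : s % 4 = 2) :
    ((if T then (-1 : ℤ) else 1) * (xi - s / 2)) % 4 = if C then 2 else 0 := by
  by_cases h8 : s % 8 = 2 <;> by_cases hT : T <;> by_cases hA : A <;> by_cases hC' : C <;>
    simp only [hT, hA, hC', if_true, if_false] at hp ⊢ <;>
    first | omega | (exfalso; tauto)

theorem parE0 (s0 s1 s2 s3 s4 s5 : ℤ) (h0 : s0 % 4 = 0) (h1 : s1 % 4 = 0) (h2 : s2 % 4 = 0) (h3 : s3 % 4 = 0) (h4 : s4 % 4 = 0) (h5 : s5 % 4 = 0)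
    (hsum : (s0 + s1 + s2 + s3 + s4 + s5) % 8 = 0) :
    (decide (s0 % 8 = 4) ^^ decide (s1 % 8 = 4) ^^ decide (s2 % 8 = 4) ^^ decide (s3 % 8 = 4) ^^ decide (s4 % 8 = 4) ^^ decide (s5 % 8 = 4)) = false := by
  by_cases e0 : s0 % 8 = 4 <;> by_cases e1 : s1 % 8 = 4 <;> by_cases e2 : s2 % 8 = 4 <;> by_cases e3 : s3 % 8 = 4 <;> by_cases e4 : s4 % 8 = 4 <;> by_cases e5 : s5 % 8 = 4 <;>
    simp only [e0, e1, e2, e3, e4, e5, decide_true, decide_false] <;>
    first | rfl | (exfalso; omega)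

theorem parE1 (s0 s1 s2 s3 s4 s5 : ℤ) (h0 : s0 % 4 = 2) (h1 : s1 % 4 = 2) (h2 : s2 % 4 = 2) (h3 : s3 % 4 = 2) (h4 : s4 % 4 = 2) (h5 : s5 % 4 = 2)
    (hsum : (s0 + s1 + s2 + s3 + s4 + s5) % 8 = 0) :
    ((decide (s0 % 8 = 6) ^^ decide ((0 : ℕ) = 0)) ^^ (decide (s1 % 8 = 6) ^^ decide ((1 : ℕ) = 0)) ^^ (decide (s2 % 8 = 6) ^^ decide ((2 : ℕ) = 0)) ^^ (decide (s3 % 8 = 6) ^^ decide ((3 : ℕ) = 0)) ^^ (decide (s4 % 8 = 6) ^^ decide ((4 : ℕ) = 0)) ^^ (decide (s5 % 8 = 6) ^^ decide ((5 : ℕ) = 0))) = false := by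
  by_cases e0 : s0 % 8 = 6 <;> by_cases e1 : s1 % 8 = 6 <;> by_cases e2 : s2 % 8 = 6 <;> by_cases e3 : s3 % 8 = 6 <;> by_cases e4 : s4 % 8 = 6 <;> by_cases e5 : s5 % 8 = 6 <;>
    simp only [e0, e1, e2, e3, e4, e5, decide_true, decide_false] <;>
    first | rfl | (exfalso; omega)

theorem parO0 (s0 s1 s2 s3 s4 s5 : ℤ) (h0 : s0 % 4 = 0) (h1 : s1 % 4 = 0) (h2 : s2 % 4 = 0) (h3 : s3 % 4 = 0) (h4 : s4 % 4 = 0) (h5 : s5 % 4 = 0)
    (hsum : (s0 + s1 + s2 + s3 + s4 + s5) % 8 = 4) :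
    ((decide (s0 % 8 = 4) ^^ decide ((0 : ℕ) = 0)) ^^ (decide (s1 % 8 = 4) ^^ decide ((1 : ℕ) = 0)) ^^ (decide (s2 % 8 = 4) ^^ decide ((2 : ℕ) = 0)) ^^ (decide (s3 % 8 = 4) ^^ decide ((3 : ℕ) = 0)) ^^ (decide (s4 % 8 = 4) ^^ decide ((4 : ℕ) = 0)) ^^ (decide (s5 % 8 = 4) ^^ decide ((5 : ℕ) = 0))) = false := by
  by_cases e0 : s0 % 8 = 4 <;> by_cases e1 : s1 % 8 = 4 <;> by_cases e2 : s2 % 8 = 4 <;> by_cases e3 : s3 % 8 = 4 <;> by_cases e4 : s4 % 8 = 4 <;> by_cases e5 : s5 % 8 = 4 <;>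
    simp only [e0, e1, e2, e3, e4, e5, decide_true, decide_false] <;>
    first | rfl | (exfalso; omega)

theorem parO1 (s0 s1 s2 s3 s4 s5 : ℤ) (h0 : s0 % 4 = 2) (h1 : s1 % 4 = 2) (h2 : s2 % 4 = 2) (h3 : s3 % 4 = 2) (h4 : s4 % 4 = 2) (h5 : s5 % 4 = 2)
    (hsum : (s0 + s1 + s2 + s3 + s4 + s5) % 8 = 4) :
    (decide (s0 % 8 = 2) ^^ decide (s1 % 8 = 2) ^^ decide (s2 % 8 = 2) ^^ decide (s3 % 8 = 2) ^^ decide (s4 % 8 = 2) ^^ decide (s5 % 8 = 2)) = false := by
  by_cases e0 : s0 % 8 = 2 <;> by_cases e1 : s1 % 8 = 2 <;> by_cases e2 : s2 % 8 = 2 <;> by_cases e3 : s3 % 8 = 2 <;> by_cases e4 : s4 % 8 = 2 <;> by_cases e5 : s5 % 8 = 2 <;>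
    simp only [e0, e1, e2, e3, e4, e5, decide_true, decide_false] <;>
    first | rfl | (exfalso; omega)


set_option maxHeartbeats 1000000 in
theorem xi_mem {x : GolayPt → ℤ} (hx : x ∈ leechSet) : xiF x ∈ leechSet := by
  have hS := S_mod4 hx
  have hev : ∀ k, S x k % 2 = 0 := S_even hx
  have hsum := sum_eq_S x
  have hysum := sum_xiF hev
  have q1 := hS.1 1 (by norm_num)
  have q2 := hS.1 2 (by norm_num)
  have q3 := hS.1 3 (by norm_num)
  have q4 := hS.1 4 (by norm_num)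
  have q5 := hS.1 5 (by norm_num)
  rw [leechSet_iff] at hx ⊢
  rcases hx with ⟨c, hc, hpat, hs8⟩ | ⟨c, hc, hpat, hs8⟩
  · rcases hS.2 with h0 | h0
    ·
      left
      obtain ⟨f, hfdef⟩ : ∃ f : ℕ → Bool, f = (fun k : ℕ => decide (S x k % 8 = 4)) := ⟨_, rfl⟩
      have hf : (f 0 ^^ f 1 ^^ f 2 ^^ f 3 ^^ f 4 ^^ f 5) = false := by
        rw [hfdef]
        exact parE0 (S x 0) (S x 1) (S x 2) (S x 3) (S x 4) (S x 5) h0 (by omega) (by omega)
          (by omega) (by omega) (by omega) (by rw [← hsum]; exact hs8)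
      refine ⟨symmDiff c (U f), symmDiff_mem_supports hc (union_mem f hf), fun i => ?_, ?_⟩
      · have hB : i ∈ U f ↔ S x (tet i) % 8 = 4 := by
          rw [mem_U, hfdef]
          exact decide_eq_true_iff
        have hs4 : S x (tet i) % 4 = 0 := by
          have := hS.1 (tet i) (tet_lt i)
          omega
        show ((if tet i = 0 then (-1 : ℤ) else 1) * (x i - S x (tet i) / 2)) % 4 = _
        exact patE0 (x i) (S x (tet i)) (i ∈ c) (i ∈ U f) (i ∈ symmDiff c (U f)) (tet i = 0)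
          Finset.mem_symmDiff hB (hpat i) hs4
      · rw [hysum]; omega
    ·
      right
      obtain ⟨f, hfdef⟩ : ∃ f : ℕ → Bool, f = (fun k : ℕ => decide (S x k % 8 = 6) ^^ decide (k = 0)) := ⟨_, rfl⟩
      have hf : (f 0 ^^ f 1 ^^ f 2 ^^ f 3 ^^ f 4 ^^ f 5) = false := by
        rw [hfdef]
        exact parE1 (S x 0) (S x 1) (S x 2) (S x 3) (S x 4) (S x 5) h0 (by omega) (by omega)
          (by omega) (by omega) (by omega) (by rw [← hsum]; exact hs8)
      refine ⟨symmDiff c (U f), symmDiff_mem_supports hc (union_mem f hf), fun i => ?_, ?_⟩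
      · have hB : i ∈ U f ↔ ¬(S x (tet i) % 8 = 6 ↔ tet i = 0) := by
          rw [mem_U, hfdef]
          exact xor_decide _ _
        have hs4 : S x (tet i) % 4 = 2 := by
          have := hS.1 (tet i) (tet_lt i)
          omega
        show ((if tet i = 0 then (-1 : ℤ) else 1) * (x i - S x (tet i) / 2)) % 4 = _
        exact patE1 (x i) (S x (tet i)) (i ∈ c) (i ∈ U f) (i ∈ symmDiff c (U f)) (tet i = 0)
          Finset.mem_symmDiff hB (hpat i) hs4
      · rw [hysum]; omega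
  · rcases hS.2 with h0 | h0
    ·
      right
      obtain ⟨f, hfdef⟩ : ∃ f : ℕ → Bool, f = (fun k : ℕ => decide (S x k % 8 = 4) ^^ decide (k = 0)) := ⟨_, rfl⟩
      have hf : (f 0 ^^ f 1 ^^ f 2 ^^ f 3 ^^ f 4 ^^ f 5) = false := by
        rw [hfdef]
        exact parO0 (S x 0) (S x 1) (S x 2) (S x 3) (S x 4) (S x 5) h0 (by omega) (by omega)
          (by omega) (by omega) (by omega) (by rw [← hsum]; exact hs8)
      refine ⟨symmDiff c (U f), symmDiff_mem_supports hc (union_mem f hf), fun i => ?_, ?_⟩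
      · have hB : i ∈ U f ↔ ¬(S x (tet i) % 8 = 4 ↔ tet i = 0) := by
          rw [mem_U, hfdef]
          exact xor_decide _ _
        have hs4 : S x (tet i) % 4 = 0 := by
          have := hS.1 (tet i) (tet_lt i)
          omega
        show ((if tet i = 0 then (-1 : ℤ) else 1) * (x i - S x (tet i) / 2)) % 4 = _
        exact patO0 (x i) (S x (tet i)) (i ∈ c) (i ∈ U f) (i ∈ symmDiff c (U f)) (tet i = 0)
          Finset.mem_symmDiff hB (hpat i) hs4
      · rw [hysum]; omega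
    ·
      left
      obtain ⟨f, hfdef⟩ : ∃ f : ℕ → Bool, f = (fun k : ℕ => decide (S x k % 8 = 2)) := ⟨_, rfl⟩
      have hf : (f 0 ^^ f 1 ^^ f 2 ^^ f 3 ^^ f 4 ^^ f 5) = false := by
        rw [hfdef]
        exact parO1 (S x 0) (S x 1) (S x 2) (S x 3) (S x 4) (S x 5) h0 (by omega) (by omega)
          (by omega) (by omega) (by omega) (by rw [← hsum]; exact hs8)
      refine ⟨symmDiff c (U f), symmDiff_mem_supports hc (union_mem f hf), fun i => ?_, ?_⟩
      · have hB : i ∈ U f ↔ S x (tet i) % 8 = 2 := by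
          rw [mem_U, hfdef]
          exact decide_eq_true_iff
        have hs4 : S x (tet i) % 4 = 2 := by
          have := hS.1 (tet i) (tet_lt i)
          omega
        show ((if tet i = 0 then (-1 : ℤ) else 1) * (x i - S x (tet i) / 2)) % 4 = _
        exact patO1 (x i) (S x (tet i)) (i ∈ c) (i ∈ U f) (i ∈ symmDiff c (U f)) (tet i = 0)
          Finset.mem_symmDiff hB (hpat i) hs4
      · rw [hysum]; omega

theorem xi_even {x : GolayPt → ℤ} (hx : x ∈ leechLattice) (k : ℕ) : S x k % 2 = 0 :=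
  S_even ((mem_leechLattice_iff x).mp hx) k

/-- The automorphism `ξ` of the lattice. -/
def xiP : Equiv.Perm ↥leechLattice :=
  Function.Involutive.toPerm
    (fun v => ⟨xiF v, (mem_leechLattice_iff _).mpr (xi_mem ((mem_leechLattice_iff _).mp v.2))⟩)
    (by
      intro v
      apply Subtype.ext
      exact xiF_xiF (xi_even v.2))

theorem xiP_apply (v : ↥leechLattice) : ((xiP v : ↥leechLattice) : GolayPt → ℤ) = xiF v := rfl

theorem xiP_mem : xiP ∈ Co0 := by
  refine ⟨fun v w => ?_, fun v => ?_⟩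
  · apply Subtype.ext
    rw [AddSubgroup.coe_add, xiP_apply, xiP_apply, xiP_apply, AddSubgroup.coe_add,
      xiF_add (xi_even v.2) (xi_even w.2)]
  · rw [xiP_apply, sqNorm_xiF (xi_even v.2)]

end Cfsg.Agent.Lib.Helper11.LeechXi
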