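import Mathlib
import Cfsg.Agent.Lib.Helper11.LeechXi

set_option autoImplicit false

namespace Cfsg.Agent.Lib.Helper11.LeechXi

open Cfsg Cfsg.Agent.Lib.Helper3.Golay Cfsg.Agent.Lib.Helper3.Golay2
open Cfsg.Agent.Lib.Helper3.Leech Cfsg.Agent.Lib.Helper3.Leech2 Cfsg.Agent.Lib.Helper3.Leech4
open Cfsg.Agent.Lib.Helper3.GolayM24 Cfsg.Agent.Lib.Helper3.M24Perm
open Cfsg.Agent.Lib.Helper3.M24Trans
open Cfsg.Agent.Lib.Helper11.LeechGF Cfsg.Agent.Lib.Helper11.Co0Mono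
open Cfsg.Agent.Lib.Helper11.LeechIP
open scoped Pointwise

/-! ### Representatives by shape -/

theorem shape_reps' (v : ↥leechLattice) (hv : sqNorm (v : GolayPt → ℤ) = 32) :
    ∃ g ∈ Co0, (((g v : ↥leechLattice) : GolayPt → ℤ) = VA ∧
        ∀ j, (v : GolayPt → ℤ) j % 4 = 0) ∨
      (((g v : ↥leechLattice) : GolayPt → ℤ) = VB ∧ ∀ j, (v : GolayPt → ℤ) j % 2 = 0) ∨
      (((g v : ↥leechLattice) : GolayPt → ℤ) = VC ∧ ∀ j, (v : GolayPt → ℤ) j % 2 = 1) := by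
  have hm : (v : GolayPt → ℤ) ∈ Mn := ⟨v.2, hv⟩
  rw [cover] at hm
  rcases hm with (⟨⟨c, i⟩, hp, hx⟩ | ⟨⟨o, s⟩, hp, hx⟩) | ⟨⟨P, s⟩, hp, hx⟩
  · -- odd vectors
    rw [Finset.mem_coe, mem_I1] at hp
    simp only at hp
    obtain ⟨σ, hσ, hσi⟩ := trans1 i none
    refine ⟨prmP σ hσ * sgnP cᶜ (compl_mem_supports hp), Co0.mul_mem (prmP_mem σ hσ)
      (sgnP_mem _ _), Or.inr (Or.inr ⟨?_, fun j => ?_⟩)⟩
    swap
    · rw [← hx]
      have := oddv_mod4 c i j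
      show oddv c i j % 2 = 1
      split_ifs at this <;> omega
    rw [Equiv.Perm.mul_apply, prmP_apply, sgnP_apply, ← hx]
    funext j
    have hk : σ.symm j = i ↔ j = none := by rw [Equiv.symm_apply_eq, hσi]
    have hmem := mem_msC j
    unfold prmF sgnF VC cv f1
    simp only [Pi.smul_apply, smul_eq_mul]
    exact odd_pt c i (σ.symm j) (j ∈ ms 8388608) (hmem.trans hk.symm)
  · -- octad vectors
    rw [Finset.mem_coe, mem_I2] at hp
    simp only at hp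
    obtain ⟨ho, hso, hse⟩ := hp
    obtain ⟨σ, hσ, hσo⟩ := octad_trans ho O0_mem
    have hs' : s.map σ.toEmbedding ⊆ ms 5279 := by
      intro j hj
      rw [Finset.mem_map_equiv] at hj
      rw [← hσo]
      exact Finset.mem_smul_finset.mpr ⟨σ.symm j, hso hj, by simp⟩
    obtain ⟨d, hd, hdO⟩ := even_cut' (s.map σ.toEmbedding) hs' (by rw [Finset.card_map]; exact hse)
    refine ⟨sgnP d hd * prmP σ hσ, Co0.mul_mem (sgnP_mem _ _) (prmP_mem σ hσ),
      Or.inr (Or.inl ⟨?_, fun j => ?_⟩)⟩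
    swap
    · rw [← hx]
      show vec 2 o s j % 2 = 0
      unfold vec
      split_ifs <;> rfl
    rw [Equiv.Perm.mul_apply, sgnP_apply, prmP_apply, ← hx]
    funext j
    have e1 : (j ∈ d ∧ j ∈ ms 5279) ↔ σ.symm j ∈ s := by
      rw [← Finset.mem_inter, hdO, Finset.mem_map_equiv]
    have e2 : σ.symm j ∈ o ↔ j ∈ ms 5279 := by
      rw [← hσo]
      constructor
      · intro h
        exact Finset.mem_smul_finset.mpr ⟨σ.symm j, h, by simp⟩
      · intro h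
        obtain ⟨y, hy, hyj⟩ := Finset.mem_smul_finset.mp h
        rw [← hyj]
        simpa using hy
    have e3 : σ.symm j ∈ s → σ.symm j ∈ o := fun h => hso h
    unfold prmF sgnF VB cv f2 vec
    simp only [Pi.smul_apply, smul_eq_mul]
    exact sgn_pt 2 (j ∈ d) (σ.symm j ∈ s) (σ.symm j ∈ o) (j ∈ ms 5279) e2.symm
      (fun h => ⟨fun h' => e1.mp ⟨h', e2.mp h⟩, fun h' => (e1.mpr h').1⟩) e3
  · -- vectors of shape (4, 4, 0, …)
    rw [Finset.mem_coe, mem_I4] at hp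
    simp only at hp
    obtain ⟨hP, hsP⟩ := hp
    obtain ⟨p, q, hpq, rfl⟩ := Finset.card_eq_two.mp hP
    obtain ⟨d, hd, hdP⟩ := pair_cut p q hpq s
    obtain ⟨σ, hσ, hσp, hσq⟩ := trans2 p q none (some 0) hpq (by decide)
    refine ⟨prmP σ hσ * sgnP d hd, Co0.mul_mem (prmP_mem σ hσ) (sgnP_mem _ _),
      Or.inl ⟨?_, fun j => ?_⟩⟩
    swap
    · rw [← hx]
      exact vec4_mod _ s j
    rw [Equiv.Perm.mul_apply, prmP_apply, sgnP_apply, ← hx]
    funext j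
    have hmem := mem_msA j
    have e1 : σ.symm j ∈ ({p, q} : Finset GolayPt) ↔ (j = none ∨ j = some 0) := by
      rw [Finset.mem_insert, Finset.mem_singleton, Equiv.symm_apply_eq, Equiv.symm_apply_eq,
        hσp, hσq]
    have e2 := hdP (σ.symm j)
    have e3 : σ.symm j ∈ s → σ.symm j ∈ ({p, q} : Finset GolayPt) := fun h => hsP h
    unfold prmF sgnF VA cv f4 vec
    simp only [Pi.smul_apply, smul_eq_mul]
    exact sgn_pt 4 (σ.symm j ∈ d) (σ.symm j ∈ s) (σ.symm j ∈ ({p, q} : Finset GolayPt))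
      (j ∈ ms 8388609) (hmem.trans e1.symm) e2 e3


/-! ### The standard vectors are equivalent -/

theorem VA_eq : ∀ j : GolayPt, VA j = vec 4 {none, some 0} ∅ j := by decide +kernel

theorem VA_mem : VA ∈ leechLattice := by
  rw [mem_leechLattice_iff, funext VA_eq]
  exact vec4_mem (by decide) (Finset.empty_subset _)

theorem VB_mem : VB ∈ leechLattice := by
  have h := two_mem O0_mem.1
  have e : VB = fun i => if i ∈ ms 5279 then (2 : ℤ) else 0 := by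
    funext i
    unfold VB cv
    simp only [Pi.smul_apply, smul_eq_mul]
    split_ifs <;> norm_num
  rw [e]
  exact h

theorem sqNorm_VA : sqNorm VA = 32 := by decide +kernel

theorem sqNorm_VB : sqNorm VB = 32 := by decide +kernel

theorem xiVA : xiF VA none % 4 = 2 := by decide +kernel

theorem xiVB : xiF VB none % 2 = 1 := by decide +kernel

theorem VB_to_VC : ∃ g ∈ Co0, ((g ⟨VB, VB_mem⟩ : ↥leechLattice) : GolayPt → ℤ) = VC := by
  have hn : sqNorm ((xiP ⟨VB, VB_mem⟩ : ↥leechLattice) : GolayPt → ℤ) = 32 := by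
    rw [xiP_mem.2]
    exact sqNorm_VB
  obtain ⟨g, hg, h⟩ := shape_reps' (xiP ⟨VB, VB_mem⟩) hn
  have hodd : ((xiP ⟨VB, VB_mem⟩ : ↥leechLattice) : GolayPt → ℤ) none % 2 = 1 := xiVB
  rcases h with ⟨-, h⟩ | ⟨-, h⟩ | ⟨h, -⟩
  · have := h none
    omega
  · have := h none
    omega
  · exact ⟨g * xiP, Co0.mul_mem hg xiP_mem, h⟩

theorem VA_to_VC : ∃ g ∈ Co0, ((g ⟨VA, VA_mem⟩ : ↥leechLattice) : GolayPt → ℤ) = VC := by
  have hn : sqNorm ((xiP ⟨VA, VA_mem⟩ : ↥leechLattice) : GolayPt → ℤ) = 32 := by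
    rw [xiP_mem.2]
    exact sqNorm_VA
  obtain ⟨g, hg, h⟩ := shape_reps' (xiP ⟨VA, VA_mem⟩) hn
  have h2 : ((xiP ⟨VA, VA_mem⟩ : ↥leechLattice) : GolayPt → ℤ) none % 4 = 2 := xiVA
  rcases h with ⟨-, h⟩ | ⟨h, -⟩ | ⟨-, h⟩
  · have := h none
    omega
  · obtain ⟨g', hg', h'⟩ := VB_to_VC
    refine ⟨g' * (g * xiP), Co0.mul_mem hg' (Co0.mul_mem hg xiP_mem), ?_⟩
    have e : (g * xiP) ⟨VA, VA_mem⟩ = ⟨VB, VB_mem⟩ := Subtype.ext h
    rw [Equiv.Perm.mul_apply, e]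
    exact h'
  · have := h none
    omega

/-- Every minimal vector is equivalent to the standard odd vector. -/
theorem all_VC (v : ↥leechLattice) (hv : sqNorm (v : GolayPt → ℤ) = 32) :
    ∃ g ∈ Co0, ((g v : ↥leechLattice) : GolayPt → ℤ) = VC := by
  obtain ⟨g, hg, h⟩ := shape_reps' v hv
  rcases h with ⟨h, -⟩ | ⟨h, -⟩ | ⟨h, -⟩
  · obtain ⟨g', hg', h'⟩ := VA_to_VC
    refine ⟨g' * g, Co0.mul_mem hg' hg, ?_⟩
    have e : g v = ⟨VA, VA_mem⟩ := Subtype.ext h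
    rw [Equiv.Perm.mul_apply, e]
    exact h'
  · obtain ⟨g', hg', h'⟩ := VB_to_VC
    refine ⟨g' * g, Co0.mul_mem hg' hg, ?_⟩
    have e : g v = ⟨VB, VB_mem⟩ := Subtype.ext h
    rw [Equiv.Perm.mul_apply, e]
    exact h'
  · exact ⟨g, hg, h⟩

/-- **`Co0` is transitive on the minimal vectors.** -/
theorem min_trans (v w : ↥leechLattice) (hv : sqNorm (v : GolayPt → ℤ) = 32)
    (hw : sqNorm (w : GolayPt → ℤ) = 32) : ∃ g ∈ Co0, g v = w := by
  obtain ⟨g1, hg1, e1⟩ := all_VC v hv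
  obtain ⟨g2, hg2, e2⟩ := all_VC w hw
  refine ⟨g2⁻¹ * g1, Co0.mul_mem (Co0.inv_mem hg2) hg1, ?_⟩
  have e : g1 v = g2 w := Subtype.ext (e1.trans e2.symm)
  rw [Equiv.Perm.mul_apply, e]
  exact Equiv.symm_apply_apply g2 w

end Cfsg.Agent.Lib.Helper11.LeechXi
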