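import Mathlib
import Cfsg.Agent.Lib.Helper11.LeechTrans

set_option autoImplicit false

namespace Cfsg.Agent.Lib.Helper11.LeechXi

open Cfsg Cfsg.Agent.Lib.Helper3.Golay Cfsg.Agent.Lib.Helper3.Golay2
open Cfsg.Agent.Lib.Helper3.Leech Cfsg.Agent.Lib.Helper3.Leech2 Cfsg.Agent.Lib.Helper3.Leech4
open Cfsg.Agent.Lib.Helper3.GolayM24 Cfsg.Agent.Lib.Helper3.M24Perm
open Cfsg.Agent.Lib.Helper3.M24Trans Cfsg.Agent.Lib.Helper3.M24Cert
open Cfsg.Agent.Lib.Helper11.LeechGF Cfsg.Agent.Lib.Helper11.Co0Mono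
open Cfsg.Agent.Lib.Helper11.LeechIP
open scoped Pointwise

/-! ### Four-fold transitivity -/

theorem trans4 (p q r s p' q' r' s' : GolayPt) (h1 : p ≠ q) (h2 : p ≠ r) (h3 : q ≠ r)
    (h4 : p ≠ s) (h5 : q ≠ s) (h6 : r ≠ s)
    (h1' : p' ≠ q') (h2' : p' ≠ r') (h3' : q' ≠ r') (h4' : p' ≠ s') (h5' : q' ≠ s')
    (h6' : r' ≠ s') :
    ∃ g ∈ M24, g p = p' ∧ g q = q' ∧ g r = r' ∧ g s = s' := by
  obtain ⟨σ, hσ, e0, e1, e2, e3⟩ := map4 p q r s h1 h2 h3 h4 h5 h6
  obtain ⟨τ, hτ, e0', e1', e2', e3'⟩ := map4 p' q' r' s' h1' h2' h3' h4' h5' h6'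
  rw [fixG_nil] at hσ hτ
  refine ⟨τ * σ⁻¹, M24.mul_mem hτ (M24.inv_mem hσ), ?_, ?_, ?_, ?_⟩
  · rw [Equiv.Perm.mul_apply, ← e0, Equiv.Perm.coe_inv, Equiv.symm_apply_apply, e0']
  · rw [Equiv.Perm.mul_apply, ← e1, Equiv.Perm.coe_inv, Equiv.symm_apply_apply, e1']
  · rw [Equiv.Perm.mul_apply, ← e2, Equiv.Perm.coe_inv, Equiv.symm_apply_apply, e2']
  · rw [Equiv.Perm.mul_apply, ← e3, Equiv.Perm.coe_inv, Equiv.symm_apply_apply, e3']

/-! ### The first tetrad -/

theorem tet0 : (Finset.univ.filter fun j : GolayPt => tet j = 0) =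
    {some 1, some 2, some 3, none} := by decide +kernel

theorem S0_eq (x : GolayPt → ℤ) : S x 0 = x (some 1) + x (some 2) + x (some 3) + x none := by
  unfold S
  rw [← Finset.sum_filter, tet0, Finset.sum_insert (by decide), Finset.sum_insert (by decide),
    Finset.sum_insert (by decide), Finset.sum_singleton]
  ring

/-! ### From even vectors to odd vectors -/

theorem even_to_odd (v : ↥leechLattice) (hn : sqNorm (v : GolayPt → ℤ) = 48)
    (he : ∀ j, (v : GolayPt → ℤ) j % 2 = 0) :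
    ∃ g ∈ Co0, ∀ j, ((g v : ↥leechLattice) : GolayPt → ℤ) j % 2 = 1 := by
  have hx := (mem_leechLattice_iff _).mp v.2
  rw [leechSet_iff] at hx
  rcases hx with ⟨c, hc, hpat, hs8⟩ | ⟨c, hc, hpat, hs8⟩
  swap
  · exfalso
    have h1 := hpat none
    have h2 := he none
    split_ifs at h1 <;> omega
  have hc_ne : c.Nonempty := by
    by_contra hne
    rw [Finset.not_nonempty_iff_eq_empty] at hne
    have h4 : ∀ i, (v : GolayPt → ℤ) i % 4 = 0 := by
      intro i
      have := hpat i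
      rw [hne] at this
      simpa using this
    have h5 : sqNorm (v : GolayPt → ℤ) ≡ 4 * ∑ i, (v : GolayPt → ℤ) i [ZMOD 32] := by
      unfold sqNorm
      rw [Finset.mul_sum]
      exact Int.ModEq.sum fun i _ => sq_mod32 _ (h4 i)
    rw [hn] at h5
    unfold Int.ModEq at h5
    omega
  obtain ⟨a, ha⟩ := hc_ne
  have hcard : 2 < cᶜ.card := by
    have h1 : (4 : ℤ) * c.card ≤ sqNorm (v : GolayPt → ℤ) := by
      unfold sqNorm
      calc (4 : ℤ) * c.card = ∑ i ∈ c, (4 : ℤ) := by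
            rw [Finset.sum_const, nsmul_eq_mul]; ring
        _ ≤ ∑ i ∈ c, (v : GolayPt → ℤ) i ^ 2 := by
            refine Finset.sum_le_sum fun i hi => ?_
            have := hpat i
            rw [if_pos hi] at this
            have h2 : (v : GolayPt → ℤ) i ≤ -2 ∨ 2 ≤ (v : GolayPt → ℤ) i := by omega
            rcases h2 with h2 | h2 <;> nlinarith
        _ ≤ ∑ i, (v : GolayPt → ℤ) i ^ 2 :=
            Finset.sum_le_sum_of_subset_of_nonneg (Finset.subset_univ _)
              (fun i _ _ => sq_nonneg _)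
    rw [hn] at h1
    have h2 : c.card ≤ 12 := by
      have : (c.card : ℤ) ≤ 12 := by linarith
      exact_mod_cast this
    rw [Finset.card_compl, card_golayPt]
    omega
  obtain ⟨b, e, f, hb, he', hf, hbe, hbf, hef⟩ := Finset.two_lt_card_iff.mp hcard
  rw [Finset.mem_compl] at hb he' hf
  have hab : a ≠ b := fun h => hb (h ▸ ha)
  have hae : a ≠ e := fun h => he' (h ▸ ha)
  have haf : a ≠ f := fun h => hf (h ▸ ha)
  obtain ⟨σ, hσ, s1, s2, s3, s4⟩ := trans4 a b e f (some 1) (some 2) (some 3) none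
    hab hae hbe haf hbf hef (by decide) (by decide) (by decide) (by decide) (by decide)
    (by decide)
  refine ⟨xiP * prmP σ hσ, Co0.mul_mem xiP_mem (prmP_mem σ hσ), fun j => ?_⟩
  rw [Equiv.Perm.mul_apply, xiP_apply]
  have hS0 : S ((prmP σ hσ v : ↥leechLattice) : GolayPt → ℤ) 0 % 4 = 2 := by
    rw [S0_eq, prmP_apply]
    unfold prmF
    have e1 : σ.symm (some 1) = a := by rw [Equiv.symm_apply_eq, s1]
    have e2 : σ.symm (some 2) = b := by rw [Equiv.symm_apply_eq, s2]
    have e3 : σ.symm (some 3) = e := by rw [Equiv.symm_apply_eq, s3]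
    have e4 : σ.symm none = f := by rw [Equiv.symm_apply_eq, s4]
    rw [e1, e2, e3, e4]
    have p1 := hpat a
    have p2 := hpat b
    have p3 := hpat e
    have p4 := hpat f
    rw [if_pos ha] at p1
    rw [if_neg hb] at p2
    rw [if_neg he'] at p3
    rw [if_neg hf] at p4
    omega
  have hSm := S_mod4 ((mem_leechLattice_iff _).mp (prmP σ hσ v).2)
  have hk := hSm.1 (tet j) (tet_lt j)
  have hwj : ((prmP σ hσ v : ↥leechLattice) : GolayPt → ℤ) j % 2 = 0 := by
    rw [prmP_apply]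
    exact he _
  show (epk (tet j) * (((prmP σ hσ v : ↥leechLattice) : GolayPt → ℤ) j -
    S ((prmP σ hσ v : ↥leechLattice) : GolayPt → ℤ) (tet j) / 2)) % 2 = 1
  unfold epk
  split_ifs <;> omega

/-! ### Odd vectors -/

/-- The vector `(5, 1, …, 1)` with `5` at `p`. -/
def five (p : GolayPt) : GolayPt → ℤ := fun l => if l = p then 5 else 1

/-- The vector with `-3` at `i`, `j`, `k` and `1` elsewhere. -/
def three (i j k : GolayPt) : GolayPt → ℤ := fun l => if l = i ∨ l = j ∨ l = k then -3 else 1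

theorem norm1 (v : ↥leechLattice) (ho : ∃ j, (v : GolayPt → ℤ) j % 2 = 1) :
    ∃ g ∈ Co0, (∀ j, ((g v : ↥leechLattice) : GolayPt → ℤ) j % 4 = 1) ∧
      ∀ j, |((g v : ↥leechLattice) : GolayPt → ℤ) j| = |(v : GolayPt → ℤ) j| := by
  have hx := (mem_leechLattice_iff _).mp v.2
  rw [leechSet_iff] at hx
  rcases hx with ⟨c, hc, hpat, hs8⟩ | ⟨c, hc, hpat, hs8⟩
  · exfalso
    obtain ⟨j, hj⟩ := ho
    have h1 := hpat j
    split_ifs at h1 <;> omega
  · refine ⟨sgnP cᶜ (compl_mem_supports hc), sgnP_mem _ _, fun j => ?_, fun j => ?_⟩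
    · rw [sgnP_apply]
      unfold sgnF
      have h1 := hpat j
      by_cases hj : j ∈ c
      · rw [if_neg (by simpa using hj)]
        rw [if_pos hj] at h1
        exact h1
      · rw [if_pos (by simpa using hj)]
        rw [if_neg hj] at h1
        omega
    · rw [sgnP_apply]
      unfold sgnF
      split_ifs
      · exact abs_neg _
      · rfl

theorem cases48 (x : GolayPt → ℤ) (h1 : ∀ j, x j % 4 = 1) (hn : sqNorm x = 48) :
    (∃ p, x = five p) ∨ (∃ i j k, i ≠ j ∧ i ≠ k ∧ j ≠ k ∧ x = three i j k) := by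
  have hb : ∀ j, x j = -3 ∨ x j = 1 ∨ x j = 5 := by
    intro j
    have hsq : x j ^ 2 ≤ 48 := by
      rw [← hn]
      unfold sqNorm
      exact Finset.single_le_sum (f := fun i => x i ^ 2) (fun i _ => sq_nonneg (x i))
        (Finset.mem_univ j)
    have h2 : -7 < x j ∧ x j < 7 := by constructor <;> nlinarith
    have := h1 j
    omega
  have hterm : ∀ j, x j ^ 2 - 1 = (if x j = -3 then 8 else 0) + (if x j = 5 then 24 else 0) := by
    intro j
    rcases hb j with h | h | h <;> rw [h] <;> norm_num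
  have hsum : ∑ j, (x j ^ 2 - 1) =
      8 * ((Finset.univ.filter fun j => x j = -3).card : ℤ) +
        24 * ((Finset.univ.filter fun j => x j = 5).card : ℤ) := by
    have hA : ∑ j : GolayPt, (if x j = -3 then (8 : ℤ) else 0) =
        8 * ((Finset.univ.filter fun j => x j = -3).card : ℤ) := by
      rw [Finset.sum_ite, Finset.sum_const, Finset.sum_const_zero, add_zero, nsmul_eq_mul]
      ring
    have hB : ∑ j : GolayPt, (if x j = 5 then (24 : ℤ) else 0) =
        24 * ((Finset.univ.filter fun j => x j = 5).card : ℤ) := by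
      rw [Finset.sum_ite, Finset.sum_const, Finset.sum_const_zero, add_zero, nsmul_eq_mul]
      ring
    rw [Finset.sum_congr rfl fun j _ => hterm j, Finset.sum_add_distrib, hA, hB]
  have htot : ∑ j, (x j ^ 2 - 1) = 24 := by
    rw [Finset.sum_sub_distrib]
    unfold sqNorm at hn
    rw [hn, Finset.sum_const, Finset.card_univ, card_golayPt]
    norm_num
  rw [htot] at hsum
  have hAB : ((Finset.univ.filter fun j => x j = -3).card = 3 ∧
      (Finset.univ.filter fun j => x j = 5).card = 0) ∨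
      ((Finset.univ.filter fun j => x j = -3).card = 0 ∧
      (Finset.univ.filter fun j => x j = 5).card = 1) := by omega
  rcases hAB with ⟨hA, hB⟩ | ⟨hA, hB⟩
  · right
    obtain ⟨i, j, k, hij, hik, hjk, hAeq⟩ := Finset.card_eq_three.mp hA
    refine ⟨i, j, k, hij, hik, hjk, ?_⟩
    funext l
    unfold three
    have hl : l ∈ (Finset.univ.filter fun j => x j = -3) ↔ l = i ∨ l = j ∨ l = k := by
      rw [hAeq]; simp
    have hlB : l ∉ (Finset.univ.filter fun j => x j = 5) := by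
      rw [Finset.card_eq_zero.mp hB]; simp
    rw [Finset.mem_filter] at hl hlB
    by_cases h : l = i ∨ l = j ∨ l = k
    · rw [if_pos h]
      exact (hl.mpr h).2
    · rw [if_neg h]
      rcases hb l with e | e | e
      · exact absurd (hl.mp ⟨Finset.mem_univ _, e⟩) h
      · exact e
      · exact absurd ⟨Finset.mem_univ _, e⟩ hlB
  · left
    obtain ⟨p, hp⟩ := Finset.card_eq_one.mp hB
    refine ⟨p, ?_⟩
    funext l
    unfold five
    have hl : l ∈ (Finset.univ.filter fun j => x j = 5) ↔ l = p := by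
      rw [hp]; simp
    have hlA : l ∉ (Finset.univ.filter fun j => x j = -3) := by
      rw [Finset.card_eq_zero.mp hA]; simp
    rw [Finset.mem_filter] at hl hlA
    by_cases h : l = p
    · rw [if_pos h]
      exact (hl.mpr h).2
    · rw [if_neg h]
      rcases hb l with e | e | e
      · exact absurd ⟨Finset.mem_univ _, e⟩ hlA
      · exact e
      · exact absurd (hl.mp ⟨Finset.mem_univ _, e⟩) h

theorem five_to (v : ↥leechLattice) (p : GolayPt) (h : (v : GolayPt → ℤ) = five p) :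
    ∃ g ∈ Co0, ((g v : ↥leechLattice) : GolayPt → ℤ) = five none := by
  obtain ⟨σ, hσ, hσp⟩ := trans1 p none
  refine ⟨prmP σ hσ, prmP_mem σ hσ, ?_⟩
  rw [prmP_apply, h]
  funext j
  unfold prmF five
  have : σ.symm j = p ↔ j = none := by rw [Equiv.symm_apply_eq, hσp]
  simp only [this]

theorem xi_three : xiF (three (some 1) (some 2) (some 3)) none = -5 := by decide +kernel

theorem three_to (v : ↥leechLattice) (hn : sqNorm (v : GolayPt → ℤ) = 48) (i j k : GolayPt)
    (hij : i ≠ j) (hik : i ≠ k) (hjk : j ≠ k) (h : (v : GolayPt → ℤ) = three i j k) :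
    ∃ g ∈ Co0, ((g v : ↥leechLattice) : GolayPt → ℤ) = five none := by
  obtain ⟨σ, hσ, s1, s2, s3⟩ := trans3 i j k (some 1) (some 2) (some 3) hij hik hjk
    (by decide) (by decide) (by decide)
  have e : ((prmP σ hσ v : ↥leechLattice) : GolayPt → ℤ) = three (some 1) (some 2) (some 3) := by
    rw [prmP_apply, h]
    funext l
    unfold prmF three
    have : (σ.symm l = i ∨ σ.symm l = j ∨ σ.symm l = k) ↔
        (l = some 1 ∨ l = some 2 ∨ l = some 3) := by
      rw [Equiv.symm_apply_eq, Equiv.symm_apply_eq, Equiv.symm_apply_eq, s1, s2, s3]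
    simp only [this]
  have hw5 : ((xiP (prmP σ hσ v) : ↥leechLattice) : GolayPt → ℤ) none = -5 := by
    rw [xiP_apply, e]
    exact xi_three
  obtain ⟨g, hg, hg1, hgabs⟩ := norm1 (xiP (prmP σ hσ v)) ⟨none, by rw [hw5]; rfl⟩
  have hn' : sqNorm ((g (xiP (prmP σ hσ v)) : ↥leechLattice) : GolayPt → ℤ) = 48 := by
    rw [hg.2, xiP_mem.2, (prmP_mem σ hσ).2]
    exact hn
  rcases cases48 _ hg1 hn' with ⟨p, hp⟩ | ⟨i', j', k', -, -, -, hp⟩
  · obtain ⟨g', hg', h'⟩ := five_to _ p hp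
    exact ⟨g' * (g * (xiP * prmP σ hσ)),
      Co0.mul_mem hg' (Co0.mul_mem hg (Co0.mul_mem xiP_mem (prmP_mem σ hσ))), h'⟩
  · exfalso
    have h5 := hgabs none
    rw [hw5, hp] at h5
    unfold three at h5
    split_ifs at h5 <;> norm_num at h5

theorem odd_to (v : ↥leechLattice) (hn : sqNorm (v : GolayPt → ℤ) = 48)
    (ho : ∃ j, (v : GolayPt → ℤ) j % 2 = 1) :
    ∃ g ∈ Co0, ((g v : ↥leechLattice) : GolayPt → ℤ) = five none := by
  obtain ⟨g, hg, hg1, -⟩ := norm1 v ho
  have hn' : sqNorm ((g v : ↥leechLattice) : GolayPt → ℤ) = 48 := by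
    rw [hg.2]
    exact hn
  rcases cases48 _ hg1 hn' with ⟨p, hp⟩ | ⟨i, j, k, hij, hik, hjk, hp⟩
  · obtain ⟨g', hg', h'⟩ := five_to _ p hp
    exact ⟨g' * g, Co0.mul_mem hg' hg, h'⟩
  · obtain ⟨g', hg', h'⟩ := three_to _ hn' i j k hij hik hjk hp
    exact ⟨g' * g, Co0.mul_mem hg' hg, h'⟩

/-- Every vector of norm `48` is equivalent to `(5, 1, …, 1)`. -/
theorem all_five (v : ↥leechLattice) (hn : sqNorm (v : GolayPt → ℤ) = 48) :
    ∃ g ∈ Co0, ((g v : ↥leechLattice) : GolayPt → ℤ) = five none := by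
  by_cases ho : ∃ j, (v : GolayPt → ℤ) j % 2 = 1
  · exact odd_to v hn ho
  · have he : ∀ j, (v : GolayPt → ℤ) j % 2 = 0 := by
      intro j
      by_contra hj
      exact ho ⟨j, by omega⟩
    obtain ⟨g, hg, hodd⟩ := even_to_odd v hn he
    have hn' : sqNorm ((g v : ↥leechLattice) : GolayPt → ℤ) = 48 := by
      rw [hg.2]
      exact hn
    obtain ⟨g', hg', h'⟩ := odd_to (g v) hn' ⟨none, hodd none⟩
    exact ⟨g' * g, Co0.mul_mem hg' hg, h'⟩

/-- **`Co0` is transitive on the vectors of norm `48`.** -/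
theorem t6_trans (v w : ↥leechLattice) (hv : sqNorm (v : GolayPt → ℤ) = 48)
    (hw : sqNorm (w : GolayPt → ℤ) = 48) : ∃ g ∈ Co0, g v = w := by
  obtain ⟨g1, hg1, e1⟩ := all_five v hv
  obtain ⟨g2, hg2, e2⟩ := all_five w hw
  refine ⟨g2⁻¹ * g1, Co0.mul_mem (Co0.inv_mem hg2) hg1, ?_⟩
  have e : g1 v = g2 w := Subtype.ext (e1.trans e2.symm)
  rw [Equiv.Perm.mul_apply, e]
  exact Equiv.symm_apply_apply g2 w

end Cfsg.Agent.Lib.Helper11.LeechXi
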