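import Mathlib
import Cfsg.Agent.Lib.Helper11.LeechT6

set_option autoImplicit false

namespace Cfsg.Agent.Lib.Helper11.LeechSt

open Cfsg Cfsg.Agent.Lib.Helper3.Golay Cfsg.Agent.Lib.Helper3.Golay2
open Cfsg.Agent.Lib.Helper3.Leech Cfsg.Agent.Lib.Helper3.Leech2 Cfsg.Agent.Lib.Helper3.Leech4
open Cfsg.Agent.Lib.Helper3.GolayM24 Cfsg.Agent.Lib.Helper3.M24Perm
open Cfsg.Agent.Lib.Helper3.M24Trans
open Cfsg.Agent.Lib.Helper11.LeechGF Cfsg.Agent.Lib.Helper11.Co0Mono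
open Cfsg.Agent.Lib.Helper11.LeechIP Cfsg.Agent.Lib.Helper11.LeechXi

/-! ### The base vector `(4, 4, 0, …)` on two points of the first tetrad -/

abbrev p0 : GolayPt := none
abbrev p1 : GolayPt := some 1
abbrev p2 : GolayPt := some 2
abbrev p3 : GolayPt := some 3

/-- The base vector. -/
def V0 : GolayPt → ℤ := fun j => if j = p0 ∨ j = p1 then 4 else 0

theorem V0_eq : ∀ j : GolayPt, V0 j = vec 4 {p0, p1} ∅ j := by decide +kernel

theorem V0_mem : V0 ∈ leechLattice := by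
  rw [mem_leechLattice_iff, funext V0_eq]
  exact vec4_mem (by decide) (Finset.empty_subset _)

theorem sqNorm_V0 : sqNorm V0 = 32 := by decide +kernel

/-- The base vector as an element of the lattice. -/
def V0' : ↥leechLattice := ⟨V0, V0_mem⟩

theorem dot_V0 (w : GolayPt → ℤ) : dotInt V0 w = 4 * (w p0 + w p1) := by
  unfold dotInt
  rw [Fintype.sum_eq_add p0 p1 (by decide)]
  · unfold V0
    simp
    ring
  · intro x hx
    unfold V0
    simp [hx.1, hx.2]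

/-- The stabiliser of the base vector. -/
def St : Subgroup (Equiv.Perm ↥leechLattice) :=
  Co0 ⊓ MulAction.stabilizer (Equiv.Perm ↥leechLattice) V0'

theorem mem_St {g : Equiv.Perm ↥leechLattice} : g ∈ St ↔ g ∈ Co0 ∧ g V0' = V0' := by
  rw [St, Subgroup.mem_inf, MulAction.mem_stabilizer_iff]
  rfl

/-! ### Moves -/

theorem perm_fix (w : ↥leechLattice) (a b : GolayPt) (ha0 : a ≠ p0) (ha1 : a ≠ p1)
    (hb0 : b ≠ p0) (hb1 : b ≠ p1) (hab : a ≠ b) :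
    ∃ g ∈ St, ((g w : ↥leechLattice) : GolayPt → ℤ) p0 = (w : GolayPt → ℤ) p0 ∧
      ((g w : ↥leechLattice) : GolayPt → ℤ) p1 = (w : GolayPt → ℤ) p1 ∧
      ((g w : ↥leechLattice) : GolayPt → ℤ) p2 = (w : GolayPt → ℤ) a ∧
      ((g w : ↥leechLattice) : GolayPt → ℤ) p3 = (w : GolayPt → ℤ) b := by
  obtain ⟨σ, hσ, s0, s1, s2, s3⟩ := trans4 p0 p1 a b p0 p1 p2 p3 (by decide) ha0.symm ha1.symm
    hb0.symm hb1.symm hab (by decide) (by decide) (by decide) (by decide) (by decide) (by decide)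
  refine ⟨prmP σ hσ, mem_St.mpr ⟨prmP_mem σ hσ, ?_⟩, ?_, ?_, ?_, ?_⟩
  · apply Subtype.ext
    rw [prmP_apply]
    funext j
    show V0 (σ.symm j) = V0 j
    unfold V0
    have e0 : σ.symm j = p0 ↔ j = p0 := by rw [Equiv.symm_apply_eq, s0]
    have e1 : σ.symm j = p1 ↔ j = p1 := by rw [Equiv.symm_apply_eq, s1]
    simp only [e0, e1]
  · rw [prmP_apply]
    show (w : GolayPt → ℤ) (σ.symm p0) = _
    rw [(Equiv.symm_apply_eq σ).mpr s0.symm]
  · rw [prmP_apply]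
    show (w : GolayPt → ℤ) (σ.symm p1) = _
    rw [(Equiv.symm_apply_eq σ).mpr s1.symm]
  · rw [prmP_apply]
    show (w : GolayPt → ℤ) (σ.symm p2) = _
    rw [(Equiv.symm_apply_eq σ).mpr s2.symm]
  · rw [prmP_apply]
    show (w : GolayPt → ℤ) (σ.symm p3) = _
    rw [(Equiv.symm_apply_eq σ).mpr s3.symm]

theorem swap_fix (w : ↥leechLattice) :
    ∃ g ∈ St, ((g w : ↥leechLattice) : GolayPt → ℤ) p0 = (w : GolayPt → ℤ) p1 ∧
      ((g w : ↥leechLattice) : GolayPt → ℤ) p1 = (w : GolayPt → ℤ) p0 := by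
  obtain ⟨σ, hσ, s0, s1⟩ := trans2 p0 p1 p1 p0 (by decide) (by decide)
  refine ⟨prmP σ hσ, mem_St.mpr ⟨prmP_mem σ hσ, ?_⟩, ?_, ?_⟩
  · apply Subtype.ext
    rw [prmP_apply]
    funext j
    show V0 (σ.symm j) = V0 j
    unfold V0
    have e0 : σ.symm j = p0 ↔ j = p1 := by rw [Equiv.symm_apply_eq, s0]
    have e1 : σ.symm j = p1 ↔ j = p0 := by rw [Equiv.symm_apply_eq, s1]
    simp only [e0, e1, or_comm]
  · rw [prmP_apply]
    show (w : GolayPt → ℤ) (σ.symm p0) = _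
    rw [(Equiv.symm_apply_eq σ).mpr s1.symm]
  · rw [prmP_apply]
    show (w : GolayPt → ℤ) (σ.symm p1) = _
    rw [(Equiv.symm_apply_eq σ).mpr s0.symm]

theorem mem_supp_iff (k : ℕ) (p : GolayPt) : p ∈ supp k ↔ (cw k).testBit (idx p) = true := by
  rw [← ms_cw, mem_ms]

theorem cut4 : ∀ t2 t3 : Bool, ∃ c ∈ Cset, p0 ∉ c ∧ p1 ∉ c ∧ (p2 ∈ c ↔ t2 = true) ∧
    (p3 ∈ c ↔ t3 = true) := by
  intro t2 t3
  cases t2 <;> cases t3
  · exact ⟨∅, empty_mem_supports, by simp, by simp, by simp, by simp⟩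
  · refine ⟨supp 8, (mem_supports_iff _).mpr ⟨8, by norm_num, rfl⟩, ?_, ?_, ?_, ?_⟩ <;>
      rw [mem_supp_iff] <;> decide
  · refine ⟨supp 12, (mem_supports_iff _).mpr ⟨12, by norm_num, rfl⟩, ?_, ?_, ?_, ?_⟩ <;>
      rw [mem_supp_iff] <;> decide
  · refine ⟨supp 4, (mem_supports_iff _).mpr ⟨4, by norm_num, rfl⟩, ?_, ?_, ?_, ?_⟩ <;>
      rw [mem_supp_iff] <;> decide

theorem sign_fix (w : ↥leechLattice) (t2 t3 : Bool) :
    ∃ g ∈ St, ((g w : ↥leechLattice) : GolayPt → ℤ) p0 = (w : GolayPt → ℤ) p0 ∧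
      ((g w : ↥leechLattice) : GolayPt → ℤ) p1 = (w : GolayPt → ℤ) p1 ∧
      ((g w : ↥leechLattice) : GolayPt → ℤ) p2 =
        (if t2 = true then -(w : GolayPt → ℤ) p2 else (w : GolayPt → ℤ) p2) ∧
      ((g w : ↥leechLattice) : GolayPt → ℤ) p3 =
        (if t3 = true then -(w : GolayPt → ℤ) p3 else (w : GolayPt → ℤ) p3) := by
  obtain ⟨c, hc, h0, h1, h2, h3⟩ := cut4 t2 t3
  refine ⟨sgnP c hc, mem_St.mpr ⟨sgnP_mem c hc, ?_⟩, ?_, ?_, ?_, ?_⟩
  · apply Subtype.ext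
    rw [sgnP_apply]
    funext j
    show (if j ∈ c then -V0 j else V0 j) = V0 j
    by_cases hj : j ∈ c
    · rw [if_pos hj]
      have e0 : j ≠ p0 := fun e => h0 (e ▸ hj)
      have e1 : j ≠ p1 := fun e => h1 (e ▸ hj)
      unfold V0
      simp [e0, e1]
    · rw [if_neg hj]
  · rw [sgnP_apply]
    show (if p0 ∈ c then _ else _) = _
    rw [if_neg h0]
  · rw [sgnP_apply]
    show (if p1 ∈ c then _ else _) = _
    rw [if_neg h1]
  · rw [sgnP_apply]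
    show (if p2 ∈ c then _ else _) = _
    simp only [h2]
  · rw [sgnP_apply]
    show (if p3 ∈ c then _ else _) = _
    simp only [h3]

theorem xi_V0 : ∀ j : GolayPt, xiF V0 j = if j = p2 ∨ j = p3 then 4 else 0 := by decide +kernel

theorem tet_p : tet p0 = 0 ∧ tet p1 = 0 ∧ tet p2 = 0 ∧ tet p3 = 0 := by decide +kernel

/-- The non-monomial move. -/
theorem h_step (w : ↥leechLattice) :
    ∃ g ∈ St,
      ((g w : ↥leechLattice) : GolayPt → ℤ) p0 = -((w : GolayPt → ℤ) p2 -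
        ((w : GolayPt → ℤ) p0 + (w : GolayPt → ℤ) p1 + (w : GolayPt → ℤ) p2 +
          (w : GolayPt → ℤ) p3) / 2) ∧
      ((g w : ↥leechLattice) : GolayPt → ℤ) p1 = -((w : GolayPt → ℤ) p3 -
        ((w : GolayPt → ℤ) p0 + (w : GolayPt → ℤ) p1 + (w : GolayPt → ℤ) p2 +
          (w : GolayPt → ℤ) p3) / 2) ∧
      ((g w : ↥leechLattice) : GolayPt → ℤ) p2 = -((w : GolayPt → ℤ) p0 -
        ((w : GolayPt → ℤ) p0 + (w : GolayPt → ℤ) p1 + (w : GolayPt → ℤ) p2 +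
          (w : GolayPt → ℤ) p3) / 2) ∧
      ((g w : ↥leechLattice) : GolayPt → ℤ) p3 = -((w : GolayPt → ℤ) p1 -
        ((w : GolayPt → ℤ) p0 + (w : GolayPt → ℤ) p1 + (w : GolayPt → ℤ) p2 +
          (w : GolayPt → ℤ) p3) / 2) := by
  obtain ⟨τ, hτ, s2, s3, s0, s1⟩ := trans4 p2 p3 p0 p1 p0 p1 p2 p3 (by decide) (by decide)
    (by decide) (by decide) (by decide) (by decide) (by decide) (by decide) (by decide)
    (by decide) (by decide) (by decide)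
  have hS : S (w : GolayPt → ℤ) 0 = (w : GolayPt → ℤ) p0 + (w : GolayPt → ℤ) p1 +
      (w : GolayPt → ℤ) p2 + (w : GolayPt → ℤ) p3 := by
    rw [S0_eq]
    ring
  have hx : ∀ q : GolayPt, tet q = 0 → xiF (w : GolayPt → ℤ) q =
      -((w : GolayPt → ℤ) q - ((w : GolayPt → ℤ) p0 + (w : GolayPt → ℤ) p1 +
        (w : GolayPt → ℤ) p2 + (w : GolayPt → ℤ) p3) / 2) := by
    intro q hq
    unfold xiF epk
    rw [hq, if_pos rfl, hS]
    ring
  refine ⟨prmP τ hτ * xiP, mem_St.mpr ⟨Co0.mul_mem (prmP_mem τ hτ) xiP_mem, ?_⟩, ?_, ?_, ?_, ?_⟩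
  · apply Subtype.ext
    rw [Equiv.Perm.mul_apply, prmP_apply, xiP_apply]
    funext j
    show xiF V0 (τ.symm j) = V0 j
    rw [xi_V0]
    unfold V0
    have e0 : τ.symm j = p2 ↔ j = p0 := by rw [Equiv.symm_apply_eq, s2]
    have e1 : τ.symm j = p3 ↔ j = p1 := by rw [Equiv.symm_apply_eq, s3]
    simp only [e0, e1]
  · rw [Equiv.Perm.mul_apply, prmP_apply, xiP_apply]
    show xiF (w : GolayPt → ℤ) (τ.symm p0) = _
    rw [(Equiv.symm_apply_eq τ).mpr s2.symm]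
    exact hx p2 tet_p.2.2.1
  · rw [Equiv.Perm.mul_apply, prmP_apply, xiP_apply]
    show xiF (w : GolayPt → ℤ) (τ.symm p1) = _
    rw [(Equiv.symm_apply_eq τ).mpr s3.symm]
    exact hx p3 tet_p.2.2.2
  · rw [Equiv.Perm.mul_apply, prmP_apply, xiP_apply]
    show xiF (w : GolayPt → ℤ) (τ.symm p2) = _
    rw [(Equiv.symm_apply_eq τ).mpr s0.symm]
    exact hx p0 tet_p.1
  · rw [Equiv.Perm.mul_apply, prmP_apply, xiP_apply]
    show xiF (w : GolayPt → ℤ) (τ.symm p3) = _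
    rw [(Equiv.symm_apply_eq τ).mpr s1.symm]
    exact hx p1 tet_p.2.1

/-- Arrange two chosen coordinates at the points `p2`, `p3` with chosen signs. -/
theorem arr (w : ↥leechLattice) (a b : GolayPt) (ha0 : a ≠ p0) (ha1 : a ≠ p1)
    (hb0 : b ≠ p0) (hb1 : b ≠ p1) (hab : a ≠ b) (n2 n3 : Bool) :
    ∃ g ∈ St, ((g w : ↥leechLattice) : GolayPt → ℤ) p0 = (w : GolayPt → ℤ) p0 ∧
      ((g w : ↥leechLattice) : GolayPt → ℤ) p1 = (w : GolayPt → ℤ) p1 ∧
      ((g w : ↥leechLattice) : GolayPt → ℤ) p2 =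
        (if n2 = true then -|(w : GolayPt → ℤ) a| else |(w : GolayPt → ℤ) a|) ∧
      ((g w : ↥leechLattice) : GolayPt → ℤ) p3 =
        (if n3 = true then -|(w : GolayPt → ℤ) b| else |(w : GolayPt → ℤ) b|) := by
  obtain ⟨g1, hg1, e0, e1, e2, e3⟩ := perm_fix w a b ha0 ha1 hb0 hb1 hab
  obtain ⟨g2, hg2, f0, f1, f2, f3⟩ := sign_fix (g1 w)
    (xor (decide ((w : GolayPt → ℤ) a < 0)) n2) (xor (decide ((w : GolayPt → ℤ) b < 0)) n3)
  refine ⟨g2 * g1, St.mul_mem hg2 hg1, ?_, ?_, ?_, ?_⟩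
  · rw [Equiv.Perm.mul_apply, f0, e0]
  · rw [Equiv.Perm.mul_apply, f1, e1]
  · rw [Equiv.Perm.mul_apply, f2, e2]
    by_cases hneg : (w : GolayPt → ℤ) a < 0 <;> cases n2 <;>
      simp [hneg, abs_of_neg, abs_of_nonneg, not_lt.mp]
  · rw [Equiv.Perm.mul_apply, f3, e3]
    by_cases hneg : (w : GolayPt → ℤ) b < 0 <;> cases n3 <;>
      simp [hneg, abs_of_neg, abs_of_nonneg, not_lt.mp]

/-! ### The profile of a minimal vector -/

theorem profile (w : ↥leechLattice) (hw : sqNorm (w : GolayPt → ℤ) = 32) :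
    (∃ i, ∀ j, |(w : GolayPt → ℤ) j| = if j = i then 3 else 1) ∨
    (∃ o : Finset GolayPt, o.card = 8 ∧ ∀ j, |(w : GolayPt → ℤ) j| = if j ∈ o then 2 else 0) ∨
    (∃ P : Finset GolayPt, P.card = 2 ∧ ∀ j, |(w : GolayPt → ℤ) j| = if j ∈ P then 4 else 0) := by
  have hm : (w : GolayPt → ℤ) ∈ Mn := ⟨w.2, hw⟩
  rw [cover] at hm
  rcases hm with (⟨⟨c, i⟩, hp, hx⟩ | ⟨⟨o, s⟩, hp, hx⟩) | ⟨⟨P, s⟩, hp, hx⟩
  · left
    refine ⟨i, fun j => ?_⟩
    rw [← hx]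
    show |oddv c i j| = _
    unfold oddv
    split_ifs <;> norm_num
  · right; left
    rw [Finset.mem_coe, mem_I2] at hp
    simp only at hp
    refine ⟨o, hp.1.2, fun j => ?_⟩
    rw [← hx]
    show |vec 2 o s j| = _
    unfold vec
    by_cases hs : j ∈ s
    · rw [if_pos hs, if_pos (hp.2.1 hs)]
      norm_num
    · rw [if_neg hs]
      split_ifs <;> norm_num
  · right; right
    rw [Finset.mem_coe, mem_I4] at hp
    simp only at hp
    refine ⟨P, hp.1, fun j => ?_⟩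
    rw [← hx]
    show |vec 4 P s j| = _
    unfold vec
    by_cases hs : j ∈ s
    · rw [if_pos hs, if_pos (hp.2 hs)]
      norm_num
    · rw [if_neg hs]
      split_ifs <;> norm_num

end Cfsg.Agent.Lib.Helper11.LeechSt
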