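import Mathlib
import Cfsg.Agent.Lib.Helper11.LeechSt

set_option autoImplicit false

namespace Cfsg.Agent.Lib.Helper11.LeechSt

open Cfsg Cfsg.Agent.Lib.Helper3.Golay Cfsg.Agent.Lib.Helper3.Golay2
open Cfsg.Agent.Lib.Helper3.Leech Cfsg.Agent.Lib.Helper3.Leech2 Cfsg.Agent.Lib.Helper3.Leech4
open Cfsg.Agent.Lib.Helper11.LeechGF Cfsg.Agent.Lib.Helper11.Co0Mono
open Cfsg.Agent.Lib.Helper11.LeechIP Cfsg.Agent.Lib.Helper11.LeechXi

/-! ### Generalities -/

theorem abs_cases {x k : ℤ} (h : |x| = k) : x = k ∨ x = -k := by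
  rcases abs_choice x with e | e
  · left; linarith
  · right; linarith

theorem norm_St {g : Equiv.Perm ↥leechLattice} (hg : g ∈ St) (w : ↥leechLattice) :
    sqNorm ((g w : ↥leechLattice) : GolayPt → ℤ) = sqNorm (w : GolayPt → ℤ) :=
  (mem_St.mp hg).1.2 w

/-- A vector whose norm is carried by two coordinates vanishes elsewhere. -/
theorem zero_off (x : GolayPt → ℤ) (a b : GolayPt) (hab : a ≠ b)
    (hn : sqNorm x = x a ^ 2 + x b ^ 2) : ∀ j, j ≠ a → j ≠ b → x j = 0 := by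
  intro j hja hjb
  have h1 := Finset.add_sum_erase Finset.univ (fun j => x j ^ 2) (Finset.mem_univ a)
  have h2 := Finset.add_sum_erase (Finset.univ.erase a) (fun j => x j ^ 2)
    (Finset.mem_erase.mpr ⟨hab.symm, Finset.mem_univ b⟩)
  have h3 : ∑ k ∈ (Finset.univ.erase a).erase b, x k ^ 2 = 0 := by
    unfold sqNorm at hn
    linarith
  have h4 := (Finset.sum_eq_zero_iff_of_nonneg (fun k _ => sq_nonneg (x k))).mp h3 j
    (Finset.mem_erase.mpr ⟨hjb, Finset.mem_erase.mpr ⟨hja, Finset.mem_univ j⟩⟩)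
  exact pow_eq_zero_iff (by norm_num) |>.mp h4

/-- Transitivity on pairs from a reduction to a canonical vector. -/
theorem pair_trans (d : ℤ) (C : GolayPt → ℤ)
    (hR : ∀ w : ↥leechLattice, sqNorm (w : GolayPt → ℤ) = 32 →
      4 * ((w : GolayPt → ℤ) p0 + (w : GolayPt → ℤ) p1) = d →
      ∃ g ∈ St, ((g w : ↥leechLattice) : GolayPt → ℤ) = C)
    (v w w' : ↥leechLattice) (hv : sqNorm (v : GolayPt → ℤ) = 32)
    (hw : sqNorm (w : GolayPt → ℤ) = 32) (hw' : sqNorm (w' : GolayPt → ℤ) = 32)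
    (hd : dotInt (v : GolayPt → ℤ) (w : GolayPt → ℤ) = d)
    (hd' : dotInt (v : GolayPt → ℤ) (w' : GolayPt → ℤ) = d) :
    ∃ g ∈ Co0, g v = v ∧ g w = w' := by
  obtain ⟨g0, hg0, e0⟩ := min_trans v V0' hv sqNorm_V0
  have key : ∀ z : ↥leechLattice, dotInt (v : GolayPt → ℤ) (z : GolayPt → ℤ) = d →
      4 * (((g0 z : ↥leechLattice) : GolayPt → ℤ) p0 +
        ((g0 z : ↥leechLattice) : GolayPt → ℤ) p1) = d := by
    intro z hz
    have h1 := dot_co0 hg0 v z
    rw [e0, hz] at h1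
    rw [← dot_V0]
    exact h1
  obtain ⟨g1, hg1, e1⟩ := hR (g0 w) (by rw [hg0.2]; exact hw) (key w hd)
  obtain ⟨g2, hg2, e2⟩ := hR (g0 w') (by rw [hg0.2]; exact hw') (key w' hd')
  have hs : g2⁻¹ * g1 ∈ St := St.mul_mem (St.inv_mem hg2) hg1
  refine ⟨g0⁻¹ * ((g2⁻¹ * g1) * g0),
    Co0.mul_mem (Co0.inv_mem hg0) (Co0.mul_mem (mem_St.mp hs).1 hg0), ?_, ?_⟩
  · rw [Equiv.Perm.mul_apply, Equiv.Perm.mul_apply, e0, (mem_St.mp hs).2, ← e0]
    exact Equiv.symm_apply_apply g0 v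
  · have e : g1 (g0 w) = g2 (g0 w') := Subtype.ext (e1.trans e2.symm)
    rw [Equiv.Perm.mul_apply, Equiv.Perm.mul_apply, Equiv.Perm.mul_apply, e]
    have e3 : g2⁻¹ (g2 (g0 w')) = g0 w' := Equiv.symm_apply_apply g2 _
    rw [e3]
    exact Equiv.symm_apply_apply g0 w'

/-! ### Inner product `-16` -/

/-- The canonical vector: `-4` at `p0`, `4` at `p2`. -/
def Wc16 : GolayPt → ℤ := fun j => if j = p0 then -4 else if j = p2 then 4 else 0

theorem r16_a (w : ↥leechLattice) (hw : sqNorm (w : GolayPt → ℤ) = 32)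
    (h0 : (w : GolayPt → ℤ) p0 = -4) (h1 : (w : GolayPt → ℤ) p1 = 0) :
    ∃ g ∈ St, ((g w : ↥leechLattice) : GolayPt → ℤ) = Wc16 := by
  -- find the other coordinate `r` with `|w r| = 4`
  have hr : ∃ r, r ≠ p0 ∧ r ≠ p1 ∧ |(w : GolayPt → ℤ) r| = 4 := by
    rcases profile w hw with ⟨i, hp⟩ | ⟨o, ho, hp⟩ | ⟨P, hP, hp⟩
    · have := hp p0
      rw [h0] at this
      split_ifs at this <;> norm_num at this
    · have := hp p0
      rw [h0] at this
      split_ifs at this <;> norm_num at this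
    · have hp0 : p0 ∈ P := by
        by_contra hc
        have := hp p0
        rw [h0, if_neg hc] at this
        norm_num at this
      have hp1 : p1 ∉ P := by
        intro hc
        have := hp p1
        rw [h1, if_pos hc] at this
        norm_num at this
      obtain ⟨x, y, hxy, rfl⟩ := Finset.card_eq_two.mp hP
      rw [Finset.mem_insert, Finset.mem_singleton] at hp0
      rcases hp0 with e | e
      · refine ⟨y, fun h => hxy (e ▸ h.symm), fun h => hp1 (by rw [← h]; simp), ?_⟩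
        have := hp y
        rw [if_pos (by simp)] at this
        exact this
      · refine ⟨x, fun h => hxy (e ▸ h), fun h => hp1 (by rw [← h]; simp), ?_⟩
        have := hp x
        rw [if_pos (by simp)] at this
        exact this
  obtain ⟨r, hr0, hr1, hr4⟩ := hr
  obtain ⟨b, hb0, hb1, hrb⟩ : ∃ b : GolayPt, b ≠ p0 ∧ b ≠ p1 ∧ r ≠ b := by
    by_cases h : r = p2
    · exact ⟨p3, by decide, by decide, by rw [h]; decide⟩
    · exact ⟨p2, by decide, by decide, h⟩
  obtain ⟨g, hg, e0, e1, e2, -⟩ := arr w r b hr0 hr1 hb0 hb1 hrb false false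
  refine ⟨g, hg, ?_⟩
  rw [h0] at e0
  rw [hr4] at e2
  simp only [Bool.false_eq_true, if_false] at e2
  have hn := norm_St hg w
  rw [hw] at hn
  have hz := zero_off _ p0 p2 (by decide) (by rw [hn, e0, e2]; norm_num)
  funext j
  unfold Wc16
  by_cases hj0 : j = p0
  · rw [if_pos hj0, hj0, e0]
  · rw [if_neg hj0]
    by_cases hj2 : j = p2
    · rw [if_pos hj2, hj2, e2]
    · rw [if_neg hj2]
      exact hz j hj0 hj2

theorem r16_a' (w : ↥leechLattice) (hw : sqNorm (w : GolayPt → ℤ) = 32)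
    (h0 : (w : GolayPt → ℤ) p0 = 0) (h1 : (w : GolayPt → ℤ) p1 = -4) :
    ∃ g ∈ St, ((g w : ↥leechLattice) : GolayPt → ℤ) = Wc16 := by
  obtain ⟨g, hg, e0, e1⟩ := swap_fix w
  obtain ⟨g', hg', e'⟩ := r16_a (g w) (by rw [norm_St hg]; exact hw) (by rw [e0, h1])
    (by rw [e1, h0])
  exact ⟨g' * g, St.mul_mem hg' hg, e'⟩

theorem r16_b (w : ↥leechLattice) (hw : sqNorm (w : GolayPt → ℤ) = 32)
    (h0 : (w : GolayPt → ℤ) p0 = -2) (h1 : (w : GolayPt → ℤ) p1 = -2) :
    ∃ g ∈ St, ((g w : ↥leechLattice) : GolayPt → ℤ) = Wc16 := by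
  have hab : ∃ a b : GolayPt, a ≠ p0 ∧ a ≠ p1 ∧ b ≠ p0 ∧ b ≠ p1 ∧ a ≠ b ∧
      |(w : GolayPt → ℤ) a| = 2 ∧ |(w : GolayPt → ℤ) b| = 2 := by
    rcases profile w hw with ⟨i, hp⟩ | ⟨o, ho, hp⟩ | ⟨P, hP, hp⟩
    · have := hp p0
      rw [h0] at this
      split_ifs at this <;> norm_num at this
    · have hc : 1 < ((o.erase p0).erase p1).card := by
        have c1 : o.card - 1 ≤ (o.erase p0).card := Finset.pred_card_le_card_erase
        have c2 : (o.erase p0).card - 1 ≤ ((o.erase p0).erase p1).card :=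
          Finset.pred_card_le_card_erase
        omega
      obtain ⟨a, ha, b, hb, hab⟩ := Finset.one_lt_card.mp hc
      rw [Finset.mem_erase, Finset.mem_erase] at ha hb
      refine ⟨a, b, ha.2.1, ha.1, hb.2.1, hb.1, hab, ?_, ?_⟩
      · have := hp a
        rw [if_pos ha.2.2] at this
        exact this
      · have := hp b
        rw [if_pos hb.2.2] at this
        exact this
    · have := hp p0
      rw [h0] at this
      split_ifs at this <;> norm_num at this
  obtain ⟨a, b, ha0, ha1, hb0, hb1, hab, ha2, hb2⟩ := hab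
  obtain ⟨g, hg, e0, e1, e2, e3⟩ := arr w a b ha0 ha1 hb0 hb1 hab false true
  rw [ha2] at e2
  rw [hb2] at e3
  simp only [Bool.false_eq_true, if_false] at e2
  simp only [if_true] at e3
  obtain ⟨g', hg', f0, f1, -, -⟩ := h_step (g w)
  rw [e0, e1, e2, e3, h0, h1] at f0 f1
  obtain ⟨g'', hg'', e''⟩ := r16_a (g' (g w))
    (by rw [norm_St hg', norm_St hg]; exact hw) (by rw [f0]; norm_num) (by rw [f1]; norm_num)
  exact ⟨g'' * (g' * g), St.mul_mem hg'' (St.mul_mem hg' hg), e''⟩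

theorem r16_c (w : ↥leechLattice) (hw : sqNorm (w : GolayPt → ℤ) = 32)
    (hd : (w : GolayPt → ℤ) p0 + (w : GolayPt → ℤ) p1 = -4)
    (i : GolayPt) (hp : ∀ j, |(w : GolayPt → ℤ) j| = if j = i then 3 else 1) :
    ∃ g ∈ St, ((g w : ↥leechLattice) : GolayPt → ℤ) = Wc16 := by
  have hi : i = p0 ∨ i = p1 := by
    by_contra hc
    push Not at hc
    have a0 := hp p0
    have a1 := hp p1
    rw [if_neg (fun h => hc.1 h.symm)] at a0
    rw [if_neg (fun h => hc.2 h.symm)] at a1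
    rcases abs_cases a0 with h | h <;> rcases abs_cases a1 with h' | h' <;> omega
  have a2 : |(w : GolayPt → ℤ) p2| = 1 := by
    have := hp p2
    rw [if_neg (by rcases hi with h | h <;> rw [h] <;> decide)] at this
    exact this
  have a3 : |(w : GolayPt → ℤ) p3| = 1 := by
    have := hp p3
    rw [if_neg (by rcases hi with h | h <;> rw [h] <;> decide)] at this
    exact this
  obtain ⟨g, hg, e0, e1, e2, e3⟩ := arr w p2 p3 (by decide) (by decide) (by decide) (by decide)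
    (by decide) false false
  rw [a2] at e2
  rw [a3] at e3
  simp only [Bool.false_eq_true, if_false] at e2 e3
  obtain ⟨g', hg', f0, f1, -, -⟩ := h_step (g w)
  rw [e0, e1, e2, e3] at f0 f1
  obtain ⟨g'', hg'', e''⟩ := r16_b (g' (g w))
    (by rw [norm_St hg', norm_St hg]; exact hw) (by rw [f0]; omega) (by rw [f1]; omega)
  exact ⟨g'' * (g' * g), St.mul_mem hg'' (St.mul_mem hg' hg), e''⟩

theorem r16 (w : ↥leechLattice) (hw : sqNorm (w : GolayPt → ℤ) = 32)
    (hd : 4 * ((w : GolayPt → ℤ) p0 + (w : GolayPt → ℤ) p1) = -16) :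
    ∃ g ∈ St, ((g w : ↥leechLattice) : GolayPt → ℤ) = Wc16 := by
  have hd' : (w : GolayPt → ℤ) p0 + (w : GolayPt → ℤ) p1 = -4 := by linarith
  rcases profile w hw with ⟨i, hp⟩ | ⟨o, ho, hp⟩ | ⟨P, hP, hp⟩
  · exact r16_c w hw hd' i hp
  · have a0 := hp p0
    have a1 := hp p1
    have h0 : (w : GolayPt → ℤ) p0 = -2 ∧ (w : GolayPt → ℤ) p1 = -2 := by
      split_ifs at a0 a1 <;> rcases abs_cases a0 with h | h <;>
        rcases abs_cases a1 with h' | h' <;> omega
    exact r16_b w hw h0.1 h0.2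
  · have a0 := hp p0
    have a1 := hp p1
    have h0 : ((w : GolayPt → ℤ) p0 = -4 ∧ (w : GolayPt → ℤ) p1 = 0) ∨
        ((w : GolayPt → ℤ) p0 = 0 ∧ (w : GolayPt → ℤ) p1 = -4) := by
      split_ifs at a0 a1 <;> rcases abs_cases a0 with h | h <;>
        rcases abs_cases a1 with h' | h' <;> omega
    rcases h0 with ⟨h0, h1⟩ | ⟨h0, h1⟩
    · exact r16_a w hw h0 h1
    · exact r16_a' w hw h0 h1

/-- **The stabiliser of a minimal vector is transitive on the minimal vectors of inner product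
`-16` with it.** -/
theorem pair16 (v w w' : ↥leechLattice) (hv : sqNorm (v : GolayPt → ℤ) = 32)
    (hw : sqNorm (w : GolayPt → ℤ) = 32) (hw' : sqNorm (w' : GolayPt → ℤ) = 32)
    (hd : dotInt (v : GolayPt → ℤ) (w : GolayPt → ℤ) = -16)
    (hd' : dotInt (v : GolayPt → ℤ) (w' : GolayPt → ℤ) = -16) :
    ∃ g ∈ Co0, g v = v ∧ g w = w' :=
  pair_trans (-16) Wc16 r16 v w w' hv hw hw' hd hd'

end Cfsg.Agent.Lib.Helper11.LeechSt
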