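import Mathlib
import Cfsg.Agent.Lib.Helper11.LeechSt16

set_option autoImplicit false

namespace Cfsg.Agent.Lib.Helper11.LeechSt

open Cfsg Cfsg.Agent.Lib.Helper3.Golay Cfsg.Agent.Lib.Helper3.Golay2
open Cfsg.Agent.Lib.Helper3.Leech Cfsg.Agent.Lib.Helper3.Leech2 Cfsg.Agent.Lib.Helper3.Leech4
open Cfsg.Agent.Lib.Helper11.LeechGF Cfsg.Agent.Lib.Helper11.Co0Mono
open Cfsg.Agent.Lib.Helper11.LeechIP Cfsg.Agent.Lib.Helper11.LeechXi

/-! ### Sign changes in the stabiliser -/

theorem sgn_St (c : Finset GolayPt) (hc : c ∈ Cset) (h0 : p0 ∉ c) (h1 : p1 ∉ c) :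
    sgnP c hc ∈ St := by
  refine mem_St.mpr ⟨sgnP_mem c hc, ?_⟩
  apply Subtype.ext
  rw [sgnP_apply]
  funext j
  show (if j ∈ c then -V0 j else V0 j) = V0 j
  by_cases hj : j ∈ c
  · rw [if_pos hj]
    have e0 : j ≠ p0 := fun e => h0 (e ▸ hj)
    have e1 : j ≠ p1 := fun e => h1 (e ▸ hj)
    unfold V0
    simp [e0, e1]
  · rw [if_neg hj]

/-! ### Inner product `-8` -/

/-- The canonical vector: `-3` at `p0`, `1` elsewhere. -/
def Wc8 : GolayPt → ℤ := fun j => if j = p0 then -3 else 1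

theorem r8_B (w : ↥leechLattice) (hw : sqNorm (w : GolayPt → ℤ) = 32)
    (h0 : (w : GolayPt → ℤ) p0 = -3) (h1 : (w : GolayPt → ℤ) p1 = 1) :
    ∃ g ∈ St, ((g w : ↥leechLattice) : GolayPt → ℤ) = Wc8 := by
  have hx := (mem_leechLattice_iff _).mp w.2
  rw [leechSet_iff] at hx
  rcases hx with ⟨c, hc, hpat, hs8⟩ | ⟨c, hc, hpat, hs8⟩
  · exfalso
    have := hpat p0
    rw [h0] at this
    split_ifs at this <;> omega
  · have c0 : p0 ∈ c := by
      by_contra hcon
      have := hpat p0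
      rw [h0, if_neg hcon] at this
      omega
    have c1 : p1 ∈ c := by
      by_contra hcon
      have := hpat p1
      rw [h1, if_neg hcon] at this
      omega
    have hg : sgnP cᶜ (compl_mem_supports hc) ∈ St :=
      sgn_St _ _ (by simpa using c0) (by simpa using c1)
    refine ⟨sgnP cᶜ (compl_mem_supports hc), hg, ?_⟩
    have hval : ∀ j, ((sgnP cᶜ (compl_mem_supports hc) w : ↥leechLattice) : GolayPt → ℤ) j =
        if j ∈ c then (w : GolayPt → ℤ) j else -(w : GolayPt → ℤ) j := by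
      intro j
      rw [sgnP_apply]
      unfold sgnF
      by_cases hj : j ∈ c
      · rw [if_neg (by simpa using hj), if_pos hj]
      · rw [if_pos (by simpa using hj), if_neg hj]
    have hmod : ∀ j, ((sgnP cᶜ (compl_mem_supports hc) w : ↥leechLattice) : GolayPt → ℤ) j % 4
        = 1 := by
      intro j
      rw [hval]
      have := hpat j
      split_ifs at this ⊢ <;> omega
    have hn := norm_St hg w
    rw [hw] at hn
    have e0 : ((sgnP cᶜ (compl_mem_supports hc) w : ↥leechLattice) : GolayPt → ℤ) p0 = -3 := by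
      rw [hval, if_pos c0, h0]
    funext j
    unfold Wc8
    by_cases hj : j = p0
    · rw [if_pos hj, hj, e0]
    · rw [if_neg hj]
      rcases profile _ hn with ⟨i, hp⟩ | ⟨o, ho, hp⟩ | ⟨P, hP, hp⟩
      · have hi : i = p0 := by
          by_contra hcon
          have := hp p0
          rw [e0, if_neg (fun h => hcon h.symm)] at this
          norm_num at this
        have a := hp j
        rw [if_neg (by rw [hi]; exact hj)] at a
        have m := hmod j
        rcases abs_cases a with h | h <;> omega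
      · have := hp p0
        rw [e0] at this
        split_ifs at this <;> norm_num at this
      · have := hp p0
        rw [e0] at this
        split_ifs at this <;> norm_num at this

theorem r8_B' (w : ↥leechLattice) (hw : sqNorm (w : GolayPt → ℤ) = 32)
    (h0 : (w : GolayPt → ℤ) p0 = 1) (h1 : (w : GolayPt → ℤ) p1 = -3) :
    ∃ g ∈ St, ((g w : ↥leechLattice) : GolayPt → ℤ) = Wc8 := by
  obtain ⟨g, hg, e0, e1⟩ := swap_fix w
  obtain ⟨g', hg', e'⟩ := r8_B (g w) (by rw [norm_St hg]; exact hw) (by rw [e0, h1])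
    (by rw [e1, h0])
  exact ⟨g' * g, St.mul_mem hg' hg, e'⟩

theorem r8_A (w : ↥leechLattice) (hw : sqNorm (w : GolayPt → ℤ) = 32)
    (h0 : (w : GolayPt → ℤ) p0 = -2) (h1 : (w : GolayPt → ℤ) p1 = 0) :
    ∃ g ∈ St, ((g w : ↥leechLattice) : GolayPt → ℤ) = Wc8 := by
  have hab : ∃ a b : GolayPt, a ≠ p0 ∧ a ≠ p1 ∧ b ≠ p0 ∧ b ≠ p1 ∧ a ≠ b ∧
      |(w : GolayPt → ℤ) a| = 2 ∧ |(w : GolayPt → ℤ) b| = 2 := by
    rcases profile w hw with ⟨i, hp⟩ | ⟨o, ho, hp⟩ | ⟨P, hP, hp⟩
    · have := hp p0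
      rw [h0] at this
      split_ifs at this <;> norm_num at this
    · have hp1 : p1 ∉ o := by
        intro hcon
        have := hp p1
        rw [h1, if_pos hcon] at this
        norm_num at this
      have hc : 1 < (o.erase p0).card := by
        have c1 : o.card - 1 ≤ (o.erase p0).card := Finset.pred_card_le_card_erase
        omega
      obtain ⟨a, ha, b, hb, hab⟩ := Finset.one_lt_card.mp hc
      rw [Finset.mem_erase] at ha hb
      refine ⟨a, b, ha.1, fun h => hp1 (h ▸ ha.2), hb.1, fun h => hp1 (h ▸ hb.2), hab, ?_, ?_⟩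
      · have := hp a
        rw [if_pos ha.2] at this
        exact this
      · have := hp b
        rw [if_pos hb.2] at this
        exact this
    · have := hp p0
      rw [h0] at this
      split_ifs at this <;> norm_num at this
  obtain ⟨a, b, ha0, ha1, hb0, hb1, hab, ha2, hb2⟩ := hab
  obtain ⟨g, hg, e0, e1, e2, e3⟩ := arr w a b ha0 ha1 hb0 hb1 hab false true
  rw [ha2] at e2
  rw [hb2] at e3
  simp only [Bool.false_eq_true, if_false] at e2
  simp only [if_true] at e3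
  obtain ⟨g', hg', f0, f1, -, -⟩ := h_step (g w)
  rw [e0, e1, e2, e3, h0, h1] at f0 f1
  obtain ⟨g'', hg'', e''⟩ := r8_B (g' (g w))
    (by rw [norm_St hg', norm_St hg]; exact hw) (by rw [f0]; norm_num) (by rw [f1]; norm_num)
  exact ⟨g'' * (g' * g), St.mul_mem hg'' (St.mul_mem hg' hg), e''⟩

theorem r8_A' (w : ↥leechLattice) (hw : sqNorm (w : GolayPt → ℤ) = 32)
    (h0 : (w : GolayPt → ℤ) p0 = 0) (h1 : (w : GolayPt → ℤ) p1 = -2) :
    ∃ g ∈ St, ((g w : ↥leechLattice) : GolayPt → ℤ) = Wc8 := by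
  obtain ⟨g, hg, e0, e1⟩ := swap_fix w
  obtain ⟨g', hg', e'⟩ := r8_A (g w) (by rw [norm_St hg]; exact hw) (by rw [e0, h1])
    (by rw [e1, h0])
  exact ⟨g' * g, St.mul_mem hg' hg, e'⟩

/-- Two points outside `{p0, p1, i}`. -/
theorem two_off (i : GolayPt) : ∃ a b : GolayPt, a ≠ p0 ∧ a ≠ p1 ∧ b ≠ p0 ∧ b ≠ p1 ∧ a ≠ b ∧
    a ≠ i ∧ b ≠ i := by
  by_cases h2 : i = p2
  · exact ⟨p3, some 4, by decide, by decide, by decide, by decide, by decide,
      by rw [h2]; decide, by rw [h2]; decide⟩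
  · by_cases h3 : i = p3
    · exact ⟨p2, some 4, by decide, by decide, by decide, by decide, by decide,
        by rw [h3]; decide, by rw [h3]; decide⟩
    · exact ⟨p2, p3, by decide, by decide, by decide, by decide, by decide,
        fun h => h2 h.symm, fun h => h3 h.symm⟩

theorem r8_C (w : ↥leechLattice) (hw : sqNorm (w : GolayPt → ℤ) = 32)
    (h0 : (w : GolayPt → ℤ) p0 = -1) (h1 : (w : GolayPt → ℤ) p1 = -1)
    (i : GolayPt) (hp : ∀ j, |(w : GolayPt → ℤ) j| = if j = i then 3 else 1) :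
    ∃ g ∈ St, ((g w : ↥leechLattice) : GolayPt → ℤ) = Wc8 := by
  obtain ⟨a, b, ha0, ha1, hb0, hb1, hab, hai, hbi⟩ := two_off i
  have a2 : |(w : GolayPt → ℤ) a| = 1 := by
    have := hp a
    rw [if_neg hai] at this
    exact this
  have a3 : |(w : GolayPt → ℤ) b| = 1 := by
    have := hp b
    rw [if_neg hbi] at this
    exact this
  obtain ⟨g, hg, e0, e1, e2, e3⟩ := arr w a b ha0 ha1 hb0 hb1 hab false true
  rw [a2] at e2
  rw [a3] at e3
  simp only [Bool.false_eq_true, if_false] at e2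
  simp only [if_true] at e3
  obtain ⟨g', hg', f0, f1, -, -⟩ := h_step (g w)
  rw [e0, e1, e2, e3, h0, h1] at f0 f1
  obtain ⟨g'', hg'', e''⟩ := r8_A (g' (g w))
    (by rw [norm_St hg', norm_St hg]; exact hw) (by rw [f0]; norm_num) (by rw [f1]; norm_num)
  exact ⟨g'' * (g' * g), St.mul_mem hg'' (St.mul_mem hg' hg), e''⟩

theorem r8 (w : ↥leechLattice) (hw : sqNorm (w : GolayPt → ℤ) = 32)
    (hd : 4 * ((w : GolayPt → ℤ) p0 + (w : GolayPt → ℤ) p1) = -8) :
    ∃ g ∈ St, ((g w : ↥leechLattice) : GolayPt → ℤ) = Wc8 := by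
  have hd' : (w : GolayPt → ℤ) p0 + (w : GolayPt → ℤ) p1 = -2 := by linarith
  rcases profile w hw with ⟨i, hp⟩ | ⟨o, ho, hp⟩ | ⟨P, hP, hp⟩
  · have a0 := hp p0
    have a1 := hp p1
    have h0 : ((w : GolayPt → ℤ) p0 = -3 ∧ (w : GolayPt → ℤ) p1 = 1) ∨
        ((w : GolayPt → ℤ) p0 = 1 ∧ (w : GolayPt → ℤ) p1 = -3) ∨
        ((w : GolayPt → ℤ) p0 = -1 ∧ (w : GolayPt → ℤ) p1 = -1) := by
      split_ifs at a0 a1 <;> rcases abs_cases a0 with h | h <;>
        rcases abs_cases a1 with h' | h' <;> omega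
    rcases h0 with ⟨h0, h1⟩ | ⟨h0, h1⟩ | ⟨h0, h1⟩
    · exact r8_B w hw h0 h1
    · exact r8_B' w hw h0 h1
    · exact r8_C w hw h0 h1 i hp
  · have a0 := hp p0
    have a1 := hp p1
    have h0 : ((w : GolayPt → ℤ) p0 = -2 ∧ (w : GolayPt → ℤ) p1 = 0) ∨
        ((w : GolayPt → ℤ) p0 = 0 ∧ (w : GolayPt → ℤ) p1 = -2) := by
      split_ifs at a0 a1 <;> rcases abs_cases a0 with h | h <;>
        rcases abs_cases a1 with h' | h' <;> omega
    rcases h0 with ⟨h0, h1⟩ | ⟨h0, h1⟩
    · exact r8_A w hw h0 h1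
    · exact r8_A' w hw h0 h1
  · exfalso
    have a0 := hp p0
    have a1 := hp p1
    split_ifs at a0 a1 <;> rcases abs_cases a0 with h | h <;>
      rcases abs_cases a1 with h' | h' <;> omega

/-- **The stabiliser of a minimal vector is transitive on the minimal vectors of inner product
`-8` with it.** -/
theorem pair8 (v w w' : ↥leechLattice) (hv : sqNorm (v : GolayPt → ℤ) = 32)
    (hw : sqNorm (w : GolayPt → ℤ) = 32) (hw' : sqNorm (w' : GolayPt → ℤ) = 32)
    (hd : dotInt (v : GolayPt → ℤ) (w : GolayPt → ℤ) = -8)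
    (hd' : dotInt (v : GolayPt → ℤ) (w' : GolayPt → ℤ) = -8) :
    ∃ g ∈ Co0, g v = v ∧ g w = w' :=
  pair_trans (-8) Wc8 r8 v w w' hv hw hw' hd hd'

/-! ### Decompositions of a vector of norm `48` -/

theorem dot_comm (x y : GolayPt → ℤ) : dotInt x y = dotInt y x := by
  unfold dotInt
  exact Finset.sum_congr rfl fun i _ => mul_comm _ _

theorem dot_sub_right (x y z : GolayPt → ℤ) : dotInt x (y - z) = dotInt x y - dotInt x z := by
  unfold dotInt
  rw [← Finset.sum_sub_distrib]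
  refine Finset.sum_congr rfl fun i _ => ?_
  simp only [Pi.sub_apply]
  ring

theorem sqNorm_sub' (x y : GolayPt → ℤ) :
    sqNorm (x - y) = sqNorm x + sqNorm y - 2 * dotInt x y := by
  unfold sqNorm dotInt
  rw [Finset.mul_sum, ← Finset.sum_add_distrib, ← Finset.sum_sub_distrib]
  refine Finset.sum_congr rfl fun i _ => ?_
  simp only [Pi.sub_apply]
  ring

theorem dot_self (x : GolayPt → ℤ) : dotInt x x = sqNorm x := by
  unfold dotInt sqNorm
  exact Finset.sum_congr rfl fun i _ => by ring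

/-- **The stabiliser of a vector of norm `48` is transitive on its decompositions into two
minimal vectors.** -/
theorem trans552 (u v v' : ↥leechLattice) (hu : sqNorm (u : GolayPt → ℤ) = 48)
    (hv : sqNorm (v : GolayPt → ℤ) = 32)
    (hv2 : sqNorm ((u : GolayPt → ℤ) - (v : GolayPt → ℤ)) = 32)
    (hv' : sqNorm (v' : GolayPt → ℤ) = 32)
    (hv2' : sqNorm ((u : GolayPt → ℤ) - (v' : GolayPt → ℤ)) = 32) :
    ∃ g ∈ Co0, g u = u ∧ g v = v' := by
  have d1 : dotInt (v : GolayPt → ℤ) ((u - v : ↥leechLattice) : GolayPt → ℤ) = -8 := by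
    rw [AddSubgroup.coe_sub, dot_sub_right, dot_self, hv, dot_comm]
    rw [sqNorm_sub', hu, hv] at hv2
    linarith
  have d2 : dotInt (v' : GolayPt → ℤ) ((u - v' : ↥leechLattice) : GolayPt → ℤ) = -8 := by
    rw [AddSubgroup.coe_sub, dot_sub_right, dot_self, hv', dot_comm]
    rw [sqNorm_sub', hu, hv'] at hv2'
    linarith
  obtain ⟨g0, hg0, e0⟩ := min_trans v v' hv hv'
  have d3 : dotInt (v' : GolayPt → ℤ) ((g0 (u - v) : ↥leechLattice) : GolayPt → ℤ) = -8 := by
    have := dot_co0 hg0 v (u - v)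
    rw [e0] at this
    rw [this]
    exact d1
  obtain ⟨h, hh, f1, f2⟩ := pair8 v' (g0 (u - v)) (u - v') hv'
    (by rw [hg0.2, AddSubgroup.coe_sub]; exact hv2) (by rw [AddSubgroup.coe_sub]; exact hv2')
    d3 d2
  refine ⟨h * g0, Co0.mul_mem hh hg0, ?_, ?_⟩
  · have hu' : u = v + (u - v) := by abel
    rw [Equiv.Perm.mul_apply]
    conv_lhs => rw [hu']
    rw [hg0.1, hh.1, e0, f1, f2]
    abel
  · rw [Equiv.Perm.mul_apply, e0, f1]

end Cfsg.Agent.Lib.Helper11.LeechSt
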