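import Mathlib
import Cfsg.Agent.Lib.Helper11.LeechSt8

set_option autoImplicit false

namespace Cfsg.Agent.Lib.Helper11.LeechSt

open Cfsg Cfsg.Agent.Lib.Helper3.Golay Cfsg.Agent.Lib.Helper3.Golay2
open Cfsg.Agent.Lib.Helper3.Leech Cfsg.Agent.Lib.Helper3.Leech2 Cfsg.Agent.Lib.Helper3.Leech4
open Cfsg.Agent.Lib.Helper11.LeechGF Cfsg.Agent.Lib.Helper11.Co0Mono
open Cfsg.Agent.Lib.Helper11.LeechIP Cfsg.Agent.Lib.Helper11.LeechXi

/-! ### Inner product `0` -/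

/-- The canonical vector: `-4` at `p0`, `4` at `p1`. -/
def Wc0 : GolayPt → ℤ := fun j => if j = p0 then -4 else if j = p1 then 4 else 0

theorem r0_a1 (w : ↥leechLattice) (hw : sqNorm (w : GolayPt → ℤ) = 32)
    (h0 : (w : GolayPt → ℤ) p0 = -4) (h1 : (w : GolayPt → ℤ) p1 = 4) :
    ∃ g ∈ St, ((g w : ↥leechLattice) : GolayPt → ℤ) = Wc0 := by
  refine ⟨1, St.one_mem, ?_⟩
  have hz := zero_off _ p0 p1 (by decide) (by rw [hw, h0, h1]; norm_num)
  funext j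
  show (w : GolayPt → ℤ) j = Wc0 j
  unfold Wc0
  by_cases hj0 : j = p0
  · rw [if_pos hj0, hj0, h0]
  · rw [if_neg hj0]
    by_cases hj1 : j = p1
    · rw [if_pos hj1, hj1, h1]
    · rw [if_neg hj1]
      exact hz j hj0 hj1

theorem r0_a2 (w : ↥leechLattice) (hw : sqNorm (w : GolayPt → ℤ) = 32)
    (h0 : (w : GolayPt → ℤ) p0 = 4) (h1 : (w : GolayPt → ℤ) p1 = -4) :
    ∃ g ∈ St, ((g w : ↥leechLattice) : GolayPt → ℤ) = Wc0 := by
  obtain ⟨g, hg, e0, e1⟩ := swap_fix w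
  obtain ⟨g', hg', e'⟩ := r0_a1 (g w) (by rw [norm_St hg]; exact hw) (by rw [e0, h1])
    (by rw [e1, h0])
  exact ⟨g' * g, St.mul_mem hg' hg, e'⟩

theorem r0_a3 (w : ↥leechLattice) (hw : sqNorm (w : GolayPt → ℤ) = 32)
    (h0 : (w : GolayPt → ℤ) p0 = 0) (h1 : (w : GolayPt → ℤ) p1 = 0)
    (hex : ∃ j, |(w : GolayPt → ℤ) j| = 4) :
    ∃ g ∈ St, ((g w : ↥leechLattice) : GolayPt → ℤ) = Wc0 := by
  obtain ⟨j4, hj4⟩ := hex
  have hab : ∃ a b : GolayPt, a ≠ p0 ∧ a ≠ p1 ∧ b ≠ p0 ∧ b ≠ p1 ∧ a ≠ b ∧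
      |(w : GolayPt → ℤ) a| = 4 ∧ |(w : GolayPt → ℤ) b| = 4 := by
    rcases profile w hw with ⟨i, hp⟩ | ⟨o, ho, hp⟩ | ⟨P, hP, hp⟩
    · have := hp j4
      rw [hj4] at this
      split_ifs at this <;> norm_num at this
    · have := hp j4
      rw [hj4] at this
      split_ifs at this <;> norm_num at this
    · obtain ⟨x, y, hxy, rfl⟩ := Finset.card_eq_two.mp hP
      have hx := hp x
      have hy := hp y
      rw [if_pos (by simp)] at hx hy
      refine ⟨x, y, ?_, ?_, ?_, ?_, hxy, hx, hy⟩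
      · intro h; rw [h, h0] at hx; norm_num at hx
      · intro h; rw [h, h1] at hx; norm_num at hx
      · intro h; rw [h, h0] at hy; norm_num at hy
      · intro h; rw [h, h1] at hy; norm_num at hy
  obtain ⟨a, b, ha0, ha1, hb0, hb1, hab, ha4, hb4⟩ := hab
  obtain ⟨g, hg, e0, e1, e2, e3⟩ := arr w a b ha0 ha1 hb0 hb1 hab false true
  rw [ha4] at e2
  rw [hb4] at e3
  simp only [Bool.false_eq_true, if_false] at e2
  simp only [if_true] at e3
  obtain ⟨g', hg', f0, f1, -, -⟩ := h_step (g w)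
  rw [e0, e1, e2, e3, h0, h1] at f0 f1
  obtain ⟨g'', hg'', e''⟩ := r0_a1 (g' (g w))
    (by rw [norm_St hg', norm_St hg]; exact hw) (by rw [f0]; norm_num) (by rw [f1]; norm_num)
  exact ⟨g'' * (g' * g), St.mul_mem hg'' (St.mul_mem hg' hg), e''⟩

theorem r0_b1 (w : ↥leechLattice) (hw : sqNorm (w : GolayPt → ℤ) = 32)
    (h0 : (w : GolayPt → ℤ) p0 = 2 ∨ (w : GolayPt → ℤ) p0 = -2)
    (hd : (w : GolayPt → ℤ) p0 + (w : GolayPt → ℤ) p1 = 0) :
    ∃ g ∈ St, ((g w : ↥leechLattice) : GolayPt → ℤ) = Wc0 := by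
  have hab : ∃ a b : GolayPt, a ≠ p0 ∧ a ≠ p1 ∧ b ≠ p0 ∧ b ≠ p1 ∧ a ≠ b ∧
      |(w : GolayPt → ℤ) a| = 2 ∧ |(w : GolayPt → ℤ) b| = 2 := by
    rcases profile w hw with ⟨i, hp⟩ | ⟨o, ho, hp⟩ | ⟨P, hP, hp⟩
    · have := hp p0
      rcases h0 with h0 | h0 <;> rw [h0] at this <;> split_ifs at this <;> norm_num at this
    · have hc : 1 < ((o.erase p0).erase p1).card := by
        have c1 : o.card - 1 ≤ (o.erase p0).card := Finset.pred_card_le_card_erase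
        have c2 : (o.erase p0).card - 1 ≤ ((o.erase p0).erase p1).card :=
          Finset.pred_card_le_card_erase
        omega
      obtain ⟨a, ha, b, hb, hab⟩ := Finset.one_lt_card.mp hc
      rw [Finset.mem_erase, Finset.mem_erase] at ha hb
      refine ⟨a, b, ha.2.1, ha.1, hb.2.1, hb.1, hab, ?_, ?_⟩
      · have := hp a
        rw [if_pos ha.2.2] at this
        exact this
      · have := hp b
        rw [if_pos hb.2.2] at this
        exact this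
    · have := hp p0
      rcases h0 with h0 | h0 <;> rw [h0] at this <;> split_ifs at this <;> norm_num at this
  obtain ⟨a, b, ha0, ha1, hb0, hb1, hab, ha2, hb2⟩ := hab
  obtain ⟨g, hg, e0, e1, e2, e3⟩ := arr w a b ha0 ha1 hb0 hb1 hab false false
  rw [ha2] at e2
  rw [hb2] at e3
  simp only [Bool.false_eq_true, if_false] at e2 e3
  obtain ⟨g', hg', f0, f1, f2, f3⟩ := h_step (g w)
  rw [e0, e1, e2, e3] at f0 f1 f2 f3
  have hn : sqNorm ((g' (g w) : ↥leechLattice) : GolayPt → ℤ) = 32 := by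
    rw [norm_St hg', norm_St hg]; exact hw
  have hex : ∃ j, |((g' (g w) : ↥leechLattice) : GolayPt → ℤ) j| = 4 := by
    rcases h0 with h0 | h0
    · refine ⟨p3, ?_⟩
      rw [f3]
      have : (w : GolayPt → ℤ) p1 = -2 := by omega
      rw [h0, this]
      norm_num
    · refine ⟨p2, ?_⟩
      rw [f2]
      have : (w : GolayPt → ℤ) p1 = 2 := by omega
      rw [h0, this]
      norm_num
  obtain ⟨g'', hg'', e''⟩ := r0_a3 (g' (g w)) hn (by rw [f0]; omega) (by rw [f1]; omega) hex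
  exact ⟨g'' * (g' * g), St.mul_mem hg'' (St.mul_mem hg' hg), e''⟩

theorem r0_b2 (w : ↥leechLattice) (hw : sqNorm (w : GolayPt → ℤ) = 32)
    (h0 : (w : GolayPt → ℤ) p0 = 0) (h1 : (w : GolayPt → ℤ) p1 = 0)
    (o : Finset GolayPt) (ho : o.card = 8)
    (hp : ∀ j, |(w : GolayPt → ℤ) j| = if j ∈ o then 2 else 0) :
    ∃ g ∈ St, ((g w : ↥leechLattice) : GolayPt → ℤ) = Wc0 := by
  have hc : 1 < o.card := by omega
  obtain ⟨a, ha, b, hb, hab⟩ := Finset.one_lt_card.mp hc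
  have ha2 : |(w : GolayPt → ℤ) a| = 2 := by
    have := hp a
    rw [if_pos ha] at this
    exact this
  have hb2 : |(w : GolayPt → ℤ) b| = 2 := by
    have := hp b
    rw [if_pos hb] at this
    exact this
  have ha0 : a ≠ p0 := by intro h; rw [h, h0] at ha2; norm_num at ha2
  have ha1 : a ≠ p1 := by intro h; rw [h, h1] at ha2; norm_num at ha2
  have hb0 : b ≠ p0 := by intro h; rw [h, h0] at hb2; norm_num at hb2
  have hb1 : b ≠ p1 := by intro h; rw [h, h1] at hb2; norm_num at hb2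
  obtain ⟨g, hg, e0, e1, e2, e3⟩ := arr w a b ha0 ha1 hb0 hb1 hab false true
  rw [ha2] at e2
  rw [hb2] at e3
  simp only [Bool.false_eq_true, if_false] at e2
  simp only [if_true] at e3
  obtain ⟨g', hg', f0, f1, -, -⟩ := h_step (g w)
  rw [e0, e1, e2, e3, h0, h1] at f0 f1
  obtain ⟨g'', hg'', e''⟩ := r0_b1 (g' (g w))
    (by rw [norm_St hg', norm_St hg]; exact hw) (by right; rw [f0]; norm_num)
    (by rw [f0, f1]; norm_num)
  exact ⟨g'' * (g' * g), St.mul_mem hg'' (St.mul_mem hg' hg), e''⟩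

theorem r0_z (w : ↥leechLattice) (hw : sqNorm (w : GolayPt → ℤ) = 32)
    (h0 : (w : GolayPt → ℤ) p0 = 0) (h1 : (w : GolayPt → ℤ) p1 = 0) :
    ∃ g ∈ St, ((g w : ↥leechLattice) : GolayPt → ℤ) = Wc0 := by
  rcases profile w hw with ⟨i, hp⟩ | ⟨o, ho, hp⟩ | ⟨P, hP, hp⟩
  · exfalso
    have := hp p0
    rw [h0] at this
    split_ifs at this <;> norm_num at this
  · exact r0_b2 w hw h0 h1 o ho hp
  · obtain ⟨x, y, hxy, rfl⟩ := Finset.card_eq_two.mp hP
    refine r0_a3 w hw h0 h1 ⟨x, ?_⟩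
    have := hp x
    rw [if_pos (by simp)] at this
    exact this

theorem r0_c (w : ↥leechLattice) (hw : sqNorm (w : GolayPt → ℤ) = 32)
    (hd : (w : GolayPt → ℤ) p0 + (w : GolayPt → ℤ) p1 = 0)
    (i : GolayPt) (hp : ∀ j, |(w : GolayPt → ℤ) j| = if j = i then 3 else 1) :
    ∃ g ∈ St, ((g w : ↥leechLattice) : GolayPt → ℤ) = Wc0 := by
  obtain ⟨a, b, ha0, ha1, hb0, hb1, hab, hai, hbi⟩ := two_off i
  have a2 : |(w : GolayPt → ℤ) a| = 1 := by
    have := hp a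
    rw [if_neg hai] at this
    exact this
  have a3 : |(w : GolayPt → ℤ) b| = 1 := by
    have := hp b
    rw [if_neg hbi] at this
    exact this
  obtain ⟨g, hg, e0, e1, e2, e3⟩ := arr w a b ha0 ha1 hb0 hb1 hab false false
  rw [a2] at e2
  rw [a3] at e3
  simp only [Bool.false_eq_true, if_false] at e2 e3
  obtain ⟨g', hg', f0, f1, -, -⟩ := h_step (g w)
  rw [e0, e1, e2, e3] at f0 f1
  obtain ⟨g'', hg'', e''⟩ := r0_z (g' (g w))
    (by rw [norm_St hg', norm_St hg]; exact hw) (by rw [f0]; omega) (by rw [f1]; omega)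
  exact ⟨g'' * (g' * g), St.mul_mem hg'' (St.mul_mem hg' hg), e''⟩

theorem r0 (w : ↥leechLattice) (hw : sqNorm (w : GolayPt → ℤ) = 32)
    (hd : 4 * ((w : GolayPt → ℤ) p0 + (w : GolayPt → ℤ) p1) = 0) :
    ∃ g ∈ St, ((g w : ↥leechLattice) : GolayPt → ℤ) = Wc0 := by
  have hd' : (w : GolayPt → ℤ) p0 + (w : GolayPt → ℤ) p1 = 0 := by linarith
  rcases profile w hw with ⟨i, hp⟩ | ⟨o, ho, hp⟩ | ⟨P, hP, hp⟩
  · exact r0_c w hw hd' i hp
  · have a0 := hp p0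
    have a1 := hp p1
    have h0 : ((w : GolayPt → ℤ) p0 = 0 ∧ (w : GolayPt → ℤ) p1 = 0) ∨
        ((w : GolayPt → ℤ) p0 = 2 ∨ (w : GolayPt → ℤ) p0 = -2) := by
      split_ifs at a0 a1 <;> rcases abs_cases a0 with h | h <;>
        rcases abs_cases a1 with h' | h' <;> omega
    rcases h0 with ⟨h0, h1⟩ | h0
    · exact r0_b2 w hw h0 h1 o ho hp
    · exact r0_b1 w hw h0 hd'
  · have a0 := hp p0
    have a1 := hp p1
    have h0 : ((w : GolayPt → ℤ) p0 = 0 ∧ (w : GolayPt → ℤ) p1 = 0) ∨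
        ((w : GolayPt → ℤ) p0 = 4 ∧ (w : GolayPt → ℤ) p1 = -4) ∨
        ((w : GolayPt → ℤ) p0 = -4 ∧ (w : GolayPt → ℤ) p1 = 4) := by
      split_ifs at a0 a1 <;> rcases abs_cases a0 with h | h <;>
        rcases abs_cases a1 with h' | h' <;> omega
    rcases h0 with ⟨h0, h1⟩ | ⟨h0, h1⟩ | ⟨h0, h1⟩
    · exact r0_z w hw h0 h1
    · exact r0_a2 w hw h0 h1
    · exact r0_a1 w hw h0 h1

/-- **The stabiliser of a minimal vector is transitive on the minimal vectors orthogonal to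
it.** -/
theorem pair0 (v w w' : ↥leechLattice) (hv : sqNorm (v : GolayPt → ℤ) = 32)
    (hw : sqNorm (w : GolayPt → ℤ) = 32) (hw' : sqNorm (w' : GolayPt → ℤ) = 32)
    (hd : dotInt (v : GolayPt → ℤ) (w : GolayPt → ℤ) = 0)
    (hd' : dotInt (v : GolayPt → ℤ) (w' : GolayPt → ℤ) = 0) :
    ∃ g ∈ Co0, g v = v ∧ g w = w' :=
  pair_trans 0 Wc0 r0 v w w' hv hw hw' hd hd'

end Cfsg.Agent.Lib.Helper11.LeechSt
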