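import Mathlib
import Cfsg.Agent.Lib.Helper11.LeechSt0
import Cfsg.Agent.Lib.Helper11.LeechCross
import Cfsg.Agent.Lib.Helper11.Co0Cross
import Cfsg.Agent.S0396

set_option autoImplicit false

namespace Cfsg.Agent.Lib.Helper11.LeechSt

open Cfsg Cfsg.Agent.Lib.Helper3.Golay Cfsg.Agent.Lib.Helper3.Golay2
open Cfsg.Agent.Lib.Helper3.Leech Cfsg.Agent.Lib.Helper3.Leech2 Cfsg.Agent.Lib.Helper3.Leech4
open Cfsg.Agent.Lib.Helper3.GolayM24 Cfsg.Agent.Lib.Helper3.M24Trans
open Cfsg.Agent.Lib.Helper11.LeechGF Cfsg.Agent.Lib.Helper11.Co0Mono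
open Cfsg.Agent.Lib.Helper11.LeechIP Cfsg.Agent.Lib.Helper11.LeechXi
open Cfsg.Agent.Lib.Helper11.LeechCross

/-! ### Vectors of norm `64` are sums of two orthogonal minimal vectors -/

theorem sqNorm_two (x : GolayPt → ℤ) : sqNorm ((2 : ℕ) • x) = 4 * sqNorm x := by
  unfold sqNorm
  rw [Finset.mul_sum]
  refine Finset.sum_congr rfl fun i _ => ?_
  simp only [Pi.smul_apply, nsmul_eq_mul]
  push_cast
  ring

theorem dot_two (x y : GolayPt → ℤ) : dotInt x ((2 : ℕ) • y) = 2 * dotInt x y := by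
  unfold dotInt
  rw [Finset.mul_sum]
  refine Finset.sum_congr rfl fun i _ => ?_
  simp only [Pi.smul_apply, nsmul_eq_mul]
  push_cast
  ring

theorem decomp (z : ↥leechLattice) (hz : sqNorm (z : GolayPt → ℤ) = 64) :
    ∃ a b : ↥leechLattice, sqNorm (a : GolayPt → ℤ) = 32 ∧ sqNorm (b : GolayPt → ℤ) = 32 ∧
      dotInt (a : GolayPt → ℤ) (b : GolayPt → ℤ) = 0 ∧ a + b = z := by
  have hc := cross_card z z.2 hz
  obtain ⟨y, hy, hy1, hy2⟩ : ∃ y ∈ cross (z : GolayPt → ℤ), y ≠ (z : GolayPt → ℤ) ∧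
      y ≠ -(z : GolayPt → ℤ) := by
    by_contra hcon
    push Not at hcon
    have hsub : cross (z : GolayPt → ℤ) ⊆ {(z : GolayPt → ℤ), -(z : GolayPt → ℤ)} := by
      intro y hy
      by_cases h : y = (z : GolayPt → ℤ)
      · exact Or.inl h
      · exact Or.inr (hcon y hy h)
    have h1 := Set.ncard_le_ncard hsub (Set.toFinite _)
    have h2 : ({(z : GolayPt → ℤ), -(z : GolayPt → ℤ)} : Set (GolayPt → ℤ)).ncard ≤ 2 := by
      have := Set.ncard_insert_le (z : GolayPt → ℤ) {-(z : GolayPt → ℤ)}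
      rw [Set.ncard_singleton] at this
      exact this
    omega
  obtain ⟨hyL, hyn, t, ht, hzt⟩ := hy
  rw [hz] at hyn
  have hk := key z ⟨y, hyL⟩ (by rw [hz]) (by show sqNorm y ≤ 64; rw [hyn])
    ((cls_eq_iff z ⟨y, hyL⟩).mpr ⟨t, ht, hzt⟩)
    (fun h => hy1 (congrArg Subtype.val h))
    (fun h => hy2 (by rw [← AddSubgroup.coe_neg]; exact congrArg Subtype.val h))
  have hdot : dotInt (z : GolayPt → ℤ) y = 0 := hk.2.2
  have hT : sqNorm t = 32 := by
    have h1 := sqNorm_sub' (z : GolayPt → ℤ) y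
    rw [hzt, sqNorm_two, hz, hyn, hdot] at h1
    linarith
  have hZT : dotInt (z : GolayPt → ℤ) t = 32 := by
    have h1 := dot_sub_right (z : GolayPt → ℤ) (z : GolayPt → ℤ) y
    rw [hzt, dot_two, dot_self, hz, hdot] at h1
    linarith
  refine ⟨z - ⟨t, ht⟩, ⟨t, ht⟩, ?_, hT, ?_, by abel⟩
  · rw [AddSubgroup.coe_sub]
    show sqNorm ((z : GolayPt → ℤ) - t) = 32
    rw [sqNorm_sub', hz, hT, hZT]
    norm_num
  · rw [AddSubgroup.coe_sub]
    show dotInt ((z : GolayPt → ℤ) - t) t = 0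
    rw [dot_comm, dot_sub_right, dot_self, hT, dot_comm, hZT]
    norm_num

/-- **`Co0` is transitive on the vectors of norm `64`.** -/
theorem t8_trans (z1 z2 : ↥leechLattice) (h1 : sqNorm (z1 : GolayPt → ℤ) = 64)
    (h2 : sqNorm (z2 : GolayPt → ℤ) = 64) : ∃ g ∈ Co0, g z1 = z2 := by
  obtain ⟨a1, b1, ha1, hb1, hd1, rfl⟩ := decomp z1 h1
  obtain ⟨a2, b2, ha2, hb2, hd2, rfl⟩ := decomp z2 h2
  obtain ⟨g, hg, e⟩ := min_trans a1 a2 ha1 ha2
  have hd3 : dotInt (a2 : GolayPt → ℤ) ((g b1 : ↥leechLattice) : GolayPt → ℤ) = 0 := by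
    have := dot_co0 hg a1 b1
    rw [e] at this
    rw [this]
    exact hd1
  obtain ⟨h, hh, f1, f2⟩ := pair0 a2 (g b1) b2 ha2 (by rw [hg.2]; exact hb1) hb2 hd3 hd2
  refine ⟨h * g, Co0.mul_mem hh hg, ?_⟩
  rw [Equiv.Perm.mul_apply, hg.1, hh.1, e, f1, f2]


/-! ### The order of `Co0` -/

/-- The base vector `8 e_∞`. -/
abbrev Z0 : ↥leechLattice := E none

theorem orbit_Z0 : MulAction.orbit ↥Co0 Z0 =
    {z : ↥leechLattice | sqNorm (z : GolayPt → ℤ) = 64} := by
  ext z
  rw [MulAction.mem_orbit_iff]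
  constructor
  · rintro ⟨g, rfl⟩
    show sqNorm ((g.1 Z0 : ↥leechLattice) : GolayPt → ℤ) = 64
    rw [g.2.2, sqNorm_E]
  · intro hz
    obtain ⟨g, hg, e⟩ := t8_trans Z0 z (sqNorm_E none) hz
    exact ⟨⟨g, hg⟩, e⟩

theorem ncard_64 :
    {z : ↥leechLattice | sqNorm (z : GolayPt → ℤ) = 64}.ncard = 398034000 := by
  rw [← Cfsg.Agent.S0396.result]
  have himg : Subtype.val '' {z : ↥leechLattice | sqNorm (z : GolayPt → ℤ) = 64} =
      {x : GolayPt → ℤ | x ∈ leechLattice ∧ sqNorm x = 64} := by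
    ext w
    constructor
    · rintro ⟨v, hv, rfl⟩
      exact ⟨v.2, hv⟩
    · rintro ⟨hw, hw1⟩
      exact ⟨⟨w, hw⟩, hw1, rfl⟩
  rw [← himg, Set.ncard_image_of_injective _ Subtype.val_injective]

/-- Parametrisation of the standard cross. -/
def sc (p : GolayPt × Bool) : GolayPt → ℤ := Pi.single p.1 (if p.2 = true then 8 else -8)

theorem sc_inj : Function.Injective sc := by
  rintro ⟨i, b⟩ ⟨i', b'⟩ h
  have h1 := congrFun h i
  unfold sc at h1
  simp only [Pi.single_eq_same] at h1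
  rw [Pi.single_apply] at h1
  have hi : i = i' := by
    by_contra hne
    rw [if_neg hne] at h1
    cases b <;> simp at h1
  subst hi
  rw [if_pos rfl] at h1
  have hb : b = b' := by
    cases b <;> cases b' <;> simp at h1 ⊢
  rw [hb]

theorem std_eq_range : stdCross = Set.range sc := by
  ext y
  constructor
  · rintro ⟨i, s, hs, rfl⟩
    rcases hs with rfl | rfl
    · exact ⟨(i, true), by simp [sc]⟩
    · exact ⟨(i, false), by simp [sc]⟩
  · rintro ⟨⟨i, b⟩, rfl⟩
    cases b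
    · exact ⟨i, -8, Or.inr rfl, by simp [sc]⟩
    · exact ⟨i, 8, Or.inl rfl, by simp [sc]⟩

theorem std_ncard : stdCross.ncard = 48 := by
  rw [std_eq_range, ← Nat.card_coe_set_eq, Nat.card_range_of_injective sc_inj, Nat.card_prod,
    Nat.card_eq_fintype_card, card_golayPt]
  simp

theorem std_sub {y : GolayPt → ℤ} (hy : y ∈ stdCross) : y ∈ leechLattice := by
  obtain ⟨i, s, hs, rfl⟩ := hy
  rcases hs with rfl | rfl
  · exact single_mem i
  · have : (Pi.single i (-8) : GolayPt → ℤ) = -Pi.single i 8 := by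
      rw [← Pi.single_neg]
    rw [this]
    exact neg_mem (single_mem i)

theorem sqNorm_single (i : GolayPt) (s : ℤ) : sqNorm (Pi.single i s : GolayPt → ℤ) = s ^ 2 := by
  unfold sqNorm
  rw [Finset.sum_eq_single i]
  · rw [Pi.single_eq_same]
  · intro j _ hj
    rw [Pi.single_eq_of_ne hj]
    norm_num
  · intro h
    exact absurd (Finset.mem_univ i) h

theorem std_sub_cross : stdCross ⊆ cross (Z0 : GolayPt → ℤ) := by
  intro y hy
  refine ⟨std_sub hy, ?_, ?_⟩
  · obtain ⟨i, s, hs, rfl⟩ := hy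
    rw [sqNorm_E, sqNorm_single]
    rcases hs with rfl | rfl <;> norm_num
  · obtain ⟨i, s, hs, rfl⟩ := hy
    show ∃ z ∈ leechLattice, (Pi.single none 8 : GolayPt → ℤ) - Pi.single i s = 2 • z
    by_cases hi : i = none
    · subst hi
      rcases hs with rfl | rfl
      · exact ⟨0, zero_mem _, by simp⟩
      · refine ⟨Pi.single none 8, single_mem none, ?_⟩
        funext j
        simp only [Pi.sub_apply, Pi.smul_apply, Pi.single_apply]
        split_ifs <;> norm_num
    · rcases hs with rfl | rfl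
      · refine ⟨vec 4 {none, i} {i}, (mem_leechLattice_iff _).mpr
          (vec4_mem (Finset.card_pair (Ne.symm hi)) (by simp)), ?_⟩
        funext j
        simp only [Pi.sub_apply, Pi.smul_apply, Pi.single_apply]
        unfold vec
        by_cases hj : j = i
        · have hjn : j ≠ none := fun h => hi (hj ▸ h)
          simp [hj, hi]
        · by_cases hj' : j = none
          · have hni : ¬ (none = i) := fun h => hi h.symm
            simp [hj', hni]
          · simp [hj, hj']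
      · refine ⟨vec 4 {none, i} ∅, (mem_leechLattice_iff _).mpr
          (vec4_mem (Finset.card_pair (Ne.symm hi)) (by simp)), ?_⟩
        funext j
        simp only [Pi.sub_apply, Pi.smul_apply, Pi.single_apply]
        unfold vec
        by_cases hj : j = i
        · simp [hj, hi]
        · by_cases hj' : j = none
          · have hni : ¬ (none = i) := fun h => hi h.symm
            simp [hj', hni]
          · simp [hj, hj']

theorem cross_Z0 : cross (Z0 : GolayPt → ℤ) = stdCross := by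
  have hc := cross_card (Z0 : GolayPt → ℤ) Z0.2 (sqNorm_E none)
  have hfin : (cross (Z0 : GolayPt → ℤ)).Finite :=
    Set.finite_of_ncard_ne_zero (by rw [hc]; norm_num)
  exact (Set.eq_of_subset_of_ncard_le std_sub_cross (by rw [hc, std_ncard]) hfin).symm

/-- Preservation of the standard cross. -/
def PN (g : ↥Co0) : Prop := ∀ v : ↥leechLattice, (v : GolayPt → ℤ) ∈ stdCross →
  ((g • v : ↥leechLattice) : GolayPt → ℤ) ∈ stdCross

theorem PN_mul {g h : ↥Co0} (hg : PN g) (hh : PN h) : PN (g * h) := by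
  intro v hv
  rw [mul_smul]
  exact hg _ (hh v hv)

theorem PN_fix (g : ↥Co0) (hg : g • Z0 = Z0) : PN g := by
  intro v hv
  obtain ⟨-, hvn, t, ht, hvt⟩ := std_sub_cross hv
  rw [← cross_Z0]
  refine ⟨(g • v).2, ?_, ?_⟩
  · show sqNorm ((g.1 v : ↥leechLattice) : GolayPt → ℤ) = _
    rw [g.2.2]
    exact hvn
  · have e : Z0 = v + ((⟨t, ht⟩ : ↥leechLattice) + ⟨t, ht⟩) := by
      apply Subtype.ext
      rw [AddSubgroup.coe_add, AddSubgroup.coe_add]
      show (Z0 : GolayPt → ℤ) = (v : GolayPt → ℤ) + (t + t)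
      rw [two_nsmul] at hvt
      rw [← hvt]
      abel
    have e2 : g.1 Z0 = g.1 v + (g.1 ⟨t, ht⟩ + g.1 ⟨t, ht⟩) := by
      conv_lhs => rw [e]
      rw [g.2.1, g.2.1]
    have e3 : g.1 Z0 = Z0 := hg
    refine ⟨((g.1 ⟨t, ht⟩ : ↥leechLattice) : GolayPt → ℤ), (g.1 ⟨t, ht⟩).2, ?_⟩
    show (Z0 : GolayPt → ℤ) - ((g.1 v : ↥leechLattice) : GolayPt → ℤ) = _
    have e4 := congrArg Subtype.val (e3.symm.trans e2)
    rw [AddSubgroup.coe_add, AddSubgroup.coe_add] at e4
    rw [e4, two_nsmul]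
    abel

theorem Z0_std : (Z0 : GolayPt → ℤ) ∈ stdCross := ⟨none, 8, Or.inl rfl, rfl⟩

theorem exists_m (y : ↥leechLattice) (hy : (y : GolayPt → ℤ) ∈ stdCross) :
    ∃ g : ↥Co0, PN g ∧ g • Z0 = y := by
  obtain ⟨i, s, hs, hys⟩ := hy
  obtain ⟨σ, hσ, hσi⟩ := trans1 none i
  rcases hs with rfl | rfl
  · refine ⟨⟨monoP σ hσ ∅ empty_mem_supports, monoP_mem _ _ _ _⟩,
      fun v hv => monoP_std _ _ _ _ v hv, ?_⟩
    apply Subtype.ext
    show ((monoP σ hσ ∅ empty_mem_supports Z0 : ↥leechLattice) : GolayPt → ℤ) = y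
    rw [monoP_apply, hys]
    show signedPerm σ ∅ (Pi.single none 8) = _
    rw [signedPerm_single, hσi]
    simp
  · refine ⟨⟨monoP σ hσ Finset.univ univ_mem_supports, monoP_mem _ _ _ _⟩,
      fun v hv => monoP_std _ _ _ _ v hv, ?_⟩
    apply Subtype.ext
    show ((monoP σ hσ Finset.univ univ_mem_supports Z0 : ↥leechLattice) : GolayPt → ℤ) = y
    rw [monoP_apply, hys]
    show signedPerm σ Finset.univ (Pi.single none 8) = _
    rw [signedPerm_single, hσi]
    simp

/-- A section of the action of the cross stabiliser on the standard cross. -/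
noncomputable def msec (y : {v : ↥leechLattice // (v : GolayPt → ℤ) ∈ stdCross}) : ↥Co0 :=
  Classical.choose (exists_m y.1 y.2)

theorem msec_PN (y : {v : ↥leechLattice // (v : GolayPt → ℤ) ∈ stdCross}) : PN (msec y) :=
  (Classical.choose_spec (exists_m y.1 y.2)).1

theorem msec_smul (y : {v : ↥leechLattice // (v : GolayPt → ℤ) ∈ stdCross}) :
    msec y • Z0 = y.1 :=
  (Classical.choose_spec (exists_m y.1 y.2)).2

/-- The cross stabiliser as a product of the cross and the stabiliser of a vector. -/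
noncomputable def eqvN : {g : ↥Co0 // PN g} ≃
    {v : ↥leechLattice // (v : GolayPt → ℤ) ∈ stdCross} × {g : ↥Co0 // g • Z0 = Z0} where
  toFun g := (⟨g.1 • Z0, g.2 Z0 Z0_std⟩,
    ⟨(msec ⟨g.1 • Z0, g.2 Z0 Z0_std⟩)⁻¹ * g.1, by
      rw [mul_smul, inv_smul_eq_iff, msec_smul]⟩)
  invFun p := ⟨msec p.1 * p.2.1, PN_mul (msec_PN p.1) (PN_fix p.2.1 p.2.2)⟩
  left_inv g := by
    apply Subtype.ext
    simp
  right_inv p := by
    obtain ⟨y, s, hs⟩ := p
    have hy : (⟨(msec y * s) • Z0, PN_mul (msec_PN y) (PN_fix s hs) Z0 Z0_std⟩ :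
        {v : ↥leechLattice // (v : GolayPt → ℤ) ∈ stdCross}) = y :=
      Subtype.ext (show (msec y * s) • Z0 = y.1 by rw [mul_smul, hs, msec_smul])
    apply Prod.ext
    · exact hy
    · apply Subtype.ext
      show (msec ⟨(msec y * s) • Z0, _⟩)⁻¹ * (msec y * s) = s
      have hm : msec ⟨(msec y * s) • Z0, PN_mul (msec_PN y) (PN_fix s hs) Z0 Z0_std⟩ = msec y :=
        congrArg msec hy
      rw [hm]
      simp

/-- The standard cross as a subtype of the lattice. -/
def scEquiv : {v : ↥leechLattice // (v : GolayPt → ℤ) ∈ stdCross} ≃ ↥stdCross where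
  toFun v := ⟨v.1.1, v.2⟩
  invFun x := ⟨⟨x.1, std_sub x.2⟩, x.2⟩
  left_inv := fun _ => rfl
  right_inv := fun _ => rfl

theorem SC_card : Nat.card {v : ↥leechLattice // (v : GolayPt → ℤ) ∈ stdCross} = 48 := by
  rw [Nat.card_congr scEquiv, Nat.card_coe_set_eq, std_ncard]

theorem card_stab : Nat.card {g : ↥Co0 // g • Z0 = Z0} = 20891566080 := by
  have h0 : Nat.card {g : ↥Co0 // PN g} = 4096 * 244823040 := stab_card
  have h1 := Nat.card_congr eqvN
  rw [Nat.card_prod, h0, SC_card] at h1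
  omega

/-- **The order of `Co0`.** -/
theorem card_Co0 : Nat.card ↥Co0 = 8315553613086720000 := by
  have h1 := Subgroup.card_mul_index (MulAction.stabilizer ↥Co0 Z0)
  rw [MulAction.index_stabilizer, orbit_Z0, ncard_64] at h1
  have h2 : Nat.card ↥(MulAction.stabilizer ↥Co0 Z0) = 20891566080 := card_stab
  rw [h2] at h1
  rw [← h1]

end Cfsg.Agent.Lib.Helper11.LeechSt
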