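import Mathlib
import Cfsg.Agent.Lib.Helper11.LeechT6

set_option autoImplicit false

namespace Cfsg.Agent.Lib.Helper11.LeechXi

open Cfsg Cfsg.Agent.Lib.Helper3.Golay Cfsg.Agent.Lib.Helper3.Golay2
open Cfsg.Agent.Lib.Helper3.Leech Cfsg.Agent.Lib.Helper3.Leech2
open Cfsg.Agent.Lib.Helper3.M24Perm
open Cfsg.Agent.Lib.Helper11.LeechGF Cfsg.Agent.Lib.Helper11.Co0Mono
open Cfsg.Agent.Lib.Helper11.LeechIP

/-! ### A standard vector of norm `48` and its inner products with minimal vectors -/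

/-- `2` on the standard dodecad. -/
def VD : GolayPt → ℤ := (2 : ℤ) • cv (ms 340831) 1 0

theorem D0_mem : ms 340831 ∈ Cset := by
  have h : ms 340831 = supp 1 := ms_cw 1
  rw [h]
  exact (mem_supports_iff _).mpr ⟨1, by norm_num, rfl⟩

theorem VD_mem : VD ∈ leechLattice := by
  have h := two_mem D0_mem
  have e : VD = fun i => if i ∈ ms 340831 then (2 : ℤ) else 0 := by
    funext i
    unfold VD cv
    simp only [Pi.smul_apply, smul_eq_mul]
    split_ifs <;> norm_num
  rw [e]
  exact h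

theorem sqNorm_VD : sqNorm VD = 48 := by decide +kernel

/-- The classes of codewords with respect to the standard dodecad. -/
def YD : Finset (ℕ × ℕ) :=
  {(0, 0), (12, 0), (6, 6), (8, 4), (4, 4), (4, 8), (8, 8), (2, 6), (10, 6), (6, 10), (6, 2),
    (12, 12), (0, 12)}

theorem hYD : (List.range 4096).all (fun k => decide (clsS 340831 k ∈ YD)) = true := by
  decide +kernel

set_option maxRecDepth 100000 in
theorem numD : ∑ y ∈ YD, (if cntS 340831 y = 0 then 0 else
    cntS 340831 y * gS (pc 340831) (mkr 1 8) (mkr 0 0) 193 32 {108} y.1 y.2) = 552 := by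
  decide +kernel

theorem pcD : pc 340831 = 12 := by decide

theorem cntD : (ipSet VD 24).ncard = 552 := by
  unfold VD
  rw [ip_count 340831 12 pcD 1 1 8 0 0 0 (by norm_num) (by norm_num) (by norm_num) (by norm_num)
    2 (by norm_num) 193 (by norm_num) 24 108 (by norm_num) (by norm_num) YD
    (hY_of_all _ _ hYD)]
  exact numD

theorem sqNorm_sub (x y : GolayPt → ℤ) :
    sqNorm (x - y) = sqNorm x + sqNorm y - 2 * dotInt x y := by
  unfold sqNorm dotInt
  rw [Finset.mul_sum, ← Finset.sum_add_distrib, ← Finset.sum_sub_distrib]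
  refine Finset.sum_congr rfl fun i _ => ?_
  simp only [Pi.sub_apply]
  ring

/-- A vector of norm `48` has inner product `24` with exactly `552` minimal vectors. -/
theorem ip24_count (u : ↥leechLattice) (hu : sqNorm (u : GolayPt → ℤ) = 48) :
    (ipSet (u : GolayPt → ℤ) 24).ncard = 552 := by
  obtain ⟨g, hg, hgu⟩ := t6_trans u ⟨VD, VD_mem⟩ hu sqNorm_VD
  have h1 := ipSet_co0 hg u 24
  rw [hgu] at h1
  rw [← h1]
  exact cntD

/-- A vector of norm `48` is a sum of two minimal vectors in `552` ordered ways. -/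
theorem pairs_count (u : ↥leechLattice) (hu : sqNorm (u : GolayPt → ℤ) = 48) :
    {v : ↥leechLattice | sqNorm (v : GolayPt → ℤ) = 32 ∧
      sqNorm ((u : GolayPt → ℤ) - (v : GolayPt → ℤ)) = 32}.ncard = 552 := by
  rw [← ip24_count u hu]
  have himg : Subtype.val '' {v : ↥leechLattice | sqNorm (v : GolayPt → ℤ) = 32 ∧
      sqNorm ((u : GolayPt → ℤ) - (v : GolayPt → ℤ)) = 32} = ipSet (u : GolayPt → ℤ) 24 := by
    ext w
    constructor
    · rintro ⟨v, ⟨hv1, hv2⟩, rfl⟩
      refine ⟨v.2, hv1, ?_⟩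
      rw [sqNorm_sub, hu, hv1] at hv2
      linarith
    · rintro ⟨hw, hw1, hw2⟩
      refine ⟨⟨w, hw⟩, ⟨hw1, ?_⟩, rfl⟩
      show sqNorm ((u : GolayPt → ℤ) - w) = 32
      rw [sqNorm_sub, hu, hw1, hw2]
      norm_num
  rw [← himg, Set.ncard_image_of_injective _ Subtype.val_injective]

end Cfsg.Agent.Lib.Helper11.LeechXi
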