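import Mathlib
import Cfsg.Agent.Lib.Helper11.LeechSt8

set_option autoImplicit false

namespace Cfsg.Agent.Lib.Helper11.LeechSt

open Cfsg Cfsg.Agent.Lib.Helper3.Golay Cfsg.Agent.Lib.Helper3.Golay2
open Cfsg.Agent.Lib.Helper3.Leech Cfsg.Agent.Lib.Helper3.Leech2 Cfsg.Agent.Lib.Helper3.Leech4
open Cfsg.Agent.Lib.Helper11.LeechGF Cfsg.Agent.Lib.Helper11.Co0Mono
open Cfsg.Agent.Lib.Helper11.LeechIP Cfsg.Agent.Lib.Helper11.LeechXi

/-! ### Vectors of norm `48` under the stabiliser of the base vector -/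

theorem split2 (f : GolayPt → ℤ) :
    ∑ i, f i = f p0 + f p1 + ∑ i ∈ (Finset.univ.erase p0).erase p1, f i := by
  have h1 := Finset.add_sum_erase Finset.univ f (Finset.mem_univ p0)
  have h2 := Finset.add_sum_erase (Finset.univ.erase p0) f
    (Finset.mem_erase.mpr ⟨by decide, Finset.mem_univ p1⟩)
  linarith

theorem sum_sq_sub (x : GolayPt → ℤ) : ∑ i, (x i ^ 2 - 1) = sqNorm x - 24 := by
  unfold sqNorm
  rw [Finset.sum_sub_distrib, Finset.sum_const, Finset.card_univ, card_golayPt]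
  simp

theorem odd_term_nonneg (z : ℤ) (hz : z % 2 = 1) : 0 ≤ z ^ 2 - 1 := by
  have h : z ≤ -1 ∨ 1 ≤ z := by omega
  rcases h with h | h <;> nlinarith

theorem odd_term_ge (z : ℤ) (hz : z % 2 = 1) (h : z ^ 2 - 1 ≠ 0) : 8 ≤ z ^ 2 - 1 := by
  have h' : z ≤ -3 ∨ 3 ≤ z ∨ z = 1 ∨ z = -1 := by omega
  rcases h' with h' | h' | h' | h'
  · nlinarith
  · nlinarith
  · rw [h'] at h; norm_num at h
  · rw [h'] at h; norm_num at h

theorem odd_three (z : ℤ) (hz : z % 2 = 1) (h1 : 8 ≤ z ^ 2 - 1) (h2 : z ^ 2 - 1 ≤ 16) :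
    |z| = 3 := by
  have hb : -4 ≤ z ∧ z ≤ 4 := by constructor <;> nlinarith
  have h : z = 3 ∨ z = -3 ∨ z = 1 ∨ z = -1 := by omega
  rcases h with h | h | h | h
  · rw [h]; norm_num
  · rw [h]; norm_num
  · rw [h] at h1; norm_num at h1
  · rw [h] at h1; norm_num at h1

theorem all_odd (w : ↥leechLattice) (i : GolayPt) (h : (w : GolayPt → ℤ) i % 2 = 1) :
    ∀ j, (w : GolayPt → ℤ) j % 2 = 1 := by
  have hx := (mem_leechLattice_iff _).mp w.2
  rw [leechSet_iff] at hx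
  rcases hx with ⟨c, hc, hpat, hs8⟩ | ⟨c, hc, hpat, hs8⟩
  · exfalso
    have := hpat i
    split_ifs at this <;> omega
  · intro j
    have := hpat j
    split_ifs at this <;> omega

/-- Structure of an even vector of norm `48`. -/
theorem even48 (u : ↥leechLattice) (hn : sqNorm (u : GolayPt → ℤ) = 48) (c : Finset GolayPt)
    (hc : c ∈ Cset) (hpat : ∀ i, (u : GolayPt → ℤ) i % 4 = if i ∈ c then 2 else 0)
    (hs8 : (∑ i, (u : GolayPt → ℤ) i) % 8 = 0) :
    8 ≤ c.card ∧ c.card ≤ 12 ∧ (∀ a ∈ c, |(u : GolayPt → ℤ) a| = 2) ∧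
    (∀ b b', b ∉ c → b' ∉ c → b ≠ b' →
      (u : GolayPt → ℤ) b ^ 2 + (u : GolayPt → ℤ) b' ^ 2 + 4 * (c.card : ℤ) ≤ 48) := by
  have hge4 : ∀ i ∈ c, (4 : ℤ) ≤ (u : GolayPt → ℤ) i ^ 2 := by
    intro i hi
    have := hpat i
    rw [if_pos hi] at this
    have h2 : (u : GolayPt → ℤ) i ≤ -2 ∨ 2 ≤ (u : GolayPt → ℤ) i := by omega
    rcases h2 with h2 | h2 <;> nlinarith
  have hsumc : ∀ T : Finset GolayPt, T ⊆ c →
      (4 : ℤ) * T.card ≤ ∑ i ∈ T, (u : GolayPt → ℤ) i ^ 2 := by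
    intro T hT
    calc (4 : ℤ) * T.card = ∑ i ∈ T, (4 : ℤ) := by
          rw [Finset.sum_const, nsmul_eq_mul]; ring
      _ ≤ _ := Finset.sum_le_sum fun i hi => hge4 i (hT hi)
  have hle : ∀ T : Finset GolayPt, ∑ i ∈ T, (u : GolayPt → ℤ) i ^ 2 ≤ 48 := by
    intro T
    rw [← hn]
    unfold sqNorm
    exact Finset.sum_le_sum_of_subset_of_nonneg (Finset.subset_univ _)
      (fun i _ _ => sq_nonneg _)
  have h12 : c.card ≤ 12 := by
    have h := (hsumc c subset_rfl).trans (hle c)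
    have h' : (c.card : ℤ) ≤ 12 := by linarith
    exact_mod_cast h'
  have hc_ne : c ≠ ∅ := by
    intro hne
    have h4 : ∀ i, (u : GolayPt → ℤ) i % 4 = 0 := by
      intro i
      have := hpat i
      rw [hne] at this
      simpa using this
    have h5 : sqNorm (u : GolayPt → ℤ) ≡ 4 * ∑ i, (u : GolayPt → ℤ) i [ZMOD 32] := by
      unfold sqNorm
      rw [Finset.mul_sum]
      exact Int.ModEq.sum fun i _ => sq_mod32 _ (h4 i)
    rw [hn] at h5
    unfold Int.ModEq at h5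
    omega
  have h8 : 8 ≤ c.card := by
    have hcc := card_cases hc
    have h0 : c.card ≠ 0 := fun h => hc_ne (Finset.card_eq_zero.mp h)
    omega
  refine ⟨h8, h12, ?_, ?_⟩
  · intro a ha
    have e := Finset.add_sum_erase c (fun i => (u : GolayPt → ℤ) i ^ 2) ha
    have h1 := hsumc (c.erase a) (Finset.erase_subset _ _)
    rw [Finset.card_erase_of_mem ha] at h1
    have h2 := hle c
    have hcz : ((c.card - 1 : ℕ) : ℤ) = (c.card : ℤ) - 1 := by
      rw [Nat.cast_sub (by omega)]; simp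
    rw [hcz] at h1
    have h8z : (8 : ℤ) ≤ c.card := by exact_mod_cast h8
    have hsq : (u : GolayPt → ℤ) a ^ 2 ≤ 20 := by
      beta_reduce at e
      linarith
    have hb : -4 ≤ (u : GolayPt → ℤ) a ∧ (u : GolayPt → ℤ) a ≤ 4 := by
      constructor <;> nlinarith
    have hm := hpat a
    rw [if_pos ha] at hm
    have h : (u : GolayPt → ℤ) a = 2 ∨ (u : GolayPt → ℤ) a = -2 := by omega
    rcases h with h | h <;> rw [h] <;> norm_num
  · intro b b' hb hb' hbb'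
    have h1 := hsumc c subset_rfl
    have h2 := hle (insert b (insert b' c))
    rw [Finset.sum_insert (by simp [hbb', hb]), Finset.sum_insert hb'] at h2
    linarith

/-- From `(-3, -1)` to `(-5, 1)`. -/
theorem r48_31 (u : ↥leechLattice) (hn : sqNorm (u : GolayPt → ℤ) = 48)
    (h0 : (u : GolayPt → ℤ) p0 = -3) (h1 : (u : GolayPt → ℤ) p1 = -1) :
    ∃ g ∈ St, ((g u : ↥leechLattice) : GolayPt → ℤ) p0 = -5 ∧
      ((g u : ↥leechLattice) : GolayPt → ℤ) p1 = 1 := by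
  have hodd := all_odd u p0 (by rw [h0]; norm_num)
  have hnn : ∀ i, 0 ≤ (u : GolayPt → ℤ) i ^ 2 - 1 := fun i => odd_term_nonneg _ (hodd i)
  have hsum := split2 (fun i => (u : GolayPt → ℤ) i ^ 2 - 1)
  rw [sum_sq_sub, hn] at hsum
  simp only [h0, h1] at hsum
  have hT : ∑ i ∈ (Finset.univ.erase p0).erase p1, ((u : GolayPt → ℤ) i ^ 2 - 1) = 16 := by
    linarith
  obtain ⟨a, haT, ha⟩ := Finset.exists_ne_zero_of_sum_ne_zero (by rw [hT]; norm_num)
  have hT2 := Finset.add_sum_erase _ (fun i => (u : GolayPt → ℤ) i ^ 2 - 1) haT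
  beta_reduce at hT2
  have ha8 : 8 ≤ (u : GolayPt → ℤ) a ^ 2 - 1 := odd_term_ge _ (hodd a) ha
  have hrest_nn : 0 ≤ ∑ i ∈ ((Finset.univ.erase p0).erase p1).erase a,
      ((u : GolayPt → ℤ) i ^ 2 - 1) := Finset.sum_nonneg fun i _ => hnn i
  have ha16 : (u : GolayPt → ℤ) a ^ 2 - 1 ≤ 16 := by linarith
  have ha3 : |(u : GolayPt → ℤ) a| = 3 := odd_three _ (hodd a) ha8 ha16
  have hfa : (u : GolayPt → ℤ) a ^ 2 - 1 = 8 := by
    rcases abs_cases ha3 with h | h <;> rw [h] <;> norm_num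
  have hT3 : ∑ i ∈ ((Finset.univ.erase p0).erase p1).erase a,
      ((u : GolayPt → ℤ) i ^ 2 - 1) = 8 := by linarith
  obtain ⟨b, hbT, hb⟩ := Finset.exists_ne_zero_of_sum_ne_zero (by rw [hT3]; norm_num)
  have hb8 : 8 ≤ (u : GolayPt → ℤ) b ^ 2 - 1 := odd_term_ge _ (hodd b) hb
  have hb16 : (u : GolayPt → ℤ) b ^ 2 - 1 ≤ 16 := by
    have := Finset.single_le_sum (f := fun i => (u : GolayPt → ℤ) i ^ 2 - 1)
      (fun i _ => hnn i) hbT
    beta_reduce at this
    linarith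
  have hb3 : |(u : GolayPt → ℤ) b| = 3 := odd_three _ (hodd b) hb8 hb16
  rw [Finset.mem_erase, Finset.mem_erase] at haT
  rw [Finset.mem_erase, Finset.mem_erase, Finset.mem_erase] at hbT
  obtain ⟨g, hg, e0, e1, e2, e3⟩ := arr u a b haT.2.1 haT.1 hbT.2.2.1 hbT.2.1 (Ne.symm hbT.1)
    false true
  rw [ha3] at e2
  rw [hb3] at e3
  simp only [Bool.false_eq_true, if_false] at e2
  simp only [if_true] at e3
  obtain ⟨g', hg', f0, f1, -, -⟩ := h_step (g u)
  rw [e0, e1, e2, e3, h0, h1] at f0 f1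
  refine ⟨g' * g, St.mul_mem hg' hg, ?_, ?_⟩
  · rw [Equiv.Perm.mul_apply, f0]; norm_num
  · rw [Equiv.Perm.mul_apply, f1]; norm_num

/-- From `(-4, 0)` to `(-3, -1)`. -/
theorem r48_40 (u : ↥leechLattice) (hn : sqNorm (u : GolayPt → ℤ) = 48)
    (h0 : (u : GolayPt → ℤ) p0 = -4) (h1 : (u : GolayPt → ℤ) p1 = 0) :
    ∃ g ∈ St, ((g u : ↥leechLattice) : GolayPt → ℤ) p0 = -3 ∧
      ((g u : ↥leechLattice) : GolayPt → ℤ) p1 = -1 := by
  have hx := (mem_leechLattice_iff _).mp u.2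
  rw [leechSet_iff] at hx
  rcases hx with ⟨c, hc, hpat, hs8⟩ | ⟨c, hc, hpat, hs8⟩
  swap
  · exfalso
    have := hpat p0
    rw [h0] at this
    split_ifs at this <;> omega
  obtain ⟨h8, h12, htwo, hoff⟩ := even48 u hn c hc hpat hs8
  have hp0 : p0 ∉ c := by
    intro hcon
    have := hpat p0
    rw [h0, if_pos hcon] at this
    omega
  have hp1 : p1 ∉ c := by
    intro hcon
    have := hpat p1
    rw [h1, if_pos hcon] at this
    omega
  have hne : c.Nonempty := Finset.card_pos.mp (by omega)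
  obtain ⟨a, ha⟩ := hne
  have hS : ((insert p0 (insert p1 c))ᶜ).Nonempty := by
    apply Finset.card_pos.mp
    rw [Finset.card_compl, card_golayPt]
    have := Finset.card_insert_le p0 (insert p1 c)
    have := Finset.card_insert_le p1 c
    omega
  obtain ⟨b, hb⟩ := hS
  rw [Finset.mem_compl, Finset.mem_insert, Finset.mem_insert] at hb
  push Not at hb
  have hb0 : (u : GolayPt → ℤ) b = 0 := by
    have := hoff b p0 hb.2.2 hp0 hb.1
    rw [h0] at this
    have h8z : (8 : ℤ) ≤ c.card := by exact_mod_cast h8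
    nlinarith
  have ha0 : a ≠ p0 := fun e => hp0 (e ▸ ha)
  have ha1 : a ≠ p1 := fun e => hp1 (e ▸ ha)
  have hab : a ≠ b := fun e => hb.2.2 (e ▸ ha)
  obtain ⟨g, hg, e0, e1, e2, e3⟩ := arr u a b ha0 ha1 hb.1 hb.2.1 hab false false
  rw [htwo a ha] at e2
  rw [hb0] at e3
  simp only [Bool.false_eq_true, if_false] at e2 e3
  obtain ⟨g', hg', f0, f1, -, -⟩ := h_step (g u)
  rw [e0, e1, e2, e3, h0, h1] at f0 f1
  refine ⟨g' * g, St.mul_mem hg' hg, ?_, ?_⟩
  · rw [Equiv.Perm.mul_apply, f0]; norm_num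
  · rw [Equiv.Perm.mul_apply, f1]; norm_num

/-- From `(-2, -2)` to `(-4, 0)`. -/
theorem r48_22 (u : ↥leechLattice) (hn : sqNorm (u : GolayPt → ℤ) = 48)
    (h0 : (u : GolayPt → ℤ) p0 = -2) (h1 : (u : GolayPt → ℤ) p1 = -2) :
    ∃ g ∈ St, ((g u : ↥leechLattice) : GolayPt → ℤ) p0 = -4 ∧
      ((g u : ↥leechLattice) : GolayPt → ℤ) p1 = 0 := by
  have hx := (mem_leechLattice_iff _).mp u.2
  rw [leechSet_iff] at hx
  rcases hx with ⟨c, hc, hpat, hs8⟩ | ⟨c, hc, hpat, hs8⟩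
  swap
  · exfalso
    have := hpat p0
    rw [h0] at this
    split_ifs at this <;> omega
  obtain ⟨h8, h12, htwo, hoff⟩ := even48 u hn c hc hpat hs8
  have hcard : 1 < ((c.erase p0).erase p1).card := by
    have c1 : c.card - 1 ≤ (c.erase p0).card := Finset.pred_card_le_card_erase
    have c2 : (c.erase p0).card - 1 ≤ ((c.erase p0).erase p1).card :=
      Finset.pred_card_le_card_erase
    omega
  obtain ⟨a, ha, b, hb, hab⟩ := Finset.one_lt_card.mp hcard
  rw [Finset.mem_erase, Finset.mem_erase] at ha hb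
  obtain ⟨g, hg, e0, e1, e2, e3⟩ := arr u a b ha.2.1 ha.1 hb.2.1 hb.1 hab false true
  rw [htwo a ha.2.2] at e2
  rw [htwo b hb.2.2] at e3
  simp only [Bool.false_eq_true, if_false] at e2
  simp only [if_true] at e3
  obtain ⟨g', hg', f0, f1, -, -⟩ := h_step (g u)
  rw [e0, e1, e2, e3, h0, h1] at f0 f1
  refine ⟨g' * g, St.mul_mem hg' hg, ?_, ?_⟩
  · rw [Equiv.Perm.mul_apply, f0]; norm_num
  · rw [Equiv.Perm.mul_apply, f1]; norm_num

theorem r48_40' (u : ↥leechLattice) (hn : sqNorm (u : GolayPt → ℤ) = 48)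
    (h0 : (u : GolayPt → ℤ) p0 = -4) (h1 : (u : GolayPt → ℤ) p1 = 0) :
    ∃ g ∈ St, ((g u : ↥leechLattice) : GolayPt → ℤ) p0 = -5 ∧
      ((g u : ↥leechLattice) : GolayPt → ℤ) p1 = 1 := by
  obtain ⟨g, hg, a0, a1⟩ := r48_40 u hn h0 h1
  obtain ⟨g', hg', b0, b1⟩ := r48_31 (g u) (by rw [norm_St hg]; exact hn) a0 a1
  exact ⟨g' * g, St.mul_mem hg' hg, b0, b1⟩

/-- **Reduction of a vector of norm `48` with inner product `-16` with the base vector.** -/
theorem r48 (u : ↥leechLattice) (hn : sqNorm (u : GolayPt → ℤ) = 48)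
    (hd : (u : GolayPt → ℤ) p0 + (u : GolayPt → ℤ) p1 = -4) :
    ∃ g ∈ St, ((g u : ↥leechLattice) : GolayPt → ℤ) p0 = -5 ∧
      ((g u : ↥leechLattice) : GolayPt → ℤ) p1 = 1 := by
  have hx := (mem_leechLattice_iff _).mp u.2
  rw [leechSet_iff] at hx
  rcases hx with ⟨c, hc, hpat, hs8⟩ | ⟨c, hc, hpat, hs8⟩
  · -- even
    obtain ⟨h8, h12, htwo, hoff⟩ := even48 u hn c hc hpat hs8
    have hval : ∀ i, (u : GolayPt → ℤ) i = 2 ∨ (u : GolayPt → ℤ) i = -2 ∨
        (u : GolayPt → ℤ) i = 0 ∨ (u : GolayPt → ℤ) i = 4 ∨ (u : GolayPt → ℤ) i = -4 := by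
      intro i
      by_cases hi : i ∈ c
      · rcases abs_cases (htwo i hi) with h | h
        · exact Or.inl h
        · exact Or.inr (Or.inl h)
      · have hm := hpat i
        rw [if_neg hi] at hm
        have hsq : (u : GolayPt → ℤ) i ^ 2 ≤ 48 := by
          rw [← hn]
          unfold sqNorm
          exact Finset.single_le_sum (f := fun j => (u : GolayPt → ℤ) j ^ 2)
            (fun j _ => sq_nonneg _) (Finset.mem_univ i)
        have hb : -7 ≤ (u : GolayPt → ℤ) i ∧ (u : GolayPt → ℤ) i ≤ 7 := by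
          constructor <;> nlinarith
        omega
    have v0 := hval p0
    have v1 := hval p1
    have hcase : ((u : GolayPt → ℤ) p0 = -2 ∧ (u : GolayPt → ℤ) p1 = -2) ∨
        ((u : GolayPt → ℤ) p0 = -4 ∧ (u : GolayPt → ℤ) p1 = 0) ∨
        ((u : GolayPt → ℤ) p0 = 0 ∧ (u : GolayPt → ℤ) p1 = -4) := by omega
    rcases hcase with ⟨h0, h1⟩ | ⟨h0, h1⟩ | ⟨h0, h1⟩
    · obtain ⟨g, hg, a0, a1⟩ := r48_22 u hn h0 h1
      obtain ⟨g', hg', b0, b1⟩ := r48_40' (g u) (by rw [norm_St hg]; exact hn) a0 a1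
      exact ⟨g' * g, St.mul_mem hg' hg, b0, b1⟩
    · exact r48_40' u hn h0 h1
    · obtain ⟨g, hg, a0, a1⟩ := swap_fix u
      obtain ⟨g', hg', b0, b1⟩ := r48_40' (g u) (by rw [norm_St hg]; exact hn)
        (by rw [a0, h1]) (by rw [a1, h0])
      exact ⟨g' * g, St.mul_mem hg' hg, b0, b1⟩
  · -- odd
    have hodd : ∀ i, (u : GolayPt → ℤ) i % 2 = 1 := by
      intro i
      have := hpat i
      split_ifs at this <;> omega
    have hnn : ∀ i, 0 ≤ (u : GolayPt → ℤ) i ^ 2 - 1 := fun i => odd_term_nonneg _ (hodd i)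
    have hsum := split2 (fun i => (u : GolayPt → ℤ) i ^ 2 - 1)
    rw [sum_sq_sub, hn] at hsum
    beta_reduce at hsum
    have hrest : 0 ≤ ∑ i ∈ (Finset.univ.erase p0).erase p1, ((u : GolayPt → ℤ) i ^ 2 - 1) :=
      Finset.sum_nonneg fun i _ => hnn i
    have q0 := hnn p0
    have q1 := hnn p1
    have hb0 : -5 ≤ (u : GolayPt → ℤ) p0 ∧ (u : GolayPt → ℤ) p0 ≤ 5 := by
      constructor <;> nlinarith
    have hb1 : -5 ≤ (u : GolayPt → ℤ) p1 ∧ (u : GolayPt → ℤ) p1 ≤ 5 := by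
      constructor <;> nlinarith
    have o0 := hodd p0
    have o1 := hodd p1
    have hcase : ((u : GolayPt → ℤ) p0 = -5 ∧ (u : GolayPt → ℤ) p1 = 1) ∨
        ((u : GolayPt → ℤ) p0 = 1 ∧ (u : GolayPt → ℤ) p1 = -5) ∨
        ((u : GolayPt → ℤ) p0 = -3 ∧ (u : GolayPt → ℤ) p1 = -1) ∨
        ((u : GolayPt → ℤ) p0 = -1 ∧ (u : GolayPt → ℤ) p1 = -3) := by omega
    rcases hcase with ⟨h0, h1⟩ | ⟨h0, h1⟩ | ⟨h0, h1⟩ | ⟨h0, h1⟩
    · exact ⟨1, St.one_mem, h0, h1⟩
    · obtain ⟨g, hg, a0, a1⟩ := swap_fix u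
      exact ⟨g, hg, by rw [a0, h1], by rw [a1, h0]⟩
    · exact r48_31 u hn h0 h1
    · obtain ⟨g, hg, a0, a1⟩ := swap_fix u
      obtain ⟨g', hg', b0, b1⟩ := r48_31 (g u) (by rw [norm_St hg]; exact hn)
        (by rw [a0, h1]) (by rw [a1, h0])
      exact ⟨g' * g, St.mul_mem hg' hg, b0, b1⟩

/-- The pattern of a vector of norm `48` with coordinates `(-5, 1)` at the base points. -/
theorem pat5 (u : ↥leechLattice) (hn : sqNorm (u : GolayPt → ℤ) = 48)
    (h0 : (u : GolayPt → ℤ) p0 = -5) (h1 : (u : GolayPt → ℤ) p1 = 1) :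
    ∃ c ∈ Cset, (∀ i, (u : GolayPt → ℤ) i % 4 = if i ∈ c then 1 else 3) ∧ p0 ∉ c ∧ p1 ∈ c ∧
      ∀ j, j ≠ p0 → j ≠ p1 → (u : GolayPt → ℤ) j = 1 ∨ (u : GolayPt → ℤ) j = -1 := by
  have hx := (mem_leechLattice_iff _).mp u.2
  rw [leechSet_iff] at hx
  rcases hx with ⟨c, hc, hpat, hs8⟩ | ⟨c, hc, hpat, hs8⟩
  · exfalso
    have := hpat p0
    rw [h0] at this
    split_ifs at this <;> omega
  · refine ⟨c, hc, hpat, ?_, ?_, ?_⟩
    · intro hcon
      have := hpat p0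
      rw [h0, if_pos hcon] at this
      omega
    · by_contra hcon
      have := hpat p1
      rw [h1, if_neg hcon] at this
      omega
    · intro j hj0 hj1
      have hodd : ∀ i, (u : GolayPt → ℤ) i % 2 = 1 := by
        intro i
        have := hpat i
        split_ifs at this <;> omega
      have hnn : ∀ i, 0 ≤ (u : GolayPt → ℤ) i ^ 2 - 1 := fun i => odd_term_nonneg _ (hodd i)
      have hsum := split2 (fun i => (u : GolayPt → ℤ) i ^ 2 - 1)
      rw [sum_sq_sub, hn] at hsum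
      simp only [h0, h1] at hsum
      have hT : ∑ i ∈ (Finset.univ.erase p0).erase p1, ((u : GolayPt → ℤ) i ^ 2 - 1) = 0 := by
        linarith
      have hz := (Finset.sum_eq_zero_iff_of_nonneg (fun i _ => hnn i)).mp hT j
        (Finset.mem_erase.mpr ⟨hj1, Finset.mem_erase.mpr ⟨hj0, Finset.mem_univ j⟩⟩)
      have hsq : ((u : GolayPt → ℤ) j - 1) * ((u : GolayPt → ℤ) j + 1) = 0 := by
        beta_reduce at hz
        linarith
      rcases mul_eq_zero.mp hsq with h | h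
      · left; omega
      · right; omega

/-- Two vectors of norm `48` with coordinates `(-5, 1)` at the base points are equivalent. -/
theorem fin48 (u u' : ↥leechLattice) (hn : sqNorm (u : GolayPt → ℤ) = 48)
    (hn' : sqNorm (u' : GolayPt → ℤ) = 48)
    (h0 : (u : GolayPt → ℤ) p0 = -5) (h1 : (u : GolayPt → ℤ) p1 = 1)
    (h0' : (u' : GolayPt → ℤ) p0 = -5) (h1' : (u' : GolayPt → ℤ) p1 = 1) :
    ∃ g ∈ St, g u = u' := by
  obtain ⟨c, hc, hpat, hc0, hc1, hone⟩ := pat5 u hn h0 h1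
  obtain ⟨c', hc', hpat', hc0', hc1', hone'⟩ := pat5 u' hn' h0' h1'
  have hsd : symmDiff c c' ∈ Cset := symmDiff_mem_supports hc hc'
  have m0 : p0 ∉ symmDiff c c' := by simp [Finset.mem_symmDiff, hc0, hc0']
  have m1 : p1 ∉ symmDiff c c' := by simp [Finset.mem_symmDiff, hc1, hc1']
  refine ⟨sgnP (symmDiff c c') hsd, sgn_St _ _ m0 m1, ?_⟩
  apply Subtype.ext
  rw [sgnP_apply]
  funext j
  unfold sgnF
  by_cases hj0 : j = p0
  · rw [hj0, if_neg m0, h0, h0']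
  · by_cases hj1 : j = p1
    · rw [hj1, if_neg m1, h1, h1']
    · have a := hone j hj0 hj1
      have a' := hone' j hj0 hj1
      have m := hpat j
      have m' := hpat' j
      by_cases hjc : j ∈ c <;> by_cases hjc' : j ∈ c'
      · rw [if_neg (by simp [Finset.mem_symmDiff, hjc, hjc'])]
        rw [if_pos hjc] at m
        rw [if_pos hjc'] at m'
        omega
      · rw [if_pos (by simp [Finset.mem_symmDiff, hjc, hjc'])]
        rw [if_pos hjc] at m
        rw [if_neg hjc'] at m'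
        omega
      · rw [if_pos (by simp [Finset.mem_symmDiff, hjc, hjc'])]
        rw [if_neg hjc] at m
        rw [if_pos hjc'] at m'
        omega
      · rw [if_neg (by simp [Finset.mem_symmDiff, hjc, hjc'])]
        rw [if_neg hjc] at m
        rw [if_neg hjc'] at m'
        omega

/-- **The stabiliser of a minimal vector is transitive on the vectors of norm `48` having inner
product `-16` with it.** -/
theorem pair48 (x u u' : ↥leechLattice) (hx : sqNorm (x : GolayPt → ℤ) = 32)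
    (hu : sqNorm (u : GolayPt → ℤ) = 48) (hu' : sqNorm (u' : GolayPt → ℤ) = 48)
    (hd : dotInt (x : GolayPt → ℤ) (u : GolayPt → ℤ) = -16)
    (hd' : dotInt (x : GolayPt → ℤ) (u' : GolayPt → ℤ) = -16) :
    ∃ g ∈ Co0, g x = x ∧ g u = u' := by
  obtain ⟨g0, hg0, e0⟩ := min_trans x V0' hx sqNorm_V0
  have key : ∀ z : ↥leechLattice, dotInt (x : GolayPt → ℤ) (z : GolayPt → ℤ) = -16 →
      ((g0 z : ↥leechLattice) : GolayPt → ℤ) p0 + ((g0 z : ↥leechLattice) : GolayPt → ℤ) p1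
        = -4 := by
    intro z hz
    have h1 := dot_co0 hg0 x z
    rw [e0, hz] at h1
    have h2 : dotInt V0 ((g0 z : ↥leechLattice) : GolayPt → ℤ) = -16 := h1
    rw [dot_V0] at h2
    linarith
  obtain ⟨g1, hg1, a0, a1⟩ := r48 (g0 u) (by rw [hg0.2]; exact hu) (key u hd)
  obtain ⟨g2, hg2, b0, b1⟩ := r48 (g0 u') (by rw [hg0.2]; exact hu') (key u' hd')
  obtain ⟨g3, hg3, e3⟩ := fin48 (g1 (g0 u)) (g2 (g0 u'))
    (by rw [norm_St hg1, hg0.2]; exact hu) (by rw [norm_St hg2, hg0.2]; exact hu') a0 a1 b0 b1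
  have hs : g2⁻¹ * (g3 * g1) ∈ St := St.mul_mem (St.inv_mem hg2) (St.mul_mem hg3 hg1)
  refine ⟨g0⁻¹ * ((g2⁻¹ * (g3 * g1)) * g0),
    Co0.mul_mem (Co0.inv_mem hg0) (Co0.mul_mem (mem_St.mp hs).1 hg0), ?_, ?_⟩
  · rw [Equiv.Perm.mul_apply, Equiv.Perm.mul_apply, e0, (mem_St.mp hs).2, ← e0]
    exact Equiv.symm_apply_apply g0 x
  · rw [Equiv.Perm.mul_apply, Equiv.Perm.mul_apply, Equiv.Perm.mul_apply, Equiv.Perm.mul_apply,
      e3]
    have e4 : g2⁻¹ (g2 (g0 u')) = g0 u' := Equiv.symm_apply_apply g2 _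
    rw [e4]
    exact Equiv.symm_apply_apply g0 u'

/-- The stabiliser of a vector of norm `48` is transitive on the minimal vectors having inner
product `-16` with it. -/
theorem trans11178 (u x x' : ↥leechLattice) (hu : sqNorm (u : GolayPt → ℤ) = 48)
    (hx : sqNorm (x : GolayPt → ℤ) = 32) (hx' : sqNorm (x' : GolayPt → ℤ) = 32)
    (hd : dotInt (u : GolayPt → ℤ) (x : GolayPt → ℤ) = -16)
    (hd' : dotInt (u : GolayPt → ℤ) (x' : GolayPt → ℤ) = -16) :
    ∃ g ∈ Co0, g u = u ∧ g x = x' := by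
  obtain ⟨h, hh, e⟩ := min_trans x x' hx hx'
  have h1 := dot_co0 hh x u
  rw [e, dot_comm (x : GolayPt → ℤ), hd] at h1
  obtain ⟨g, hg, f0, f1⟩ := pair48 x' (h u) u hx' (by rw [hh.2]; exact hu) hu h1
    (by rw [dot_comm]; exact hd')
  refine ⟨g * h, Co0.mul_mem hg hh, ?_, ?_⟩
  · rw [Equiv.Perm.mul_apply, f1]
  · rw [Equiv.Perm.mul_apply, e, f0]

end Cfsg.Agent.Lib.Helper11.LeechSt
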