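import Mathlib
import Cfsg.Agent.Lib.Helper11.LeechSt48
import Cfsg.Agent.Lib.Helper11.LeechCo3

set_option autoImplicit false

namespace Cfsg.Agent.Lib.Helper11.LeechSt

open Cfsg Cfsg.Agent.Lib.Helper3.Golay Cfsg.Agent.Lib.Helper3.Golay2
open Cfsg.Agent.Lib.Helper3.Leech Cfsg.Agent.Lib.Helper3.Leech2 Cfsg.Agent.Lib.Helper3.Leech4
open Cfsg.Agent.Lib.Helper3.M24Perm
open Cfsg.Agent.Lib.Helper11.LeechGF Cfsg.Agent.Lib.Helper11.Co0Mono
open Cfsg.Agent.Lib.Helper11.LeechIP Cfsg.Agent.Lib.Helper11.LeechXi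

/-! ### Pairs of vectors of norm `48` with inner product `-32` -/

theorem dot_neg_add_left (a b : GolayPt → ℤ) :
    dotInt (-(a + b)) a = -(sqNorm a + dotInt a b) := by
  unfold dotInt sqNorm
  rw [← Finset.sum_add_distrib, ← Finset.sum_neg_distrib]
  refine Finset.sum_congr rfl fun i _ => ?_
  simp only [Pi.neg_apply, Pi.add_apply]
  ring

theorem sqNorm_neg_add (a b : GolayPt → ℤ) :
    sqNorm (-(a + b)) = sqNorm a + sqNorm b + 2 * dotInt a b := by
  unfold dotInt sqNorm
  rw [Finset.mul_sum, ← Finset.sum_add_distrib, ← Finset.sum_add_distrib]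
  refine Finset.sum_congr rfl fun i _ => ?_
  simp only [Pi.neg_apply, Pi.add_apply]
  ring

/-- **The automorphism group is transitive on pairs of vectors of norm `48` with inner product
`-32`.** -/
theorem trans33 (v w v' w' : ↥leechLattice) (hv : sqNorm (v : GolayPt → ℤ) = 48)
    (hw : sqNorm (w : GolayPt → ℤ) = 48) (hv' : sqNorm (v' : GolayPt → ℤ) = 48)
    (hw' : sqNorm (w' : GolayPt → ℤ) = 48)
    (hd : dotInt (v : GolayPt → ℤ) (w : GolayPt → ℤ) = -32)
    (hd' : dotInt (v' : GolayPt → ℤ) (w' : GolayPt → ℤ) = -32) :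
    ∃ h ∈ Co0, h v = v' ∧ h w = w' := by
  have hx : sqNorm ((-(v + w) : ↥leechLattice) : GolayPt → ℤ) = 32 := by
    rw [AddSubgroup.coe_neg, AddSubgroup.coe_add, sqNorm_neg_add, hv, hw, hd]; norm_num
  have hx' : sqNorm ((-(v' + w') : ↥leechLattice) : GolayPt → ℤ) = 32 := by
    rw [AddSubgroup.coe_neg, AddSubgroup.coe_add, sqNorm_neg_add, hv', hw', hd']; norm_num
  have h1 : dotInt ((-(v + w) : ↥leechLattice) : GolayPt → ℤ) (v : GolayPt → ℤ) = -16 := by
    rw [AddSubgroup.coe_neg, AddSubgroup.coe_add, dot_neg_add_left, hv, hd]; norm_num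
  have h1' : dotInt ((-(v' + w') : ↥leechLattice) : GolayPt → ℤ) (v' : GolayPt → ℤ) = -16 := by
    rw [AddSubgroup.coe_neg, AddSubgroup.coe_add, dot_neg_add_left, hv', hd']; norm_num
  obtain ⟨g1, hg1, e1⟩ := min_trans (-(v + w)) (-(v' + w')) hx hx'
  have h2 := dot_co0 hg1 (-(v + w)) v
  rw [e1, h1] at h2
  obtain ⟨g2, hg2, f0, f1⟩ := pair48 (-(v' + w')) (g1 v) v' hx' (by rw [hg1.2]; exact hv) hv'
    h2 h1'
  refine ⟨g2 * g1, Co0.mul_mem hg2 hg1, ?_, ?_⟩
  · rw [Equiv.Perm.mul_apply, f1]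
  · have hh := Co0.mul_mem hg2 hg1
    have e2 : (g2 * g1) (-(v + w)) = -(v' + w') := by
      rw [Equiv.Perm.mul_apply, e1, f0]
    have e3 : (g2 * g1) v = v' := by rw [Equiv.Perm.mul_apply, f1]
    rw [perm_neg _ hh.1, hh.1, e3] at e2
    have e4 := neg_injective e2
    exact add_left_cancel e4

/-! ### A fixed-point-free involution -/

theorem VD_apply (i : GolayPt) : VD i = if i ∈ ms 340831 then 2 else 0 := by
  unfold VD cv
  simp only [Pi.smul_apply, smul_eq_mul]
  split_ifs <;> norm_num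

theorem O38_mem : ms 3719203 ∈ Cset := by
  have h : ms 3719203 = supp 38 := ms_cw 38
  rw [h]
  exact (mem_supports_iff _).mpr ⟨38, by norm_num, rfl⟩

/-- The first standard vector. -/
def vD : ↥leechLattice := ⟨VD, VD_mem⟩

/-- The second standard vector. -/
def wD : ↥leechLattice := -(sgnP (ms 3719203) O38_mem vD)

theorem wD_val : (wD : GolayPt → ℤ) = -sgnF (ms 3719203) VD := rfl

theorem sqNorm_neg' (x : GolayPt → ℤ) : sqNorm (-x) = sqNorm x := by
  unfold sqNorm; simp

theorem sqNorm_wD : sqNorm (wD : GolayPt → ℤ) = 48 := by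
  rw [wD_val, sqNorm_neg', sqNorm_sgnF, sqNorm_VD]

theorem dot_vD_wD : dotInt VD (-sgnF (ms 3719203) VD) = -32 := by decide +kernel

/-- The involution: sign change on the complement of the standard dodecad. -/
def gD : Equiv.Perm ↥leechLattice := sgnP (ms 340831)ᶜ (compl_mem_supports D0_mem)

theorem gD_mem : gD ∈ Co0 := sgnP_mem _ _

theorem gD_fix_aux : ∀ i : GolayPt, sgnF (ms 340831)ᶜ VD i = VD i := by decide +kernel

theorem gD_fix_aux' : ∀ i : GolayPt,
    sgnF (ms 340831)ᶜ (-sgnF (ms 3719203) VD) i = (-sgnF (ms 3719203) VD) i := by decide +kernel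

theorem gD_vD : gD vD = vD := by
  apply Subtype.ext
  show sgnF (ms 340831)ᶜ VD = VD
  exact funext gD_fix_aux

theorem gD_wD : gD wD = wD := by
  apply Subtype.ext
  show sgnF (ms 340831)ᶜ (-sgnF (ms 3719203) VD) = -sgnF (ms 3719203) VD
  exact funext gD_fix_aux'

theorem gD_sq : gD * gD = 1 := by
  ext v : 2
  show ((gD (gD v) : ↥leechLattice) : GolayPt → ℤ) = v
  show sgnF (ms 340831)ᶜ (sgnF (ms 340831)ᶜ (v : GolayPt → ℤ)) = v
  exact sgnF_sgnF _ _

theorem p5_not : (some 5 : GolayPt) ∉ ms 340831 := by decide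

theorem gD_ne : gD ≠ 1 := by
  intro h
  have h1 := congrArg (fun f : Equiv.Perm ↥leechLattice =>
    ((f (E (some 5)) : ↥leechLattice) : GolayPt → ℤ) (some 5)) h
  simp only [Equiv.Perm.one_apply] at h1
  have h2 : ((gD (E (some 5)) : ↥leechLattice) : GolayPt → ℤ) (some 5) =
      sgnF (ms 340831)ᶜ (E (some 5) : GolayPt → ℤ) (some 5) := rfl
  rw [h2] at h1
  unfold sgnF at h1
  rw [if_pos (by rw [Finset.mem_compl]; exact p5_not), E_apply, if_pos rfl] at h1
  omega

/-- No minimal vector with inner product `24` with the first standard vector is fixed. -/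
theorem gD_nofix (x : ↥leechLattice) (hx : sqNorm (x : GolayPt → ℤ) = 32) (hfix : gD x = x)
    (hd : dotInt VD (x : GolayPt → ℤ) = 24) : False := by
  have hz : ∀ i, i ∉ ms 340831 → (x : GolayPt → ℤ) i = 0 := by
    intro i hi
    have h := congrFun (congrArg Subtype.val hfix) i
    have h2 : ((gD x : ↥leechLattice) : GolayPt → ℤ) i =
        sgnF (ms 340831)ᶜ (x : GolayPt → ℤ) i := rfl
    rw [h2] at h
    unfold sgnF at h
    rw [if_pos (by rw [Finset.mem_compl]; exact hi)] at h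
    omega
  have hmem := (mem_leechLattice_iff _).mp x.2
  rw [leechSet_iff] at hmem
  rcases hmem with ⟨c, hc, hpat, hs8⟩ | ⟨c, hc, hpat, hs8⟩
  · have hcsub : c ⊆ ms 340831 := by
      intro i hi
      by_contra hcon
      have h := hpat i
      rw [if_pos hi, hz i hcon] at h
      omega
    have hge4 : ∀ i ∈ c, (4 : ℤ) ≤ (x : GolayPt → ℤ) i ^ 2 := by
      intro i hi
      have := hpat i
      rw [if_pos hi] at this
      have h2 : (x : GolayPt → ℤ) i ≤ -2 ∨ 2 ≤ (x : GolayPt → ℤ) i := by omega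
      rcases h2 with h2 | h2 <;> nlinarith
    have hsum : (4 : ℤ) * c.card ≤ 32 := by
      rw [← hx]
      unfold sqNorm
      calc (4 : ℤ) * c.card = ∑ i ∈ c, (4 : ℤ) := by
            rw [Finset.sum_const, nsmul_eq_mul]; ring
        _ ≤ ∑ i ∈ c, (x : GolayPt → ℤ) i ^ 2 := Finset.sum_le_sum hge4
        _ ≤ ∑ i, (x : GolayPt → ℤ) i ^ 2 :=
            Finset.sum_le_sum_of_subset_of_nonneg (Finset.subset_univ _)
              (fun i _ _ => sq_nonneg _)
    have hc8 : c.card ≤ 8 := by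
      have : (c.card : ℤ) ≤ 8 := by linarith
      exact_mod_cast this
    have hsd := symmDiff_mem_supports hc D0_mem
    have hcard := card_symmDiff_add c (ms 340831)
    rw [Finset.inter_eq_left.mpr hcsub, card_ms, pcD] at hcard
    have k1 := card_cases hc
    have k2 := card_cases hsd
    have hc0 : c.card = 0 := by omega
    have hce : c = ∅ := Finset.card_eq_zero.mp hc0
    have h4 : ∀ i, (x : GolayPt → ℤ) i % 4 = 0 := by
      intro i
      have := hpat i
      rw [hce] at this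
      simpa using this
    have hterm : ∀ i, 2 * (VD i * (x : GolayPt → ℤ) i) ≤ (x : GolayPt → ℤ) i ^ 2 := by
      intro i
      rw [VD_apply]
      have := h4 i
      have h2 : (x : GolayPt → ℤ) i ≤ 0 ∨ 4 ≤ (x : GolayPt → ℤ) i := by omega
      split_ifs
      · rcases h2 with h2 | h2 <;> nlinarith
      · nlinarith [sq_nonneg ((x : GolayPt → ℤ) i)]
    have hle : 2 * dotInt VD (x : GolayPt → ℤ) ≤ sqNorm (x : GolayPt → ℤ) := by
      unfold dotInt sqNorm
      rw [Finset.mul_sum]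
      exact Finset.sum_le_sum fun i _ => hterm i
    rw [hd, hx] at hle
    omega
  · have h := hpat (some 5)
    rw [hz (some 5) p5_not] at h
    split_ifs at h <;> omega

end Cfsg.Agent.Lib.Helper11.LeechSt
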