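import Mathlib
import Cfsg.Agent.Lib.Helper11.LeechCo3

set_option autoImplicit false

namespace Cfsg.Agent.Lib.Helper11.LeechXi

open Cfsg Cfsg.Agent.Lib.Helper3.Golay Cfsg.Agent.Lib.Helper3.Golay2
open Cfsg.Agent.Lib.Helper3.Leech Cfsg.Agent.Lib.Helper3.Leech2
open Cfsg.Agent.Lib.Helper3.M24Perm
open Cfsg.Agent.Lib.Helper11.LeechGF Cfsg.Agent.Lib.Helper11.Co0Mono
open Cfsg.Agent.Lib.Helper11.LeechIP

/-- The classes of codewords with respect to ten points of the standard dodecad. -/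
def YH : Finset (ℕ × ℕ) :=
  {(0, 0), (10, 2), (5, 7), (6, 6), (4, 8), (7, 5), (3, 5), (6, 10), (3, 9), (7, 9), (4, 4),
    (0, 8), (10, 6), (8, 4), (2, 6), (8, 8), (4, 12), (2, 10), (5, 3), (6, 2), (5, 11), (1, 7),
    (9, 7), (10, 14), (0, 12)}

theorem hYH : (List.range 4096).all (fun k => decide (clsS 340828 k ∈ YH)) = true := by
  decide +kernel

set_option maxRecDepth 100000 in
theorem numH : ∑ y ∈ YH, (if cntS 340828 y = 0 then 0 else
    cntS 340828 y * gS (pc 340828) (mkr 1 8) (mkr 0 0) 161 32 {92} y.1 y.2) = 100 := by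
  decide +kernel

theorem pcH : pc 340828 = 10 := by decide

theorem cntH : (ipSet ((4 : ℤ) • cv (ms 340828) 1 0) 48).ncard = 100 := by
  rw [ip_count 340828 10 pcH 1 1 8 0 0 0 (by norm_num) (by norm_num) (by norm_num) (by norm_num)
    4 (by norm_num) 161 (by norm_num) 48 92 (by norm_num) (by norm_num) YH
    (hY_of_all _ _ hYH)]
  exact numH

end Cfsg.Agent.Lib.Helper11.LeechXi
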