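import Mathlib
import Cfsg.Agent.Lib.Helper11.LeechHS
import Cfsg.Agent.Lib.Helper11.LeechSt0
import Cfsg.Agent.Lib.Helper11.LeechHSNum
import Cfsg.Agent.S0391

set_option autoImplicit false

namespace Cfsg.Agent.Lib.Helper11.LeechSt

open Cfsg Cfsg.Agent.Lib.Helper3.Golay Cfsg.Agent.Lib.Helper3.Golay2
open Cfsg.Agent.Lib.Helper3.Leech Cfsg.Agent.Lib.Helper3.Leech2 Cfsg.Agent.Lib.Helper3.Leech4
open Cfsg.Agent.Lib.Helper3.M24Perm
open Cfsg.Agent.Lib.Helper11.LeechGF Cfsg.Agent.Lib.Helper11.Co0Mono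
open Cfsg.Agent.Lib.Helper11.LeechIP Cfsg.Agent.Lib.Helper11.LeechXi

/-! ### Triples of minimal vectors with Gram data `(0, 16, -8)` -/

theorem dot_add_left (a b c : GolayPt → ℤ) : dotInt (a + b) c = dotInt a c + dotInt b c := by
  unfold dotInt
  rw [← Finset.sum_add_distrib]
  refine Finset.sum_congr rfl fun i _ => ?_
  simp only [Pi.add_apply]
  ring

theorem dot_sub_left (a b c : GolayPt → ℤ) : dotInt (a - b) c = dotInt a c - dotInt b c := by
  unfold dotInt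
  rw [← Finset.sum_sub_distrib]
  refine Finset.sum_congr rfl fun i _ => ?_
  simp only [Pi.sub_apply]
  ring

theorem dot_Wc0 (w : GolayPt → ℤ) : dotInt Wc0 w = 4 * (w p1 - w p0) := by
  unfold dotInt
  rw [Fintype.sum_eq_add p0 p1 (by decide)]
  · unfold Wc0
    simp
    ring
  · intro x hx
    unfold Wc0
    simp [hx.1, hx.2]

theorem sgn_Wc0 (d : Finset GolayPt) (h0 : p0 ∉ d) (h1 : p1 ∉ d) : sgnF d Wc0 = Wc0 := by
  funext j
  unfold sgnF
  by_cases hj : j ∈ d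
  · rw [if_pos hj]
    have e0 : j ≠ p0 := fun e => h0 (e ▸ hj)
    have e1 : j ≠ p1 := fun e => h1 (e ▸ hj)
    unfold Wc0
    simp [e0, e1]
  · rw [if_neg hj]

/-- The pattern of a minimal vector with coordinates `(3, 1)` at the base points. -/
theorem pat31 (u : ↥leechLattice) (hn : sqNorm (u : GolayPt → ℤ) = 32)
    (h0 : (u : GolayPt → ℤ) p0 = 3) (h1 : (u : GolayPt → ℤ) p1 = 1) :
    ∃ c ∈ Cset, (∀ i, (u : GolayPt → ℤ) i % 4 = if i ∈ c then 1 else 3) ∧ p0 ∉ c ∧ p1 ∈ c ∧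
      ∀ j, j ≠ p0 → j ≠ p1 → (u : GolayPt → ℤ) j = 1 ∨ (u : GolayPt → ℤ) j = -1 := by
  have hx := (mem_leechLattice_iff _).mp u.2
  rw [leechSet_iff] at hx
  rcases hx with ⟨c, hc, hpat, hs8⟩ | ⟨c, hc, hpat, hs8⟩
  · exfalso
    have := hpat p0
    rw [h0] at this
    split_ifs at this <;> omega
  · refine ⟨c, hc, hpat, ?_, ?_, ?_⟩
    · intro hcon
      have := hpat p0
      rw [h0, if_pos hcon] at this
      omega
    · by_contra hcon
      have := hpat p1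
      rw [h1, if_neg hcon] at this
      omega
    · intro j hj0 hj1
      have hodd : ∀ i, (u : GolayPt → ℤ) i % 2 = 1 := by
        intro i
        have := hpat i
        split_ifs at this <;> omega
      have hnn : ∀ i, 0 ≤ (u : GolayPt → ℤ) i ^ 2 - 1 := fun i => odd_term_nonneg _ (hodd i)
      have hsum := split2 (fun i => (u : GolayPt → ℤ) i ^ 2 - 1)
      rw [sum_sq_sub, hn] at hsum
      simp only [h0, h1] at hsum
      have hT : ∑ i ∈ (Finset.univ.erase p0).erase p1, ((u : GolayPt → ℤ) i ^ 2 - 1) = 0 := by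
        linarith
      have hz := (Finset.sum_eq_zero_iff_of_nonneg (fun i _ => hnn i)).mp hT j
        (Finset.mem_erase.mpr ⟨hj1, Finset.mem_erase.mpr ⟨hj0, Finset.mem_univ j⟩⟩)
      have hsq : ((u : GolayPt → ℤ) j - 1) * ((u : GolayPt → ℤ) j + 1) = 0 := by
        beta_reduce at hz
        linarith
      rcases mul_eq_zero.mp hsq with h | h
      · left; omega
      · right; omega

theorem fin31 (u u' : ↥leechLattice) (hn : sqNorm (u : GolayPt → ℤ) = 32)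
    (hn' : sqNorm (u' : GolayPt → ℤ) = 32)
    (h0 : (u : GolayPt → ℤ) p0 = 3) (h1 : (u : GolayPt → ℤ) p1 = 1)
    (h0' : (u' : GolayPt → ℤ) p0 = 3) (h1' : (u' : GolayPt → ℤ) p1 = 1) :
    ∃ d, ∃ hd : d ∈ Cset, p0 ∉ d ∧ p1 ∉ d ∧ sgnP d hd u = u' := by
  obtain ⟨c, hc, hpat, hc0, hc1, hone⟩ := pat31 u hn h0 h1
  obtain ⟨c', hc', hpat', hc0', hc1', hone'⟩ := pat31 u' hn' h0' h1'
  have hsd : symmDiff c c' ∈ Cset := symmDiff_mem_supports hc hc'
  have m0 : p0 ∉ symmDiff c c' := by simp [Finset.mem_symmDiff, hc0, hc0']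
  have m1 : p1 ∉ symmDiff c c' := by simp [Finset.mem_symmDiff, hc1, hc1']
  refine ⟨symmDiff c c', hsd, m0, m1, ?_⟩
  apply Subtype.ext
  rw [sgnP_apply]
  funext j
  unfold sgnF
  by_cases hj0 : j = p0
  · rw [hj0, if_neg m0, h0, h0']
  · by_cases hj1 : j = p1
    · rw [hj1, if_neg m1, h1, h1']
    · have a := hone j hj0 hj1
      have a' := hone' j hj0 hj1
      have m := hpat j
      have m' := hpat' j
      by_cases hjc : j ∈ c <;> by_cases hjc' : j ∈ c'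
      · rw [if_neg (by simp [Finset.mem_symmDiff, hjc, hjc'])]
        rw [if_pos hjc] at m
        rw [if_pos hjc'] at m'
        omega
      · rw [if_pos (by simp [Finset.mem_symmDiff, hjc, hjc'])]
        rw [if_pos hjc] at m
        rw [if_neg hjc'] at m'
        omega
      · rw [if_pos (by simp [Finset.mem_symmDiff, hjc, hjc'])]
        rw [if_neg hjc] at m
        rw [if_pos hjc'] at m'
        omega
      · rw [if_neg (by simp [Finset.mem_symmDiff, hjc, hjc'])]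
        rw [if_neg hjc] at m
        rw [if_neg hjc'] at m'
        omega

theorem norm_triple (x0 a b : ↥leechLattice) (hx0 : sqNorm (x0 : GolayPt → ℤ) = 32)
    (ha : sqNorm (a : GolayPt → ℤ) = 32)
    (d1 : dotInt (x0 : GolayPt → ℤ) (a : GolayPt → ℤ) = 0)
    (d2 : dotInt (x0 : GolayPt → ℤ) (b : GolayPt → ℤ) = 16)
    (d3 : dotInt (a : GolayPt → ℤ) (b : GolayPt → ℤ) = -8) :
    ∃ g ∈ Co0, g x0 = V0' ∧ ((g a : ↥leechLattice) : GolayPt → ℤ) = Wc0 ∧
      ((g b : ↥leechLattice) : GolayPt → ℤ) p0 = 3 ∧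
      ((g b : ↥leechLattice) : GolayPt → ℤ) p1 = 1 := by
  obtain ⟨g0, hg0, e0⟩ := min_trans x0 V0' hx0 sqNorm_V0
  have k1 : 4 * (((g0 a : ↥leechLattice) : GolayPt → ℤ) p0 +
      ((g0 a : ↥leechLattice) : GolayPt → ℤ) p1) = 0 := by
    have h := dot_co0 hg0 x0 a
    rw [e0, d1] at h
    have h2 : dotInt V0 ((g0 a : ↥leechLattice) : GolayPt → ℤ) = 0 := h
    rw [dot_V0] at h2
    exact h2
  obtain ⟨s, hs, es⟩ := r0 (g0 a) (by rw [hg0.2]; exact ha) k1
  have hsC := (mem_St.mp hs).1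
  have hg := Co0.mul_mem hsC hg0
  have e1 : (s * g0) x0 = V0' := by
    rw [Equiv.Perm.mul_apply, e0]; exact (mem_St.mp hs).2
  have e2 : (((s * g0) a : ↥leechLattice) : GolayPt → ℤ) = Wc0 := by
    rw [Equiv.Perm.mul_apply]; exact es
  have q1 := dot_co0 hg x0 b
  have q2 := dot_co0 hg a b
  rw [e1, d2] at q1
  rw [e2, d3] at q2
  have q1' : dotInt V0 (((s * g0) b : ↥leechLattice) : GolayPt → ℤ) = 16 := q1
  rw [dot_V0] at q1'
  rw [dot_Wc0] at q2
  exact ⟨s * g0, hg, e1, e2, by linarith, by linarith⟩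

/-- **Transitivity on triples of minimal vectors with Gram data `(0, 16, -8)`.** -/
theorem triple_trans (x0 a b x0' a' b' : ↥leechLattice)
    (hx0 : sqNorm (x0 : GolayPt → ℤ) = 32) (ha : sqNorm (a : GolayPt → ℤ) = 32)
    (hb : sqNorm (b : GolayPt → ℤ) = 32)
    (hx0' : sqNorm (x0' : GolayPt → ℤ) = 32) (ha' : sqNorm (a' : GolayPt → ℤ) = 32)
    (hb' : sqNorm (b' : GolayPt → ℤ) = 32)
    (d1 : dotInt (x0 : GolayPt → ℤ) (a : GolayPt → ℤ) = 0)
    (d2 : dotInt (x0 : GolayPt → ℤ) (b : GolayPt → ℤ) = 16)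
    (d3 : dotInt (a : GolayPt → ℤ) (b : GolayPt → ℤ) = -8)
    (d1' : dotInt (x0' : GolayPt → ℤ) (a' : GolayPt → ℤ) = 0)
    (d2' : dotInt (x0' : GolayPt → ℤ) (b' : GolayPt → ℤ) = 16)
    (d3' : dotInt (a' : GolayPt → ℤ) (b' : GolayPt → ℤ) = -8) :
    ∃ g ∈ Co0, g x0 = x0' ∧ g a = a' ∧ g b = b' := by
  obtain ⟨g1, hg1, e1, e2, e3, e4⟩ := norm_triple x0 a b hx0 ha d1 d2 d3
  obtain ⟨g1', hg1', e1', e2', e3', e4'⟩ := norm_triple x0' a' b' hx0' ha' d1' d2' d3'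
  obtain ⟨d, hd, m0, m1, e5⟩ := fin31 (g1 b) (g1' b') (by rw [hg1.2]; exact hb)
    (by rw [hg1'.2]; exact hb') e3 e4 e3' e4'
  have hs : sgnP d hd ∈ St := sgn_St d hd m0 m1
  have hsC := (mem_St.mp hs).1
  refine ⟨g1'⁻¹ * (sgnP d hd * g1), Co0.mul_mem (Co0.inv_mem hg1') (Co0.mul_mem hsC hg1),
    ?_, ?_, ?_⟩
  · rw [Equiv.Perm.mul_apply, Equiv.Perm.mul_apply, e1, (mem_St.mp hs).2, ← e1']
    exact Equiv.symm_apply_apply g1' x0'
  · have e6 : sgnP d hd (g1 a) = g1' a' := by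
      apply Subtype.ext
      rw [sgnP_apply, e2, e2', sgn_Wc0 d m0 m1]
    rw [Equiv.Perm.mul_apply, Equiv.Perm.mul_apply, e6]
    exact Equiv.symm_apply_apply g1' a'
  · rw [Equiv.Perm.mul_apply, Equiv.Perm.mul_apply, e5]
    exact Equiv.symm_apply_apply g1' b'

/-! ### The hundred vectors -/

theorem hs_iff (v w x : ↥leechLattice) (hv : sqNorm (v : GolayPt → ℤ) = 48)
    (hw : sqNorm (w : GolayPt → ℤ) = 48) (hx : sqNorm (x : GolayPt → ℤ) = 32) :
    (dotInt (v : GolayPt → ℤ) (x : GolayPt → ℤ) = 24 ∧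
      dotInt (w : GolayPt → ℤ) (x : GolayPt → ℤ) = -24) ↔
    dotInt ((v - w : ↥leechLattice) : GolayPt → ℤ) (x : GolayPt → ℤ) = 48 := by
  rw [AddSubgroup.coe_sub, dot_sub_left]
  constructor
  · rintro ⟨h1, h2⟩
    rw [h1, h2]; norm_num
  · intro h
    have b1 : dotInt (v : GolayPt → ℤ) (x : GolayPt → ℤ) ≤ 24 := by
      have hne : ((v - x : ↥leechLattice) : GolayPt → ℤ) ≠ 0 := by
        intro h0
        rw [AddSubgroup.coe_sub] at h0
        have e : (v : GolayPt → ℤ) = x := sub_eq_zero.mp h0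
        rw [e] at hv
        omega
      have h3 := Cfsg.Agent.S0391.result _ (v - x).2 hne
      rw [AddSubgroup.coe_sub, sqNorm_sub', hv, hx] at h3
      linarith
    have b2 : -24 ≤ dotInt (w : GolayPt → ℤ) (x : GolayPt → ℤ) := by
      have hne : ((w + x : ↥leechLattice) : GolayPt → ℤ) ≠ 0 := by
        intro h0
        rw [AddSubgroup.coe_add] at h0
        have e : (w : GolayPt → ℤ) = -x := eq_neg_of_add_eq_zero_left h0
        rw [e, sqNorm_neg'] at hw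
        omega
      have h3 := Cfsg.Agent.S0391.result _ (w + x).2 hne
      rw [AddSubgroup.coe_add, sqNorm_add, hw, hx] at h3
      linarith
    constructor <;> linarith

theorem vw_aux : ∀ i : GolayPt,
    (VD - -sgnF (ms 3719203) VD) i = ((4 : ℤ) • cv (ms 340828) 1 0) i := by decide +kernel

theorem hs_count (v w : ↥leechLattice) (hv : sqNorm (v : GolayPt → ℤ) = 48)
    (hw : sqNorm (w : GolayPt → ℤ) = 48)
    (hd : dotInt (v : GolayPt → ℤ) (w : GolayPt → ℤ) = -32) :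
    {x : ↥leechLattice | sqNorm (x : GolayPt → ℤ) = 32 ∧
      dotInt (v : GolayPt → ℤ) (x : GolayPt → ℤ) = 24 ∧
      dotInt (w : GolayPt → ℤ) (x : GolayPt → ℤ) = -24}.ncard = 100 := by
  obtain ⟨h, hh, e1, e2⟩ := trans33 v w vD wD hv hw sqNorm_VD sqNorm_wD hd dot_vD_wD
  have e3 : h (v - w) = vD - wD := by
    rw [sub_eq_add_neg, hh.1, perm_neg h hh.1, e1, e2, ← sub_eq_add_neg]
  have c1 := ipSet_co0 hh (v - w) 48
  rw [e3] at c1
  have c2 : ((vD - wD : ↥leechLattice) : GolayPt → ℤ) = (4 : ℤ) • cv (ms 340828) 1 0 := by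
    show VD - -sgnF (ms 3719203) VD = _
    exact funext vw_aux
  rw [c2, cntH] at c1
  rw [c1]
  have himg : Subtype.val '' {x : ↥leechLattice | sqNorm (x : GolayPt → ℤ) = 32 ∧
      dotInt (v : GolayPt → ℤ) (x : GolayPt → ℤ) = 24 ∧
      dotInt (w : GolayPt → ℤ) (x : GolayPt → ℤ) = -24} =
      ipSet ((v - w : ↥leechLattice) : GolayPt → ℤ) 48 := by
    ext z
    constructor
    · rintro ⟨x, ⟨hx1, hx2, hx3⟩, rfl⟩
      exact ⟨x.2, hx1, (hs_iff v w x hv hw hx1).mp ⟨hx2, hx3⟩⟩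
    · rintro ⟨hz, hz1, hz2⟩
      have h3 := (hs_iff v w ⟨z, hz⟩ hv hw hz1).mpr hz2
      exact ⟨⟨z, hz⟩, ⟨hz1, h3.1, h3.2⟩, rfl⟩
  rw [← himg, Set.ncard_image_of_injective _ Subtype.val_injective]

theorem hs_trans (v w x x' : ↥leechLattice) (hv : sqNorm (v : GolayPt → ℤ) = 48)
    (hw : sqNorm (w : GolayPt → ℤ) = 48)
    (hd : dotInt (v : GolayPt → ℤ) (w : GolayPt → ℤ) = -32)
    (hx : sqNorm (x : GolayPt → ℤ) = 32)
    (hx2 : dotInt (v : GolayPt → ℤ) (x : GolayPt → ℤ) = 24)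
    (hx3 : dotInt (w : GolayPt → ℤ) (x : GolayPt → ℤ) = -24)
    (hx' : sqNorm (x' : GolayPt → ℤ) = 32)
    (hx2' : dotInt (v : GolayPt → ℤ) (x' : GolayPt → ℤ) = 24)
    (hx3' : dotInt (w : GolayPt → ℤ) (x' : GolayPt → ℤ) = -24) :
    ∃ g ∈ Co0, g v = v ∧ g w = w ∧ g x = x' := by
  have n0 : sqNorm ((v + w : ↥leechLattice) : GolayPt → ℤ) = 32 := by
    rw [AddSubgroup.coe_add, sqNorm_add, hv, hw, hd]; norm_num
  have nb : ∀ y : ↥leechLattice, sqNorm (y : GolayPt → ℤ) = 32 →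
      dotInt (v : GolayPt → ℤ) (y : GolayPt → ℤ) = 24 →
      sqNorm ((v - y : ↥leechLattice) : GolayPt → ℤ) = 32 := by
    intro y hy hy2
    rw [AddSubgroup.coe_sub, sqNorm_sub', hv, hy, hy2]; norm_num
  have q1 : ∀ y : ↥leechLattice, dotInt (v : GolayPt → ℤ) (y : GolayPt → ℤ) = 24 →
      dotInt (w : GolayPt → ℤ) (y : GolayPt → ℤ) = -24 →
      dotInt ((v + w : ↥leechLattice) : GolayPt → ℤ) (y : GolayPt → ℤ) = 0 := by
    intro y hy2 hy3
    rw [AddSubgroup.coe_add, dot_add_left, hy2, hy3]; norm_num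
  have q2 : ∀ y : ↥leechLattice, dotInt (v : GolayPt → ℤ) (y : GolayPt → ℤ) = 24 →
      dotInt (w : GolayPt → ℤ) (y : GolayPt → ℤ) = -24 →
      dotInt ((v + w : ↥leechLattice) : GolayPt → ℤ)
        ((v - y : ↥leechLattice) : GolayPt → ℤ) = 16 := by
    intro y hy2 hy3
    rw [AddSubgroup.coe_add, AddSubgroup.coe_sub, dot_sub_right, dot_add_left, dot_add_left,
      dot_self, hv, dot_comm (w : GolayPt → ℤ) (v : GolayPt → ℤ), hd, hy2, hy3]
    norm_num
  have q3 : ∀ y : ↥leechLattice, sqNorm (y : GolayPt → ℤ) = 32 →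
      dotInt (v : GolayPt → ℤ) (y : GolayPt → ℤ) = 24 →
      dotInt (y : GolayPt → ℤ) ((v - y : ↥leechLattice) : GolayPt → ℤ) = -8 := by
    intro y hy hy2
    rw [AddSubgroup.coe_sub, dot_sub_right, dot_self, hy,
      dot_comm (y : GolayPt → ℤ) (v : GolayPt → ℤ), hy2]
    norm_num
  obtain ⟨g, hg, f1, f2, f3⟩ := triple_trans (v + w) x (v - x) (v + w) x' (v - x') n0 hx
    (nb x hx hx2) n0 hx' (nb x' hx' hx2') (q1 x hx2 hx3) (q2 x hx2 hx3) (q3 x hx hx2)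
    (q1 x' hx2' hx3') (q2 x' hx2' hx3') (q3 x' hx' hx2')
  have hgv : g v = v := by
    calc g v = g (x + (v - x)) := by rw [add_sub_cancel]
      _ = g x + g (v - x) := hg.1 _ _
      _ = x' + (v - x') := by rw [f2, f3]
      _ = v := add_sub_cancel _ _
  refine ⟨g, hg, hgv, ?_, f2⟩
  calc g w = g ((v + w) + -v) := by rw [add_neg_cancel_comm]
    _ = g (v + w) + g (-v) := hg.1 _ _
    _ = (v + w) + -v := by rw [f1, perm_neg g hg.1, hgv]
    _ = w := add_neg_cancel_comm _ _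

end Cfsg.Agent.Lib.Helper11.LeechSt
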