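import Mathlib
import Cfsg.Agent.Lib.Helper11.LeechCo0
import Cfsg.Agent.Lib.Helper11.LeechCo3
import Cfsg.Agent.S1567
import Cfsg.Agent.S0391
import Cfsg.Agent.S0392

set_option autoImplicit false

namespace Cfsg.Agent.Lib.Helper11.LeechMod2

open Cfsg Cfsg.Agent.Lib.Helper3.Golay Cfsg.Agent.Lib.Helper3.Golay2
open Cfsg.Agent.Lib.Helper3.Leech Cfsg.Agent.Lib.Helper3.Leech2 Cfsg.Agent.Lib.Helper3.Leech4
open Cfsg.Agent.Lib.Helper3.GolayM24 Cfsg.Agent.Lib.Helper3.M24Trans
open Cfsg.Agent.Lib.Helper11.LeechGF Cfsg.Agent.Lib.Helper11.Co0Mono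
open Cfsg.Agent.Lib.Helper11.LeechIP Cfsg.Agent.Lib.Helper11.LeechXi
open Cfsg.Agent.Lib.Helper11.LeechCross Cfsg.Agent.Lib.Helper11.LeechSt

/-- The vector `4 e_i + 4 e_j`. -/
def A (i j : GolayPt) (h : i ≠ j) : ↥leechLattice :=
  ⟨vec 4 {i, j} ∅, (mem_leechLattice_iff _).mpr
    (vec4_mem (Finset.card_pair h) (Finset.empty_subset _))⟩

/-- The vector `4 e_i - 4 e_j`. -/
def B (i j : GolayPt) (h : i ≠ j) : ↥leechLattice :=
  ⟨vec 4 {i, j} {j}, (mem_leechLattice_iff _).mpr
    (vec4_mem (Finset.card_pair h) (by simp))⟩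

theorem sqNorm_A (i j : GolayPt) (h : i ≠ j) : sqNorm (A i j h : GolayPt → ℤ) = 32 := by
  show sqNorm (vec 4 {i, j} ∅) = 32
  rw [sqNorm_vec 4 (Finset.empty_subset _), Finset.card_pair h]
  norm_num

theorem sqNorm_B (i j : GolayPt) (h : i ≠ j) : sqNorm (B i j h : GolayPt → ℤ) = 32 := by
  show sqNorm (vec 4 {i, j} {j}) = 32
  rw [sqNorm_vec 4 (by simp), Finset.card_pair h]
  norm_num

theorem A_add_B (i j : GolayPt) (h : i ≠ j) : A i j h + B i j h = E i := by
  apply Subtype.ext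
  funext k
  show vec 4 {i, j} ∅ k + vec 4 {i, j} {j} k = (E i : GolayPt → ℤ) k
  rw [E_apply]
  unfold vec
  by_cases hk : k = i
  · have hkj : k ≠ j := fun e => h (hk.symm.trans e)
    simp [hk, h]
  · by_cases hkj : k = j
    · simp [hkj, Ne.symm h]
    · simp [hk, hkj]

theorem A_sub_B (i j : GolayPt) (h : i ≠ j) : A i j h - B i j h = E j := by
  apply Subtype.ext
  funext k
  show vec 4 {i, j} ∅ k - vec 4 {i, j} {j} k = (E j : GolayPt → ℤ) k
  rw [E_apply]
  unfold vec
  by_cases hk : k = i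
  · have hkj : k ≠ j := fun e => h (hk.symm.trans e)
    simp [hk, h]
  · by_cases hkj : k = j
    · simp [hkj]
    · simp [hk, hkj]

theorem E_ne (i j : GolayPt) (h : i ≠ j) : E i ≠ E j ∧ E i ≠ -E j := by
  constructor
  · intro e
    have := congrFun (congrArg Subtype.val e) i
    rw [E_apply, E_apply, if_pos rfl, if_neg h] at this
    omega
  · intro e
    have := congrFun (congrArg Subtype.val e) i
    rw [AddSubgroup.coe_neg, Pi.neg_apply, E_apply, E_apply, if_pos rfl, if_neg h] at this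
    omega

theorem E_ne_neg (i : GolayPt) : E i ≠ -E i := by
  intro e
  have := congrFun (congrArg Subtype.val e) i
  rw [AddSubgroup.coe_neg, Pi.neg_apply, E_apply, if_pos rfl] at this
  omega

theorem third : ∀ i j : GolayPt, ∃ k : GolayPt, k ≠ i ∧ k ≠ j := by decide

/-- An automorphism acting trivially modulo twice the lattice fixes or negates each minimal
vector. -/
theorem pm_min {g : Equiv.Perm ↥leechLattice} (hg : g ∈ Co0)
    (hc : ∀ v : ↥leechLattice, ∃ w : ↥leechLattice,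
      ((g v : ↥leechLattice) : GolayPt → ℤ) - (v : GolayPt → ℤ) = 2 • (w : GolayPt → ℤ))
    (v : ↥leechLattice) (hv : sqNorm (v : GolayPt → ℤ) = 32) : g v = v ∨ g v = -v := by
  obtain ⟨w, hw⟩ := hc v
  have hcl : cls v = cls (g v) := by
    rw [cls_eq_iff]
    refine ⟨-(w : GolayPt → ℤ), neg_mem w.2, ?_⟩
    rw [smul_neg, ← hw]
    abel
  by_contra hcon
  push Not at hcon
  have h := key v (g v) (by rw [hv]; norm_num) (by rw [hg.2 v, hv]; norm_num) hcl hcon.1 hcon.2
  rw [hv] at h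
  omega

theorem pair_case {g : Equiv.Perm ↥leechLattice} (hg : g ∈ Co0)
    (hc : ∀ v : ↥leechLattice, ∃ w : ↥leechLattice,
      ((g v : ↥leechLattice) : GolayPt → ℤ) - (v : GolayPt → ℤ) = 2 • (w : GolayPt → ℤ))
    (i j : GolayPt) (h : i ≠ j) :
    (g (E i) = E i ∧ g (E j) = E j) ∨ (g (E i) = E j ∧ g (E j) = E i) ∨
    (g (E i) = -E j ∧ g (E j) = -E i) ∨ (g (E i) = -E i ∧ g (E j) = -E j) := by
  have ha := pm_min hg hc (A i j h) (sqNorm_A i j h)
  have hb := pm_min hg hc (B i j h) (sqNorm_B i j h)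
  have e1 : g (E i) = g (A i j h) + g (B i j h) := by rw [← hg.1, A_add_B]
  have e2 : g (E j) = g (A i j h) - g (B i j h) := by
    rw [sub_eq_add_neg, ← perm_neg g hg.1, ← hg.1, ← sub_eq_add_neg, A_sub_B]
  rcases ha with ha | ha <;> rcases hb with hb | hb
  · left
    rw [e1, e2, ha, hb]
    exact ⟨A_add_B i j h, A_sub_B i j h⟩
  · right; left
    rw [e1, e2, ha, hb]
    constructor
    · rw [← sub_eq_add_neg]; exact A_sub_B i j h
    · rw [sub_neg_eq_add]; exact A_add_B i j h
  · right; right; left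
    rw [e1, e2, ha, hb]
    constructor
    · rw [← A_sub_B i j h]; abel
    · rw [← A_add_B i j h]; abel
  · right; right; right
    rw [e1, e2, ha, hb]
    constructor
    · rw [← A_add_B i j h]; abel
    · rw [← A_sub_B i j h]; abel

theorem diag_case {g : Equiv.Perm ↥leechLattice} (hg : g ∈ Co0)
    (hc : ∀ v : ↥leechLattice, ∃ w : ↥leechLattice,
      ((g v : ↥leechLattice) : GolayPt → ℤ) - (v : GolayPt → ℤ) = 2 • (w : GolayPt → ℤ))
    (i j : GolayPt) (h : i ≠ j) :
    (g (E i) = E i ∧ g (E j) = E j) ∨ (g (E i) = -E i ∧ g (E j) = -E j) := by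
  obtain ⟨k, hki, hkj⟩ := third i j
  rcases pair_case hg hc i j h with c | c | c | c
  · exact Or.inl c
  · exfalso
    rcases pair_case hg hc i k (Ne.symm hki) with d | d | d | d
    · exact (E_ne j i (Ne.symm h)).1 (c.1.symm.trans d.1)
    · exact (E_ne j k (Ne.symm hkj)).1 (c.1.symm.trans d.1)
    · exact (E_ne j k (Ne.symm hkj)).2 (c.1.symm.trans d.1)
    · exact (E_ne j i (Ne.symm h)).2 (c.1.symm.trans d.1)
  · exfalso
    rcases pair_case hg hc i k (Ne.symm hki) with d | d | d | d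
    · exact (E_ne i j h).2 (d.1.symm.trans c.1)
    · exact (E_ne k j hkj).2 (d.1.symm.trans c.1)
    · exact (E_ne k j hkj).1 (neg_injective (d.1.symm.trans c.1))
    · exact (E_ne i j h).1 (neg_injective (d.1.symm.trans c.1))
  · exact Or.inr c

/-- **An automorphism acting trivially modulo twice the lattice is `± 1`.** -/
theorem scalar_of_cong {g : Equiv.Perm ↥leechLattice} (hg : g ∈ Co0)
    (hc : ∀ v : ↥leechLattice, ∃ w : ↥leechLattice,
      ((g v : ↥leechLattice) : GolayPt → ℤ) - (v : GolayPt → ℤ) = 2 • (w : GolayPt → ℤ)) :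
    (∀ v, g v = v) ∨ (∀ v, g v = -v) := by
  by_cases h0 : g (E none) = E none
  · left
    intro v
    have hall : ∀ i, g (E i) = (1 : ℤ) • E i := by
      intro i
      rw [one_smul]
      by_cases hi : i = none
      · rw [hi]; exact h0
      · rcases diag_case hg hc none i (Ne.symm hi) with d | d
        · exact d.2
        · exact absurd (h0.symm.trans d.1) (E_ne_neg none)
    rw [eq_of_E g hg.1 1 hall v, one_smul]
  · right
    intro v
    have hall : ∀ i, g (E i) = (-1 : ℤ) • E i := by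
      intro i
      rw [neg_one_smul]
      by_cases hi : i = none
      · rw [hi]
        rcases diag_case hg hc none (some 0) (by decide) with d | d
        · exact absurd d.1 h0
        · exact d.1
      · rcases diag_case hg hc none i (Ne.symm hi) with d | d
        · exact absurd d.1 h0
        · exact d.2
    rw [eq_of_E g hg.1 (-1) hall v, neg_one_smul]

theorem part1 (g : ↥Co0)
    (h : ∀ v : ↥leechLattice, ∃ w : ↥leechLattice,
      ((g • v : ↥leechLattice) : GolayPt → ℤ) - (v : GolayPt → ℤ) = 2 • (w : GolayPt → ℤ)) :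
    g ∈ Subgroup.center ↥Co0 := by
  rw [Subgroup.mem_center_iff]
  intro k
  apply Subtype.ext
  ext v : 1
  show k.1 (g.1 v) = g.1 (k.1 v)
  rcases scalar_of_cong g.2 h with hs | hs
  · rw [hs, hs]
  · rw [hs, hs, perm_neg k.1 k.2.1]

theorem dotVD : dotInt VD (vec 4 {some 1, some 2} ∅) = 16 := by decide +kernel

theorem dotVB : dotInt (Pi.single (some 1) 8) VB = 16 := by decide +kernel

theorem part2 (M : AddSubgroup (GolayPt → ℤ)) (h2 : ∀ v ∈ leechLattice, (2 : ℤ) • v ∈ M)
    (hle : M ≤ leechLattice)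
    (hinv : ∀ g : ↥Co0, ∀ v : ↥leechLattice, (v : GolayPt → ℤ) ∈ M →
      ((g • v : ↥leechLattice) : GolayPt → ℤ) ∈ M) :
    (∀ x ∈ M, ∃ w ∈ leechLattice, x = (2 : ℤ) • w) ∨ M = leechLattice := by
  by_cases hall : ∀ x ∈ M, ∃ w ∈ leechLattice, x = (2 : ℤ) • w
  · exact Or.inl hall
  · right
    push Not at hall
    obtain ⟨x, hxM, hx⟩ := hall
    obtain ⟨y, hy, hyn, z, hz, hxy⟩ := exists_short x (hle hxM)
    rw [two_nsmul] at hxy
    have hzM : z + z ∈ M := by
      have := h2 z hz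
      rwa [two_zsmul] at this
    have hyM : y ∈ M := by
      have e : y = x - (z + z) := by rw [← hxy]; abel
      rw [e]
      exact M.sub_mem hxM hzM
    have hy0 : y ≠ 0 := by
      rintro rfl
      apply hx z hz
      rw [two_zsmul, ← hxy]
      simp
    have h32 := Cfsg.Agent.S0391.result y hy hy0
    obtain ⟨k, hk⟩ := Cfsg.Agent.S0392.result y hy
    have hcases : sqNorm y = 32 ∨ sqNorm y = 48 ∨ sqNorm y = 64 := by omega
    have hmin : ∃ m : ↥leechLattice, sqNorm (m : GolayPt → ℤ) = 32 ∧ (m : GolayPt → ℤ) ∈ M := by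
      rcases hcases with h | h | h
      · exact ⟨⟨y, hy⟩, h, hyM⟩
      · have hall48 : ∀ u : ↥leechLattice, sqNorm (u : GolayPt → ℤ) = 48 →
            (u : GolayPt → ℤ) ∈ M := by
          intro u hu
          obtain ⟨g, hg, e⟩ := t6_trans ⟨y, hy⟩ u h hu
          have h3 := hinv ⟨g, hg⟩ ⟨y, hy⟩ hyM
          have e' : ((⟨g, hg⟩ : ↥Co0) • (⟨y, hy⟩ : ↥leechLattice) : ↥leechLattice) = u := e
          rw [e'] at h3
          exact h3
        refine ⟨A (some 1) (some 2) (by decide), sqNorm_A _ _ _, ?_⟩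
        have hu2 : sqNorm (((⟨VD, VD_mem⟩ : ↥leechLattice) - A (some 1) (some 2) (by decide) :
            ↥leechLattice) : GolayPt → ℤ) = 48 := by
          rw [AddSubgroup.coe_sub, sqNorm_sub', sqNorm_A]
          show sqNorm VD + 32 - 2 * dotInt VD (vec 4 {some 1, some 2} ∅) = 48
          rw [sqNorm_VD, dotVD]
          norm_num
        have h1 := hall48 ⟨VD, VD_mem⟩ sqNorm_VD
        have h2' := hall48 _ hu2
        have h3 := M.sub_mem h1 h2'
        rw [AddSubgroup.coe_sub] at h3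
        simpa using h3
      · have hall64 : ∀ u : ↥leechLattice, sqNorm (u : GolayPt → ℤ) = 64 →
            (u : GolayPt → ℤ) ∈ M := by
          intro u hu
          obtain ⟨g, hg, e⟩ := t8_trans ⟨y, hy⟩ u h hu
          have h3 := hinv ⟨g, hg⟩ ⟨y, hy⟩ hyM
          have e' : ((⟨g, hg⟩ : ↥Co0) • (⟨y, hy⟩ : ↥leechLattice) : ↥leechLattice) = u := e
          rw [e'] at h3
          exact h3
        refine ⟨⟨VB, VB_mem⟩, sqNorm_VB, ?_⟩
        have hu2 : sqNorm ((E (some 1) - (⟨VB, VB_mem⟩ : ↥leechLattice) :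
            ↥leechLattice) : GolayPt → ℤ) = 64 := by
          rw [AddSubgroup.coe_sub, sqNorm_sub', sqNorm_E]
          show 64 + sqNorm VB - 2 * dotInt (Pi.single (some 1) 8) VB = 64
          rw [sqNorm_VB, dotVB]
          norm_num
        have h1 := hall64 (E (some 1)) (sqNorm_E _)
        have h2' := hall64 _ hu2
        have h3 := M.sub_mem h1 h2'
        rw [AddSubgroup.coe_sub] at h3
        simpa using h3
    obtain ⟨m, hm, hmM⟩ := hmin
    apply le_antisymm hle
    rw [← Cfsg.Agent.S1567.result, AddSubgroup.closure_le]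
    rintro v ⟨hv, hvn⟩
    obtain ⟨g, hg, e⟩ := min_trans m ⟨v, hv⟩ hm hvn
    have h3 := hinv ⟨g, hg⟩ m hmM
    have e' : ((⟨g, hg⟩ : ↥Co0) • m : ↥leechLattice) = ⟨v, hv⟩ := e
    rw [e'] at h3
    exact h3

end Cfsg.Agent.Lib.Helper11.LeechMod2
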