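import Mathlib
import Cfsg.Agent.Lib.Helper11.LeechHS2
import Cfsg.Agent.Lib.Helper11.LeechMod2

set_option autoImplicit false

namespace Cfsg.Agent.Lib.Helper11.LeechSt

open Cfsg Cfsg.Agent.Lib.Helper3.Golay Cfsg.Agent.Lib.Helper3.Golay2
open Cfsg.Agent.Lib.Helper3.Leech Cfsg.Agent.Lib.Helper3.Leech2 Cfsg.Agent.Lib.Helper3.Leech4
open Cfsg.Agent.Lib.Helper3.GolayM24 Cfsg.Agent.Lib.Helper3.M24Perm
open Cfsg.Agent.Lib.Helper3.M24Trans Cfsg.Agent.Lib.Helper3.M24Cert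
open Cfsg.Agent.Lib.Helper11.LeechGF Cfsg.Agent.Lib.Helper11.Co0Mono
open Cfsg.Agent.Lib.Helper11.LeechIP Cfsg.Agent.Lib.Helper11.LeechXi

/-! ### Five-fold transitivity -/

theorem trans5 (p q r s t p' q' r' s' t' : GolayPt) (h1 : p ≠ q) (h2 : p ≠ r) (h3 : q ≠ r)
    (h4 : p ≠ s) (h5 : q ≠ s) (h6 : r ≠ s) (h7 : p ≠ t) (h8 : q ≠ t) (h9 : r ≠ t)
    (h10 : s ≠ t)
    (h1' : p' ≠ q') (h2' : p' ≠ r') (h3' : q' ≠ r') (h4' : p' ≠ s') (h5' : q' ≠ s')
    (h6' : r' ≠ s') (h7' : p' ≠ t') (h8' : q' ≠ t') (h9' : r' ≠ t') (h10' : s' ≠ t') :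
    ∃ g ∈ M24, g p = p' ∧ g q = q' ∧ g r = r' ∧ g s = s' ∧ g t = t' := by
  obtain ⟨σ, hσ, e0, e1, e2, e3, e4⟩ := map5 p q r s t h1 h2 h3 h4 h5 h6 h7 h8 h9 h10
  obtain ⟨τ, hτ, e0', e1', e2', e3', e4'⟩ :=
    map5 p' q' r' s' t' h1' h2' h3' h4' h5' h6' h7' h8' h9' h10'
  rw [fixG_nil] at hσ hτ
  refine ⟨τ * σ⁻¹, M24.mul_mem hτ (M24.inv_mem hσ), ?_, ?_, ?_, ?_, ?_⟩
  · rw [Equiv.Perm.mul_apply, ← e0, Equiv.Perm.coe_inv, Equiv.symm_apply_apply, e0']
  · rw [Equiv.Perm.mul_apply, ← e1, Equiv.Perm.coe_inv, Equiv.symm_apply_apply, e1']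
  · rw [Equiv.Perm.mul_apply, ← e2, Equiv.Perm.coe_inv, Equiv.symm_apply_apply, e2']
  · rw [Equiv.Perm.mul_apply, ← e3, Equiv.Perm.coe_inv, Equiv.symm_apply_apply, e3']
  · rw [Equiv.Perm.mul_apply, ← e4, Equiv.Perm.coe_inv, Equiv.symm_apply_apply, e4']

/-! ### Normalised Higman–Sims triples -/

/-- A normalised Higman–Sims triple. -/
structure Nrm (v w x : ↥leechLattice) : Prop where
  hv : sqNorm (v : GolayPt → ℤ) = 48
  hw : sqNorm (w : GolayPt → ℤ) = 48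
  hvw : dotInt (v : GolayPt → ℤ) (w : GolayPt → ℤ) = -32
  hx : sqNorm (x : GolayPt → ℤ) = 32
  hvx : dotInt (v : GolayPt → ℤ) (x : GolayPt → ℤ) = 24
  hwx : dotInt (w : GolayPt → ℤ) (x : GolayPt → ℤ) = -24
  e0 : v + w = V0'
  ea : (x : GolayPt → ℤ) = Wc0
  b0 : ((v - x : ↥leechLattice) : GolayPt → ℤ) p0 = 3
  b1 : ((v - x : ↥leechLattice) : GolayPt → ℤ) p1 = 1

/-- The hundred points. -/
def HS (v w : ↥leechLattice) : Set ↥leechLattice :=
  {y | sqNorm (y : GolayPt → ℤ) = 32 ∧ dotInt (v : GolayPt → ℤ) (y : GolayPt → ℤ) = 24 ∧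
    dotInt (w : GolayPt → ℤ) (y : GolayPt → ℤ) = -24}

section

variable {v w x : ↥leechLattice}

theorem Nrm.nb (N : Nrm v w x) : sqNorm ((v - x : ↥leechLattice) : GolayPt → ℤ) = 32 := by
  rw [AddSubgroup.coe_sub, sqNorm_sub', N.hv, N.hx, N.hvx]; norm_num

theorem Nrm.bk (N : Nrm v w x) (j : GolayPt) (h0 : j ≠ p0) (h1 : j ≠ p1) :
    ((v - x : ↥leechLattice) : GolayPt → ℤ) j = 1 ∨
      ((v - x : ↥leechLattice) : GolayPt → ℤ) j = -1 := by
  obtain ⟨c, _, _, _, _, h⟩ := pat31 (v - x) N.nb N.b0 N.b1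
  exact h j h0 h1

theorem Nrm.vw (N : Nrm v w x) : (v : GolayPt → ℤ) + (w : GolayPt → ℤ) = V0 := by
  have h := congrArg (fun z : ↥leechLattice => (z : GolayPt → ℤ)) N.e0
  exact h

/-- `y_{p0} + y_{p1} = 0` on the hundred points. -/
theorem Nrm.f1 (N : Nrm v w x) {y : ↥leechLattice} (hy : y ∈ HS v w) :
    (y : GolayPt → ℤ) p0 + (y : GolayPt → ℤ) p1 = 0 := by
  have h := dot_V0 (y : GolayPt → ℤ)
  rw [← N.vw, dot_add_left, hy.2.1, hy.2.2] at h
  linarith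

theorem Nrm.f2 (N : Nrm v w x) (y : GolayPt → ℤ) :
    dotInt (x : GolayPt → ℤ) y = 4 * (y p1 - y p0) := by
  rw [N.ea, dot_Wc0]

theorem Nrm.f3 (_N : Nrm v w x) {y : ↥leechLattice} (hy : y ∈ HS v w) :
    dotInt ((v - x : ↥leechLattice) : GolayPt → ℤ) (y : GolayPt → ℤ) =
      24 - dotInt (x : GolayPt → ℤ) (y : GolayPt → ℤ) := by
  rw [AddSubgroup.coe_sub, dot_sub_left, hy.2.1]


/-- Monomial elements fixing a normalised triple. -/
theorem Nrm.stab_el (N : Nrm v w x) (π : Equiv.Perm GolayPt) (hπ : π ∈ M24) (h0 : π p0 = p0)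
    (h1 : π p1 = p1) :
    ∃ g ∈ Co0, g v = v ∧ g w = w ∧ g x = x ∧
      (∀ y : ↥leechLattice, ((g y : ↥leechLattice) : GolayPt → ℤ) p0 = (y : GolayPt → ℤ) p0) ∧
      (∀ (y : ↥leechLattice) (i : GolayPt), (y : GolayPt → ℤ) i ≠ 0 →
        ((g y : ↥leechLattice) : GolayPt → ℤ) (π i) ≠ 0) := by
  have s0 : ∀ j, π.symm j = p0 ↔ j = p0 := fun j => by rw [Equiv.symm_apply_eq, h0]
  have s1 : ∀ j, π.symm j = p1 ↔ j = p1 := fun j => by rw [Equiv.symm_apply_eq, h1]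
  have c0 : prmP π hπ V0' = V0' := by
    apply Subtype.ext
    rw [prmP_apply]
    funext j
    show V0 (π.symm j) = V0 j
    unfold V0
    simp only [s0, s1]
  have cx : prmP π hπ x = x := by
    apply Subtype.ext
    rw [prmP_apply, N.ea]
    funext j
    show Wc0 (π.symm j) = Wc0 j
    unfold Wc0
    simp only [s0, s1]
  have cb0 : ((prmP π hπ (v - x) : ↥leechLattice) : GolayPt → ℤ) p0 = 3 := by
    rw [prmP_apply]
    show ((v - x : ↥leechLattice) : GolayPt → ℤ) (π.symm p0) = 3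
    rw [(s0 p0).mpr rfl]; exact N.b0
  have cb1 : ((prmP π hπ (v - x) : ↥leechLattice) : GolayPt → ℤ) p1 = 1 := by
    rw [prmP_apply]
    show ((v - x : ↥leechLattice) : GolayPt → ℤ) (π.symm p1) = 1
    rw [(s1 p1).mpr rfl]; exact N.b1
  obtain ⟨d, hd, m0, m1, e5⟩ := fin31 (prmP π hπ (v - x)) (v - x)
    (by rw [(prmP_mem π hπ).2]; exact N.nb) N.nb cb0 cb1 N.b0 N.b1
  have hs : sgnP d hd ∈ St := sgn_St d hd m0 m1
  have hsC := (mem_St.mp hs).1
  have hg : sgnP d hd * prmP π hπ ∈ Co0 := Co0.mul_mem hsC (prmP_mem π hπ)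
  have g0 : (sgnP d hd * prmP π hπ) V0' = V0' := by
    rw [Equiv.Perm.mul_apply, c0]; exact (mem_St.mp hs).2
  have gx : (sgnP d hd * prmP π hπ) x = x := by
    rw [Equiv.Perm.mul_apply, cx]
    apply Subtype.ext
    rw [sgnP_apply, N.ea, sgn_Wc0 d m0 m1]
  have gb : (sgnP d hd * prmP π hπ) (v - x) = v - x := by
    rw [Equiv.Perm.mul_apply, e5]
  have gv : (sgnP d hd * prmP π hπ) v = v := by
    calc (sgnP d hd * prmP π hπ) v = (sgnP d hd * prmP π hπ) (x + (v - x)) := by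
          rw [add_sub_cancel]
      _ = (sgnP d hd * prmP π hπ) x + (sgnP d hd * prmP π hπ) (v - x) := hg.1 _ _
      _ = x + (v - x) := by rw [gx, gb]
      _ = v := add_sub_cancel _ _
  have gw : (sgnP d hd * prmP π hπ) w = w := by
    calc (sgnP d hd * prmP π hπ) w = (sgnP d hd * prmP π hπ) ((v + w) + -v) := by
          rw [add_neg_cancel_comm]
      _ = (sgnP d hd * prmP π hπ) (v + w) + (sgnP d hd * prmP π hπ) (-v) := hg.1 _ _
      _ = (v + w) + -v := by rw [N.e0, g0, perm_neg _ hg.1, gv]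
      _ = w := add_neg_cancel_comm _ _
  refine ⟨_, hg, gv, gw, gx, ?_, ?_⟩
  · intro y
    rw [Equiv.Perm.mul_apply, sgnP_apply]
    unfold sgnF
    rw [if_neg m0, prmP_apply]
    show (y : GolayPt → ℤ) (π.symm p0) = _
    rw [(s0 p0).mpr rfl]
  · intro y i hi
    rw [Equiv.Perm.mul_apply, sgnP_apply]
    unfold sgnF
    have e : prmF π (y : GolayPt → ℤ) (π i) = (y : GolayPt → ℤ) i := by
      show (y : GolayPt → ℤ) (π.symm (π i)) = _
      rw [Equiv.symm_apply_apply]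
    rw [prmP_apply]
    split_ifs
    · rw [e]; exact neg_ne_zero.mpr hi
    · rw [e]; exact hi

theorem Nrm.mem_of_stab (_N : Nrm v w x) {g : Equiv.Perm ↥leechLattice} (hg : g ∈ Co0)
    (gv : g v = v) (gw : g w = w) {y : ↥leechLattice} (hy : y ∈ HS v w) : g y ∈ HS v w := by
  refine ⟨by rw [hg.2]; exact hy.1, ?_, ?_⟩
  · have := dot_co0 hg v y
    rw [gv] at this
    rw [this]; exact hy.2.1
  · have := dot_co0 hg w y
    rw [gw] at this
    rw [this]; exact hy.2.2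

end

/-! ### Minimal vectors with a coordinate `4` -/

theorem four_shape (Z : ↥leechLattice) (hZ : sqNorm (Z : GolayPt → ℤ) = 32)
    (h4 : (Z : GolayPt → ℤ) p0 = 4) :
    ∃ k, k ≠ p0 ∧ ((Z : GolayPt → ℤ) k = 4 ∨ (Z : GolayPt → ℤ) k = -4) ∧
      ∀ j, j ≠ p0 → j ≠ k → (Z : GolayPt → ℤ) j = 0 := by
  rcases profile Z hZ with ⟨i, hi⟩ | ⟨o, _, ho⟩ | ⟨P, hP, hp⟩
  · exfalso
    have := hi p0
    rw [h4] at this
    split_ifs at this <;> norm_num at this
  · exfalso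
    have := ho p0
    rw [h4] at this
    split_ifs at this <;> norm_num at this
  · have m0 : p0 ∈ P := by
      by_contra hcon
      have := hp p0
      rw [h4, if_neg hcon] at this
      norm_num at this
    have hc : (P.erase p0).card = 1 := by rw [Finset.card_erase_of_mem m0, hP]
    obtain ⟨k, hk⟩ := Finset.card_eq_one.mp hc
    have hk' : k ∈ P.erase p0 := by rw [hk]; exact Finset.mem_singleton_self k
    rw [Finset.mem_erase] at hk'
    refine ⟨k, hk'.1, ?_, ?_⟩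
    · have := hp k
      rw [if_pos hk'.2] at this
      rcases abs_cases this with h | h
      · left; exact h
      · right; exact h
    · intro j hj0 hjk
      have hjP : j ∉ P := by
        intro hcon
        have : j ∈ P.erase p0 := Finset.mem_erase.mpr ⟨hj0, hcon⟩
        rw [hk, Finset.mem_singleton] at this
        exact hjk this
      have := hp j
      rw [if_neg hjP] at this
      exact abs_eq_zero.mp this

theorem dot_pair (u Z : GolayPt → ℤ) (k : GolayPt) (hk : k ≠ p0)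
    (hz : ∀ j, j ≠ p0 → j ≠ k → Z j = 0) : dotInt u Z = u p0 * Z p0 + u k * Z k := by
  unfold dotInt
  rw [Fintype.sum_eq_add p0 k hk.symm]
  intro j hj
  rw [hz j hj.1 hj.2, mul_zero]

/-- The vector `4 e_{p0} + 4 s e_k`. -/
def Zv (s : ℤ) (k : GolayPt) : GolayPt → ℤ :=
  fun j => if j = p0 then 4 else if j = k then 4 * s else 0

theorem Zv_off (s : ℤ) (k : GolayPt) : ∀ j, j ≠ p0 → j ≠ k → Zv s k j = 0 := by
  intro j h0 hk
  unfold Zv
  rw [if_neg h0, if_neg hk]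

theorem Zv_p0 (s : ℤ) (k : GolayPt) : Zv s k p0 = 4 := by
  unfold Zv; rw [if_pos rfl]

theorem Zv_k (s : ℤ) (k : GolayPt) (hk : k ≠ p0) : Zv s k k = 4 * s := by
  unfold Zv; rw [if_neg hk, if_pos rfl]

theorem dot_Zv (u : GolayPt → ℤ) (s : ℤ) (k : GolayPt) (hk : k ≠ p0) :
    dotInt u (Zv s k) = 4 * u p0 + 4 * s * u k := by
  rw [dot_pair u (Zv s k) k hk (Zv_off s k), Zv_p0, Zv_k s k hk]; ring

theorem Zv_mem (s : ℤ) (k : GolayPt) (hk : k ≠ p0) (hs : s = 1 ∨ s = -1) :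
    Zv s k ∈ leechLattice := by
  have hk' : p0 ≠ k := hk.symm
  rcases hs with rfl | rfl
  · have : Zv 1 k = (Cfsg.Agent.Lib.Helper11.LeechMod2.A p0 k hk' : GolayPt → ℤ) := by
      funext j
      show _ = vec 4 {p0, k} ∅ j
      unfold Zv vec
      by_cases hj : j = p0
      · simp [hj]
      · by_cases hjk : j = k
        · simp [hjk, hk]
        · simp [hj, hjk]
    rw [this]; exact (Cfsg.Agent.Lib.Helper11.LeechMod2.A p0 k hk').2
  · have : Zv (-1) k = (Cfsg.Agent.Lib.Helper11.LeechMod2.B p0 k hk' : GolayPt → ℤ) := by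
      funext j
      show _ = vec 4 {p0, k} {k} j
      unfold Zv vec
      by_cases hj : j = p0
      · simp [hj, hk']
      · by_cases hjk : j = k
        · simp [hjk, hk]
        · simp [hj, hjk]
    rw [this]; exact (Cfsg.Agent.Lib.Helper11.LeechMod2.B p0 k hk').2

/-- The points adjacent to the base point. -/
def F1 (b : ↥leechLattice) (k : GolayPt) : ↥leechLattice :=
  if h : k ≠ p0 ∧ ((b : GolayPt → ℤ) k = 1 ∨ (b : GolayPt → ℤ) k = -1) then
    b - ⟨Zv ((b : GolayPt → ℤ) k) k, Zv_mem _ k h.1 h.2⟩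
  else 0

theorem F1_val (b : ↥leechLattice) (k : GolayPt) (h0 : k ≠ p0)
    (hb : (b : GolayPt → ℤ) k = 1 ∨ (b : GolayPt → ℤ) k = -1) :
    ((F1 b k : ↥leechLattice) : GolayPt → ℤ) =
      (b : GolayPt → ℤ) - Zv ((b : GolayPt → ℤ) k) k := by
  unfold F1
  rw [dif_pos ⟨h0, hb⟩]
  rfl

theorem off_card : {k : GolayPt | k ≠ p0 ∧ k ≠ p1}.ncard = 22 := by
  have : {k : GolayPt | k ≠ p0 ∧ k ≠ p1} =
      (((Finset.univ.erase p0).erase p1 : Finset GolayPt) : Set GolayPt) := by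
    ext k
    simp
  rw [this, Set.ncard_coe_finset]
  decide

section

variable {v w x : ↥leechLattice}

theorem Nrm.F1_mem (N : Nrm v w x) (k : GolayPt) (h0 : k ≠ p0) (h1 : k ≠ p1) :
    F1 (v - x) k ∈ HS v w ∧
      dotInt (x : GolayPt → ℤ) ((F1 (v - x) k : ↥leechLattice) : GolayPt → ℤ) = 8 := by
  have hb := N.bk k h0 h1
  have hsq : ((v - x : ↥leechLattice) : GolayPt → ℤ) k *
      ((v - x : ↥leechLattice) : GolayPt → ℤ) k = 1 := by
    rcases hb with h | h <;> rw [h] <;> norm_num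
  have ev := F1_val (v - x) k h0 hb
  have hw' : (w : GolayPt → ℤ) = V0 - (v : GolayPt → ℤ) := eq_sub_of_add_eq' N.vw
  have hbv : ((v - x : ↥leechLattice) : GolayPt → ℤ) = (v : GolayPt → ℤ) - (x : GolayPt → ℤ) :=
    AddSubgroup.coe_sub _ v x
  have Z1 : Zv (((v - x : ↥leechLattice) : GolayPt → ℤ) k) k p1 = 0 :=
    Zv_off _ k p1 (by decide) (Ne.symm h1)
  have xk : (x : GolayPt → ℤ) k = 0 := by
    rw [N.ea]; unfold Wc0; rw [if_neg h0, if_neg h1]
  have x0 : (x : GolayPt → ℤ) p0 = -4 := by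
    rw [N.ea]; unfold Wc0; rw [if_pos rfl]
  have vk : (v : GolayPt → ℤ) k = ((v - x : ↥leechLattice) : GolayPt → ℤ) k := by
    rw [hbv, Pi.sub_apply, xk, sub_zero]
  have v0 : (v : GolayPt → ℤ) p0 = -1 := by
    have := N.b0
    rw [hbv, Pi.sub_apply, x0] at this
    linarith
  have dbZ : dotInt ((v - x : ↥leechLattice) : GolayPt → ℤ)
      (Zv (((v - x : ↥leechLattice) : GolayPt → ℤ) k) k) = 16 := by
    rw [dot_Zv _ _ _ h0, N.b0]; linarith
  have dZZ : sqNorm (Zv (((v - x : ↥leechLattice) : GolayPt → ℤ) k) k) = 32 := by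
    rw [← dot_self, dot_Zv _ _ _ h0, Zv_p0, Zv_k _ _ h0]; linarith
  have dvZ : dotInt (v : GolayPt → ℤ) (Zv (((v - x : ↥leechLattice) : GolayPt → ℤ) k) k) = 0 := by
    rw [dot_Zv _ _ _ h0, v0, vk]; linarith
  have dvb : dotInt (v : GolayPt → ℤ) ((v - x : ↥leechLattice) : GolayPt → ℤ) = 24 := by
    rw [hbv, dot_sub_right, dot_self, N.hv, N.hvx]; norm_num
  have dVb : dotInt V0 ((v - x : ↥leechLattice) : GolayPt → ℤ) = 16 := by
    rw [dot_V0, N.b0, N.b1]; norm_num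
  have dVZ : dotInt V0 (Zv (((v - x : ↥leechLattice) : GolayPt → ℤ) k) k) = 16 := by
    rw [dot_V0, Zv_p0, Z1]; norm_num
  refine ⟨⟨?_, ?_, ?_⟩, ?_⟩
  · rw [ev, sqNorm_sub', N.nb, dZZ, dbZ]; norm_num
  · rw [ev, dot_sub_right, dvb, dvZ]; norm_num
  · rw [ev, hw', dot_sub_left, dot_sub_right, dot_sub_right, dVb, dVZ, dvb, dvZ]; norm_num
  · rw [ev, dot_sub_right, N.f2, N.f2, N.b0, N.b1, Zv_p0, Z1]; norm_num

theorem Nrm.T1_struct (N : Nrm v w x) {y : ↥leechLattice} (hy : y ∈ HS v w)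
    (hxy : dotInt (x : GolayPt → ℤ) (y : GolayPt → ℤ) = 8) :
    ∃ k, k ≠ p0 ∧ k ≠ p1 ∧ y = F1 (v - x) k := by
  have f1 := N.f1 hy
  have f2 := N.f2 (y : GolayPt → ℤ)
  rw [hxy] at f2
  have f3 := N.f3 hy
  rw [hxy] at f3
  have y0 : (y : GolayPt → ℤ) p0 = -1 := by linarith
  have y1 : (y : GolayPt → ℤ) p1 = 1 := by linarith
  have nZ : sqNorm ((v - x - y : ↥leechLattice) : GolayPt → ℤ) = 32 := by
    rw [AddSubgroup.coe_sub, sqNorm_sub', N.nb, hy.1, f3]; norm_num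
  have Z0 : ((v - x - y : ↥leechLattice) : GolayPt → ℤ) p0 = 4 := by
    rw [AddSubgroup.coe_sub, Pi.sub_apply, N.b0, y0]; norm_num
  have Z1 : ((v - x - y : ↥leechLattice) : GolayPt → ℤ) p1 = 0 := by
    rw [AddSubgroup.coe_sub, Pi.sub_apply, N.b1, y1]; norm_num
  obtain ⟨k, hk0, hk4, hoff⟩ := four_shape (v - x - y) nZ Z0
  have hk1 : k ≠ p1 := by
    rintro rfl
    rw [Z1] at hk4
    rcases hk4 with h | h <;> norm_num at h
  have hb := N.bk k hk0 hk1
  have dbZ : dotInt ((v - x : ↥leechLattice) : GolayPt → ℤ)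
      ((v - x - y : ↥leechLattice) : GolayPt → ℤ) = 16 := by
    rw [AddSubgroup.coe_sub _ (v - x) y, dot_sub_right, dot_self, N.nb, f3]; norm_num
  rw [dot_pair _ _ k hk0 hoff, N.b0, Z0] at dbZ
  have hZk : ((v - x - y : ↥leechLattice) : GolayPt → ℤ) k =
      4 * ((v - x : ↥leechLattice) : GolayPt → ℤ) k := by
    rcases hb with h | h <;> rcases hk4 with h' | h' <;> rw [h, h'] at dbZ <;> rw [h, h'] <;>
      omega
  refine ⟨k, hk0, hk1, ?_⟩
  apply Subtype.ext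
  rw [F1_val (v - x) k hk0 hb]
  have hZ : ((v - x - y : ↥leechLattice) : GolayPt → ℤ) =
      Zv (((v - x : ↥leechLattice) : GolayPt → ℤ) k) k := by
    funext j
    by_cases hj0 : j = p0
    · rw [hj0, Z0, Zv_p0]
    · by_cases hjk : j = k
      · rw [hjk, hZk, Zv_k _ _ hk0]
      · rw [hoff j hj0 hjk, Zv_off _ _ j hj0 hjk]
  rw [← hZ, AddSubgroup.coe_sub _ (v - x) y]
  abel

theorem Nrm.F1_inj (N : Nrm v w x) (k k' : GolayPt) (h0 : k ≠ p0) (h1 : k ≠ p1)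
    (h0' : k' ≠ p0) (h1' : k' ≠ p1) (h : F1 (v - x) k = F1 (v - x) k') : k = k' := by
  have hb := N.bk k h0 h1
  have hb' := N.bk k' h0' h1'
  have e := congrArg (fun z : ↥leechLattice => (z : GolayPt → ℤ) k) h
  beta_reduce at e
  rw [F1_val _ k h0 hb, F1_val _ k' h0' hb', Pi.sub_apply, Pi.sub_apply, Zv_k _ _ h0] at e
  by_contra hne
  rw [Zv_off _ _ k h0 hne] at e
  rcases hb with h | h <;> rw [h] at e <;> omega

theorem Nrm.T1_card (N : Nrm v w x) :
    {y : ↥leechLattice | y ∈ HS v w ∧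
      dotInt (x : GolayPt → ℤ) (y : GolayPt → ℤ) = 8}.ncard = 22 := by
  have himg : {y : ↥leechLattice | y ∈ HS v w ∧
      dotInt (x : GolayPt → ℤ) (y : GolayPt → ℤ) = 8} =
      F1 (v - x) '' {k : GolayPt | k ≠ p0 ∧ k ≠ p1} := by
    ext y
    constructor
    · rintro ⟨hy, hxy⟩
      obtain ⟨k, h0, h1, e⟩ := N.T1_struct hy hxy
      exact ⟨k, ⟨h0, h1⟩, e.symm⟩
    · rintro ⟨k, ⟨h0, h1⟩, rfl⟩
      exact N.F1_mem k h0 h1
  rw [himg, Set.InjOn.ncard_image, off_card]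
  intro k hk k' hk' h
  exact N.F1_inj k k' hk.1 hk.2 hk'.1 hk'.2 h

/-- Dichotomy for the other points. -/
theorem Nrm.dich (N : Nrm v w x) {y : ↥leechLattice} (hy : y ∈ HS v w) (hne : y ≠ x) :
    dotInt (x : GolayPt → ℤ) (y : GolayPt → ℤ) = 8 ∨
      dotInt (x : GolayPt → ℤ) (y : GolayPt → ℤ) = 16 := by
  have f1 := N.f1 hy
  have f2 := N.f2 (y : GolayPt → ℤ)
  have f3 := N.f3 hy
  have up : dotInt (x : GolayPt → ℤ) (y : GolayPt → ℤ) ≤ 16 := by
    have hne' : ((x - y : ↥leechLattice) : GolayPt → ℤ) ≠ 0 := by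
      intro h0
      apply hne
      have : x - y = 0 := Subtype.ext h0
      exact (sub_eq_zero.mp this).symm
    have h3 := Cfsg.Agent.S0391.result _ (x - y).2 hne'
    rw [AddSubgroup.coe_sub, sqNorm_sub', N.hx, hy.1] at h3
    linarith
  have lo : 8 ≤ dotInt (x : GolayPt → ℤ) (y : GolayPt → ℤ) := by
    have hne' : ((v - x - y : ↥leechLattice) : GolayPt → ℤ) ≠ 0 := by
      intro h0
      have e : v - x - y = 0 := Subtype.ext h0
      have e' : y = v - x := (sub_eq_zero.mp e).symm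
      have hwb : dotInt (w : GolayPt → ℤ) ((v - x : ↥leechLattice) : GolayPt → ℤ) = -8 := by
        rw [AddSubgroup.coe_sub, dot_sub_right, dot_comm (w : GolayPt → ℤ) (v : GolayPt → ℤ),
          N.hvw, N.hwx]
        norm_num
      have := hy.2.2
      rw [e', hwb] at this
      norm_num at this
    have h3 := Cfsg.Agent.S0391.result _ (v - x - y).2 hne'
    rw [AddSubgroup.coe_sub, sqNorm_sub', N.nb, hy.1, f3] at h3
    linarith
  have : dotInt (x : GolayPt → ℤ) (y : GolayPt → ℤ) = 8 * (y : GolayPt → ℤ) p1 := by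
    rw [f2]; linarith
  omega

theorem Nrm.T2_struct (N : Nrm v w x) {y : ↥leechLattice} (hy : y ∈ HS v w)
    (hxy : dotInt (x : GolayPt → ℤ) (y : GolayPt → ℤ) = 16) :
    (y : GolayPt → ℤ) p0 = -2 ∧ (y : GolayPt → ℤ) p1 = 2 ∧
    (∀ j, j ≠ p0 → j ≠ p1 → (y : GolayPt → ℤ) j = 0 ∨
      (y : GolayPt → ℤ) j = 2 * ((v - x : ↥leechLattice) : GolayPt → ℤ) j) ∧
    ∃ k1 k2 k3 : GolayPt, k1 ≠ k2 ∧ k1 ≠ k3 ∧ k2 ≠ k3 ∧ k1 ≠ p0 ∧ k1 ≠ p1 ∧ k2 ≠ p0 ∧
      k2 ≠ p1 ∧ k3 ≠ p0 ∧ k3 ≠ p1 ∧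
      (y : GolayPt → ℤ) k1 ≠ 0 ∧ (y : GolayPt → ℤ) k2 ≠ 0 ∧ (y : GolayPt → ℤ) k3 ≠ 0 := by
  have f1 := N.f1 hy
  have f2 := N.f2 (y : GolayPt → ℤ)
  rw [hxy] at f2
  have f3 := N.f3 hy
  rw [hxy] at f3
  have y0 : (y : GolayPt → ℤ) p0 = -2 := by linarith
  have y1 : (y : GolayPt → ℤ) p1 = 2 := by linarith
  rcases profile y hy.1 with ⟨i, hi⟩ | ⟨o, ho8, ho⟩ | ⟨P, hP, hp⟩
  · exfalso
    have := hi p0
    rw [y0] at this
    split_ifs at this <;> norm_num at this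
  · have m0 : p0 ∈ o := by
      by_contra hcon
      have := ho p0
      rw [y0, if_neg hcon] at this
      norm_num at this
    have m1 : p1 ∈ o := by
      by_contra hcon
      have := ho p1
      rw [y1, if_neg hcon] at this
      norm_num at this
    have habs : ∑ j, |(y : GolayPt → ℤ) j| = 16 := by
      rw [Finset.sum_congr rfl (fun j _ => ho j), Finset.sum_ite_mem, Finset.univ_inter,
        Finset.sum_const, ho8]
      rfl
    have hsum := split2 (fun j => |(y : GolayPt → ℤ) j| -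
      ((v - x : ↥leechLattice) : GolayPt → ℤ) j * (y : GolayPt → ℤ) j)
    rw [Finset.sum_sub_distrib, habs] at hsum
    have hdot : ∑ j, ((v - x : ↥leechLattice) : GolayPt → ℤ) j * (y : GolayPt → ℤ) j = 8 := by
      have := f3
      unfold dotInt at this
      linarith
    rw [hdot] at hsum
    rw [N.b0, N.b1, y0, y1] at hsum
    have hT : ∑ j ∈ (Finset.univ.erase p0).erase p1, (|(y : GolayPt → ℤ) j| -
        ((v - x : ↥leechLattice) : GolayPt → ℤ) j * (y : GolayPt → ℤ) j) = 0 := by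
      have e1 : |(-2 : ℤ)| = 2 := by norm_num
      have e2 : |(2 : ℤ)| = 2 := by norm_num
      rw [e1, e2] at hsum
      linarith
    have hnn : ∀ j ∈ (Finset.univ.erase p0).erase p1, 0 ≤ |(y : GolayPt → ℤ) j| -
        ((v - x : ↥leechLattice) : GolayPt → ℤ) j * (y : GolayPt → ℤ) j := by
      intro j hj
      rw [Finset.mem_erase, Finset.mem_erase] at hj
      rcases N.bk j hj.2.1 hj.1 with h | h
      · rw [h, one_mul]; exact sub_nonneg.mpr (le_abs_self _)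
      · rw [h, neg_one_mul]; exact sub_nonneg.mpr (neg_le_abs _)
    have hz := (Finset.sum_eq_zero_iff_of_nonneg hnn).mp hT
    refine ⟨y0, y1, ?_, ?_⟩
    · intro j hj0 hj1
      have h := hz j (Finset.mem_erase.mpr ⟨hj1, Finset.mem_erase.mpr ⟨hj0, Finset.mem_univ j⟩⟩)
      beta_reduce at h
      have ha := ho j
      by_cases hjo : j ∈ o
      · right
        rw [if_pos hjo] at ha
        rw [ha] at h
        rcases N.bk j hj0 hj1 with hb | hb
        · rw [hb] at h ⊢; linarith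
        · rw [hb] at h ⊢; linarith
      · left
        rw [if_neg hjo] at ha
        exact abs_eq_zero.mp ha
    · have hc : 3 ≤ ((o.erase p0).erase p1).card := by
        rw [Finset.card_erase_of_mem (Finset.mem_erase.mpr ⟨by decide, m1⟩),
          Finset.card_erase_of_mem m0, ho8]
        norm_num
      obtain ⟨t, ht, htc⟩ := Finset.exists_subset_card_eq hc
      obtain ⟨k1, k2, k3, h12, h13, h23, rfl⟩ := Finset.card_eq_three.mp htc
      have mem : ∀ k ∈ ({k1, k2, k3} : Finset GolayPt),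
          k ≠ p0 ∧ k ≠ p1 ∧ (y : GolayPt → ℤ) k ≠ 0 := by
        intro k hk
        have := ht hk
        rw [Finset.mem_erase, Finset.mem_erase] at this
        refine ⟨this.2.1, this.1, ?_⟩
        intro h0
        have ha := ho k
        rw [h0, if_pos this.2.2] at ha
        norm_num at ha
      have q1 := mem k1 (by simp)
      have q2 := mem k2 (by simp)
      have q3 := mem k3 (by simp)
      exact ⟨k1, k2, k3, h12, h13, h23, q1.1, q1.2.1, q2.1, q2.2.1, q3.1, q3.2.1, q1.2.2,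
        q2.2.2, q3.2.2⟩
  · exfalso
    have := hp p0
    rw [y0] at this
    split_ifs at this <;> norm_num at this

theorem Nrm.T2_unique (N : Nrm v w x) {y y' : ↥leechLattice} (hy : y ∈ HS v w)
    (hy' : y' ∈ HS v w) (hxy : dotInt (x : GolayPt → ℤ) (y : GolayPt → ℤ) = 16)
    (hxy' : dotInt (x : GolayPt → ℤ) (y' : GolayPt → ℤ) = 16)
    (k1 k2 k3 : GolayPt) (h12 : k1 ≠ k2) (h13 : k1 ≠ k3) (h23 : k2 ≠ k3)
    (a1 : k1 ≠ p0) (b1 : k1 ≠ p1) (a2 : k2 ≠ p0) (b2 : k2 ≠ p1) (a3 : k3 ≠ p0) (b3 : k3 ≠ p1)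
    (n1 : (y : GolayPt → ℤ) k1 ≠ 0) (n2 : (y : GolayPt → ℤ) k2 ≠ 0)
    (n3 : (y : GolayPt → ℤ) k3 ≠ 0) (n1' : (y' : GolayPt → ℤ) k1 ≠ 0)
    (n2' : (y' : GolayPt → ℤ) k2 ≠ 0) (n3' : (y' : GolayPt → ℤ) k3 ≠ 0) : y = y' := by
  obtain ⟨y0, y1, hc, _⟩ := N.T2_struct hy hxy
  obtain ⟨y0', y1', hc', _⟩ := N.T2_struct hy' hxy'
  by_contra hne
  have hne' : ((y - y' : ↥leechLattice) : GolayPt → ℤ) ≠ 0 := by
    intro h0
    exact hne (sub_eq_zero.mp (Subtype.ext h0))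
  have h3 := Cfsg.Agent.S0391.result _ (y - y').2 hne'
  rw [AddSubgroup.coe_sub, sqNorm_sub', hy.1, hy'.1] at h3
  have hdot : dotInt (y : GolayPt → ℤ) (y' : GolayPt → ℤ) ≤ 16 := by linarith
  have hbb : ∀ j, j ≠ p0 → j ≠ p1 → 2 * ((v - x : ↥leechLattice) : GolayPt → ℤ) j *
      (2 * ((v - x : ↥leechLattice) : GolayPt → ℤ) j) = 4 := by
    intro j hj0 hj1
    rcases N.bk j hj0 hj1 with hb | hb <;> rw [hb] <;> norm_num
  have hterm : ∀ j, 0 ≤ (y : GolayPt → ℤ) j * (y' : GolayPt → ℤ) j := by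
    intro j
    by_cases hj0 : j = p0
    · rw [hj0, y0, y0']; norm_num
    · by_cases hj1 : j = p1
      · rw [hj1, y1, y1']; norm_num
      · rcases hc j hj0 hj1 with h | h <;> rcases hc' j hj0 hj1 with h' | h' <;> rw [h, h']
        · norm_num
        · norm_num
        · norm_num
        · rw [hbb j hj0 hj1]; norm_num
  have hk : ∀ k, k ≠ p0 → k ≠ p1 → (y : GolayPt → ℤ) k ≠ 0 → (y' : GolayPt → ℤ) k ≠ 0 →
      (y : GolayPt → ℤ) k * (y' : GolayPt → ℤ) k = 4 := by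
    intro k hk0 hk1 hn hn'
    rcases hc k hk0 hk1 with h | h
    · exact absurd h hn
    · rcases hc' k hk0 hk1 with h' | h'
      · exact absurd h' hn'
      · rw [h, h']; exact hbb k hk0 hk1
  have hsub : ∑ j ∈ ({p0, p1, k1, k2, k3} : Finset GolayPt),
      (y : GolayPt → ℤ) j * (y' : GolayPt → ℤ) j ≤
      dotInt (y : GolayPt → ℤ) (y' : GolayPt → ℤ) := by
    unfold dotInt
    exact Finset.sum_le_sum_of_subset_of_nonneg (Finset.subset_univ _) (fun j _ _ => hterm j)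
  have i1 : p0 ∉ ({p1, k1, k2, k3} : Finset GolayPt) := by
    simp only [Finset.mem_insert, Finset.mem_singleton, not_or]
    exact ⟨by decide, a1.symm, a2.symm, a3.symm⟩
  have i2 : p1 ∉ ({k1, k2, k3} : Finset GolayPt) := by
    simp only [Finset.mem_insert, Finset.mem_singleton, not_or]
    exact ⟨b1.symm, b2.symm, b3.symm⟩
  have i3 : k1 ∉ ({k2, k3} : Finset GolayPt) := by
    simp only [Finset.mem_insert, Finset.mem_singleton, not_or]
    exact ⟨h12, h13⟩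
  have i4 : k2 ∉ ({k3} : Finset GolayPt) := by
    simp only [Finset.mem_singleton]
    exact h23
  rw [Finset.sum_insert i1, Finset.sum_insert i2, Finset.sum_insert i3, Finset.sum_insert i4,
    Finset.sum_singleton, y0, y0', y1, y1', hk k1 a1 b1 n1 n1', hk k2 a2 b2 n2 n2',
    hk k3 a3 b3 n3 n3'] at hsub
  linarith

theorem Nrm.trans1 (N : Nrm v w x) {y y' : ↥leechLattice} (hy : y ∈ HS v w)
    (hy' : y' ∈ HS v w) (hxy : dotInt (x : GolayPt → ℤ) (y : GolayPt → ℤ) = 8)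
    (hxy' : dotInt (x : GolayPt → ℤ) (y' : GolayPt → ℤ) = 8) :
    ∃ g ∈ Co0, g v = v ∧ g w = w ∧ g x = x ∧ g y = y' := by
  obtain ⟨k, h0, h1, rfl⟩ := N.T1_struct hy hxy
  obtain ⟨k', h0', h1', rfl⟩ := N.T1_struct hy' hxy'
  obtain ⟨π, hπ, e0, e1, e2⟩ := trans3 p0 p1 k p0 p1 k' (by decide) h0.symm h1.symm
    (by decide) h0'.symm h1'.symm
  obtain ⟨g, hg, gv, gw, gx, c0, cne⟩ := N.stab_el π hπ e0 e1
  refine ⟨g, hg, gv, gw, gx, ?_⟩
  have hgy : g (F1 (v - x) k) ∈ HS v w := N.mem_of_stab hg gv gw hy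
  have hgxy : dotInt (x : GolayPt → ℤ) ((g (F1 (v - x) k) : ↥leechLattice) : GolayPt → ℤ) = 8 := by
    have := dot_co0 hg x (F1 (v - x) k)
    rw [gx] at this
    rw [this]; exact hxy
  obtain ⟨k'', h0'', h1'', e⟩ := N.T1_struct hgy hgxy
  rw [e]
  suffices k'' = k' by rw [this]
  by_contra hne
  have hb := N.bk k h0 h1
  have hb'' := N.bk k'' h0'' h1''
  have gb : g (v - x) = v - x := by
    rw [sub_eq_add_neg, hg.1, perm_neg g hg.1, gv, gx, ← sub_eq_add_neg]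
  have hZ : (((v - x) - F1 (v - x) k : ↥leechLattice) : GolayPt → ℤ) k ≠ 0 := by
    rw [AddSubgroup.coe_sub, F1_val _ k h0 hb, Pi.sub_apply, Pi.sub_apply, Zv_k _ _ h0]
    rcases hb with h | h <;> rw [h] <;> norm_num
  have h2 := cne _ k hZ
  rw [e2] at h2
  have e3 : g ((v - x) - F1 (v - x) k) = (v - x) - F1 (v - x) k'' := by
    rw [sub_eq_add_neg, hg.1, perm_neg g hg.1, gb, e, ← sub_eq_add_neg]
  rw [e3, AddSubgroup.coe_sub, F1_val _ k'' h0'' hb'', Pi.sub_apply, Pi.sub_apply] at h2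
  apply h2
  rw [Zv_off _ _ k' h0' (fun h => hne h.symm)]
  ring

theorem Nrm.trans2' (N : Nrm v w x) {y y' : ↥leechLattice} (hy : y ∈ HS v w)
    (hy' : y' ∈ HS v w) (hxy : dotInt (x : GolayPt → ℤ) (y : GolayPt → ℤ) = 16)
    (hxy' : dotInt (x : GolayPt → ℤ) (y' : GolayPt → ℤ) = 16) :
    ∃ g ∈ Co0, g v = v ∧ g w = w ∧ g x = x ∧ g y = y' := by
  obtain ⟨y0, y1, hc, k1, k2, k3, h12, h13, h23, a1, b1, a2, b2, a3, b3, n1, n2, n3⟩ :=
    N.T2_struct hy hxy
  obtain ⟨y0', y1', hc', k1', k2', k3', h12', h13', h23', a1', b1', a2', b2', a3', b3', n1',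
    n2', n3'⟩ := N.T2_struct hy' hxy'
  obtain ⟨π, hπ, e0, e1, e2, e3, e4⟩ := trans5 p0 p1 k1 k2 k3 p0 p1 k1' k2' k3' (by decide)
    a1.symm b1.symm a2.symm b2.symm h12 a3.symm b3.symm h13 h23 (by decide) a1'.symm b1'.symm
    a2'.symm b2'.symm h12' a3'.symm b3'.symm h13' h23'
  obtain ⟨g, hg, gv, gw, gx, c0, cne⟩ := N.stab_el π hπ e0 e1
  refine ⟨g, hg, gv, gw, gx, ?_⟩
  have hgy : g y ∈ HS v w := N.mem_of_stab hg gv gw hy
  have hgxy : dotInt (x : GolayPt → ℤ) ((g y : ↥leechLattice) : GolayPt → ℤ) = 16 := by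
    have := dot_co0 hg x y
    rw [gx] at this
    rw [this]; exact hxy
  have m1 := cne y k1 n1
  rw [e2] at m1
  have m2 := cne y k2 n2
  rw [e3] at m2
  have m3 := cne y k3 n3
  rw [e4] at m3
  exact N.T2_unique hgy hy' hgxy hxy' k1' k2' k3' h12' h13' h23' a1' b1' a2' b2' a3' b3' m1 m2
    m3 n1' n2' n3'

/-- The rank-three statement for a normalised triple. -/
theorem Nrm.main (N : Nrm v w x) :
    {y : ↥leechLattice | y ∈ HS v w ∧
      dotInt (x : GolayPt → ℤ) (y : GolayPt → ℤ) = 8}.ncard = 22 ∧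
    {y : ↥leechLattice | y ∈ HS v w ∧ y ≠ x ∧
      dotInt (x : GolayPt → ℤ) (y : GolayPt → ℤ) ≠ 8}.ncard = 77 ∧
    ∀ y ∈ HS v w, ∀ y' ∈ HS v w, y ≠ x → y' ≠ x →
      (dotInt (x : GolayPt → ℤ) (y : GolayPt → ℤ) = 8 ↔
        dotInt (x : GolayPt → ℤ) (y' : GolayPt → ℤ) = 8) →
      ∃ g ∈ Co0, g v = v ∧ g w = w ∧ g x = x ∧ g y = y' := by
  refine ⟨N.T1_card, ?_, ?_⟩
  · have h100 : (HS v w).ncard = 100 := hs_count v w N.hv N.hw N.hvw
    have hfin : (HS v w).Finite := Set.finite_of_ncard_ne_zero (by rw [h100]; norm_num)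
    have hxS : x ∈ HS v w := ⟨N.hx, N.hvx, N.hwx⟩
    have hsub : insert x {y : ↥leechLattice | y ∈ HS v w ∧
        dotInt (x : GolayPt → ℤ) (y : GolayPt → ℤ) = 8} ⊆ HS v w := by
      intro y hy
      rcases hy with rfl | hy
      · exact hxS
      · exact hy.1
    have heq : {y : ↥leechLattice | y ∈ HS v w ∧ y ≠ x ∧
        dotInt (x : GolayPt → ℤ) (y : GolayPt → ℤ) ≠ 8} =
        HS v w \ insert x {y : ↥leechLattice | y ∈ HS v w ∧
          dotInt (x : GolayPt → ℤ) (y : GolayPt → ℤ) = 8} := by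
      ext y
      simp only [Set.mem_ofPred_eq, Set.mem_sdiff, Set.mem_insert_iff]
      tauto
    have hx1 : x ∉ {y : ↥leechLattice | y ∈ HS v w ∧
        dotInt (x : GolayPt → ℤ) (y : GolayPt → ℤ) = 8} := by
      intro hx1
      have := hx1.2
      rw [dot_self, N.hx] at this
      norm_num at this
    rw [heq, Set.ncard_sdiff hsub (hfin.subset hsub), h100,
      Set.ncard_insert_of_notMem hx1 ((hfin.subset hsub).subset (Set.subset_insert _ _)),
      N.T1_card]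
  · intro y hy y' hy' hne hne' hiff
    rcases N.dich hy hne with h | h
    · exact N.trans1 hy hy' h (hiff.mp h)
    · have h' : dotInt (x : GolayPt → ℤ) (y' : GolayPt → ℤ) = 16 := by
        rcases N.dich hy' hne' with h2 | h2
        · have := hiff.mpr h2
          rw [h] at this
          norm_num at this
        · exact h2
      exact N.trans2' hy hy' h h'

end

/-- **The Higman–Sims graph: rank three with subdegrees `1`, `22`, `77`.** -/
theorem hs_rank3 (v w x : ↥leechLattice) (hv : sqNorm (v : GolayPt → ℤ) = 48)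
    (hw : sqNorm (w : GolayPt → ℤ) = 48)
    (hvw : dotInt (v : GolayPt → ℤ) (w : GolayPt → ℤ) = -32) (hx : x ∈ HS v w) :
    {y : ↥leechLattice | y ∈ HS v w ∧
      dotInt (x : GolayPt → ℤ) (y : GolayPt → ℤ) = 8}.ncard = 22 ∧
    {y : ↥leechLattice | y ∈ HS v w ∧ y ≠ x ∧
      dotInt (x : GolayPt → ℤ) (y : GolayPt → ℤ) ≠ 8}.ncard = 77 ∧
    ∀ y ∈ HS v w, ∀ y' ∈ HS v w, y ≠ x → y' ≠ x →
      (dotInt (x : GolayPt → ℤ) (y : GolayPt → ℤ) = 8 ↔
        dotInt (x : GolayPt → ℤ) (y' : GolayPt → ℤ) = 8) →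
      ∃ g ∈ Co0, g v = v ∧ g w = w ∧ g x = x ∧ g y = y' := by
  have n0 : sqNorm ((v + w : ↥leechLattice) : GolayPt → ℤ) = 32 := by
    rw [AddSubgroup.coe_add, sqNorm_add, hv, hw, hvw]; norm_num
  have q1 : dotInt ((v + w : ↥leechLattice) : GolayPt → ℤ) (x : GolayPt → ℤ) = 0 := by
    rw [AddSubgroup.coe_add, dot_add_left, hx.2.1, hx.2.2]; norm_num
  have q2 : dotInt ((v + w : ↥leechLattice) : GolayPt → ℤ)
      ((v - x : ↥leechLattice) : GolayPt → ℤ) = 16 := by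
    rw [AddSubgroup.coe_add, AddSubgroup.coe_sub, dot_sub_right, dot_add_left, dot_add_left,
      dot_self, hv, dot_comm (w : GolayPt → ℤ) (v : GolayPt → ℤ), hvw, hx.2.1, hx.2.2]
    norm_num
  have q3 : dotInt (x : GolayPt → ℤ) ((v - x : ↥leechLattice) : GolayPt → ℤ) = -8 := by
    rw [AddSubgroup.coe_sub, dot_sub_right, dot_self, hx.1,
      dot_comm (x : GolayPt → ℤ) (v : GolayPt → ℤ), hx.2.1]
    norm_num
  obtain ⟨g, hg, e1, e2, e3, e4⟩ := norm_triple (v + w) x (v - x) n0 hx.1 q1 q2 q3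
  have gsub : g v - g x = g (v - x) := by
    rw [sub_eq_add_neg v x, hg.1, perm_neg g hg.1, ← sub_eq_add_neg]
  have N : Nrm (g v) (g w) (g x) :=
    { hv := by rw [hg.2]; exact hv
      hw := by rw [hg.2]; exact hw
      hvw := by rw [dot_co0 hg]; exact hvw
      hx := by rw [hg.2]; exact hx.1
      hvx := by rw [dot_co0 hg]; exact hx.2.1
      hwx := by rw [dot_co0 hg]; exact hx.2.2
      e0 := by rw [← hg.1]; exact e1
      ea := e2
      b0 := by rw [gsub]; exact e3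
      b1 := by rw [gsub]; exact e4 }
  obtain ⟨c1, c2, c3⟩ := N.main
  have hmem : ∀ y, g y ∈ HS (g v) (g w) ↔ y ∈ HS v w := by
    intro y
    unfold HS
    simp only [Set.mem_ofPred_eq, hg.2, dot_co0 hg]
  have hdot : ∀ y : ↥leechLattice, dotInt ((g x : ↥leechLattice) : GolayPt → ℤ)
      ((g y : ↥leechLattice) : GolayPt → ℤ) = dotInt (x : GolayPt → ℤ) (y : GolayPt → ℤ) :=
    fun y => dot_co0 hg x y
  refine ⟨?_, ?_, ?_⟩
  · refine Eq.trans ?_ c1
    rw [← Set.ncard_image_of_injective _ g.injective]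
    congr 1
    ext z
    constructor
    · rintro ⟨y, ⟨h1, h2⟩, rfl⟩
      exact ⟨(hmem y).mpr h1, by rw [hdot]; exact h2⟩
    · rintro ⟨h1, h2⟩
      refine ⟨g.symm z, ⟨?_, ?_⟩, g.apply_symm_apply z⟩
      · rw [← hmem, g.apply_symm_apply]; exact h1
      · rw [← hdot, g.apply_symm_apply]; exact h2
  · refine Eq.trans ?_ c2
    rw [← Set.ncard_image_of_injective _ g.injective]
    congr 1
    ext z
    constructor
    · rintro ⟨y, ⟨h1, h2, h3⟩, rfl⟩
      exact ⟨(hmem y).mpr h1, fun e => h2 (g.injective e), by rw [hdot]; exact h3⟩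
    · rintro ⟨h1, h2, h3⟩
      refine ⟨g.symm z, ⟨?_, ?_, ?_⟩, g.apply_symm_apply z⟩
      · rw [← hmem, g.apply_symm_apply]; exact h1
      · intro e
        apply h2
        rw [← e, g.apply_symm_apply]
      · rw [← hdot, g.apply_symm_apply]; exact h3
  · intro y hy y' hy' hne hne' hiff
    obtain ⟨h, hh, h1, h2, h3, h4⟩ := c3 (g y) ((hmem y).mpr hy) (g y') ((hmem y').mpr hy')
      (fun e => hne (g.injective e)) (fun e => hne' (g.injective e))
      (by rw [hdot, hdot]; exact hiff)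
    refine ⟨g⁻¹ * h * g, Co0.mul_mem (Co0.mul_mem (Co0.inv_mem hg) hh) hg, ?_, ?_, ?_, ?_⟩
    · rw [Equiv.Perm.mul_apply, Equiv.Perm.mul_apply, h1]
      exact Equiv.symm_apply_apply g v
    · rw [Equiv.Perm.mul_apply, Equiv.Perm.mul_apply, h2]
      exact Equiv.symm_apply_apply g w
    · rw [Equiv.Perm.mul_apply, Equiv.Perm.mul_apply, h3]
      exact Equiv.symm_apply_apply g x
    · rw [Equiv.Perm.mul_apply, Equiv.Perm.mul_apply, h4]
      exact Equiv.symm_apply_apply g y'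

end Cfsg.Agent.Lib.Helper11.LeechSt
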