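import Mathlib

set_option autoImplicit false

namespace Cfsg.Agent.Lib.Helper11.Rank3

open MulAction

/-- A group of order `100` has an automorphism-invariant subset of size `25` containing `1`. -/
theorem exists_S25 {K : Type*} [Group K] (hK : Nat.card K = 100) :
    ∃ S : Set K, S.ncard = 25 ∧ (1 : K) ∈ S ∧ ∀ φ : K ≃* K, ∀ k ∈ S, φ k ∈ S := by
  have : Finite K := Nat.finite_of_card_ne_zero (by rw [hK]; norm_num)
  have : Fact (Nat.Prime 5) := ⟨by norm_num⟩
  obtain ⟨P⟩ : Nonempty (Sylow 5 K) := inferInstance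
  have hfac : (100 : ℕ).factorization 5 = 2 := by
    have h : (100 : ℕ) = 5 ^ 2 * 4 := by norm_num
    rw [h, Nat.factorization_mul (by norm_num) (by norm_num), Finsupp.add_apply,
      Nat.Prime.factorization_pow (by norm_num),
      Nat.factorization_eq_zero_of_not_dvd (by norm_num : ¬ 5 ∣ 4)]
    simp
  have hP : Nat.card (P : Subgroup K) = 25 := by
    rw [Sylow.card_eq_multiplicity, hK, hfac]
    norm_num
  have hidx : (P : Subgroup K).index = 4 := by
    have := Subgroup.card_mul_index (P : Subgroup K)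
    rw [hP, hK] at this
    omega
  have hn : Nat.card (Sylow 5 K) = 1 := by
    have h1 := card_sylow_modEq_one 5 K
    have h2 := Sylow.card_dvd_index P
    rw [hidx] at h2
    have h3 := Nat.le_of_dvd (by norm_num) h2
    unfold Nat.ModEq at h1
    interval_cases h : Nat.card (Sylow 5 K) <;> simp_all
  have hsub : Subsingleton (Sylow 5 K) := (Nat.card_eq_one_iff_unique.mp hn).1
  have hS : {k : K | k ^ 25 = 1} = ((P : Subgroup K) : Set K) := by
    ext k
    constructor
    · intro hk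
      have hk' : k ^ 25 = 1 := hk
      obtain ⟨m, _, hm⟩ := (Nat.dvd_prime_pow (show Nat.Prime 5 by norm_num)).mp
        (show orderOf k ∣ 5 ^ 2 from orderOf_dvd_of_pow_eq_one (by norm_num; exact hk'))
      have hp : IsPGroup 5 (Subgroup.zpowers k) :=
        IsPGroup.of_card (n := m) (by rw [Nat.card_zpowers, hm])
      obtain ⟨Q, hQ⟩ := hp.exists_le_sylow
      rw [Subsingleton.elim Q P] at hQ
      exact hQ (Subgroup.mem_zpowers k)
    · intro hk
      have h1 : (⟨k, hk⟩ : (P : Subgroup K)) ^ Nat.card (P : Subgroup K) = 1 := pow_card_eq_one'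
      rw [hP] at h1
      have h2 := congrArg Subtype.val h1
      exact h2
  refine ⟨{k : K | k ^ 25 = 1}, ?_, ?_, ?_⟩
  · rw [hS, ← Nat.card_coe_set_eq]
    exact hP
  · show (1 : K) ^ 25 = 1
    exact one_pow _
  · intro φ k hk
    show φ k ^ 25 = 1
    rw [← map_pow, show k ^ 25 = 1 from hk, map_one]

/-- **Simplicity from a rank-three action of degree `100` with subdegrees `22`, `77` and a simple
point stabiliser.** -/
theorem rank3_simple {G α : Type*} [Group G] [MulAction G α] (Ω : Set α) (x : α) (hx : x ∈ Ω)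
    (A : α → α → Prop)
    (hA : ∀ (g : G) (p q : α), A (g • p) (g • q) ↔ A p q)
    (hΩ : ∀ (g : G), ∀ y ∈ Ω, g • y ∈ Ω)
    (hfaith : ∀ g : G, (∀ y ∈ Ω, g • y = y) → g = 1)
    (htrans : ∀ y ∈ Ω, ∃ g : G, g • x = y)
    (h1 : ∀ y ∈ Ω, ∀ y' ∈ Ω, A x y → A x y' → ∃ g : G, g • x = x ∧ g • y = y')
    (h2 : ∀ y ∈ Ω, ∀ y' ∈ Ω, y ≠ x → y' ≠ x → ¬ A x y → ¬ A x y' →
      ∃ g : G, g • x = x ∧ g • y = y')
    (hAx : ¬ A x x)
    (c1 : ∀ y ∈ Ω, y ≠ x → ¬ A x y → ∃ z ∈ Ω, A x z ∧ A z y)
    (c2 : ∀ y ∈ Ω, A x y → ∃ z1 ∈ Ω, ∃ z2 ∈ Ω, (z1 ≠ x ∧ ¬ A x z1) ∧ (z2 ≠ z1 ∧ ¬ A z1 z2) ∧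
      (z2 = y ∨ (y ≠ z2 ∧ ¬ A z2 y)))
    (hsimple : IsSimpleGroup (stabilizer G x))
    (hcard : Ω.ncard = 100)
    (hc1 : {y | y ∈ Ω ∧ A x y}.ncard = 22)
    (hc2 : {y | y ∈ Ω ∧ y ≠ x ∧ ¬ A x y}.ncard = 77) :
    IsSimpleGroup G := by
  have hnt : Nontrivial G := by
    obtain ⟨a, b, hab⟩ := hsimple.toNontrivial.exists_pair_ne
    exact ⟨⟨a.1, b.1, fun h => hab (Subtype.ext h)⟩⟩
  refine ⟨fun K hK => ?_⟩
  by_cases hbot : K = ⊥
  · left; exact hbot
  right
  have step1 : ∃ k ∈ K, k • x ≠ x := by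
    by_contra hcon
    push Not at hcon
    apply hbot
    rw [Subgroup.eq_bot_iff_forall]
    intro k hk
    apply hfaith
    intro y hy
    obtain ⟨g, rfl⟩ := htrans y hy
    have h3 : (g⁻¹ * k * g) • x = x := hcon _ (by
      have := hK.conj_mem k hk g⁻¹
      simpa using this)
    calc k • g • x = g • (g⁻¹ * k * g) • x := by
          rw [mul_smul, mul_smul, smul_inv_smul]
      _ = g • x := by rw [h3]
  obtain ⟨k0, hk0, hk0x⟩ := step1
  have B0 : x ∈ {y | ∃ k ∈ K, k • x = y} := ⟨1, K.one_mem, one_smul _ _⟩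
  have B1 : ∀ g : G, g • x = x → ∀ y ∈ {y | ∃ k ∈ K, k • x = y},
      g • y ∈ {y | ∃ k ∈ K, k • x = y} := by
    rintro g hg y ⟨k, hk, rfl⟩
    refine ⟨g * k * g⁻¹, hK.conj_mem k hk g, ?_⟩
    rw [mul_smul, mul_smul, inv_smul_eq_iff.mpr hg.symm]
  have B2 : ∀ k ∈ K, ∀ y ∈ {y | ∃ k ∈ K, k • x = y}, k • y ∈ {y | ∃ k ∈ K, k • x = y} := by
    rintro k hk y ⟨k', hk', rfl⟩
    exact ⟨k * k', K.mul_mem hk hk', mul_smul _ _ _⟩
  have B3 : ∀ y ∈ {y | ∃ k ∈ K, k • x = y}, y ∈ Ω := by
    rintro y ⟨k, hk, rfl⟩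
    exact hΩ k x hx
  have step3 : ∀ y ∈ Ω, y ∈ {y | ∃ k ∈ K, k • x = y} := by
    have hy0 : k0 • x ∈ {y | ∃ k ∈ K, k • x = y} := ⟨k0, hk0, rfl⟩
    have hy0Ω : k0 • x ∈ Ω := hΩ k0 x hx
    by_cases hA0 : A x (k0 • x)
    · have T1 : ∀ y' ∈ Ω, A x y' → y' ∈ {y | ∃ k ∈ K, k • x = y} := by
        intro y' hy' hAy'
        obtain ⟨g, hg, e⟩ := h1 _ hy0Ω y' hy' hA0 hAy'
        rw [← e]; exact B1 g hg _ hy0
      have PA : ∀ p ∈ {y | ∃ k ∈ K, k • x = y}, ∀ q ∈ Ω, A p q →
          q ∈ {y | ∃ k ∈ K, k • x = y} := by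
        rintro p ⟨k1, hk1, rfl⟩ q hq hpq
        have h3 : A x (k1⁻¹ • q) := by
          have := (hA k1⁻¹ (k1 • x) q).mpr hpq
          rwa [inv_smul_smul] at this
        have h4 := T1 _ (hΩ k1⁻¹ q hq) h3
        have h5 := B2 k1 hk1 _ h4
        rwa [smul_inv_smul] at h5
      intro y hy
      by_cases hyx : y = x
      · rw [hyx]; exact B0
      by_cases hAy : A x y
      · exact T1 y hy hAy
      · obtain ⟨z, hz, hxz, hzy⟩ := c1 y hy hyx hAy
        exact PA z (T1 z hz hxz) y hy hzy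
    · have T2 : ∀ y' ∈ Ω, y' ≠ x → ¬ A x y' → y' ∈ {y | ∃ k ∈ K, k • x = y} := by
        intro y' hy' hne hAy'
        obtain ⟨g, hg, e⟩ := h2 _ hy0Ω y' hy' hk0x hne hA0 hAy'
        rw [← e]; exact B1 g hg _ hy0
      have PN : ∀ p ∈ {y | ∃ k ∈ K, k • x = y}, ∀ q ∈ Ω, q ≠ p → ¬ A p q →
          q ∈ {y | ∃ k ∈ K, k • x = y} := by
        rintro p ⟨k1, hk1, rfl⟩ q hq hne hpq
        have h3 : ¬ A x (k1⁻¹ • q) := by
          intro h
          apply hpq
          have := (hA k1 x (k1⁻¹ • q)).mpr h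
          rwa [smul_inv_smul] at this
        have h3' : k1⁻¹ • q ≠ x := by
          intro h
          apply hne
          rw [← h, smul_inv_smul]
        have h4 := T2 _ (hΩ k1⁻¹ q hq) h3' h3
        have h5 := B2 k1 hk1 _ h4
        rwa [smul_inv_smul] at h5
      intro y hy
      by_cases hyx : y = x
      · rw [hyx]; exact B0
      by_cases hAy : A x y
      · obtain ⟨z1, hz1, z2, hz2, ⟨n1, n2⟩, ⟨n3, n4⟩, h⟩ := c2 y hy hAy
        have m1 := T2 z1 hz1 n1 n2
        have m2 := PN z1 m1 z2 hz2 n3 n4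
        rcases h with rfl | ⟨n5, n6⟩
        · exact m2
        · exact PN z2 m2 y hy n5 n6
      · exact T2 y hy hyx hAy
  have hN : (K.subgroupOf (stabilizer G x)).Normal := hK.subgroupOf _
  rcases hsimple.eq_bot_or_eq_top_of_normal _ hN with hb | ht
  · exfalso
    rw [Subgroup.subgroupOf_eq_bot] at hb
    have hfree : ∀ k ∈ K, k • x = x → k = 1 := fun k hk h =>
      (Subgroup.disjoint_def.mp hb) hk (mem_stabilizer_iff.mpr h)
    have hinj : Function.Injective (fun k : K => (k : G) • x) := by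
      intro k k' h
      have h' : (k : G) • x = (k' : G) • x := h
      have h3 : ((k : G)⁻¹ * (k' : G)) • x = x := by
        rw [mul_smul, ← h', inv_smul_smul]
      have h4 := hfree _ (K.mul_mem (K.inv_mem k.2) k'.2) h3
      apply Subtype.ext
      exact inv_mul_eq_one.mp h4
    have hrange : Set.range (fun k : K => (k : G) • x) = Ω := by
      ext y
      constructor
      · rintro ⟨k, rfl⟩
        exact hΩ k x hx
      · intro hy
        obtain ⟨k, hk, e⟩ := step3 y hy
        exact ⟨⟨k, hk⟩, e⟩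
    have hKcard : Nat.card K = 100 := by
      rw [← Nat.card_range_of_injective hinj, hrange, Nat.card_coe_set_eq, hcard]
    obtain ⟨S, hS25, hS1, hSinv⟩ := exists_S25 hKcard
    have hA' : ((fun k : K => (k : G) • x) '' S).ncard = 25 := by
      rw [Set.ncard_image_of_injective _ hinj, hS25]
    have hxA : x ∈ (fun k : K => (k : G) • x) '' S := ⟨1, hS1, one_smul _ _⟩
    have hAΩ : ∀ y ∈ (fun k : K => (k : G) • x) '' S, y ∈ Ω := by
      rintro y ⟨k, _, rfl⟩
      exact hΩ k x hx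
    have hinv : ∀ g : G, g • x = x → ∀ y ∈ (fun k : K => (k : G) • x) '' S,
        g • y ∈ (fun k : K => (k : G) • x) '' S := by
      rintro g hg y ⟨k, hk, rfl⟩
      refine ⟨MulAut.conjNormal g k, hSinv _ k hk, ?_⟩
      show ((MulAut.conjNormal g k : K) : G) • x = g • (k : G) • x
      rw [MulAut.conjNormal_apply, mul_smul, mul_smul, inv_smul_eq_iff.mpr hg.symm]
    have fin1 : {y | y ∈ Ω ∧ A x y}.Finite :=
      Set.finite_of_ncard_ne_zero (by rw [hc1]; norm_num)
    have fin2 : {y | y ∈ Ω ∧ y ≠ x ∧ ¬ A x y}.Finite :=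
      Set.finite_of_ncard_ne_zero (by rw [hc2]; norm_num)
    have D1 : (∀ y ∈ Ω, A x y → y ∈ (fun k : K => (k : G) • x) '' S) ∨
        (∀ y ∈ Ω, A x y → y ∉ (fun k : K => (k : G) • x) '' S) := by
      by_cases h : ∃ y ∈ Ω, A x y ∧ y ∈ (fun k : K => (k : G) • x) '' S
      · left
        obtain ⟨y, hy, hAy, hyA⟩ := h
        intro y' hy' hAy'
        obtain ⟨g, hg, e⟩ := h1 y hy y' hy' hAy hAy'
        rw [← e]; exact hinv g hg y hyA
      · right
        intro y hy hAy hyA
        exact h ⟨y, hy, hAy, hyA⟩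
    have D2 : (∀ y ∈ Ω, y ≠ x → ¬ A x y → y ∈ (fun k : K => (k : G) • x) '' S) ∨
        (∀ y ∈ Ω, y ≠ x → ¬ A x y → y ∉ (fun k : K => (k : G) • x) '' S) := by
      by_cases h : ∃ y ∈ Ω, y ≠ x ∧ ¬ A x y ∧ y ∈ (fun k : K => (k : G) • x) '' S
      · left
        obtain ⟨y, hy, hne, hAy, hyA⟩ := h
        intro y' hy' hne' hAy'
        obtain ⟨g, hg, e⟩ := h2 y hy y' hy' hne hne' hAy hAy'
        rw [← e]; exact hinv g hg y hyA
      · right
        intro y hy hne hAy hyA
        exact h ⟨y, hy, hne, hAy, hyA⟩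
    rcases D1 with d1 | d1 <;> rcases D2 with d2 | d2
    · have e : (fun k : K => (k : G) • x) '' S = Ω := by
        ext y
        constructor
        · exact hAΩ y
        · intro hy
          by_cases hyx : y = x
          · rw [hyx]; exact hxA
          by_cases hAy : A x y
          · exact d1 y hy hAy
          · exact d2 y hy hyx hAy
      rw [e, hcard] at hA'
      norm_num at hA'
    · have e : (fun k : K => (k : G) • x) '' S = insert x {y | y ∈ Ω ∧ A x y} := by
        ext y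
        constructor
        · intro hyA
          have hy := hAΩ y hyA
          by_cases hyx : y = x
          · left; exact hyx
          right
          by_cases hAy : A x y
          · exact ⟨hy, hAy⟩
          · exact absurd hyA (d2 y hy hyx hAy)
        · rintro (rfl | ⟨hy, hAy⟩)
          · exact hxA
          · exact d1 y hy hAy
      rw [e, Set.ncard_insert_of_notMem (fun h => hAx h.2) fin1, hc1] at hA'
      norm_num at hA'
    · have e : (fun k : K => (k : G) • x) '' S = insert x {y | y ∈ Ω ∧ y ≠ x ∧ ¬ A x y} := by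
        ext y
        constructor
        · intro hyA
          have hy := hAΩ y hyA
          by_cases hyx : y = x
          · left; exact hyx
          right
          by_cases hAy : A x y
          · exact absurd hyA (d1 y hy hAy)
          · exact ⟨hy, hyx, hAy⟩
        · rintro (rfl | ⟨hy, hyx, hAy⟩)
          · exact hxA
          · exact d2 y hy hyx hAy
      rw [e, Set.ncard_insert_of_notMem (fun h => h.2.1 rfl) fin2, hc2] at hA'
      norm_num at hA'
    · have e : (fun k : K => (k : G) • x) '' S = {x} := by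
        ext y
        constructor
        · intro hyA
          have hy := hAΩ y hyA
          by_cases hyx : y = x
          · exact hyx
          by_cases hAy : A x y
          · exact absurd hyA (d1 y hy hAy)
          · exact absurd hyA (d2 y hy hyx hAy)
        · rintro rfl
          exact hxA
      rw [e, Set.ncard_singleton] at hA'
      norm_num at hA'
  · rw [Subgroup.subgroupOf_eq_top] at ht
    rw [eq_top_iff]
    intro g _
    obtain ⟨k, hk, e⟩ := step3 (g • x) (hΩ g x hx)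
    have h3 : k⁻¹ * g ∈ stabilizer G x := by
      rw [mem_stabilizer_iff, mul_smul, ← e, inv_smul_smul]
    have h4 := K.mul_mem hk (ht h3)
    rwa [mul_inv_cancel_left] at h4

end Cfsg.Agent.Lib.Helper11.Rank3
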