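import Mathlib
import Cfsg.Agent.Lib.Helper11.LeechHS3
import Cfsg.Agent.Lib.Helper11.Rank3Simple
import Cfsg.Prelude.Def_Sporadic
import Cfsg.Agent.S0378
import Cfsg.Agent.S0379

set_option autoImplicit false

namespace Cfsg.Agent.Lib.Helper11.LeechSt

open Cfsg Cfsg.Agent.Lib.Helper3.Golay Cfsg.Agent.Lib.Helper3.Golay2
open Cfsg.Agent.Lib.Helper3.Leech Cfsg.Agent.Lib.Helper3.Leech2 Cfsg.Agent.Lib.Helper3.Leech4
open Cfsg.Agent.Lib.Helper3.GolayM24 Cfsg.Agent.Lib.Helper3.M24Perm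
open Cfsg.Agent.Lib.Helper3.M24Trans Cfsg.Agent.Lib.Helper3.M24Cert
open Cfsg.Agent.Lib.Helper11.LeechGF Cfsg.Agent.Lib.Helper11.Co0Mono
open Cfsg.Agent.Lib.Helper11.LeechIP Cfsg.Agent.Lib.Helper11.LeechXi

/-! ### Signed coordinate permutations -/

/-- A signed coordinate permutation with permutation part `π`. -/
def IsSP (g : Equiv.Perm ↥leechLattice) (π : Equiv.Perm GolayPt) : Prop :=
  ∃ ε : GolayPt → ℤ, (∀ j, ε j = 1 ∨ ε j = -1) ∧ ∀ (u : ↥leechLattice) (j : GolayPt),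
    ((g u : ↥leechLattice) : GolayPt → ℤ) j = ε j * (u : GolayPt → ℤ) (π.symm j)

theorem IsSP.mul {g g' : Equiv.Perm ↥leechLattice} {π π' : Equiv.Perm GolayPt}
    (h : IsSP g π) (h' : IsSP g' π') : IsSP (g * g') (π * π') := by
  obtain ⟨ε, hε1, hε⟩ := h
  obtain ⟨ε', hε1', hε'⟩ := h'
  refine ⟨fun j => ε j * ε' (π.symm j), fun j => ?_, fun u j => ?_⟩
  · rcases hε1 j with e | e <;> rcases hε1' (π.symm j) with e' | e' <;> simp [e, e']
  · rw [Equiv.Perm.mul_apply, hε, hε']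
    have : (π * π').symm j = π'.symm (π.symm j) := rfl
    rw [this]; ring

theorem IsSP.unique {g g' : Equiv.Perm ↥leechLattice} {π : Equiv.Perm GolayPt}
    (h : IsSP g π) (h' : IsSP g' π) (b : ↥leechLattice)
    (hb : ∀ j, (b : GolayPt → ℤ) j ≠ 0) (e : g b = b) (e' : g' b = b) : g = g' := by
  obtain ⟨ε, _, hε⟩ := h
  obtain ⟨ε', _, hε'⟩ := h'
  have hεε : ∀ j, ε j = ε' j := by
    intro j
    have h1 := hε b j
    have h2 := hε' b j
    rw [e] at h1
    rw [e'] at h2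
    have : ε j * (b : GolayPt → ℤ) (π.symm j) = ε' j * (b : GolayPt → ℤ) (π.symm j) := by
      rw [← h1, ← h2]
    exact mul_right_cancel₀ (hb _) this
  apply Equiv.ext
  intro u
  apply Subtype.ext
  funext j
  rw [hε, hε', hεε]

theorem IsSP.perm_unique {g : Equiv.Perm ↥leechLattice} {π π' : Equiv.Perm GolayPt}
    (h : IsSP g π) (h' : IsSP g π') : π = π' := by
  obtain ⟨ε, hε1, hε⟩ := h
  obtain ⟨ε', hε1', hε'⟩ := h'
  apply Equiv.ext
  intro i
  have h1 := hε (E i) (π i)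
  have h2 := hε' (E i) (π i)
  rw [Equiv.symm_apply_apply, E_apply, if_pos rfl] at h1
  rw [h1, E_apply] at h2
  by_contra hne
  rw [if_neg (fun h => hne ((Equiv.symm_apply_eq π').mp h))] at h2
  rcases hε1 (π i) with e | e <;> rw [e] at h2 <;> norm_num at h2

section

variable {v w x : ↥leechLattice}

theorem Nrm.b_ne (N : Nrm v w x) (j : GolayPt) :
    ((v - x : ↥leechLattice) : GolayPt → ℤ) j ≠ 0 := by
  by_cases h0 : j = p0
  · rw [h0, N.b0]; norm_num
  · by_cases h1 : j = p1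
    · rw [h1, N.b1]; norm_num
    · rcases N.bk j h0 h1 with h | h <;> rw [h] <;> norm_num

theorem stab_b {g : Equiv.Perm ↥leechLattice} (hg : g ∈ Co0) (gv : g v = v) (gx : g x = x) :
    g (v - x) = v - x := by
  rw [sub_eq_add_neg, hg.1, perm_neg g hg.1, gv, gx]

/-- Monomial elements fixing a normalised triple, with prescribed permutation part. -/
theorem Nrm.stab_sp (N : Nrm v w x) (π : Equiv.Perm GolayPt) (hπ : π ∈ M24) (h0 : π p0 = p0)
    (h1 : π p1 = p1) :
    ∃ g ∈ Co0, g v = v ∧ g w = w ∧ g x = x ∧ IsSP g π := by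
  have s0 : ∀ j, π.symm j = p0 ↔ j = p0 := fun j => by rw [Equiv.symm_apply_eq, h0]
  have s1 : ∀ j, π.symm j = p1 ↔ j = p1 := fun j => by rw [Equiv.symm_apply_eq, h1]
  have c0 : prmP π hπ V0' = V0' := by
    apply Subtype.ext
    rw [prmP_apply]
    funext j
    show V0 (π.symm j) = V0 j
    unfold V0
    simp only [s0, s1]
  have cx : prmP π hπ x = x := by
    apply Subtype.ext
    rw [prmP_apply, N.ea]
    funext j
    show Wc0 (π.symm j) = Wc0 j
    unfold Wc0
    simp only [s0, s1]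
  have cb0 : ((prmP π hπ (v - x) : ↥leechLattice) : GolayPt → ℤ) p0 = 3 := by
    rw [prmP_apply]
    show ((v - x : ↥leechLattice) : GolayPt → ℤ) (π.symm p0) = 3
    rw [(s0 p0).mpr rfl]; exact N.b0
  have cb1 : ((prmP π hπ (v - x) : ↥leechLattice) : GolayPt → ℤ) p1 = 1 := by
    rw [prmP_apply]
    show ((v - x : ↥leechLattice) : GolayPt → ℤ) (π.symm p1) = 1
    rw [(s1 p1).mpr rfl]; exact N.b1
  obtain ⟨d, hd, m0, m1, e5⟩ := fin31 (prmP π hπ (v - x)) (v - x)
    (by rw [(prmP_mem π hπ).2]; exact N.nb) N.nb cb0 cb1 N.b0 N.b1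
  have hs : sgnP d hd ∈ St := sgn_St d hd m0 m1
  have hsC := (mem_St.mp hs).1
  have hg : sgnP d hd * prmP π hπ ∈ Co0 := Co0.mul_mem hsC (prmP_mem π hπ)
  have g0 : (sgnP d hd * prmP π hπ) V0' = V0' := by
    rw [Equiv.Perm.mul_apply, c0]; exact (mem_St.mp hs).2
  have gx : (sgnP d hd * prmP π hπ) x = x := by
    rw [Equiv.Perm.mul_apply, cx]
    apply Subtype.ext
    rw [sgnP_apply, N.ea, sgn_Wc0 d m0 m1]
  have gb : (sgnP d hd * prmP π hπ) (v - x) = v - x := by
    rw [Equiv.Perm.mul_apply, e5]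
  have gv : (sgnP d hd * prmP π hπ) v = v := by
    calc (sgnP d hd * prmP π hπ) v = (sgnP d hd * prmP π hπ) (x + (v - x)) := by
          rw [add_sub_cancel]
      _ = (sgnP d hd * prmP π hπ) x + (sgnP d hd * prmP π hπ) (v - x) := hg.1 _ _
      _ = x + (v - x) := by rw [gx, gb]
      _ = v := add_sub_cancel _ _
  have gw : (sgnP d hd * prmP π hπ) w = w := by
    calc (sgnP d hd * prmP π hπ) w = (sgnP d hd * prmP π hπ) ((v + w) + -v) := by
          rw [add_neg_cancel_comm]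
      _ = (sgnP d hd * prmP π hπ) (v + w) + (sgnP d hd * prmP π hπ) (-v) := hg.1 _ _
      _ = (v + w) + -v := by rw [N.e0, g0, perm_neg _ hg.1, gv]
      _ = w := add_neg_cancel_comm _ _
  refine ⟨_, hg, gv, gw, gx, fun j => if j ∈ d then -1 else 1, fun j => ?_, fun u j => ?_⟩
  · by_cases hj : j ∈ d
    · right; simp [hj]
    · left; simp [hj]
  · rw [Equiv.Perm.mul_apply, sgnP_apply]
    unfold sgnF
    rw [prmP_apply]
    show (if j ∈ d then -(u : GolayPt → ℤ) (π.symm j) else (u : GolayPt → ℤ) (π.symm j)) = _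
    by_cases hj : j ∈ d <;> simp [hj]

/-- Elements fixing a normalised triple are monomial. -/
theorem Nrm.sp_of_stab (N : Nrm v w x) {g : Equiv.Perm ↥leechLattice} (hg : g ∈ Co0)
    (gv : g v = v) (gw : g w = w) (gx : g x = x) :
    ∃ σ ∈ M24, σ p0 = p0 ∧ σ p1 = p1 ∧ IsSP g σ := by
  have g0 : g V0' = V0' := by rw [← N.e0, hg.1, gv, gw]
  have hE0 : V0' - x = E p0 := by
    apply Subtype.ext
    funext j
    show V0 j - (x : GolayPt → ℤ) j = (E p0 : GolayPt → ℤ) j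
    rw [N.ea, E_apply]
    unfold V0 Wc0
    by_cases hj0 : j = p0
    · simp [hj0]
    · by_cases hj1 : j = p1
      · simp [hj1]
      · simp [hj0, hj1]
  have hE1 : V0' + x = E p1 := by
    apply Subtype.ext
    funext j
    show V0 j + (x : GolayPt → ℤ) j = (E p1 : GolayPt → ℤ) j
    rw [N.ea, E_apply]
    unfold V0 Wc0
    by_cases hj0 : j = p0
    · simp [hj0]
    · by_cases hj1 : j = p1
      · simp [hj1]
      · simp [hj0, hj1]
  have gE0 : g (E p0) = E p0 := by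
    rw [← hE0, sub_eq_add_neg, hg.1, perm_neg g hg.1, g0, gx]
  have gE1 : g (E p1) = E p1 := by
    rw [← hE1, hg.1, g0, gx]
  have hPN : PN ⟨g, hg⟩ := PN_fix ⟨g, hg⟩ gE0
  obtain ⟨σ, hσ, c, hc, hform⟩ := cross_stab g hg hPN
  have sp : IsSP g σ := by
    refine ⟨fun j => if j ∈ c then -1 else 1, fun j => ?_, fun u j => ?_⟩
    · by_cases hj : j ∈ c
      · right; simp [hj]
      · left; simp [hj]
    · rw [hform u]
      unfold signedPerm
      by_cases hj : j ∈ c <;> simp [hj]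
  have fix : ∀ i, g (E i) = E i → σ i = i := by
    intro i hi
    obtain ⟨ε, hε1, hε⟩ := sp
    have h := hε (E i) (σ i)
    rw [hi, Equiv.symm_apply_apply, E_apply, E_apply, if_pos rfl] at h
    by_contra hne
    rw [if_neg hne] at h
    rcases hε1 (σ i) with e | e <;> rw [e] at h <;> norm_num at h
  exact ⟨σ, hσ, fix p0 gE0, fix p1 gE1, sp⟩

/-! ### The point stabiliser is the Mathieu group of degree 22 -/

/-- The chosen monomial element with a given permutation part. -/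
noncomputable def Nrm.gm (N : Nrm v w x)
    (π : ↥(MulAction.stabilizer ↥M24 p0 ⊓ MulAction.stabilizer ↥M24 p1)) :
    Equiv.Perm ↥leechLattice :=
  Classical.choose (N.stab_sp π.1.1 π.1.2
    (MulAction.mem_stabilizer_iff.mp (Subgroup.mem_inf.mp π.2).1)
    (MulAction.mem_stabilizer_iff.mp (Subgroup.mem_inf.mp π.2).2))

theorem Nrm.gm_spec (N : Nrm v w x)
    (π : ↥(MulAction.stabilizer ↥M24 p0 ⊓ MulAction.stabilizer ↥M24 p1)) :
    N.gm π ∈ Co0 ∧ N.gm π v = v ∧ N.gm π w = w ∧ N.gm π x = x ∧ IsSP (N.gm π) π.1.1 :=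
  Classical.choose_spec (N.stab_sp π.1.1 π.1.2
    (MulAction.mem_stabilizer_iff.mp (Subgroup.mem_inf.mp π.2).1)
    (MulAction.mem_stabilizer_iff.mp (Subgroup.mem_inf.mp π.2).2))

theorem Nrm.gm_b (N : Nrm v w x)
    (π : ↥(MulAction.stabilizer ↥M24 p0 ⊓ MulAction.stabilizer ↥M24 p1)) :
    N.gm π (v - x) = v - x :=
  stab_b (N.gm_spec π).1 (N.gm_spec π).2.1 (N.gm_spec π).2.2.2.1

theorem Nrm.gm_mul (N : Nrm v w x)
    (π π' : ↥(MulAction.stabilizer ↥M24 p0 ⊓ MulAction.stabilizer ↥M24 p1)) :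
    N.gm (π * π') = N.gm π * N.gm π' := by
  have s1 : IsSP (N.gm (π * π')) (π.1.1 * π'.1.1) := (N.gm_spec (π * π')).2.2.2.2
  have s2 := ((N.gm_spec π).2.2.2.2).mul ((N.gm_spec π').2.2.2.2)
  exact IsSP.unique s1 s2 (v - x) N.b_ne (N.gm_b (π * π'))
    (by rw [Equiv.Perm.mul_apply, N.gm_b π', N.gm_b π])

/-- The isomorphism from the Mathieu group of degree 22 onto the point stabiliser. -/
noncomputable def Nrm.fH (N : Nrm v w x) :
    ↥(MulAction.stabilizer ↥M24 p0 ⊓ MulAction.stabilizer ↥M24 p1) →*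
      ↥(MulAction.stabilizer
        ↥(MulAction.stabilizer ↥Co0 v ⊓ MulAction.stabilizer ↥Co0 w) x) :=
  MonoidHom.mk' (fun π => ⟨⟨⟨N.gm π, (N.gm_spec π).1⟩,
      Subgroup.mem_inf.mpr ⟨MulAction.mem_stabilizer_iff.mpr (N.gm_spec π).2.1,
        MulAction.mem_stabilizer_iff.mpr (N.gm_spec π).2.2.1⟩⟩,
      MulAction.mem_stabilizer_iff.mpr (N.gm_spec π).2.2.2.1⟩) (by
    intro π π'
    apply Subtype.ext
    apply Subtype.ext
    apply Subtype.ext
    exact N.gm_mul π π')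

theorem Nrm.fH_val (N : Nrm v w x)
    (π : ↥(MulAction.stabilizer ↥M24 p0 ⊓ MulAction.stabilizer ↥M24 p1)) :
    ((N.fH π).1.1.1 : Equiv.Perm ↥leechLattice) = N.gm π := rfl

theorem Nrm.fH_inj (N : Nrm v w x) : Function.Injective N.fH := by
  intro π π' h
  have h1 : N.gm π = N.gm π' := by
    rw [← N.fH_val π, ← N.fH_val π', h]
  have s1 := (N.gm_spec π).2.2.2.2
  have s2 := (N.gm_spec π').2.2.2.2
  rw [← h1] at s2
  have h3 := IsSP.perm_unique s1 s2
  apply Subtype.ext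
  apply Subtype.ext
  exact h3

theorem Nrm.fH_surj (N : Nrm v w x) : Function.Surjective N.fH := by
  intro h
  have hg : (h.1.1.1 : Equiv.Perm ↥leechLattice) ∈ Co0 := h.1.1.2
  have gv : h.1.1.1 v = v := MulAction.mem_stabilizer_iff.mp (Subgroup.mem_inf.mp h.1.2).1
  have gw : h.1.1.1 w = w := MulAction.mem_stabilizer_iff.mp (Subgroup.mem_inf.mp h.1.2).2
  have gx : h.1.1.1 x = x := MulAction.mem_stabilizer_iff.mp h.2
  obtain ⟨σ, hσ, e0, e1, sp⟩ := N.sp_of_stab hg gv gw gx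
  refine ⟨⟨⟨σ, hσ⟩, Subgroup.mem_inf.mpr ⟨MulAction.mem_stabilizer_iff.mpr e0,
    MulAction.mem_stabilizer_iff.mpr e1⟩⟩, ?_⟩
  apply Subtype.ext
  apply Subtype.ext
  apply Subtype.ext
  rw [N.fH_val]
  exact IsSP.unique (N.gm_spec _).2.2.2.2 sp (v - x) N.b_ne (N.gm_b _) (stab_b hg gv gx)

theorem Nrm.stab_simple (N : Nrm v w x) : IsSimpleGroup ↥(MulAction.stabilizer
    ↥(MulAction.stabilizer ↥Co0 v ⊓ MulAction.stabilizer ↥Co0 w) x) := by
  have := Cfsg.Agent.S0379.result p0 p1 (by decide)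
  exact (MulEquiv.ofBijective N.fH ⟨N.fH_inj, N.fH_surj⟩).symm.isSimpleGroup

theorem Nrm.stab_card (N : Nrm v w x) : Nat.card ↥(MulAction.stabilizer
    ↥(MulAction.stabilizer ↥Co0 v ⊓ MulAction.stabilizer ↥Co0 w) x) = 443520 := by
  rw [← Nat.card_congr (MulEquiv.ofBijective N.fH ⟨N.fH_inj, N.fH_surj⟩).toEquiv]
  exact Cfsg.Agent.S0378.result p0 p1 (by decide)

/-! ### Faithfulness -/

theorem Nrm.E0 (N : Nrm v w x) : V0' - x = E p0 := by
  apply Subtype.ext
  funext j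
  show V0 j - (x : GolayPt → ℤ) j = (E p0 : GolayPt → ℤ) j
  rw [N.ea, E_apply]
  unfold V0 Wc0
  by_cases hj0 : j = p0
  · simp [hj0]
  · by_cases hj1 : j = p1
    · simp [hj1]
    · simp [hj0, hj1]

theorem Nrm.faithful (N : Nrm v w x) {g : Equiv.Perm ↥leechLattice} (hg : g ∈ Co0)
    (gv : g v = v) (gw : g w = w) (hfix : ∀ y ∈ HS v w, g y = y) : g = 1 := by
  have hxS : x ∈ HS v w := ⟨N.hx, N.hvx, N.hwx⟩
  have gx := hfix x hxS
  have g0 : g V0' = V0' := by rw [← N.e0, hg.1, gv, gw]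
  have hE1 : V0' + x = E p1 := by
    apply Subtype.ext
    funext j
    show V0 j + (x : GolayPt → ℤ) j = (E p1 : GolayPt → ℤ) j
    rw [N.ea, E_apply]
    unfold V0 Wc0
    by_cases hj0 : j = p0
    · simp [hj0]
    · by_cases hj1 : j = p1
      · simp [hj1]
      · simp [hj0, hj1]
  have gE0 : g (E p0) = E p0 := by
    rw [← N.E0, sub_eq_add_neg, hg.1, perm_neg g hg.1, g0, gx]
  have gE1 : g (E p1) = E p1 := by
    rw [← hE1, hg.1, g0, gx]
  have gb := stab_b hg gv gx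
  have hE : ∀ i, g (E i) = E i := by
    intro i
    by_cases h0 : i = p0
    · rw [h0]; exact gE0
    by_cases h1 : i = p1
    · rw [h1]; exact gE1
    have hF := hfix _ (N.F1_mem i h0 h1).1
    have hb := N.bk i h0 h1
    have gZ : g ((v - x) - F1 (v - x) i) = (v - x) - F1 (v - x) i := by
      rw [sub_eq_add_neg, hg.1, perm_neg g hg.1, gb, hF]
    have hZval : (((v - x) - F1 (v - x) i : ↥leechLattice) : GolayPt → ℤ) =
        Zv (((v - x : ↥leechLattice) : GolayPt → ℤ) i) i := by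
      rw [AddSubgroup.coe_sub, F1_val _ i h0 hb]
      abel
    have gW : g ((v - x) - F1 (v - x) i + ((v - x) - F1 (v - x) i) + -E p0) =
        (v - x) - F1 (v - x) i + ((v - x) - F1 (v - x) i) + -E p0 := by
      rw [hg.1, hg.1, perm_neg g hg.1, gZ, gE0]
    have hp0i : p0 ≠ i := fun e => h0 e.symm
    rcases hb with hb | hb
    · have hW : (v - x) - F1 (v - x) i + ((v - x) - F1 (v - x) i) + -E p0 = E i := by
        apply Subtype.ext
        funext j
        rw [AddSubgroup.coe_add, AddSubgroup.coe_add, AddSubgroup.coe_neg, hZval, hb]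
        simp only [Pi.add_apply, Pi.neg_apply]
        rw [E_apply, E_apply]
        unfold Zv
        by_cases hj0 : j = p0
        · simp [hj0, hp0i]
        · by_cases hji : j = i
          · simp [hji, h0]
          · simp [hj0, hji]
      rw [hW] at gW
      exact gW
    · have hW : (v - x) - F1 (v - x) i + ((v - x) - F1 (v - x) i) + -E p0 = -E i := by
        apply Subtype.ext
        funext j
        rw [AddSubgroup.coe_add, AddSubgroup.coe_add, AddSubgroup.coe_neg, AddSubgroup.coe_neg,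
          hZval, hb]
        simp only [Pi.add_apply, Pi.neg_apply]
        rw [E_apply, E_apply]
        unfold Zv
        by_cases hj0 : j = p0
        · simp [hj0, hp0i]
        · by_cases hji : j = i
          · simp [hji, h0]
          · simp [hj0, hji]
      rw [hW, perm_neg g hg.1] at gW
      exact neg_injective gW
  apply Equiv.ext
  intro u
  have h3 := eq_of_E g hg.1 1 (fun i => by rw [hE i, one_smul]) u
  rw [h3, one_smul]
  rfl

/-! ### Connectivity -/

theorem Nrm.conn1 (N : Nrm v w x) {y : ↥leechLattice} (hy : y ∈ HS v w) (hne : y ≠ x)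
    (hxy : dotInt (x : GolayPt → ℤ) (y : GolayPt → ℤ) ≠ 8) :
    ∃ z ∈ HS v w, dotInt (x : GolayPt → ℤ) (z : GolayPt → ℤ) = 8 ∧
      dotInt (z : GolayPt → ℤ) (y : GolayPt → ℤ) = 8 := by
  have h16 : dotInt (x : GolayPt → ℤ) (y : GolayPt → ℤ) = 16 := by
    rcases N.dich hy hne with h | h
    · exact absurd h hxy
    · exact h
  obtain ⟨y0, y1, hc, k1, k2, k3, h12, h13, h23, a1, b1, a2, b2, a3, b3, n1, n2, n3⟩ :=
    N.T2_struct hy h16
  have hm := N.F1_mem k1 a1 b1
  refine ⟨F1 (v - x) k1, hm.1, hm.2, ?_⟩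
  have hb := N.bk k1 a1 b1
  have hyk : (y : GolayPt → ℤ) k1 = 2 * ((v - x : ↥leechLattice) : GolayPt → ℤ) k1 := by
    rcases hc k1 a1 b1 with h | h
    · exact absurd h n1
    · exact h
  have f3 := N.f3 hy
  rw [h16] at f3
  rw [F1_val _ k1 a1 hb, dot_sub_left, f3, dot_comm (Zv _ _), dot_Zv _ _ _ a1, y0, hyk]
  rcases hb with h | h <;> rw [h] <;> norm_num

theorem Nrm.conn2 (N : Nrm v w x) {y : ↥leechLattice} (hy : y ∈ HS v w)
    (hxy : dotInt (x : GolayPt → ℤ) (y : GolayPt → ℤ) = 8) :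
    ∃ z1 ∈ HS v w, ∃ z2 ∈ HS v w,
      (z1 ≠ x ∧ dotInt (x : GolayPt → ℤ) (z1 : GolayPt → ℤ) ≠ 8) ∧
      (z2 ≠ z1 ∧ dotInt (z1 : GolayPt → ℤ) (z2 : GolayPt → ℤ) ≠ 8) ∧
      (z2 = y ∨ (y ≠ z2 ∧ dotInt (z2 : GolayPt → ℤ) (y : GolayPt → ℤ) ≠ 8)) := by
  obtain ⟨k, h0, h1, rfl⟩ := N.T1_struct hy hxy
  have hne : {y : ↥leechLattice | y ∈ HS v w ∧ y ≠ x ∧
      dotInt (x : GolayPt → ℤ) (y : GolayPt → ℤ) ≠ 8}.Nonempty :=
    Set.nonempty_of_ncard_ne_zero (by rw [N.main.2.1]; norm_num)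
  obtain ⟨z1, hz1, hz1x, hz1d⟩ := hne
  have h16 : dotInt (x : GolayPt → ℤ) (z1 : GolayPt → ℤ) = 16 := by
    rcases N.dich hz1 hz1x with h | h
    · exact absurd h hz1d
    · exact h
  obtain ⟨y0, y1, hc, -⟩ := N.T2_struct hz1 h16
  obtain ⟨k', hk'0, hk'1, hk'z⟩ : ∃ k', k' ≠ p0 ∧ k' ≠ p1 ∧ (z1 : GolayPt → ℤ) k' = 0 := by
    rcases profile z1 hz1.1 with ⟨i, hi⟩ | ⟨o, ho8, ho⟩ | ⟨P, hP, hp⟩
    · exfalso
      have := hi p0
      rw [y0] at this
      split_ifs at this <;> norm_num at this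
    · have hex : ∃ k', k' ∉ o := by
        by_contra hcon
        push Not at hcon
        have hu : o = Finset.univ := Finset.eq_univ_iff_forall.mpr hcon
        rw [hu, Finset.card_univ, card_golayPt] at ho8
        norm_num at ho8
      obtain ⟨k', hk'⟩ := hex
      have hz : (z1 : GolayPt → ℤ) k' = 0 := by
        have := ho k'
        rw [if_neg hk'] at this
        exact abs_eq_zero.mp this
      refine ⟨k', ?_, ?_, hz⟩
      · rintro rfl
        rw [y0] at hz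
        norm_num at hz
      · rintro rfl
        rw [y1] at hz
        norm_num at hz
    · exfalso
      have := hp p0
      rw [y0] at this
      split_ifs at this <;> norm_num at this
  have hm' := N.F1_mem k' hk'0 hk'1
  have hb' := N.bk k' hk'0 hk'1
  have f3 := N.f3 hz1
  rw [h16] at f3
  have d12 : dotInt (z1 : GolayPt → ℤ) ((F1 (v - x) k' : ↥leechLattice) : GolayPt → ℤ) = 16 := by
    rw [dot_comm, F1_val _ k' hk'0 hb', dot_sub_left, f3, dot_comm (Zv _ _), dot_Zv _ _ _ hk'0,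
      y0, hk'z]
    norm_num
  refine ⟨z1, hz1, F1 (v - x) k', hm'.1, ⟨hz1x, hz1d⟩, ⟨?_, by rw [d12]; norm_num⟩, ?_⟩
  · intro e
    have := hm'.2
    rw [e, h16] at this
    norm_num at this
  · by_cases hkk : k' = k
    · left; rw [hkk]
    · right
      have hb := N.bk k h0 h1
      have e1 : dotInt ((v - x : ↥leechLattice) : GolayPt → ℤ)
          (Zv (((v - x : ↥leechLattice) : GolayPt → ℤ) k) k) = 16 := by
        rw [dot_Zv _ _ _ h0, N.b0]
        rcases hb with h | h <;> rw [h] <;> norm_num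
      have e2 : dotInt ((v - x : ↥leechLattice) : GolayPt → ℤ)
          (Zv (((v - x : ↥leechLattice) : GolayPt → ℤ) k') k') = 16 := by
        rw [dot_Zv _ _ _ hk'0, N.b0]
        rcases hb' with h | h <;> rw [h] <;> norm_num
      have e3 : dotInt (Zv (((v - x : ↥leechLattice) : GolayPt → ℤ) k') k')
          (Zv (((v - x : ↥leechLattice) : GolayPt → ℤ) k) k) = 16 := by
        rw [dot_Zv _ _ _ h0, Zv_p0, Zv_off _ _ k h0 (fun e => hkk e.symm)]
        norm_num
      have d : dotInt ((F1 (v - x) k' : ↥leechLattice) : GolayPt → ℤ)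
          ((F1 (v - x) k : ↥leechLattice) : GolayPt → ℤ) = 16 := by
        rw [F1_val _ k' hk'0 hb', F1_val _ k h0 hb, dot_sub_left, dot_sub_right, dot_sub_right,
          dot_self, N.nb, e1, e3,
          dot_comm (Zv (((v - x : ↥leechLattice) : GolayPt → ℤ) k') k')
            ((v - x : ↥leechLattice) : GolayPt → ℤ), e2]
        norm_num
      exact ⟨fun e => hkk (N.F1_inj k k' h0 h1 hk'0 hk'1 e).symm, by rw [d]; norm_num⟩

/-! ### The Higman–Sims group -/

/-- The Higman–Sims group for a normalised triple. -/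
theorem Nrm.isHS (N : Nrm v w x) :
    IsHS ↥(MulAction.stabilizer ↥Co0 v ⊓ MulAction.stabilizer ↥Co0 w) := by
  have mem : ∀ g : ↥(MulAction.stabilizer ↥Co0 v ⊓ MulAction.stabilizer ↥Co0 w),
      (g.1.1 : Equiv.Perm ↥leechLattice) ∈ Co0 ∧ g.1.1 v = v ∧ g.1.1 w = w := fun g =>
    ⟨g.1.2, MulAction.mem_stabilizer_iff.mp (Subgroup.mem_inf.mp g.2).1,
      MulAction.mem_stabilizer_iff.mp (Subgroup.mem_inf.mp g.2).2⟩
  have mk : ∀ g : Equiv.Perm ↥leechLattice, g ∈ Co0 → g v = v → g w = w →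
      ∃ g' : ↥(MulAction.stabilizer ↥Co0 v ⊓ MulAction.stabilizer ↥Co0 w),
        ∀ y : ↥leechLattice, g' • y = g y :=
    fun g hg gv gw => ⟨⟨⟨g, hg⟩, Subgroup.mem_inf.mpr ⟨MulAction.mem_stabilizer_iff.mpr gv,
      MulAction.mem_stabilizer_iff.mpr gw⟩⟩, fun y => rfl⟩
  have hxS : x ∈ HS v w := ⟨N.hx, N.hvx, N.hwx⟩
  have hΩ : ∀ (g : ↥(MulAction.stabilizer ↥Co0 v ⊓ MulAction.stabilizer ↥Co0 w)),
      ∀ y ∈ HS v w, g • y ∈ HS v w :=
    fun g y hy => N.mem_of_stab (mem g).1 (mem g).2.1 (mem g).2.2 hy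
  have htrans : ∀ y ∈ HS v w,
      ∃ g : ↥(MulAction.stabilizer ↥Co0 v ⊓ MulAction.stabilizer ↥Co0 w), g • x = y := by
    intro y hy
    obtain ⟨g, hg, e1, e2, e3⟩ := hs_trans v w x y N.hv N.hw N.hvw N.hx N.hvx N.hwx hy.1 hy.2.1
      hy.2.2
    obtain ⟨g', hg'⟩ := mk g hg e1 e2
    exact ⟨g', by rw [hg', e3]⟩
  have hsimple : IsSimpleGroup ↥(MulAction.stabilizer ↥Co0 v ⊓ MulAction.stabilizer ↥Co0 w) :=
    Cfsg.Agent.Lib.Helper11.Rank3.rank3_simple (HS v w) x hxS
      (fun p q : ↥leechLattice => dotInt (p : GolayPt → ℤ) (q : GolayPt → ℤ) = 8)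
      (fun g p q => by
        show dotInt ((g.1.1 p : ↥leechLattice) : GolayPt → ℤ)
          ((g.1.1 q : ↥leechLattice) : GolayPt → ℤ) = 8 ↔ _
        rw [dot_co0 (mem g).1])
      hΩ
      (fun g hfix => by
        have h3 := N.faithful (mem g).1 (mem g).2.1 (mem g).2.2 hfix
        apply Subtype.ext
        apply Subtype.ext
        exact h3)
      htrans
      (fun y hy y' hy' h h' => by
        obtain ⟨g, hg, e1, e2, e3, e4⟩ := N.trans1 hy hy' h h'
        obtain ⟨g', hg'⟩ := mk g hg e1 e2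
        exact ⟨g', by rw [hg', e3], by rw [hg', e4]⟩)
      (fun y hy y' hy' hne hne' h h' => by
        have h16 : dotInt (x : GolayPt → ℤ) (y : GolayPt → ℤ) = 16 := by
          rcases N.dich hy hne with q | q
          · exact absurd q h
          · exact q
        have h16' : dotInt (x : GolayPt → ℤ) (y' : GolayPt → ℤ) = 16 := by
          rcases N.dich hy' hne' with q | q
          · exact absurd q h'
          · exact q
        obtain ⟨g, hg, e1, e2, e3, e4⟩ := N.trans2' hy hy' h16 h16'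
        obtain ⟨g', hg'⟩ := mk g hg e1 e2
        exact ⟨g', by rw [hg', e3], by rw [hg', e4]⟩)
      (by rw [dot_self, N.hx]; norm_num)
      (fun y hy hne h => N.conn1 hy hne h)
      (fun y hy h => N.conn2 hy h)
      N.stab_simple
      (hs_count v w N.hv N.hw N.hvw)
      N.main.1
      N.main.2.1
  refine ⟨hsimple, ?_⟩
  have h1 := Subgroup.card_mul_index (MulAction.stabilizer
    ↥(MulAction.stabilizer ↥Co0 v ⊓ MulAction.stabilizer ↥Co0 w) x)
  have horb : MulAction.orbit ↥(MulAction.stabilizer ↥Co0 v ⊓ MulAction.stabilizer ↥Co0 w) x =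
      HS v w := by
    ext y
    constructor
    · rintro ⟨g, rfl⟩
      exact hΩ g x hxS
    · intro hy
      obtain ⟨g, hg⟩ := htrans y hy
      exact ⟨g, hg⟩
  rw [MulAction.index_stabilizer, N.stab_card, horb] at h1
  have h100 : (HS v w).ncard = 100 := hs_count v w N.hv N.hw N.hvw
  rw [h100] at h1
  omega

end

theorem exists_nrm (v w x : ↥leechLattice) (hv : sqNorm (v : GolayPt → ℤ) = 48)
    (hw : sqNorm (w : GolayPt → ℤ) = 48)
    (hvw : dotInt (v : GolayPt → ℤ) (w : GolayPt → ℤ) = -32) (hx : x ∈ HS v w) :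
    ∃ g ∈ Co0, Nrm (g v) (g w) (g x) := by
  have n0 : sqNorm ((v + w : ↥leechLattice) : GolayPt → ℤ) = 32 := by
    rw [AddSubgroup.coe_add, sqNorm_add, hv, hw, hvw]; norm_num
  have q1 : dotInt ((v + w : ↥leechLattice) : GolayPt → ℤ) (x : GolayPt → ℤ) = 0 := by
    rw [AddSubgroup.coe_add, dot_add_left, hx.2.1, hx.2.2]; norm_num
  have q2 : dotInt ((v + w : ↥leechLattice) : GolayPt → ℤ)
      ((v - x : ↥leechLattice) : GolayPt → ℤ) = 16 := by
    rw [AddSubgroup.coe_add, AddSubgroup.coe_sub, dot_sub_right, dot_add_left, dot_add_left,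
      dot_self, hv, dot_comm (w : GolayPt → ℤ) (v : GolayPt → ℤ), hvw, hx.2.1, hx.2.2]
    norm_num
  have q3 : dotInt (x : GolayPt → ℤ) ((v - x : ↥leechLattice) : GolayPt → ℤ) = -8 := by
    rw [AddSubgroup.coe_sub, dot_sub_right, dot_self, hx.1,
      dot_comm (x : GolayPt → ℤ) (v : GolayPt → ℤ), hx.2.1]
    norm_num
  obtain ⟨g, hg, e1, e2, e3, e4⟩ := norm_triple (v + w) x (v - x) n0 hx.1 q1 q2 q3
  have gsub : g v - g x = g (v - x) := by
    rw [sub_eq_add_neg v x, hg.1, perm_neg g hg.1, ← sub_eq_add_neg]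
  exact ⟨g, hg,
    { hv := by rw [hg.2]; exact hv
      hw := by rw [hg.2]; exact hw
      hvw := by rw [dot_co0 hg]; exact hvw
      hx := by rw [hg.2]; exact hx.1
      hvx := by rw [dot_co0 hg]; exact hx.2.1
      hwx := by rw [dot_co0 hg]; exact hx.2.2
      e0 := by rw [← hg.1]; exact e1
      ea := e2
      b0 := by rw [gsub]; exact e3
      b1 := by rw [gsub]; exact e4 }⟩

/-- **The joint stabiliser of two vectors of norm `48` with inner product `-32` is the
Higman–Sims group.** -/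
theorem hs_isHS (v w : ↥leechLattice) (hv : sqNorm (v : GolayPt → ℤ) = 48)
    (hw : sqNorm (w : GolayPt → ℤ) = 48)
    (hvw : dotInt (v : GolayPt → ℤ) (w : GolayPt → ℤ) = -32) :
    IsHS ↥(MulAction.stabilizer ↥Co0 v ⊓ MulAction.stabilizer ↥Co0 w) := by
  have h100 : (HS v w).ncard = 100 := hs_count v w hv hw hvw
  have hne : (HS v w).Nonempty :=
    Set.nonempty_of_ncard_ne_zero (by rw [h100]; norm_num)
  obtain ⟨x, hx⟩ := hne
  obtain ⟨g, hg, N⟩ := exists_nrm v w x hv hw hvw hx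
  have hN := N.isHS
  have e1 : MulAction.stabilizer ↥Co0 (g v) = (MulAction.stabilizer ↥Co0 v).map
      (MulAut.conj (⟨g, hg⟩ : ↥Co0)).toMonoidHom :=
    MulAction.stabilizer_smul_eq_stabilizer_map_conj (⟨g, hg⟩ : ↥Co0) v
  have e2 : MulAction.stabilizer ↥Co0 (g w) = (MulAction.stabilizer ↥Co0 w).map
      (MulAut.conj (⟨g, hg⟩ : ↥Co0)).toMonoidHom :=
    MulAction.stabilizer_smul_eq_stabilizer_map_conj (⟨g, hg⟩ : ↥Co0) w
  have e3 : MulAction.stabilizer ↥Co0 (g v) ⊓ MulAction.stabilizer ↥Co0 (g w) =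
      (MulAction.stabilizer ↥Co0 v ⊓ MulAction.stabilizer ↥Co0 w).map
        (MulAut.conj (⟨g, hg⟩ : ↥Co0)).toMonoidHom := by
    rw [e1, e2, Subgroup.map_inf_eq _ _ _ (MulAut.conj (⟨g, hg⟩ : ↥Co0)).injective]
  have hs := hN.1
  exact ⟨((Subgroup.equivMapOfInjective
      (MulAction.stabilizer ↥Co0 v ⊓ MulAction.stabilizer ↥Co0 w)
      (MulAut.conj (⟨g, hg⟩ : ↥Co0)).toMonoidHom
      (MulAut.conj (⟨g, hg⟩ : ↥Co0)).injective).trans
      (MulEquiv.subgroupCongr e3.symm)).isSimpleGroup, by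
    rw [Nat.card_congr ((Subgroup.equivMapOfInjective
      (MulAction.stabilizer ↥Co0 v ⊓ MulAction.stabilizer ↥Co0 w)
      (MulAut.conj (⟨g, hg⟩ : ↥Co0)).toMonoidHom
      (MulAut.conj (⟨g, hg⟩ : ↥Co0)).injective).trans
      (MulEquiv.subgroupCongr e3.symm)).toEquiv]
    exact hN.2⟩

end Cfsg.Agent.Lib.Helper11.LeechSt
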