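import Mathlib
import Cfsg.Agent.Lib.Helper11.LeechHS4
import Cfsg.Agent.S0394
import Cfsg.Agent.S0392

set_option autoImplicit false

namespace Cfsg.Agent.Lib.Helper11.LeechSt

open Cfsg Cfsg.Agent.Lib.Helper3.Golay Cfsg.Agent.Lib.Helper3.Golay2
open Cfsg.Agent.Lib.Helper3.Leech Cfsg.Agent.Lib.Helper3.Leech2 Cfsg.Agent.Lib.Helper3.Leech4
open Cfsg.Agent.Lib.Helper3.GolayM24 Cfsg.Agent.Lib.Helper3.M24Perm
open Cfsg.Agent.Lib.Helper3.M24Trans Cfsg.Agent.Lib.Helper3.M24Cert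
open Cfsg.Agent.Lib.Helper11.LeechGF Cfsg.Agent.Lib.Helper11.Co0Mono
open Cfsg.Agent.Lib.Helper11.LeechIP Cfsg.Agent.Lib.Helper11.LeechXi
open Cfsg.Agent.Lib.Helper11.LeechMod2

/-! ### Automorphisms that are `± 1` on minimal vectors -/

theorem pair_case' {g : Equiv.Perm ↥leechLattice} (hg : g ∈ Co0)
    (hpm : ∀ v : ↥leechLattice, sqNorm (v : GolayPt → ℤ) = 32 → g v = v ∨ g v = -v)
    (i j : GolayPt) (h : i ≠ j) :
    (g (E i) = E i ∧ g (E j) = E j) ∨ (g (E i) = E j ∧ g (E j) = E i) ∨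
    (g (E i) = -E j ∧ g (E j) = -E i) ∨ (g (E i) = -E i ∧ g (E j) = -E j) := by
  have ha := hpm (A i j h) (sqNorm_A i j h)
  have hb := hpm (B i j h) (sqNorm_B i j h)
  have e1 : g (E i) = g (A i j h) + g (B i j h) := by rw [← hg.1, A_add_B]
  have e2 : g (E j) = g (A i j h) - g (B i j h) := by
    rw [sub_eq_add_neg, ← perm_neg g hg.1, ← hg.1, ← sub_eq_add_neg, A_sub_B]
  rcases ha with ha | ha <;> rcases hb with hb | hb
  · left
    rw [e1, e2, ha, hb]
    exact ⟨A_add_B i j h, A_sub_B i j h⟩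
  · right; left
    rw [e1, e2, ha, hb]
    constructor
    · rw [← sub_eq_add_neg]; exact A_sub_B i j h
    · rw [sub_neg_eq_add]; exact A_add_B i j h
  · right; right; left
    rw [e1, e2, ha, hb]
    constructor
    · rw [← A_sub_B i j h]; abel
    · rw [← A_add_B i j h]; abel
  · right; right; right
    rw [e1, e2, ha, hb]
    constructor
    · rw [← A_add_B i j h]; abel
    · rw [← A_sub_B i j h]; abel

theorem diag_case' {g : Equiv.Perm ↥leechLattice} (hg : g ∈ Co0)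
    (hpm : ∀ v : ↥leechLattice, sqNorm (v : GolayPt → ℤ) = 32 → g v = v ∨ g v = -v)
    (i j : GolayPt) (h : i ≠ j) :
    (g (E i) = E i ∧ g (E j) = E j) ∨ (g (E i) = -E i ∧ g (E j) = -E j) := by
  obtain ⟨k, hki, hkj⟩ := third i j
  rcases pair_case' hg hpm i j h with c | c | c | c
  · exact Or.inl c
  · exfalso
    rcases pair_case' hg hpm i k (Ne.symm hki) with d | d | d | d
    · exact (E_ne j i (Ne.symm h)).1 (c.1.symm.trans d.1)
    · exact (E_ne j k (Ne.symm hkj)).1 (c.1.symm.trans d.1)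
    · exact (E_ne j k (Ne.symm hkj)).2 (c.1.symm.trans d.1)
    · exact (E_ne j i (Ne.symm h)).2 (c.1.symm.trans d.1)
  · exfalso
    rcases pair_case' hg hpm i k (Ne.symm hki) with d | d | d | d
    · exact (E_ne i j h).2 (d.1.symm.trans c.1)
    · exact (E_ne k j hkj).2 (d.1.symm.trans c.1)
    · exact (E_ne k j hkj).1 (neg_injective (d.1.symm.trans c.1))
    · exact (E_ne i j h).1 (neg_injective (d.1.symm.trans c.1))
  · exact Or.inr c

/-- **An automorphism mapping every minimal vector to itself or its negative is `± 1`.** -/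
theorem scalar_pm {g : Equiv.Perm ↥leechLattice} (hg : g ∈ Co0)
    (hpm : ∀ v : ↥leechLattice, sqNorm (v : GolayPt → ℤ) = 32 → g v = v ∨ g v = -v) :
    (∀ v, g v = v) ∨ (∀ v, g v = -v) := by
  by_cases h0 : g (E none) = E none
  · left
    intro v
    have hall : ∀ i, g (E i) = (1 : ℤ) • E i := by
      intro i
      rw [one_smul]
      by_cases hi : i = none
      · rw [hi]; exact h0
      · rcases diag_case' hg hpm none i (Ne.symm hi) with d | d
        · exact d.2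
        · exact absurd (h0.symm.trans d.1) (Cfsg.Agent.Lib.Helper11.LeechMod2.E_ne_neg none)
    rw [eq_of_E g hg.1 1 hall v, one_smul]
  · right
    intro v
    have hall : ∀ i, g (E i) = (-1 : ℤ) • E i := by
      intro i
      rw [neg_one_smul]
      by_cases hi : i = none
      · rw [hi]
        rcases diag_case' hg hpm none (some 0) (by decide) with d | d
        · exact absurd d.1 h0
        · exact d.1
      · rcases diag_case' hg hpm none i (Ne.symm hi) with d | d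
        · exact absurd d.1 h0
        · exact d.2
    rw [eq_of_E g hg.1 (-1) hall v, neg_one_smul]


/-! ### Pairs of minimal vectors -/

theorem dot_dvd8 (v w : ↥leechLattice) :
    (8 : ℤ) ∣ dotInt (v : GolayPt → ℤ) (w : GolayPt → ℤ) := by
  have h1 := Cfsg.Agent.S0392.result _ (v + w).2
  have h2 := Cfsg.Agent.S0392.result _ v.2
  have h3 := Cfsg.Agent.S0392.result _ w.2
  rw [AddSubgroup.coe_add, sqNorm_add] at h1
  omega

theorem dot_neg_right (x y : GolayPt → ℤ) : dotInt x (-y) = -dotInt x y := by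
  unfold dotInt
  rw [← Finset.sum_neg_distrib]
  exact Finset.sum_congr rfl fun i _ => by simp

theorem dot_neg_left (x y : GolayPt → ℤ) : dotInt (-x) y = -dotInt x y := by
  rw [dot_comm, dot_neg_right, dot_comm]

theorem pairT (d : ℤ) (hd : d = 0 ∨ d = 8 ∨ d = -8 ∨ d = 16 ∨ d = -16)
    (v w v' w' : ↥leechLattice) (hv : sqNorm (v : GolayPt → ℤ) = 32)
    (hw : sqNorm (w : GolayPt → ℤ) = 32) (hv' : sqNorm (v' : GolayPt → ℤ) = 32)
    (hw' : sqNorm (w' : GolayPt → ℤ) = 32)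
    (h : dotInt (v : GolayPt → ℤ) (w : GolayPt → ℤ) = d)
    (h' : dotInt (v' : GolayPt → ℤ) (w' : GolayPt → ℤ) = d) :
    ∃ g ∈ Co0, g v = v' ∧ g w = w' := by
  obtain ⟨g1, hg1, e1⟩ := min_trans v v' hv hv'
  have h1 : dotInt (v' : GolayPt → ℤ) ((g1 w : ↥leechLattice) : GolayPt → ℤ) = d := by
    have := dot_co0 hg1 v w
    rw [e1] at this
    rw [this]; exact h
  have hgw : sqNorm ((g1 w : ↥leechLattice) : GolayPt → ℤ) = 32 := by rw [hg1.2]; exact hw
  have hn : ∀ z : ↥leechLattice, sqNorm (z : GolayPt → ℤ) = 32 →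
      sqNorm ((-z : ↥leechLattice) : GolayPt → ℤ) = 32 := by
    intro z hz
    rw [AddSubgroup.coe_neg, sqNorm_neg']; exact hz
  have hneg : ∀ z : ↥leechLattice, dotInt (v' : GolayPt → ℤ) ((-z : ↥leechLattice) : GolayPt → ℤ) =
      -dotInt (v' : GolayPt → ℤ) (z : GolayPt → ℤ) := by
    intro z
    rw [AddSubgroup.coe_neg, dot_neg_right]
  have key : ∃ g ∈ Co0, g v' = v' ∧ g (g1 w) = w' := by
    rcases hd with rfl | rfl | rfl | rfl | rfl
    · exact pair0 v' (g1 w) w' hv' hgw hw' h1 h'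
    · obtain ⟨g, hg, e, f⟩ := pair8 v' (-(g1 w)) (-w') hv' (hn _ hgw) (hn _ hw')
        (by rw [hneg, h1]) (by rw [hneg, h'])
      rw [perm_neg g hg.1] at f
      exact ⟨g, hg, e, neg_injective f⟩
    · exact pair8 v' (g1 w) w' hv' hgw hw' h1 h'
    · obtain ⟨g, hg, e, f⟩ := pair16 v' (-(g1 w)) (-w') hv' (hn _ hgw) (hn _ hw')
        (by rw [hneg, h1]) (by rw [hneg, h'])
      rw [perm_neg g hg.1] at f
      exact ⟨g, hg, e, neg_injective f⟩
    · exact pair16 v' (g1 w) w' hv' hgw hw' h1 h'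
  obtain ⟨g2, hg2, e2, f2⟩ := key
  refine ⟨g2 * g1, Co0.mul_mem hg2 hg1, ?_, ?_⟩
  · rw [Equiv.Perm.mul_apply, e1, e2]
  · rw [Equiv.Perm.mul_apply, f2]

/-! ### Explicit vectors -/

theorem dot_A (i j : GolayPt) (h : i ≠ j) (w : GolayPt → ℤ) :
    dotInt (A i j h : GolayPt → ℤ) w = 4 * w i + 4 * w j := by
  show dotInt (vec 4 {i, j} ∅) w = _
  unfold dotInt
  rw [Fintype.sum_eq_add i j h]
  · unfold vec
    simp
  · intro k hk
    unfold vec
    simp [hk.1, hk.2]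

theorem dot_B (i j : GolayPt) (h : i ≠ j) (w : GolayPt → ℤ) :
    dotInt (B i j h : GolayPt → ℤ) w = 4 * w i - 4 * w j := by
  show dotInt (vec 4 {i, j} {j}) w = _
  unfold dotInt
  rw [Fintype.sum_eq_add i j h]
  · unfold vec
    simp [h]
    ring
  · intro k hk
    unfold vec
    simp [hk.1, hk.2]

/-- Two steps of orthogonality join the base vector to any minimal vector. -/
theorem orth_mid (w : ↥leechLattice) (hw : sqNorm (w : GolayPt → ℤ) = 32) :
    ∃ u : ↥leechLattice, sqNorm (u : GolayPt → ℤ) = 32 ∧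
      dotInt V0 (u : GolayPt → ℤ) = 0 ∧ dotInt (u : GolayPt → ℤ) (w : GolayPt → ℤ) = 0 := by
  have hbound : ∀ j, ((w : GolayPt → ℤ) j).natAbs < 6 := by
    intro j
    have h1 : (w : GolayPt → ℤ) j ^ 2 ≤ sqNorm (w : GolayPt → ℤ) :=
      Finset.single_le_sum (f := fun j => (w : GolayPt → ℤ) j ^ 2) (fun i _ => sq_nonneg _)
        (Finset.mem_univ j)
    rw [hw] at h1
    have h2 : ((((w : GolayPt → ℤ) j).natAbs : ℤ)) ^ 2 ≤ 32 := by
      rw [Int.natAbs_sq]; exact h1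
    by_contra hcon
    push Not at hcon
    have h3 : (6 : ℤ) ≤ (((w : GolayPt → ℤ) j).natAbs : ℤ) := by exact_mod_cast hcon
    nlinarith
  have hcard : (Finset.range 6).card < ((Finset.univ.erase p0).erase p1 : Finset GolayPt).card := by
    rw [Finset.card_range]
    decide
  obtain ⟨i, hi, j, hj, hij, hval⟩ := Finset.exists_ne_map_eq_of_card_lt_of_maps_to hcard
    (f := fun j => ((w : GolayPt → ℤ) j).natAbs) (fun j _ => Finset.mem_range.mpr (hbound j))
  rw [Finset.mem_erase, Finset.mem_erase] at hi hj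
  have v0i : V0 i = 0 := by unfold V0; rw [if_neg (by rintro (h | h); exact hi.2.1 h; exact hi.1 h)]
  have v0j : V0 j = 0 := by unfold V0; rw [if_neg (by rintro (h | h); exact hj.2.1 h; exact hj.1 h)]
  rcases Int.natAbs_eq_natAbs_iff.mp hval with e | e
  · refine ⟨B i j hij, sqNorm_B i j hij, ?_, ?_⟩
    · rw [dot_comm, dot_B, v0i, v0j]; norm_num
    · rw [dot_B, e]; ring
  · refine ⟨A i j hij, sqNorm_A i j hij, ?_, ?_⟩
    · rw [dot_comm, dot_A, v0i, v0j]; norm_num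
    · rw [dot_A, e]; ring

/-- The vector `(-3, 1, ..., 1)`. -/
def W8 : ↥leechLattice :=
  ⟨oddv Finset.univ p0, (mem_leechLattice_iff _).mpr (oddv_mem univ_mem_supports p0)⟩

/-- The vector `-(4 e_{p2} + 4 e_{p3})`. -/
def U0 : ↥leechLattice := -A p2 p3 (by decide)

/-- The vector `4 e_{p0} - 4 e_{p2}`. -/
def B02 : ↥leechLattice := B p0 p2 (by decide)

theorem num_U0 : sqNorm (-vec 4 {p2, p3} ∅) = 32 ∧ dotInt V0 (-vec 4 {p2, p3} ∅) = 0 := by
  decide +kernel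

theorem num_16 : sqNorm (vec 4 {p0, p2} {p2}) = 32 ∧ dotInt V0 (vec 4 {p0, p2} {p2}) = 16 ∧
    dotInt (vec 4 {p0, p2} {p2}) (-vec 4 {p2, p3} ∅) = 16 := by
  decide +kernel

theorem num_8 : sqNorm (oddv Finset.univ p0) = 32 ∧ dotInt V0 (oddv Finset.univ p0) = -8 ∧
    dotInt (oddv Finset.univ p0) (-vec 4 {p2, p3} ∅) = -8 := by
  decide +kernel


/-! ### A non-central normal subgroup is transitive on the minimal vectors -/

theorem dot_range (v w : ↥leechLattice) (hv : sqNorm (v : GolayPt → ℤ) = 32)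
    (hw : sqNorm (w : GolayPt → ℤ) = 32) (h1 : w ≠ v) (h2 : w ≠ -v) :
    dotInt (v : GolayPt → ℤ) (w : GolayPt → ℤ) = 0 ∨
    dotInt (v : GolayPt → ℤ) (w : GolayPt → ℤ) = 8 ∨
    dotInt (v : GolayPt → ℤ) (w : GolayPt → ℤ) = -8 ∨
    dotInt (v : GolayPt → ℤ) (w : GolayPt → ℤ) = 16 ∨
    dotInt (v : GolayPt → ℤ) (w : GolayPt → ℤ) = -16 := by
  have hd := dot_dvd8 v w
  have hs : (v - w : ↥leechLattice) ≠ 0 := fun h => h1 (sub_eq_zero.mp h).symm
  have ha : (v + w : ↥leechLattice) ≠ 0 := fun h => h2 (by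
    rw [add_comm] at h
    exact eq_neg_of_add_eq_zero_left h)
  have e1 := Cfsg.Agent.S0391.result _ (v - w).2 (fun h => hs (Subtype.ext h))
  have e2 := Cfsg.Agent.S0391.result _ (v + w).2 (fun h => ha (Subtype.ext h))
  rw [AddSubgroup.coe_sub, sqNorm_sub', hv, hw] at e1
  rw [AddSubgroup.coe_add, sqNorm_add, hv, hw] at e2
  omega

theorem U0_val : (U0 : GolayPt → ℤ) = -vec 4 {p2, p3} ∅ := rfl

theorem B02_val : (B02 : GolayPt → ℤ) = vec 4 {p0, p2} {p2} := rfl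

theorem W8_val : (W8 : GolayPt → ℤ) = oddv Finset.univ p0 := rfl

theorem V0'_val : (V0' : GolayPt → ℤ) = V0 := rfl

/-- **A normal subgroup of `Co0` with an element moving a minimal vector `v` to neither `v`
nor `-v` is transitive on the minimal vectors.** -/
theorem normal_trans (K : Subgroup ↥Co0) (hK : K.Normal) (k : ↥Co0) (hk : k ∈ K)
    (v : ↥leechLattice) (hv : sqNorm (v : GolayPt → ℤ) = 32)
    (h1 : (k : Equiv.Perm ↥leechLattice) v ≠ v) (h2 : (k : Equiv.Perm ↥leechLattice) v ≠ -v)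
    (a b : ↥leechLattice) (ha : sqNorm (a : GolayPt → ℤ) = 32)
    (hb : sqNorm (b : GolayPt → ℤ) = 32) :
    ∃ k' ∈ K, (k' : Equiv.Perm ↥leechLattice) a = b := by
  have Rsymm : ∀ x y : ↥leechLattice, (∃ k' ∈ K, (k' : Equiv.Perm ↥leechLattice) x = y) →
      ∃ k' ∈ K, (k' : Equiv.Perm ↥leechLattice) y = x := by
    rintro x y ⟨k', hk', e⟩
    refine ⟨k'⁻¹, K.inv_mem hk', ?_⟩
    rw [← e]
    exact Equiv.symm_apply_apply k'.1 x
  have Rtrans : ∀ x y z : ↥leechLattice, (∃ k' ∈ K, (k' : Equiv.Perm ↥leechLattice) x = y) →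
      (∃ k' ∈ K, (k' : Equiv.Perm ↥leechLattice) y = z) →
      ∃ k' ∈ K, (k' : Equiv.Perm ↥leechLattice) x = z := by
    rintro x y z ⟨k1, hk1, e1⟩ ⟨k2, hk2, e2⟩
    refine ⟨k2 * k1, K.mul_mem hk2 hk1, ?_⟩
    show k2.1 (k1.1 x) = z
    rw [e1, e2]
  have Rconj : ∀ (x y : ↥leechLattice) (g : Equiv.Perm ↥leechLattice), g ∈ Co0 →
      (∃ k' ∈ K, (k' : Equiv.Perm ↥leechLattice) x = y) →
      ∃ k' ∈ K, (k' : Equiv.Perm ↥leechLattice) (g x) = g y := by
    rintro x y g hg ⟨k', hk', e⟩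
    refine ⟨⟨g, hg⟩ * k' * (⟨g, hg⟩ : ↥Co0)⁻¹, hK.conj_mem k' hk' ⟨g, hg⟩, ?_⟩
    show g (k'.1 (g⁻¹ (g x))) = g y
    rw [show g⁻¹ (g x) = x from Equiv.symm_apply_apply g x, e]
  have hkv : sqNorm (((k : Equiv.Perm ↥leechLattice) v : ↥leechLattice) : GolayPt → ℤ) = 32 := by
    rw [k.2.2]; exact hv
  have hd := dot_range v ((k : Equiv.Perm ↥leechLattice) v) hv hkv h1 h2
  -- pairs at inner product `d`
  have Rd : ∀ x y : ↥leechLattice, sqNorm (x : GolayPt → ℤ) = 32 →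
      sqNorm (y : GolayPt → ℤ) = 32 →
      dotInt (x : GolayPt → ℤ) (y : GolayPt → ℤ) =
        dotInt (v : GolayPt → ℤ) (((k : Equiv.Perm ↥leechLattice) v : ↥leechLattice) : GolayPt → ℤ) →
      ∃ k' ∈ K, (k' : Equiv.Perm ↥leechLattice) x = y := by
    intro x y hx hy hxy
    obtain ⟨g, hg, e1, e2⟩ := pairT _ hd v ((k : Equiv.Perm ↥leechLattice) v) x y hv hkv hx hy rfl hxy
    have := Rconj v ((k : Equiv.Perm ↥leechLattice) v) g hg ⟨k, hk, rfl⟩
    rw [e1, e2] at this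
    exact this
  have nU0 : sqNorm (U0 : GolayPt → ℤ) = 32 := by rw [U0_val]; exact num_U0.1
  have nV0 : sqNorm (V0' : GolayPt → ℤ) = 32 := sqNorm_V0
  have nB : sqNorm (B02 : GolayPt → ℤ) = 32 := by rw [B02_val]; exact num_16.1
  have nW : sqNorm (W8 : GolayPt → ℤ) = 32 := by rw [W8_val]; exact num_8.1
  have nBn : sqNorm ((-B02 : ↥leechLattice) : GolayPt → ℤ) = 32 := by
    rw [AddSubgroup.coe_neg, sqNorm_neg']; exact nB
  have nWn : sqNorm ((-W8 : ↥leechLattice) : GolayPt → ℤ) = 32 := by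
    rw [AddSubgroup.coe_neg, sqNorm_neg']; exact nW
  have R0 : ∃ k' ∈ K, (k' : Equiv.Perm ↥leechLattice) V0' = U0 := by
    rcases hd with hd | hd | hd | hd | hd
    · exact Rd V0' U0 nV0 nU0 (by rw [hd, U0_val, V0'_val]; exact num_U0.2)
    · refine Rtrans V0' (-W8) U0 (Rd _ _ nV0 nWn ?_) (Rd _ _ nWn nU0 ?_)
      · rw [hd, AddSubgroup.coe_neg, dot_neg_right, W8_val, V0'_val, num_8.2.1]; rfl
      · rw [hd, AddSubgroup.coe_neg, dot_neg_left, W8_val, U0_val, num_8.2.2]; rfl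
    · refine Rtrans V0' W8 U0 (Rd _ _ nV0 nW ?_) (Rd _ _ nW nU0 ?_)
      · rw [hd, W8_val, V0'_val, num_8.2.1]
      · rw [hd, W8_val, U0_val, num_8.2.2]
    · refine Rtrans V0' B02 U0 (Rd _ _ nV0 nB ?_) (Rd _ _ nB nU0 ?_)
      · rw [hd, B02_val, V0'_val, num_16.2.1]
      · rw [hd, B02_val, U0_val, num_16.2.2]
    · refine Rtrans V0' (-B02) U0 (Rd _ _ nV0 nBn ?_) (Rd _ _ nBn nU0 ?_)
      · rw [hd, AddSubgroup.coe_neg, dot_neg_right, B02_val, V0'_val, num_16.2.1]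
      · rw [hd, AddSubgroup.coe_neg, dot_neg_left, B02_val, U0_val, num_16.2.2]
  have Rorth : ∀ x y : ↥leechLattice, sqNorm (x : GolayPt → ℤ) = 32 →
      sqNorm (y : GolayPt → ℤ) = 32 → dotInt (x : GolayPt → ℤ) (y : GolayPt → ℤ) = 0 →
      ∃ k' ∈ K, (k' : Equiv.Perm ↥leechLattice) x = y := by
    intro x y hx hy hxy
    obtain ⟨g, hg, e1, e2⟩ := pairT 0 (Or.inl rfl) V0' U0 x y nV0 nU0 hx hy
      (by rw [U0_val, V0'_val]; exact num_U0.2) hxy
    have := Rconj V0' U0 g hg R0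
    rw [e1, e2] at this
    exact this
  have Rbase : ∀ w : ↥leechLattice, sqNorm (w : GolayPt → ℤ) = 32 →
      ∃ k' ∈ K, (k' : Equiv.Perm ↥leechLattice) V0' = w := by
    intro w hw
    obtain ⟨u, hu, e1, e2⟩ := orth_mid w hw
    exact Rtrans V0' u w (Rorth _ _ nV0 hu e1) (Rorth _ _ hu hw e2)
  exact Rtrans a V0' b (Rsymm _ _ (Rbase a ha)) (Rbase b hb)

end Cfsg.Agent.Lib.Helper11.LeechSt
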