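import Mathlib
import Cfsg.Agent.Lib.Helper11.LeechCo1a
import Cfsg.Agent.S0398
import Cfsg.Agent.S5393
import Cfsg.Agent.Lib.Helper3.M24Simple3

set_option autoImplicit false

namespace Cfsg.Agent.Lib.Helper11.LeechCo1

open Cfsg Cfsg.Agent.Lib.Helper3.Golay Cfsg.Agent.Lib.Helper3.Golay2
open Cfsg.Agent.Lib.Helper3.Leech Cfsg.Agent.Lib.Helper3.Leech2 Cfsg.Agent.Lib.Helper3.Leech4
open Cfsg.Agent.Lib.Helper3.GolayM24 Cfsg.Agent.Lib.Helper3.M24Perm
open Cfsg.Agent.Lib.Helper3.M24Trans Cfsg.Agent.Lib.Helper3.M24Cert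
open Cfsg.Agent.Lib.Helper11.LeechGF Cfsg.Agent.Lib.Helper11.Co0Mono
open Cfsg.Agent.Lib.Helper11.LeechIP Cfsg.Agent.Lib.Helper11.LeechXi
open Cfsg.Agent.Lib.Helper11.LeechMod2 Cfsg.Agent.Lib.Helper11.LeechSt
open scoped Pointwise

/-! ### Elements of `Co0` -/

/-- A sign change, as an element of `Co0`. -/
def eP (c : Finset GolayPt) (hc : c ∈ Cset) : ↥Co0 := ⟨sgnP c hc, sgnP_mem c hc⟩

/-- A coordinate permutation, as an element of `Co0`. -/
def pP (σ : Equiv.Perm GolayPt) (hσ : σ ∈ M24) : ↥Co0 := ⟨prmP σ hσ, prmP_mem σ hσ⟩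

/-- The map `ξ`, as an element of `Co0`. -/
def xP : ↥Co0 := ⟨xiP, xiP_mem⟩

/-- The map `-1`, as an element of `Co0`. -/
def nP : ↥Co0 := ⟨negP, negP_mem⟩

theorem co0_ext {g h : ↥Co0}
    (H : ∀ v : ↥leechLattice, ((g.1 v : ↥leechLattice) : GolayPt → ℤ) =
      ((h.1 v : ↥leechLattice) : GolayPt → ℤ)) : g = h :=
  Subtype.ext (Equiv.ext fun v => Subtype.ext (H v))

theorem eP_congr {c c' : Finset GolayPt} (h : c = c') (hc : c ∈ Cset) (hc' : c' ∈ Cset) :
    eP c hc = eP c' hc' := by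
  subst h; rfl

theorem pP_congr {σ τ : Equiv.Perm GolayPt} (h : σ = τ) (hσ : σ ∈ M24) (hτ : τ ∈ M24) :
    pP σ hσ = pP τ hτ := by
  subst h; rfl

theorem sgnF_symmDiff (c c' : Finset GolayPt) (x : GolayPt → ℤ) :
    sgnF c (sgnF c' x) = sgnF (symmDiff c c') x := by
  funext i
  unfold sgnF
  by_cases h1 : i ∈ c <;> by_cases h2 : i ∈ c' <;> simp [Finset.mem_symmDiff, h1, h2]

theorem eP_mul (c c' : Finset GolayPt) (hc : c ∈ Cset) (hc' : c' ∈ Cset) :
    eP c hc * eP c' hc' = eP (symmDiff c c') (symmDiff_mem_supports hc hc') :=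
  co0_ext fun v => sgnF_symmDiff c c' v

theorem eP_mul_self (c : Finset GolayPt) (hc : c ∈ Cset) : eP c hc * eP c hc = 1 :=
  co0_ext fun v => sgnF_sgnF c v

theorem eP_inv (c : Finset GolayPt) (hc : c ∈ Cset) : (eP c hc)⁻¹ = eP c hc :=
  inv_eq_of_mul_eq_one_left (eP_mul_self c hc)

theorem eP_empty : eP ∅ empty_mem_supports = 1 :=
  co0_ext fun v => by
    show sgnF ∅ v = v
    funext i
    unfold sgnF
    simp

theorem eP_univ : eP Finset.univ univ_mem_supports = nP :=
  co0_ext fun v => by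
    show sgnF Finset.univ v = ((-v : ↥leechLattice) : GolayPt → ℤ)
    rw [AddSubgroup.coe_neg]
    funext i
    unfold sgnF
    simp

theorem eP_comm (c c' : Finset GolayPt) (hc : c ∈ Cset) (hc' : c' ∈ Cset) :
    eP c hc * eP c' hc' = eP c' hc' * eP c hc := by
  rw [eP_mul, eP_mul]
  exact eP_congr (symmDiff_comm c c') _ _

theorem pP_mul (σ τ : Equiv.Perm GolayPt) (hσ : σ ∈ M24) (hτ : τ ∈ M24) :
    pP σ hσ * pP τ hτ = pP (σ * τ) (mul_mem hσ hτ) :=
  co0_ext fun _ => rfl

theorem pP_one : pP 1 (one_mem _) = 1 :=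
  co0_ext fun _ => rfl

theorem pP_inv (σ : Equiv.Perm GolayPt) (hσ : σ ∈ M24) :
    (pP σ hσ)⁻¹ = pP σ⁻¹ (inv_mem hσ) := by
  apply inv_eq_of_mul_eq_one_right
  rw [pP_mul, ← pP_one]
  exact pP_congr (mul_inv_cancel σ) _ _

theorem pP_conj (σ : Equiv.Perm GolayPt) (hσ : σ ∈ M24) (c : Finset GolayPt) (hc : c ∈ Cset) :
    pP σ hσ * eP c hc * (pP σ hσ)⁻¹ = eP (σ • c) (smul_mem_supports hσ hc) := by
  rw [pP_inv]
  refine co0_ext fun v => ?_
  show prmF σ (sgnF c (prmF σ⁻¹ v)) = sgnF (σ • c) v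
  funext i
  unfold prmF sgnF
  have h1 : (σ⁻¹ : Equiv.Perm GolayPt).symm (σ.symm i) = i := Equiv.apply_symm_apply σ i
  have h2 : σ.symm i ∈ c ↔ i ∈ σ • c := by
    rw [← Finset.inv_smul_mem_iff]
    rfl
  beta_reduce
  rw [h1]
  by_cases h : i ∈ σ • c
  · rw [if_pos h, if_pos (h2.mpr h)]
  · rw [if_neg h, if_neg (fun h' => h (h2.mp h'))]

/-! ### The monomial subgroup -/

theorem PN_mono (σ : Equiv.Perm GolayPt) (hσ : σ ∈ M24) (c : Finset GolayPt) (hc : c ∈ Cset) :
    PN (eP c hc * pP σ hσ) :=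
  fun v hv => monoP_std σ hσ c hc v hv

theorem PN_eP (c : Finset GolayPt) (hc : c ∈ Cset) : PN (eP c hc) := by
  have := PN_mono 1 (one_mem _) c hc
  rw [pP_one, mul_one] at this
  exact this

theorem PN_pP (σ : Equiv.Perm GolayPt) (hσ : σ ∈ M24) : PN (pP σ hσ) := by
  have := PN_mono σ hσ ∅ empty_mem_supports
  rw [eP_empty, one_mul] at this
  exact this

theorem PN_form (g : ↥Co0) (hg : PN g) :
    ∃ (σ : Equiv.Perm GolayPt) (hσ : σ ∈ M24) (c : Finset GolayPt) (hc : c ∈ Cset),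
      g = eP c hc * pP σ hσ := by
  obtain ⟨σ, hσ, c, hc, hform⟩ := cross_stab g.1 g.2 (fun v hv => hg v hv)
  exact ⟨σ, hσ, c, hc, co0_ext fun v => hform v⟩

/-- The monomial subgroup `N = 2^12 : M24` of `Co0`. -/
def Nsub : Subgroup ↥Co0 where
  carrier := {g | PN g}
  mul_mem' := fun ha hb => PN_mul ha hb
  one_mem' := fun v hv => hv
  inv_mem' := by
    intro g hg
    obtain ⟨σ, hσ, c, hc, rfl⟩ := PN_form g hg
    show PN _
    rw [mul_inv_rev, eP_inv, pP_inv]
    exact PN_mul (PN_pP _ _) (PN_eP _ _)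

theorem mem_Nsub {g : ↥Co0} : g ∈ Nsub ↔ PN g := Iff.rfl

theorem card_Nsub : Nat.card ↥Nsub = 4096 * 244823040 := stab_card

theorem index_Nsub : Nsub.index = 8292375 := by
  have h := Nsub.index_mul_card
  rw [card_Nsub, card_Co0] at h
  have h2 : 8292375 * (4096 * 244823040) = 8315553613086720000 := by norm_num
  exact Nat.eq_of_mul_eq_mul_right (by norm_num : 0 < 4096 * 244823040) (h.trans h2.symm)

/-! ### The centre -/

theorem center_cases (g : ↥Co0) (hg : g ∈ Subgroup.center ↥Co0) : g = 1 ∨ g = nP := by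
  rw [Subgroup.mem_center_iff] at hg
  have h := central_eq g.1 g.2
    (fun d hd => congrArg Subtype.val (hg (eP d hd)))
    (fun σ hσ => congrArg Subtype.val (hg (pP σ hσ)))
  rcases h with h | h
  · exact Or.inl (Subtype.ext h)
  · exact Or.inr (Subtype.ext h)

theorem nP_mem_center : nP ∈ Subgroup.center ↥Co0 := by
  rw [Subgroup.mem_center_iff]
  intro h
  refine co0_ext fun v => ?_
  show ((h.1 (-v) : ↥leechLattice) : GolayPt → ℤ) = ((-(h.1 v) : ↥leechLattice) : GolayPt → ℤ)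
  rw [perm_neg h.1 h.2.1 v]

theorem exists_moved (k : ↥Co0) (hk : k ∉ Subgroup.center ↥Co0) :
    ∃ v : ↥leechLattice, sqNorm (v : GolayPt → ℤ) = 32 ∧
      (k : Equiv.Perm ↥leechLattice) v ≠ v ∧ (k : Equiv.Perm ↥leechLattice) v ≠ -v := by
  by_contra hcon
  push Not at hcon
  have hpm := scalar_pm k.2 (fun v hv => by
    by_cases h : (k : Equiv.Perm ↥leechLattice) v = v
    · exact Or.inl h
    · exact Or.inr (hcon v hv h))
  rcases hpm with h | h
  · apply hk
    have : k = 1 := co0_ext (fun v => by rw [h v]; rfl)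
    rw [this]
    exact Subgroup.one_mem _
  · apply hk
    have : k = nP := co0_ext (fun v => by rw [h v]; rfl)
    rw [this]
    exact nP_mem_center

theorem ncard_32 : {v : ↥leechLattice | sqNorm (v : GolayPt → ℤ) = 32}.ncard = 196560 := by
  rw [← Cfsg.Agent.S0394.result]
  have himg : Subtype.val '' {z : ↥leechLattice | sqNorm (z : GolayPt → ℤ) = 32} =
      {x : GolayPt → ℤ | x ∈ leechLattice ∧ sqNorm x = 32} := by
    ext w
    constructor
    · rintro ⟨v, hv, rfl⟩
      exact ⟨v.2, hv⟩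
    · rintro ⟨hw, hw1⟩
      exact ⟨⟨w, hw⟩, hw1, rfl⟩
  rw [← himg, Set.ncard_image_of_injective _ Subtype.val_injective]

/-- **A normal subgroup of `Co0` not contained in the centre has order divisible by
`196560`.** -/
theorem card_dvd (K : Subgroup ↥Co0) (hK : K.Normal) (k : ↥Co0) (hk : k ∈ K)
    (hkc : k ∉ Subgroup.center ↥Co0) : 196560 ∣ Nat.card ↥K := by
  obtain ⟨v, hv, h1, h2⟩ := exists_moved k hkc
  have horb : MulAction.orbit ↥K V0' = {v : ↥leechLattice | sqNorm (v : GolayPt → ℤ) = 32} := by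
    ext z
    rw [MulAction.mem_orbit_iff]
    constructor
    · rintro ⟨g, rfl⟩
      show sqNorm ((g.1.1 V0' : ↥leechLattice) : GolayPt → ℤ) = 32
      rw [g.1.2.2]
      exact sqNorm_V0
    · intro hz
      obtain ⟨k', hk', e⟩ := normal_trans K hK k hk v hv h1 h2 V0' z sqNorm_V0 hz
      exact ⟨⟨k', hk'⟩, e⟩
  have h3 := MulAction.index_stabilizer (G := ↥K) (x := V0')
  rw [horb, ncard_32] at h3
  rw [← h3]
  exact Subgroup.index_dvd_card _


theorem finite_Co0 : Finite ↥Co0 := Nat.finite_of_card_ne_zero (by rw [card_Co0]; norm_num)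

/-- **A non-central normal subgroup meets the monomial subgroup outside the centre.** -/
theorem exists_inter (K : Subgroup ↥Co0) (hK : K.Normal) (k : ↥Co0) (hk : k ∈ K)
    (hkc : k ∉ Subgroup.center ↥Co0) :
    ∃ g ∈ K, PN g ∧ g ∉ Subgroup.center ↥Co0 := by
  have h16 : 16 ∣ Nat.card ↥K := Dvd.dvd.trans (by norm_num) (card_dvd K hK k hk hkc)
  have := hK
  have := finite_Co0
  have e1 : Nat.card ↥K * K.relIndex (Nsub ⊔ K) = Nat.card ↥(Nsub ⊔ K) := by
    have := Subgroup.relIndex_mul_relIndex (H := ⊥) (K := K) (L := Nsub ⊔ K) bot_le le_sup_right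
    rwa [Subgroup.relIndex_bot_left, Subgroup.relIndex_bot_left] at this
  have e2 : K.relIndex (Nsub ⊔ K) = K.relIndex Nsub := Subgroup.relIndex_sup_right Nsub K
  have e3 : Nat.card ↥(K ⊓ Nsub) * K.relIndex Nsub = Nat.card ↥Nsub := by
    have := Subgroup.relIndex_mul_relIndex (H := ⊥) (K := K ⊓ Nsub) (L := Nsub) bot_le
      inf_le_right
    rwa [Subgroup.relIndex_bot_left, Subgroup.relIndex_bot_left,
      Subgroup.inf_relIndex_right] at this
  have e4 : Nat.card ↥Nsub * Nsub.relIndex (Nsub ⊔ K) = Nat.card ↥(Nsub ⊔ K) := by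
    have := Subgroup.relIndex_mul_relIndex (H := ⊥) (K := Nsub) (L := Nsub ⊔ K) bot_le
      le_sup_left
    rwa [Subgroup.relIndex_bot_left, Subgroup.relIndex_bot_left] at this
  have e5 : Nsub.relIndex (Nsub ⊔ K) ∣ 8292375 := by
    rw [← index_Nsub]
    exact Subgroup.relIndex_dvd_index_of_le le_sup_left
  have hr : 0 < K.relIndex Nsub := by
    rcases Nat.eq_zero_or_pos (K.relIndex Nsub) with h | h
    · rw [h, mul_zero, card_Nsub] at e3
      norm_num at e3
    · exact h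
  have e6 : Nat.card ↥K = Nat.card ↥(K ⊓ Nsub) * Nsub.relIndex (Nsub ⊔ K) := by
    have h1 : Nat.card ↥K * K.relIndex Nsub =
        Nat.card ↥(K ⊓ Nsub) * Nsub.relIndex (Nsub ⊔ K) * K.relIndex Nsub := by
      rw [← e2, e1, ← e4, ← e3, e2]
      ring
    exact Nat.eq_of_mul_eq_mul_right hr h1
  have hcop : Nat.Coprime 16 (Nsub.relIndex (Nsub ⊔ K)) :=
    Nat.Coprime.coprime_dvd_right e5 (by norm_num)
  have h16' : 16 ∣ Nat.card ↥(K ⊓ Nsub) := by
    rw [e6] at h16
    exact (Nat.Coprime.dvd_mul_right hcop).mp h16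
  by_contra hcon
  push Not at hcon
  have hle : K ⊓ Nsub ≤ Subgroup.center ↥Co0 := fun g hg => hcon g hg.1 hg.2
  have h2 := Subgroup.card_dvd_of_le hle
  rw [Cfsg.Agent.S0398.result] at h2
  have := Nat.le_of_dvd (by norm_num) (h16'.trans h2)
  norm_num at this

/-! ### Sign changes in a normal subgroup -/

/-- The octad formed by the second and third tetrads. -/
def fO (k : ℕ) : Bool := decide (k = 1) || decide (k = 2)

theorem O0_mem : U fO ∈ Cset := union_mem fO (by decide)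

theorem O0_facts : (U fO).card = 8 ∧ (some 0 : GolayPt) ∈ U fO ∧ (none : GolayPt) ∉ U fO := by
  decide +kernel

theorem exists_octad (i j : GolayPt) (h : i ≠ j) :
    ∃ d ∈ Cset, d.card = 8 ∧ i ∈ d ∧ j ∉ d := by
  obtain ⟨π, hπ, e1, e2⟩ := trans2 (some 0) none i j (by decide) h
  refine ⟨π • U fO, smul_mem_supports hπ O0_mem, ?_, ?_, ?_⟩
  · rw [Finset.card_smul_finset]
    exact O0_facts.1
  · rw [← e1]
    exact Finset.smul_mem_smul_finset O0_facts.2.1
  · rw [← e2]
    intro hcon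
    exact O0_facts.2.2 ((Finset.smul_mem_smul_finset_iff π).mp hcon)

theorem card_GolayPt : Fintype.card GolayPt = 24 := by decide

theorem exists_eP (K : Subgroup ↥Co0) (hK : K.Normal) (g : ↥Co0) (hg : g ∈ K) (hN : PN g)
    (hgc : g ∉ Subgroup.center ↥Co0) :
    ∃ (c : Finset GolayPt) (hc : c ∈ Cset), c ≠ ∅ ∧ c ≠ Finset.univ ∧ eP c hc ∈ K := by
  obtain ⟨σ, hσ, c, hc, rfl⟩ := PN_form g hN
  by_cases h1 : σ = 1
  · subst h1
    rw [pP_one, mul_one] at hg hgc
    refine ⟨c, hc, ?_, ?_, hg⟩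
    · rintro rfl
      exact hgc (by rw [eP_empty]; exact Subgroup.one_mem _)
    · rintro rfl
      exact hgc (by rw [eP_univ]; exact nP_mem_center)
  · obtain ⟨i, hi⟩ : ∃ i, σ i ≠ i := by
      by_contra hcon
      push Not at hcon
      exact h1 (Equiv.ext hcon)
    obtain ⟨d, hd, hd8, hid, hjd⟩ := exists_octad i (σ i) (Ne.symm hi)
    have hsd : σ • d ∈ Cset := smul_mem_supports hσ hd
    refine ⟨symmDiff (σ • d) d, symmDiff_mem_supports hsd hd, ?_, ?_, ?_⟩
    · intro h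
      have : σ i ∈ symmDiff (σ • d) d :=
        Finset.mem_symmDiff.mpr (Or.inl ⟨Finset.smul_mem_smul_finset hid, hjd⟩)
      rw [h] at this
      exact absurd this (Finset.notMem_empty _)
    · intro h
      have hcard : (symmDiff (σ • d) d).card ≤ (σ • d).card + d.card := by
        refine le_trans (Finset.card_le_card ?_) (Finset.card_union_le _ _)
        intro x hx
        rcases Finset.mem_symmDiff.mp hx with hx | hx
        · exact Finset.mem_union_left _ hx.1
        · exact Finset.mem_union_right _ hx.1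
      rw [h, Finset.card_univ, card_GolayPt, Finset.card_smul_finset, hd8] at hcard
      norm_num at hcard
    · have hconj : (eP c hc * pP σ hσ) * eP d hd * (eP c hc * pP σ hσ)⁻¹ = eP (σ • d) hsd := by
        calc (eP c hc * pP σ hσ) * eP d hd * (eP c hc * pP σ hσ)⁻¹
            = eP c hc * (pP σ hσ * eP d hd * (pP σ hσ)⁻¹) * (eP c hc)⁻¹ := by group
          _ = eP c hc * eP (σ • d) hsd * (eP c hc)⁻¹ := by rw [pP_conj]
          _ = eP (σ • d) hsd * eP c hc * (eP c hc)⁻¹ := by rw [eP_comm c (σ • d) hc hsd]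
          _ = eP (σ • d) hsd := by group
      have h2 : eP d hd * (eP c hc * pP σ hσ)⁻¹ * (eP d hd)⁻¹ ∈ K :=
        hK.conj_mem _ (K.inv_mem hg) _
      have h3 := K.mul_mem hg h2
      have h4 : (eP c hc * pP σ hσ) * (eP d hd * (eP c hc * pP σ hσ)⁻¹ * (eP d hd)⁻¹) =
          eP (symmDiff (σ • d) d) (symmDiff_mem_supports hsd hd) := by
        calc (eP c hc * pP σ hσ) * (eP d hd * (eP c hc * pP σ hσ)⁻¹ * (eP d hd)⁻¹)
            = ((eP c hc * pP σ hσ) * eP d hd * (eP c hc * pP σ hσ)⁻¹) * (eP d hd)⁻¹ := by group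
          _ = eP (σ • d) hsd * eP d hd := by rw [hconj, eP_inv]
          _ = eP (symmDiff (σ • d) d) (symmDiff_mem_supports hsd hd) := eP_mul _ _ hsd hd
      rw [h4] at h3
      exact h3

/-- **All sign changes lie in a normal subgroup that contains the centre and one non-scalar
sign change** (irreducibility of the Golay code modulo the all-ones word). -/
theorem all_eP (K : Subgroup ↥Co0) (hK : K.Normal) (hZ : Subgroup.center ↥Co0 ≤ K)
    (c0 : Finset GolayPt) (hc0 : c0 ∈ Cset) (h1 : c0 ≠ ∅) (h2 : c0 ≠ Finset.univ)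
    (h3 : eP c0 hc0 ∈ K) : ∀ (c : Finset GolayPt) (hc : c ∈ Cset), eP c hc ∈ K := by
  have hzero : ∃ h : support₂ (0 : GolayPt → ZMod 2) ∈ Cset, eP (support₂ 0) h ∈ K := by
    refine ⟨by rw [support_zero]; exact empty_mem_supports, ?_⟩
    rw [eP_congr support_zero _ empty_mem_supports, eP_empty]
    exact K.one_mem
  let W : Submodule (ZMod 2) (GolayPt → ZMod 2) :=
    { carrier := {w | ∃ h : support₂ w ∈ Cset, eP (support₂ w) h ∈ K}
      add_mem' := by
        rintro a b ⟨ha, ha'⟩ ⟨hb, hb'⟩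
        have := K.mul_mem ha' hb'
        rw [eP_mul] at this
        refine ⟨by rw [support_add]; exact symmDiff_mem_supports ha hb, ?_⟩
        rw [eP_congr (support_add a b) _ (symmDiff_mem_supports ha hb)]
        exact this
      zero_mem' := hzero
      smul_mem' := by
        intro a w hw
        rcases zmod2_cases a with rfl | rfl
        · rw [zero_smul]; exact hzero
        · rw [one_smul]; exact hw }
  have hmemW : ∀ w : GolayPt → ZMod 2, w ∈ W ↔
      ∃ h : support₂ w ∈ Cset, eP (support₂ w) h ∈ K := fun w => Iff.rfl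
  have hone : (fun _ : GolayPt => (1 : ZMod 2)) ∈ W := by
    rw [hmemW]
    have e : support₂ (fun _ : GolayPt => (1 : ZMod 2)) = Finset.univ := support_one
    refine ⟨by rw [e]; exact univ_mem_supports, ?_⟩
    rw [eP_congr e _ univ_mem_supports, eP_univ]
    exact hZ nP_mem_center
  have hle : W ≤ golayCode := by
    intro w hw
    obtain ⟨⟨w', hw', e⟩, -⟩ := (hmemW w).mp hw
    rw [← support_injective e]
    exact hw'
  have hinv : ∀ σ ∈ M24, ∀ w ∈ W, (fun p => w (σ.symm p)) ∈ W := by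
    intro σ hσ w hw
    obtain ⟨h, h'⟩ := (hmemW w).mp hw
    rw [hmemW]
    have e : support₂ (fun p => w (σ.symm p)) = σ • support₂ w := (smul_support σ w).symm
    refine ⟨by rw [e]; exact smul_mem_supports hσ h, ?_⟩
    rw [eP_congr e _ (smul_mem_supports hσ h), ← pP_conj σ hσ]
    exact hK.conj_mem _ h' _
  obtain ⟨w0, hw0, e0⟩ := hc0
  have hw0W : w0 ∈ W := by
    rw [hmemW]
    subst e0
    exact ⟨⟨w0, hw0, rfl⟩, h3⟩
  rcases Cfsg.Agent.S5393.result.2 W hone hle hinv with hW | hW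
  · exfalso
    rw [hW, Submodule.mem_span_singleton] at hw0W
    obtain ⟨a, ha⟩ := hw0W
    rcases zmod2_cases a with rfl | rfl
    · rw [zero_smul] at ha
      rw [← ha, support_zero] at e0
      exact h1 e0.symm
    · rw [one_smul] at ha
      rw [← ha] at e0
      exact h2 (e0.symm.trans support_one)
  · intro c hc
    obtain ⟨w, hw, e⟩ := hc
    have : w ∈ W := by rw [hW]; exact hw
    obtain ⟨h, h'⟩ := (hmemW w).mp this
    subst e
    exact h'

end Cfsg.Agent.Lib.Helper11.LeechCo1
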