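import Mathlib
import Cfsg.Agent.Lib.Helper11.LeechCo1b

set_option autoImplicit false

namespace Cfsg.Agent.Lib.Helper11.LeechCo1

open Cfsg Cfsg.Agent.Lib.Helper3.Golay Cfsg.Agent.Lib.Helper3.Golay2
open Cfsg.Agent.Lib.Helper3.Leech Cfsg.Agent.Lib.Helper3.Leech2 Cfsg.Agent.Lib.Helper3.Leech4
open Cfsg.Agent.Lib.Helper3.GolayM24 Cfsg.Agent.Lib.Helper3.M24Perm
open Cfsg.Agent.Lib.Helper3.M24Trans Cfsg.Agent.Lib.Helper3.M24Cert
open Cfsg.Agent.Lib.Helper11.LeechGF Cfsg.Agent.Lib.Helper11.Co0Mono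
open Cfsg.Agent.Lib.Helper11.LeechIP Cfsg.Agent.Lib.Helper11.LeechXi
open Cfsg.Agent.Lib.Helper11.LeechMod2 Cfsg.Agent.Lib.Helper11.LeechSt
open scoped Pointwise

/-! ### The monomial subgroup lies in the normal subgroup -/

theorem ms_mem (n : ℕ) (h : cw (kOf n) = n) (hk : kOf n < 4096) : ms n ∈ Cset := by
  have h2 : ms n = supp (kOf n) := by rw [← ms_cw, h]
  rw [h2]
  exact (mem_supports_iff _).mpr ⟨_, hk, rfl⟩

/-- The mask of an octad meeting four tetrads in two points each. -/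
def c1m : ℕ := 6053905

theorem c1_mem : ms c1m ∈ Cset := ms_mem c1m (by decide +kernel) (by decide +kernel)

theorem g0_std : ∀ i : GolayPt, ∃ j : GolayPt,
    (xiF (sgnF (ms c1m) (xiF (Pi.single i 8))) = Pi.single j 8 ∨
      xiF (sgnF (ms c1m) (xiF (Pi.single i 8))) = Pi.single j (-8)) ∧
    (xiF (sgnF (ms c1m) (xiF (Pi.single i (-8)))) = Pi.single j 8 ∨
      xiF (sgnF (ms c1m) (xiF (Pi.single i (-8)))) = Pi.single j (-8)) := by
  decide +kernel

theorem g0_moved : xiF (sgnF (ms c1m) (xiF (Pi.single (some 0) 8))) (some 0) = 0 := by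
  decide +kernel

theorem xP_mul_self : xP * xP = 1 :=
  co0_ext fun v => xiF_xiF (xi_even v.2)

theorem xP_inv : xP⁻¹ = xP := inv_eq_of_mul_eq_one_left xP_mul_self

theorem PN_g0 : PN (xP * eP (ms c1m) c1_mem * xP) := by
  intro v hv
  obtain ⟨i, s, hs, e⟩ := hv
  show xiF (sgnF (ms c1m) (xiF (v : GolayPt → ℤ))) ∈ stdCross
  rw [e]
  obtain ⟨j, h1, h2⟩ := g0_std i
  rcases hs with rfl | rfl
  · rcases h1 with h | h
    · exact ⟨j, 8, Or.inl rfl, h⟩
    · exact ⟨j, -8, Or.inr rfl, h⟩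
  · rcases h2 with h | h
    · exact ⟨j, 8, Or.inl rfl, h⟩
    · exact ⟨j, -8, Or.inr rfl, h⟩

/-- **A normal subgroup containing all sign changes contains the monomial subgroup.** -/
theorem Nsub_le (K : Subgroup ↥Co0) (hK : K.Normal)
    (hE : ∀ (c : Finset GolayPt) (hc : c ∈ Cset), eP c hc ∈ K) : Nsub ≤ K := by
  have hg0 : xP * eP (ms c1m) c1_mem * xP ∈ K := by
    have := hK.conj_mem _ (hE (ms c1m) c1_mem) xP
    rw [xP_inv] at this
    exact this
  obtain ⟨σ0, hσ0, c', hc', e⟩ := PN_form _ PN_g0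
  have hp : pP σ0 hσ0 ∈ K := by
    have := K.mul_mem (hE c' hc') hg0
    rw [e, ← mul_assoc, eP_mul_self, one_mul] at this
    exact this
  have hne : σ0 ≠ 1 := by
    rintro rfl
    have h1 : (((xP * eP (ms c1m) c1_mem * xP : ↥Co0).1 (E (some 0)) : ↥leechLattice) :
        GolayPt → ℤ) (some 0) = 0 := g0_moved
    rw [e] at h1
    have h2 : (((eP c' hc' * pP 1 hσ0 : ↥Co0).1 (E (some 0)) : ↥leechLattice) :
        GolayPt → ℤ) (some 0) = if (some 0 : GolayPt) ∈ c' then -8 else 8 := by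
      show sgnF c' (prmF 1 (Pi.single (some 0) 8)) (some 0) = _
      have hp1 : prmF 1 (Pi.single (some 0 : GolayPt) (8 : ℤ)) = Pi.single (some 0) 8 := rfl
      rw [hp1]
      unfold sgnF
      rw [Pi.single_eq_same]
    rw [h2] at h1
    split_ifs at h1 <;> norm_num at h1
  let φ : ↥M24 →* ↥Co0 :=
    { toFun := fun σ => pP σ.1 σ.2
      map_one' := pP_one
      map_mul' := fun a b => (pP_mul a.1 b.1 a.2 b.2).symm }
  have hn : (K.comap φ).Normal := hK.comap φ
  have hsimple : IsSimpleGroup ↥M24 := Cfsg.Agent.Lib.Helper3.M24Simple3.simple_M24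
  rcases hn.eq_bot_or_eq_top with h | h
  · exfalso
    have : (⟨σ0, hσ0⟩ : ↥M24) ∈ K.comap φ := hp
    rw [h, Subgroup.mem_bot] at this
    exact hne (congrArg Subtype.val this)
  · intro g hg
    obtain ⟨σ, hσ, c, hc, rfl⟩ := PN_form g hg
    have : (⟨σ, hσ⟩ : ↥M24) ∈ K.comap φ := by rw [h]; exact Subgroup.mem_top _
    exact K.mul_mem (hE c hc) this

/-- **A normal subgroup containing the monomial subgroup contains `ξ`.** -/
theorem xP_mem (K : Subgroup ↥Co0) (hK : K.Normal) (hN : Nsub ≤ K) : xP ∈ K := by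
  have := hK
  have h1 : K.index ∣ 8292375 := index_Nsub ▸ Subgroup.index_dvd_of_le hN
  have hodd : K.index % 2 = 1 :=
    Nat.odd_iff.mp (Odd.of_dvd_nat (by decide : Odd 8292375) h1)
  have h2 := Subgroup.pow_index_mem K xP
  have h3 : xP ^ K.index = xP := by
    have : K.index = 2 * (K.index / 2) + 1 := by omega
    rw [this, pow_succ, pow_mul, pow_two, xP_mul_self, one_pow, one_mul]
  rwa [h3] at h2


/-! ### A vector of shape `(3^5, 1^19)` in the orbit of `(8, 0^23)` -/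

/-- The integer vector with the listed coordinates. -/
def vecL (L : List ℤ) : GolayPt → ℤ := fun i => L.getD (idx i) 0

def L1 : List ℤ := [0, 4, 4, 4, 0, 0, 0, 0, 0, 0, 0, 0, 0, 0, 0, 0, 0, 0, 0, 0, 0, 0, 0, -4]
def L2 : List ℤ := [0, 0, 0, 0, 4, 0, -4, 0, 0, 0, 0, 0, 0, 0, 0, 0, 0, 0, 4, 0, 0, 0, 0, 4]
def L3 : List ℤ := [0, 2, 2, 2, 2, 0, -6, 0, 0, 0, 0, 0, 0, 0, 0, -2, 0, 0, 2, 0, 0, 0, 0, -2]
def L4 : List ℤ := [0, 0, 2, 0, 0, -6, 2, 0, 0, -2, 2, 0, 0, 0, 0, -2, 0, 0, 2, 0, 0, 0, 2, 0]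
def L5 : List ℤ := [3, 1, -1, 1, -1, -3, 1, -1, -1, -1, 1, -1, 1, 1, 3, -3, -1, 3, 1, 1, -1, -1, 1, 1]

def T1 : ℕ := 252398436631992783605412352517884657
def T2 : ℕ := 375333128235735163365853808000322252
def c3m : ℕ := 3361685
def F0m : ℕ := 180257

/-- The vector `-3` on `F` and `1` elsewhere. -/
def YF (F : Finset GolayPt) : GolayPt → ℤ := fun i => if i ∈ F then -3 else 1

theorem inM_T1 : inM T1 = true := by decide +kernel

theorem inM_T2 : inM T2 = true := by decide +kernel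

theorem c3_mem : ms c3m ∈ Cset := ms_mem c3m (by decide +kernel) (by decide +kernel)

theorem step1 : xiF (Pi.single none 8) = vecL L1 := by decide +kernel

theorem step2 : ∀ i, vecL L2 (tfun T1 i) = vecL L1 i := by decide +kernel

theorem step3 : xiF (vecL L2) = vecL L3 := by decide +kernel

theorem step4 : ∀ i, vecL L4 (tfun T2 i) = vecL L3 i := by decide +kernel

theorem step5 : xiF (vecL L4) = vecL L5 := by decide +kernel

theorem step6 : sgnF (ms c3m) (vecL L5) = YF (ms F0m) := by decide +kernel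

theorem F0_card : (ms F0m).card = 5 := by decide +kernel

theorem prmF_eq (σ : Equiv.Perm GolayPt) (x y : GolayPt → ℤ) (h : ∀ i, y (σ i) = x i) :
    prmF σ x = y := by
  funext j
  unfold prmF
  rw [← h (σ.symm j), Equiv.apply_symm_apply]

theorem chain (K : Subgroup ↥Co0)
    (hE : ∀ (c : Finset GolayPt) (hc : c ∈ Cset), eP c hc ∈ K)
    (hp : ∀ (σ : Equiv.Perm GolayPt) (hσ : σ ∈ M24), pP σ hσ ∈ K) (hx : xP ∈ K) :
    ∃ k ∈ K, ((k.1 Z0 : ↥leechLattice) : GolayPt → ℤ) = YF (ms F0m) := by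
  refine ⟨eP (ms c3m) c3_mem * xP * pP (tp T2) (tp_mem_M24 inM_T2) * xP *
    pP (tp T1) (tp_mem_M24 inM_T1) * xP, ?_, ?_⟩
  · exact K.mul_mem (K.mul_mem (K.mul_mem (K.mul_mem (K.mul_mem (hE _ _) hx) (hp _ _)) hx)
      (hp _ _)) hx
  · show sgnF (ms c3m) (xiF (prmF (tp T2) (xiF (prmF (tp T1) (xiF (Pi.single none 8)))))) = _
    rw [step1, prmF_eq (tp T1) (vecL L1) (vecL L2)
      (fun i => by rw [tp_apply (inM_good inM_T1)]; exact step2 i), step3,
      prmF_eq (tp T2) (vecL L3) (vecL L4)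
      (fun i => by rw [tp_apply (inM_good inM_T2)]; exact step4 i), step5, step6]

theorem prmF_YF (σ : Equiv.Perm GolayPt) (F : Finset GolayPt) :
    prmF σ (YF F) = YF (σ • F) := by
  funext i
  unfold prmF YF
  have h2 : σ.symm i ∈ F ↔ i ∈ σ • F := by
    rw [← Finset.inv_smul_mem_iff]
    rfl
  by_cases h : i ∈ σ • F
  · rw [if_pos h, if_pos (h2.mpr h)]
  · rw [if_neg h, if_neg (fun h' => h (h2.mp h'))]

theorem exists_perm5 (F F' : Finset GolayPt) (h : F.card = 5) (h' : F'.card = 5) :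
    ∃ π ∈ M24, π • F = F' := by
  let x : Fin 5 ↪ GolayPt :=
    (F.equivFinOfCardEq h).symm.toEmbedding.trans (Function.Embedding.subtype _)
  let y : Fin 5 ↪ GolayPt :=
    (F'.equivFinOfCardEq h').symm.toEmbedding.trans (Function.Embedding.subtype _)
  obtain ⟨π, hπ, e⟩ := five_trans x y
  refine ⟨π, hπ, ?_⟩
  apply Finset.eq_of_subset_of_card_le
  · intro j hj
    obtain ⟨a, ha, rfl⟩ := Finset.mem_smul_finset.mp hj
    have hx : x (F.equivFinOfCardEq h ⟨a, ha⟩) = a := by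
      show (((F.equivFinOfCardEq h).symm (F.equivFinOfCardEq h ⟨a, ha⟩) : F) : GolayPt) = a
      rw [Equiv.symm_apply_apply]
    have hy : π • a = y (F.equivFinOfCardEq h ⟨a, ha⟩) := by
      rw [← e]
      exact congrArg π hx.symm
    rw [hy]
    exact ((F'.equivFinOfCardEq h').symm _).2
  · rw [Finset.card_smul_finset, h, h']

theorem family (K : Subgroup ↥Co0)
    (hE : ∀ (c : Finset GolayPt) (hc : c ∈ Cset), eP c hc ∈ K)
    (hp : ∀ (σ : Equiv.Perm GolayPt) (hσ : σ ∈ M24), pP σ hσ ∈ K) (hx : xP ∈ K)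
    (F : Finset GolayPt) (hF : F.card = 5) (c : Finset GolayPt) (hc : c ∈ Cset) :
    ∃ k ∈ K, ((k.1 Z0 : ↥leechLattice) : GolayPt → ℤ) = sgnF c (YF F) := by
  obtain ⟨k0, hk0, e0⟩ := chain K hE hp hx
  obtain ⟨π, hπ, e⟩ := exists_perm5 (ms F0m) F F0_card hF
  refine ⟨eP c hc * pP π hπ * k0, K.mul_mem (K.mul_mem (hE c hc) (hp π hπ)) hk0, ?_⟩
  show sgnF c (prmF π ((k0.1 Z0 : ↥leechLattice) : GolayPt → ℤ)) = _
  rw [e0, prmF_YF, e]

theorem Phi_natAbs (F c : Finset GolayPt) (i : GolayPt) :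
    (sgnF c (YF F) i).natAbs = if i ∈ F then 3 else 1 := by
  unfold sgnF YF
  by_cases h1 : i ∈ c <;> by_cases h2 : i ∈ F <;> simp [h1, h2]

theorem Phi_sign (F c : Finset GolayPt) (i : GolayPt) :
    sgnF c (YF F) i = YF F i ↔ i ∉ c := by
  unfold sgnF YF
  by_cases h1 : i ∈ c <;> by_cases h2 : i ∈ F <;> simp [h1, h2]

theorem Phi_inj :
    Function.Injective (fun p : Finset GolayPt × Finset GolayPt => sgnF p.2 (YF p.1)) := by
  rintro ⟨F, c⟩ ⟨F', c'⟩ h
  have hF : F = F' := by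
    ext i
    have h1 := Phi_natAbs F c i
    have h2 := Phi_natAbs F' c' i
    rw [show sgnF c (YF F) i = sgnF c' (YF F') i from congrFun h i] at h1
    rw [h1] at h2
    by_cases a : i ∈ F <;> by_cases b : i ∈ F' <;> simp [a, b] at h2 ⊢
  subst hF
  have hc : c = c' := by
    ext i
    have h1 := Phi_sign F c i
    have h2 := Phi_sign F c' i
    rw [show sgnF c (YF F) i = sgnF c' (YF F) i from congrFun h i] at h1
    rw [h2] at h1
    exact not_iff_not.mp h1.symm
  rw [hc]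

theorem ncard_S5 : {F : Finset GolayPt | F.card = 5}.ncard = 42504 := by
  have : {F : Finset GolayPt | F.card = 5} =
      ↑(Finset.powersetCard 5 (Finset.univ : Finset GolayPt)) := by
    ext F
    simp [Finset.mem_powersetCard]
  rw [this, Set.ncard_coe_finset, Finset.card_powersetCard, Finset.card_univ, card_GolayPt]
  rfl

theorem orbit_big (K : Subgroup ↥Co0)
    (hE : ∀ (c : Finset GolayPt) (hc : c ∈ Cset), eP c hc ∈ K)
    (hp : ∀ (σ : Equiv.Perm GolayPt) (hσ : σ ∈ M24), pP σ hσ ∈ K) (hx : xP ∈ K) :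
    174096384 ≤ (MulAction.orbit ↥K Z0).ncard := by
  have := finite_Co0
  have hfin : (MulAction.orbit ↥K Z0).Finite := Set.finite_range _
  have hsub : (fun p : Finset GolayPt × Finset GolayPt => sgnF p.2 (YF p.1)) ''
      ({F : Finset GolayPt | F.card = 5} ×ˢ (Cset : Set (Finset GolayPt))) ⊆
      Subtype.val '' (MulAction.orbit ↥K Z0) := by
    rintro _ ⟨⟨F, c⟩, ⟨hF, hc⟩, rfl⟩
    obtain ⟨k, hk, e⟩ := family K hE hp hx F hF c hc
    exact ⟨k.1 Z0, ⟨⟨k, hk⟩, rfl⟩, e⟩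
  have h1 := Set.ncard_le_ncard hsub (hfin.image _)
  rw [Set.ncard_image_of_injective _ Phi_inj,
    Set.ncard_image_of_injective _ Subtype.val_injective, Set.ncard_prod, ncard_S5,
    ncard_Cset] at h1
  exact h1

theorem stab_card_K (K : Subgroup ↥Co0) (hN : Nsub ≤ K) :
    Nat.card ↥(MulAction.stabilizer ↥K Z0) = 20891566080 := by
  rw [← card_stab]
  exact Nat.card_congr ⟨fun x => ⟨x.1.1, x.2⟩, fun y => ⟨⟨y.1, hN (PN_fix y.1 y.2)⟩, y.2⟩,
    fun _ => rfl, fun _ => rfl⟩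

theorem eq_top_of (K : Subgroup ↥Co0) (hK : K.Normal)
    (hE : ∀ (c : Finset GolayPt) (hc : c ∈ Cset), eP c hc ∈ K) (hN : Nsub ≤ K)
    (hx : xP ∈ K) : K = ⊤ := by
  have := finite_Co0
  have := hK
  have hp : ∀ (σ : Equiv.Perm GolayPt) (hσ : σ ∈ M24), pP σ hσ ∈ K :=
    fun σ hσ => hN (PN_pP σ hσ)
  have h1 := orbit_big K hE hp hx
  have h2 := MulAction.index_stabilizer (G := ↥K) (x := Z0)
  have h3 := (MulAction.stabilizer ↥K Z0).index_mul_card
  rw [h2, stab_card_K K hN] at h3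
  have h4 := K.index_mul_card
  rw [card_Co0, ← h3] at h4
  have h5 : K.index ∣ 8292375 := index_Nsub ▸ Subgroup.index_dvd_of_le hN
  have hodd := Odd.of_dvd_nat (by decide : Odd 8292375) h5
  rw [← Subgroup.index_eq_one]
  by_contra hne
  have h6 : 3 ≤ K.index := by
    have h0 : K.index ≠ 0 := Subgroup.index_ne_zero_of_finite
    have h2' : K.index ≠ 2 := by
      intro h
      rw [h] at hodd
      exact absurd hodd (by decide)
    omega
  have h7 : 3 * (174096384 * 20891566080) ≤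
      K.index * ((MulAction.orbit ↥K Z0).ncard * 20891566080) :=
    Nat.mul_le_mul h6 (Nat.mul_le_mul_right _ h1)
  rw [h4] at h7
  norm_num at h7

/-- **Every normal subgroup of `Co0` properly containing the centre is the whole group.** -/
theorem normal_eq_top (K : Subgroup ↥Co0) (hK : K.Normal) (hZ : Subgroup.center ↥Co0 ≤ K)
    (hne : K ≠ Subgroup.center ↥Co0) : K = ⊤ := by
  obtain ⟨k, hk, hkc⟩ : ∃ k ∈ K, k ∉ Subgroup.center ↥Co0 := by
    by_contra hcon
    push Not at hcon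
    exact hne (le_antisymm hcon hZ)
  obtain ⟨g, hg, hgN, hgc⟩ := exists_inter K hK k hk hkc
  obtain ⟨c0, hc0, h1, h2, h3⟩ := exists_eP K hK g hg hgN hgc
  have hE := all_eP K hK hZ c0 hc0 h1 h2 h3
  have hN := Nsub_le K hK hE
  exact eq_top_of K hK hE hN (xP_mem K hK hN)

/-- **`Co1 = Co0 / {±1}` is simple of the right order.** -/
theorem isCo1 : IsCo1 (↥Co0 ⧸ Subgroup.center ↥Co0) := by
  have := finite_Co0
  have hcard : Nat.card (↥Co0 ⧸ Subgroup.center ↥Co0) = 4157776806543360000 := by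
    have h := (Subgroup.center ↥Co0).index_mul_card
    rw [Cfsg.Agent.S0398.result, card_Co0] at h
    have h2 : 4157776806543360000 * 2 = 8315553613086720000 := by norm_num
    exact Nat.eq_of_mul_eq_mul_right (by norm_num : 0 < 2) (h.trans h2.symm)
  refine ⟨?_, hcard⟩
  have hnt : Nontrivial (↥Co0 ⧸ Subgroup.center ↥Co0) := by
    apply (Finite.one_lt_card_iff_nontrivial).mp
    rw [hcard]
    norm_num
  refine { exists_pair_ne := hnt.exists_pair_ne, eq_bot_or_eq_top_of_normal := fun H hH => ?_ }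
  have hsurj := QuotientGroup.mk'_surjective (Subgroup.center ↥Co0)
  have hKn : (H.comap (QuotientGroup.mk' (Subgroup.center ↥Co0))).Normal := hH.comap _
  have hZ : Subgroup.center ↥Co0 ≤ H.comap (QuotientGroup.mk' (Subgroup.center ↥Co0)) := by
    intro z hz
    rw [Subgroup.mem_comap]
    have : QuotientGroup.mk' (Subgroup.center ↥Co0) z = 1 :=
      (QuotientGroup.eq_one_iff z).mpr hz
    rw [this]
    exact H.one_mem
  have hmap := Subgroup.map_comap_eq_self_of_surjective hsurj H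
  by_cases hKZ : H.comap (QuotientGroup.mk' (Subgroup.center ↥Co0)) = Subgroup.center ↥Co0
  · left
    rw [← hmap, hKZ]
    exact QuotientGroup.map_mk'_self _
  · right
    rw [← hmap, normal_eq_top _ hKn hZ hKZ]
    exact Subgroup.map_top_of_surjective _ hsurj

end Cfsg.Agent.Lib.Helper11.LeechCo1
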