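import Mathlib
import Cfsg.Agent.Lib.Helper11.LeechCo2Data

set_option autoImplicit false
set_option maxRecDepth 200000

namespace Cfsg.Agent.Lib.Helper11.LeechCo2Data

open Cfsg Cfsg.Agent.Lib.Helper3.Golay Cfsg.Agent.Lib.Helper3.Golay2
open Cfsg.Agent.Lib.Helper3.Leech Cfsg.Agent.Lib.Helper3.Leech2 Cfsg.Agent.Lib.Helper3.Leech4
open Cfsg.Agent.Lib.Helper3.GolayM24 Cfsg.Agent.Lib.Helper3.M24Perm
open Cfsg.Agent.Lib.Helper11.LeechGF Cfsg.Agent.Lib.Helper11.Co0Mono
open Cfsg.Agent.Lib.Helper11.LeechIP Cfsg.Agent.Lib.Helper11.LeechXi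
open Cfsg.Agent.Lib.Helper11.LeechCo1 Cfsg.Agent.Lib.Helper11.LeechOrb
open Cfsg.Agent.Lib.Helper11.LeechMcLData

theorem certC15 : certOK gens (acc XXC) (acc CCC) 47104 28800 C15 = true := by decide +kernel

theorem certC16 : certOK gens (acc XXC) (acc CCC) 47104 30720 C16 = true := by decide +kernel

theorem certC17 : certOK gens (acc XXC) (acc CCC) 47104 32640 C17 = true := by decide +kernel

theorem certC18 : certOK gens (acc XXC) (acc CCC) 47104 34560 C18 = true := by decide +kernel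

theorem certC19 : certOK gens (acc XXC) (acc CCC) 47104 36480 C19 = true := by decide +kernel

end Cfsg.Agent.Lib.Helper11.LeechCo2Data
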