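import Mathlib
import Cfsg.Agent.Lib.Helper11.LeechCo2Data

set_option autoImplicit false
set_option maxRecDepth 200000

namespace Cfsg.Agent.Lib.Helper11.LeechCo2Data

open Cfsg Cfsg.Agent.Lib.Helper3.Golay Cfsg.Agent.Lib.Helper3.Golay2
open Cfsg.Agent.Lib.Helper3.Leech Cfsg.Agent.Lib.Helper3.Leech2 Cfsg.Agent.Lib.Helper3.Leech4
open Cfsg.Agent.Lib.Helper3.GolayM24 Cfsg.Agent.Lib.Helper3.M24Perm
open Cfsg.Agent.Lib.Helper11.LeechGF Cfsg.Agent.Lib.Helper11.Co0Mono
open Cfsg.Agent.Lib.Helper11.LeechIP Cfsg.Agent.Lib.Helper11.LeechXi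
open Cfsg.Agent.Lib.Helper11.LeechCo1 Cfsg.Agent.Lib.Helper11.LeechOrb
open Cfsg.Agent.Lib.Helper11.LeechMcLData

theorem cntC16 : (Cs.filter (fun L => decide (dotZ Lws L = 16))).length = 2025 := by
  decide +kernel

theorem cntC8 : (Cs.filter (fun L => decide (dotZ Lws L = 8))).length = 15400 := by
  decide +kernel

theorem cntC0 : (Cs.filter (fun L => decide (dotZ Lws L = 0))).length = 22275 := by
  decide +kernel

theorem cntCm8 : (Cs.filter (fun L => decide (dotZ Lws L = -8))).length = 7128 := by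
  decide +kernel

theorem cntCm16 : (Cs.filter (fun L => decide (dotZ Lws L = -16))).length = 275 := by
  decide +kernel

end Cfsg.Agent.Lib.Helper11.LeechCo2Data
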