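import Mathlib
import Cfsg.Agent.Lib.Helper11.LeechCo2DataA
import Cfsg.Agent.Lib.Helper11.LeechCo2DataB
import Cfsg.Agent.Lib.Helper11.LeechCo2DataC
import Cfsg.Agent.Lib.Helper11.LeechCo2DataD
import Cfsg.Agent.Lib.Helper11.LeechCo2DataE
import Cfsg.Agent.Lib.Helper11.LeechCo2DataF
import Cfsg.Agent.Lib.Helper11.LeechCo2DataG

set_option autoImplicit false
set_option maxRecDepth 200000

namespace Cfsg.Agent.Lib.Helper11.LeechCo2Data

open Cfsg Cfsg.Agent.Lib.Helper3.Golay Cfsg.Agent.Lib.Helper3.Golay2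
open Cfsg.Agent.Lib.Helper3.Leech Cfsg.Agent.Lib.Helper3.Leech2 Cfsg.Agent.Lib.Helper3.Leech4
open Cfsg.Agent.Lib.Helper3.GolayM24 Cfsg.Agent.Lib.Helper3.M24Perm
open Cfsg.Agent.Lib.Helper11.LeechGF Cfsg.Agent.Lib.Helper11.Co0Mono
open Cfsg.Agent.Lib.Helper11.LeechIP Cfsg.Agent.Lib.Helper11.LeechXi
open Cfsg.Agent.Lib.Helper11.LeechCo1 Cfsg.Agent.Lib.Helper11.LeechOrb
open Cfsg.Agent.Lib.Helper11.LeechMcLData

theorem certC_ok : certOK gens (acc XXC) (acc CCC) 47104 0 Cs = true := by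
  rw [Cs_split]
  exact (certOK_append _ _ _ _ _ _ 0 1920 (by rw [C0_len]) certC0
    (certOK_append _ _ _ _ _ _ 1920 3840 (by rw [C1_len]) certC1
    (certOK_append _ _ _ _ _ _ 3840 5760 (by rw [C2_len]) certC2
    (certOK_append _ _ _ _ _ _ 5760 7680 (by rw [C3_len]) certC3
    (certOK_append _ _ _ _ _ _ 7680 9600 (by rw [C4_len]) certC4
    (certOK_append _ _ _ _ _ _ 9600 11520 (by rw [C5_len]) certC5
    (certOK_append _ _ _ _ _ _ 11520 13440 (by rw [C6_len]) certC6
    (certOK_append _ _ _ _ _ _ 13440 15360 (by rw [C7_len]) certC7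
    (certOK_append _ _ _ _ _ _ 15360 17280 (by rw [C8_len]) certC8
    (certOK_append _ _ _ _ _ _ 17280 19200 (by rw [C9_len]) certC9
    (certOK_append _ _ _ _ _ _ 19200 21120 (by rw [C10_len]) certC10
    (certOK_append _ _ _ _ _ _ 21120 23040 (by rw [C11_len]) certC11
    (certOK_append _ _ _ _ _ _ 23040 24960 (by rw [C12_len]) certC12
    (certOK_append _ _ _ _ _ _ 24960 26880 (by rw [C13_len]) certC13
    (certOK_append _ _ _ _ _ _ 26880 28800 (by rw [C14_len]) certC14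
    (certOK_append _ _ _ _ _ _ 28800 30720 (by rw [C15_len]) certC15
    (certOK_append _ _ _ _ _ _ 30720 32640 (by rw [C16_len]) certC16
    (certOK_append _ _ _ _ _ _ 32640 34560 (by rw [C17_len]) certC17
    (certOK_append _ _ _ _ _ _ 34560 36480 (by rw [C18_len]) certC18
    (certOK_append _ _ _ _ _ _ 36480 38400 (by rw [C19_len]) certC19
    (certOK_append _ _ _ _ _ _ 38400 40320 (by rw [C20_len]) certC20
    (certOK_append _ _ _ _ _ _ 40320 42240 (by rw [C21_len]) certC21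
    (certOK_append _ _ _ _ _ _ 42240 44160 (by rw [C22_len]) certC22
    (certOK_append _ _ _ _ _ _ 44160 46080 (by rw [C23_len]) certC23
    certC24))))))))))))))))))))))))

end Cfsg.Agent.Lib.Helper11.LeechCo2Data
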