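import Mathlib
import Cfsg.Agent.Lib.Helper11.LeechMcLData

set_option autoImplicit false

namespace Cfsg.Agent.Lib.Helper11.LeechMcL

open Cfsg Cfsg.Agent.Lib.Helper3.Golay Cfsg.Agent.Lib.Helper3.Golay2
open Cfsg.Agent.Lib.Helper3.Leech Cfsg.Agent.Lib.Helper3.Leech2 Cfsg.Agent.Lib.Helper3.Leech4
open Cfsg.Agent.Lib.Helper3.GolayM24 Cfsg.Agent.Lib.Helper3.M24Perm
open Cfsg.Agent.Lib.Helper11.LeechGF Cfsg.Agent.Lib.Helper11.Co0Mono
open Cfsg.Agent.Lib.Helper11.LeechIP Cfsg.Agent.Lib.Helper11.LeechXi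
open Cfsg.Agent.Lib.Helper11.LeechSt
open Cfsg.Agent.Lib.Helper11.LeechCo1 Cfsg.Agent.Lib.Helper11.LeechOrb
open Cfsg.Agent.Lib.Helper11.LeechMcLData

/-- The `275` minimal vectors attached to a vector `u` of norm `48` and a minimal vector `v`
with `u - v` minimal. -/
def XS (u v : ↥leechLattice) : Set ↥leechLattice :=
  {x | sqNorm (x : GolayPt → ℤ) = 32 ∧
    sqNorm ((u : GolayPt → ℤ) - (x : GolayPt → ℤ)) = 32 ∧
    dotInt (v : GolayPt → ℤ) (x : GolayPt → ℤ) = 16}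

theorem dot_of_sub {u x : ↥leechLattice} (hu : sqNorm (u : GolayPt → ℤ) = 48)
    (hx : sqNorm (x : GolayPt → ℤ) = 32)
    (h : sqNorm ((u : GolayPt → ℤ) - (x : GolayPt → ℤ)) = 32) :
    dotInt (u : GolayPt → ℤ) (x : GolayPt → ℤ) = 24 := by
  rw [sqNorm_sub', hu, hx] at h
  omega

theorem perm_sub (g : Equiv.Perm ↥leechLattice) (hg : g ∈ Co0) (a b : ↥leechLattice) :
    g (a - b) = g a - g b := by
  rw [sub_eq_add_neg, hg.1, perm_neg g hg.1, ← sub_eq_add_neg]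

theorem mcl_count (u v : ↥leechLattice) (hu : sqNorm (u : GolayPt → ℤ) = 48)
    (hv : sqNorm (v : GolayPt → ℤ) = 32)
    (hv2 : sqNorm ((u : GolayPt → ℤ) - (v : GolayPt → ℤ)) = 32) :
    (XS u v).ncard = 275 := by
  have huv : dotInt (u : GolayPt → ℤ) (v : GolayPt → ℤ) = 24 := dot_of_sub hu hv hv2
  have hTc := pairs_count u hu
  have hTfin : {x : ↥leechLattice | sqNorm (x : GolayPt → ℤ) = 32 ∧
      sqNorm ((u : GolayPt → ℤ) - (x : GolayPt → ℤ)) = 32}.Finite :=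
    Set.finite_of_ncard_ne_zero (by rw [hTc]; norm_num)
  obtain ⟨B, hB⟩ : ∃ B : Set ↥leechLattice, B = {x : ↥leechLattice | sqNorm (x : GolayPt → ℤ) = 32 ∧
    sqNorm ((u : GolayPt → ℤ) - (x : GolayPt → ℤ)) = 32 ∧
    dotInt (v : GolayPt → ℤ) (x : GolayPt → ℤ) = 8} := ⟨_, rfl⟩
  have hcls : ∀ x : ↥leechLattice, sqNorm (x : GolayPt → ℤ) = 32 →
      sqNorm ((u : GolayPt → ℤ) - (x : GolayPt → ℤ)) = 32 →
      x = v ∨ x = u - v ∨ dotInt (v : GolayPt → ℤ) (x : GolayPt → ℤ) = 16 ∨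
        dotInt (v : GolayPt → ℤ) (x : GolayPt → ℤ) = 8 := by
    intro x hx1 hx2
    by_cases e1 : x = v
    · exact Or.inl e1
    by_cases e2 : x = u - v
    · exact Or.inr (Or.inl e2)
    right; right
    have hux : dotInt (u : GolayPt → ℤ) (x : GolayPt → ℤ) = 24 := dot_of_sub hu hx1 hx2
    have n1 : x ≠ -v := by
      rintro rfl
      rw [AddSubgroup.coe_neg, dot_neg_right, huv] at hux
      norm_num at hux
    have d1 := dot_range v x hv hx1 e1 n1
    have hx' : sqNorm ((u - x : ↥leechLattice) : GolayPt → ℤ) = 32 := by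
      rw [AddSubgroup.coe_sub]; exact hx2
    have n2 : u - x ≠ v := by
      intro h
      apply e2
      rw [← h]
      abel
    have n3 : u - x ≠ -v := by
      intro h
      have h24 : dotInt (u : GolayPt → ℤ) ((u - x : ↥leechLattice) : GolayPt → ℤ) = 24 := by
        rw [AddSubgroup.coe_sub, dot_sub_right, dot_self, hu, hux]; norm_num
      rw [h, AddSubgroup.coe_neg, dot_neg_right, huv] at h24
      norm_num at h24
    have d2 := dot_range v (u - x) hv hx' n2 n3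
    rw [AddSubgroup.coe_sub, dot_sub_right, dot_comm (v : GolayPt → ℤ) (u : GolayPt → ℤ),
      huv] at d2
    omega
  have hAsub : XS u v ⊆ {x : ↥leechLattice | sqNorm (x : GolayPt → ℤ) = 32 ∧
      sqNorm ((u : GolayPt → ℤ) - (x : GolayPt → ℤ)) = 32} := fun x hx => ⟨hx.1, hx.2.1⟩
  have hBsub : B ⊆ {x : ↥leechLattice | sqNorm (x : GolayPt → ℤ) = 32 ∧
      sqNorm ((u : GolayPt → ℤ) - (x : GolayPt → ℤ)) = 32} := by
    rw [hB]
    exact fun x hx => ⟨hx.1, hx.2.1⟩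
  have hBimg : B = (fun x : ↥leechLattice => u - x) '' XS u v := by
    rw [hB]
    ext y
    constructor
    · rintro ⟨h1, h2, h3⟩
      refine ⟨u - y, ⟨?_, ?_, ?_⟩, by abel⟩
      · rw [AddSubgroup.coe_sub]; exact h2
      · rw [AddSubgroup.coe_sub, sub_sub_cancel]; exact h1
      · rw [AddSubgroup.coe_sub, dot_sub_right, dot_comm (v : GolayPt → ℤ) (u : GolayPt → ℤ),
          huv, h3]
        norm_num
    · rintro ⟨x, ⟨h1, h2, h3⟩, rfl⟩
      refine ⟨?_, ?_, ?_⟩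
      · rw [AddSubgroup.coe_sub]; exact h2
      · rw [AddSubgroup.coe_sub, sub_sub_cancel]; exact h1
      · rw [AddSubgroup.coe_sub, dot_sub_right, dot_comm (v : GolayPt → ℤ) (u : GolayPt → ℤ),
          huv, h3]
        norm_num
  have hBc : B.ncard = (XS u v).ncard := by
    rw [hBimg]
    exact Set.ncard_image_of_injective _ sub_right_injective
  have hAB : Disjoint (XS u v) B := by
    rw [hB, Set.disjoint_left]
    rintro x ⟨-, -, h3⟩ ⟨-, -, h3'⟩
    rw [h3] at h3'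
    norm_num at h3'
  have hvv : dotInt (v : GolayPt → ℤ) (v : GolayPt → ℤ) = 32 := by rw [dot_self]; exact hv
  have hvuv : dotInt (v : GolayPt → ℤ) ((u - v : ↥leechLattice) : GolayPt → ℤ) = -8 := by
    rw [AddSubgroup.coe_sub, dot_sub_right, dot_comm (v : GolayPt → ℤ) (u : GolayPt → ℤ), huv,
      hvv]
    norm_num
  have hne : v ≠ u - v := by
    intro h
    rw [← h, hvv] at hvuv
    norm_num at hvuv
  have hdisj2 : Disjoint (XS u v ∪ B) ({v, u - v} : Set ↥leechLattice) := by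
    rw [Set.disjoint_left]
    intro x hx hx2
    have hd : dotInt (v : GolayPt → ℤ) (x : GolayPt → ℤ) = 16 ∨
        dotInt (v : GolayPt → ℤ) (x : GolayPt → ℤ) = 8 := by
      rcases hx with hx | hx
      · exact Or.inl hx.2.2
      · rw [hB] at hx
        exact Or.inr hx.2.2
    rcases hx2 with rfl | hx2
    · rw [hvv] at hd
      omega
    · rw [Set.mem_singleton_iff] at hx2
      rw [hx2, hvuv] at hd
      omega
  have hTeq : {x : ↥leechLattice | sqNorm (x : GolayPt → ℤ) = 32 ∧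
      sqNorm ((u : GolayPt → ℤ) - (x : GolayPt → ℤ)) = 32} =
      (XS u v ∪ B) ∪ ({v, u - v} : Set ↥leechLattice) := by
    ext x
    constructor
    · rintro ⟨h1, h2⟩
      rcases hcls x h1 h2 with h | h | h | h
      · exact Or.inr (Or.inl h)
      · exact Or.inr (Or.inr h)
      · exact Or.inl (Or.inl ⟨h1, h2, h⟩)
      · refine Or.inl (Or.inr ?_)
        rw [hB]
        exact ⟨h1, h2, h⟩
    · rintro ((h | h) | h)
      · exact hAsub h
      · exact hBsub h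
      · rcases h with rfl | h
        · exact ⟨hv, hv2⟩
        · rw [Set.mem_singleton_iff] at h
          rw [h]
          refine ⟨?_, ?_⟩
          · rw [AddSubgroup.coe_sub]; exact hv2
          · rw [AddSubgroup.coe_sub, sub_sub_cancel]; exact hv
  rw [hTeq, Set.ncard_union_eq hdisj2 ((hTfin.subset hAsub).union (hTfin.subset hBsub))
      (Set.toFinite _),
    Set.ncard_union_eq hAB (hTfin.subset hAsub) (hTfin.subset hBsub), hBc,
    Set.ncard_pair hne] at hTc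
  omega

theorem XS_map {g : Equiv.Perm ↥leechLattice} (hg : g ∈ Co0) (u v x : ↥leechLattice)
    (hx : x ∈ XS u v) : g x ∈ XS (g u) (g v) := by
  obtain ⟨h1, h2, h3⟩ := hx
  refine ⟨by rw [hg.2]; exact h1, ?_, by rw [dot_co0 hg]; exact h3⟩
  rw [← AddSubgroup.coe_sub, ← perm_sub g hg, hg.2, AddSubgroup.coe_sub]
  exact h2

/-! ### The standard frame -/

def us : ↥leechLattice := ⟨vecN Lu, Lu_mem⟩

def vs : ↥leechLattice := ⟨vecN Lv, Lv_mem⟩

def xs : ↥leechLattice := ⟨vecN Lx, Lx_mem⟩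

/-- The stabiliser of the standard frame. -/
def Hs : Subgroup ↥Co0 := MulAction.stabilizer ↥Co0 us ⊓ MulAction.stabilizer ↥Co0 vs

theorem mem_Hs {g : ↥Co0} : g ∈ Hs ↔ g.1 us = us ∧ g.1 vs = vs := by
  rw [Hs, Subgroup.mem_inf, MulAction.mem_stabilizer_iff, MulAction.mem_stabilizer_iff]
  rfl

theorem gens_facts : ∀ w ∈ LeechMcLData.gens, w.all Mv.ok = true ∧ elW w ∈ Hs := by
  intro w hw
  have h := gens_ok
  rw [List.all_eq_true] at h
  have hw' := h w hw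
  simp only [Bool.and_eq_true] at hw'
  obtain ⟨⟨h1, h2⟩, h3⟩ := hw'
  refine ⟨h1, mem_Hs.mpr ⟨Subtype.ext ?_, Subtype.ext ?_⟩⟩
  · rw [elW_act w h1]; exact eqV_eq h2
  · rw [elW_act w h1]; exact eqV_eq h3

theorem orb (k : ℕ) (hk : k < 275) :
    ∃ g ∈ Hs, ((g.1 xs : ↥leechLattice) : GolayPt → ℤ) = vecN (Xs.getD k 0) :=
  orbit_of_tree Hs LeechMcLData.gens (fun w hw => (gens_facts w hw).1) (fun w hw => (gens_facts w hw).2)
    Xs tree xs (by rw [Xs_zero]; rfl) tree_ok k (by rw [tree_length]; omega)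

theorem xs_mem : xs ∈ XS us vs :=
  ⟨frame_num.2.2.2.1, frame_num.2.2.2.2.1, frame_num.2.2.2.2.2⟩

theorem Hs_XS (g : ↥Co0) (hg : g ∈ Hs) (x : ↥leechLattice) (hx : x ∈ XS us vs) :
    g.1 x ∈ XS us vs := by
  have := XS_map g.2 us vs x hx
  rw [(mem_Hs.mp hg).1, (mem_Hs.mp hg).2] at this
  exact this

theorem cover : ∀ z ∈ XS us vs, ∃ k < 275, (z : GolayPt → ℤ) = vecN (Xs.getD k 0) :=
  cover_of_card (XS us vs) 275 (mcl_count us vs frame_num.1 frame_num.2.1 frame_num.2.2.1)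
    (by norm_num) Xs
    (fun k hk => by
      obtain ⟨g, hg, e⟩ := orb k hk
      exact ⟨g.1 xs, Hs_XS g hg xs xs_mem, e⟩)
    (fun k hk l hl e => inj_of_nodup Xs Xs_nodup k l (by rw [Xs_length]; exact hk)
      (by rw [Xs_length]; exact hl) e)

theorem frame_trans (z z' : ↥leechLattice) (hz : z ∈ XS us vs) (hz' : z' ∈ XS us vs) :
    ∃ g ∈ Hs, g.1 z = z' := by
  obtain ⟨k, hk, e⟩ := cover z hz
  obtain ⟨k', hk', e'⟩ := cover z' hz'
  obtain ⟨g, hg, eg⟩ := orb k hk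
  obtain ⟨g', hg', eg'⟩ := orb k' hk'
  refine ⟨g' * g⁻¹, Hs.mul_mem hg' (Hs.inv_mem hg), ?_⟩
  have e1 : g.1 xs = z := Subtype.ext (eg.trans e.symm)
  have e2 : g'.1 xs = z' := Subtype.ext (eg'.trans e'.symm)
  show g'.1 (g.1⁻¹ z) = z'
  rw [← e1, show g.1⁻¹ (g.1 xs) = xs from Equiv.symm_apply_apply g.1 xs]
  exact e2

theorem exists_frame (u v : ↥leechLattice) (hu : sqNorm (u : GolayPt → ℤ) = 48)
    (hv : sqNorm (v : GolayPt → ℤ) = 32)
    (hv2 : sqNorm ((u : GolayPt → ℤ) - (v : GolayPt → ℤ)) = 32) :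
    ∃ g ∈ Co0, g u = us ∧ g v = vs := by
  obtain ⟨g1, hg1, e1⟩ := t6_trans u us hu frame_num.1
  have hv' : sqNorm ((g1 v : ↥leechLattice) : GolayPt → ℤ) = 32 := by rw [hg1.2]; exact hv
  have hv2' : sqNorm ((us : GolayPt → ℤ) - ((g1 v : ↥leechLattice) : GolayPt → ℤ)) = 32 := by
    rw [← e1, ← AddSubgroup.coe_sub, ← perm_sub g1 hg1, hg1.2, AddSubgroup.coe_sub]
    exact hv2
  obtain ⟨g2, hg2, e2, e3⟩ := trans552 us (g1 v) vs frame_num.1 hv' hv2' frame_num.2.1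
    frame_num.2.2.1
  exact ⟨g2 * g1, Co0.mul_mem hg2 hg1, by rw [Equiv.Perm.mul_apply, e1, e2],
    by rw [Equiv.Perm.mul_apply, e3]⟩

/-- **The stabiliser of `(u, v)` is transitive on the `275` vectors.** -/
theorem mcl_trans (u v x x' : ↥leechLattice) (hu : sqNorm (u : GolayPt → ℤ) = 48)
    (hv : sqNorm (v : GolayPt → ℤ) = 32)
    (hv2 : sqNorm ((u : GolayPt → ℤ) - (v : GolayPt → ℤ)) = 32)
    (hx : x ∈ XS u v) (hx' : x' ∈ XS u v) :
    ∃ g : ↥Co0, g • u = u ∧ g • v = v ∧ g • x = x' := by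
  obtain ⟨g0, hg0, e1, e2⟩ := exists_frame u v hu hv hv2
  have h1 := XS_map hg0 u v x hx
  have h2 := XS_map hg0 u v x' hx'
  rw [e1, e2] at h1 h2
  obtain ⟨h, hh, e⟩ := frame_trans _ _ h1 h2
  refine ⟨(⟨g0, hg0⟩ : ↥Co0)⁻¹ * h * ⟨g0, hg0⟩, ?_, ?_, ?_⟩
  · show g0⁻¹ (h.1 (g0 u)) = u
    rw [e1, (mem_Hs.mp hh).1, ← e1]
    exact Equiv.symm_apply_apply g0 u
  · show g0⁻¹ (h.1 (g0 v)) = v
    rw [e2, (mem_Hs.mp hh).2, ← e2]
    exact Equiv.symm_apply_apply g0 v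
  · show g0⁻¹ (h.1 (g0 x)) = x'
    rw [e]
    exact Equiv.symm_apply_apply g0 x'

end Cfsg.Agent.Lib.Helper11.LeechMcL
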