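import Mathlib
import Cfsg.Agent.Lib.Helper11.LeechCo1c

set_option autoImplicit false

namespace Cfsg.Agent.Lib.Helper11.LeechOrb

open Cfsg Cfsg.Agent.Lib.Helper3.Golay Cfsg.Agent.Lib.Helper3.Golay2
open Cfsg.Agent.Lib.Helper3.Leech Cfsg.Agent.Lib.Helper3.Leech2 Cfsg.Agent.Lib.Helper3.Leech4
open Cfsg.Agent.Lib.Helper3.GolayM24 Cfsg.Agent.Lib.Helper3.M24Perm
open Cfsg.Agent.Lib.Helper3.M24Trans Cfsg.Agent.Lib.Helper3.M24Cert
open Cfsg.Agent.Lib.Helper11.LeechGF Cfsg.Agent.Lib.Helper11.Co0Mono
open Cfsg.Agent.Lib.Helper11.LeechIP Cfsg.Agent.Lib.Helper11.LeechXi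
open Cfsg.Agent.Lib.Helper11.LeechMod2 Cfsg.Agent.Lib.Helper11.LeechSt
open Cfsg.Agent.Lib.Helper11.LeechCo1

/-! ### Moves: explicit elements of `Co0` with a computable action -/

/-- A move: a coordinate permutation (given by its table and the table of its inverse), a
sign change (given by the mask of a codeword), or the map `ξ`. -/
inductive Mv
  | p (T T' : ℕ)
  | s (m : ℕ)
  | x

/-- The computable action of a move on integer vectors. -/
def Mv.act : Mv → (GolayPt → ℤ) → (GolayPt → ℤ)
  | .p _ T', v => fun j => v (tfun T' j)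
  | .s m, v => sgnF (ms m) v
  | .x, v => xiF v

/-- The validity check of a move. -/
def Mv.ok : Mv → Bool
  | .p T T' => inM T && (List.range 24).all (fun i => Nat.beq (idx (tfun T (tfun T' (pt i)))) i)
  | .s m => Nat.beq (cw (kOf m)) m && decide (kOf m < 4096)
  | .x => true

open Classical in
/-- The element of `Co0` of a move (the identity for an invalid move). -/
noncomputable def Mv.el : Mv → ↥Co0
  | .p T _ => if h : inM T = true then pP (tp T) (tp_mem_M24 h) else 1
  | .s m => if h : ms m ∈ Cset then eP (ms m) h else 1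
  | .x => xP

theorem Mv.el_act (m : Mv) (hok : m.ok = true) (v : ↥leechLattice) :
    (((m.el).1 v : ↥leechLattice) : GolayPt → ℤ) = m.act (v : GolayPt → ℤ) := by
  cases m with
  | p T T' =>
    simp only [Mv.ok, Bool.and_eq_true, List.all_eq_true, List.mem_range] at hok
    obtain ⟨h1, h2⟩ := hok
    have hinv : ∀ j, tfun T (tfun T' j) = j := by
      intro j
      have h3 := Nat.eq_of_beq_eq_true (h2 (idx j) (idx_lt j))
      rw [pt_idx] at h3
      rw [← pt_idx (tfun T (tfun T' j)), h3, pt_idx]
    show ((((if h : inM T = true then pP (tp T) (tp_mem_M24 h) else 1 : ↥Co0)).1 v :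
      ↥leechLattice) : GolayPt → ℤ) = fun j => (v : GolayPt → ℤ) (tfun T' j)
    rw [dif_pos h1]
    show prmF (tp T) v = _
    funext j
    unfold prmF
    have : (tp T).symm j = tfun T' j := by
      rw [Equiv.symm_apply_eq, tp_apply (inM_good h1), hinv]
    rw [this]
  | s m =>
    simp only [Mv.ok, Bool.and_eq_true, decide_eq_true_eq] at hok
    obtain ⟨h1, h2⟩ := hok
    have hm : ms m ∈ Cset := ms_mem m (Nat.eq_of_beq_eq_true h1) h2
    show ((((@dite _ (ms m ∈ Cset) (Classical.propDecidable _) (fun h => eP (ms m) h)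
      (fun _ => 1) : ↥Co0)).1 v : ↥leechLattice) : GolayPt → ℤ) = sgnF (ms m) v
    rw [dif_pos hm]
    rfl
  | x => rfl

/-- The action of a word (a list of moves, applied from the right). -/
def actW (w : List Mv) (v : GolayPt → ℤ) : GolayPt → ℤ := w.foldr (fun m acc => m.act acc) v

/-- The element of `Co0` of a word. -/
noncomputable def elW (w : List Mv) : ↥Co0 := (w.map Mv.el).prod

theorem elW_act (w : List Mv) (hok : w.all Mv.ok = true) (v : ↥leechLattice) :
    (((elW w).1 v : ↥leechLattice) : GolayPt → ℤ) = actW w (v : GolayPt → ℤ) := by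
  induction w with
  | nil => rfl
  | cons m w ih =>
    rw [List.all_cons, Bool.and_eq_true] at hok
    have e : elW (m :: w) = m.el * elW w := by
      unfold elW
      rw [List.map_cons, List.prod_cons]
    rw [e]
    show (((m.el).1 ((elW w).1 v) : ↥leechLattice) : GolayPt → ℤ) = m.act (actW w v)
    rw [← ih hok.2]
    exact Mv.el_act m hok.1 ((elW w).1 v)

/-- Boolean equality of integer vectors. -/
def eqV (f g : GolayPt → ℤ) : Bool := (List.range 24).all (fun i => decide (f (pt i) = g (pt i)))

theorem eqV_eq {f g : GolayPt → ℤ} (h : eqV f g = true) : f = g := by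
  simp only [eqV, List.all_eq_true, List.mem_range, decide_eq_true_eq] at h
  funext j
  have := h (idx j) (idx_lt j)
  rw [pt_idx] at this
  exact this

/-- The integer vector with code `n`: the coordinate at the point number `i` is the digit
number `i` of `n` in base `32`, minus `16`. -/
def vecN (n : ℕ) : GolayPt → ℤ := fun i => ((n / 32 ^ idx i % 32 : ℕ) : ℤ) - 16

/-! ### Orbit certificates -/

/-- The check of a spanning tree: the vector number `k + 1` is the image of the vector number
`p ≤ k` under the generator number `i`, where `(p, i)` is the entry number `k` of the tree. -/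
def treeOK (gens : List (List Mv)) (Xs : List ℕ) (tree : List (ℕ × ℕ)) : Bool :=
  (List.range tree.length).all (fun k =>
    decide ((tree.getD k (0, 0)).1 ≤ k) &&
    eqV (actW (gens.getD (tree.getD k (0, 0)).2 []) (vecN (Xs.getD (tree.getD k (0, 0)).1 0)))
      (vecN (Xs.getD (k + 1) 0)))

theorem getD_mem_or (gens : List (List Mv)) (i : ℕ) :
    gens.getD i [] ∈ gens ∨ gens.getD i [] = [] := by
  by_cases h : i < gens.length
  · left
    rw [List.getD_eq_getElem _ _ h]
    exact List.getElem_mem h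
  · right
    rw [List.getD_eq_default _ _ (by omega)]

theorem orbit_of_tree (H : Subgroup ↥Co0) (gens : List (List Mv))
    (hok : ∀ w ∈ gens, w.all Mv.ok = true) (hH : ∀ w ∈ gens, elW w ∈ H)
    (Xs : List ℕ) (tree : List (ℕ × ℕ)) (x1 : ↥leechLattice)
    (hx1 : (x1 : GolayPt → ℤ) = vecN (Xs.getD 0 0))
    (hT : treeOK gens Xs tree = true) :
    ∀ k ≤ tree.length, ∃ g ∈ H,
      (((g : ↥Co0).1 x1 : ↥leechLattice) : GolayPt → ℤ) = vecN (Xs.getD k 0) := by
  simp only [treeOK, List.all_eq_true, List.mem_range, Bool.and_eq_true,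
    decide_eq_true_eq] at hT
  intro k
  induction k using Nat.strong_induction_on with
  | _ k ih =>
    intro hk
    rcases k with _ | k
    · exact ⟨1, H.one_mem, hx1⟩
    · obtain ⟨hp, he⟩ := hT k (by omega)
      obtain ⟨g, hg, e⟩ := ih (tree.getD k (0, 0)).1 (by omega) (by omega)
      have hw : (gens.getD (tree.getD k (0, 0)).2 []).all Mv.ok = true ∧
          elW (gens.getD (tree.getD k (0, 0)).2 []) ∈ H := by
        rcases getD_mem_or gens (tree.getD k (0, 0)).2 with h | h
        · exact ⟨hok _ h, hH _ h⟩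
        · rw [h]
          exact ⟨rfl, H.one_mem⟩
      refine ⟨elW (gens.getD (tree.getD k (0, 0)).2 []) * g, H.mul_mem hw.2 hg, ?_⟩
      show (((elW (gens.getD (tree.getD k (0, 0)).2 [])).1 (g.1 x1) : ↥leechLattice) :
        GolayPt → ℤ) = _
      rw [elW_act _ hw.1, e]
      exact eqV_eq he

/-- If a set of `n` lattice vectors contains `n` different listed vectors, then every
vector of the set is listed. -/
theorem cover_of_card (S : Set ↥leechLattice) (n : ℕ) (hS : S.ncard = n) (hn : 0 < n)
    (Xs : List ℕ)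
    (hmem : ∀ k < n, ∃ z ∈ S, (z : GolayPt → ℤ) = vecN (Xs.getD k 0))
    (hinj : ∀ k < n, ∀ l < n, vecN (Xs.getD k 0) = vecN (Xs.getD l 0) → k = l) :
    ∀ z ∈ S, ∃ k < n, (z : GolayPt → ℤ) = vecN (Xs.getD k 0) := by
  choose f hf1 hf2 using fun k : Fin n => hmem k.1 k.2
  have hinjf : Function.Injective f := by
    intro a b hab
    apply Fin.ext
    apply hinj a.1 a.2 b.1 b.2
    rw [← hf2 a, ← hf2 b, hab]
  have hsub : Set.range f ⊆ S := by
    rintro _ ⟨k, rfl⟩
    exact hf1 k
  have hfin : S.Finite := Set.finite_of_ncard_pos (by rw [hS]; exact hn)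
  have hcard : (Set.range f).ncard = n := by
    rw [← Set.image_univ, Set.ncard_image_of_injective _ hinjf, Set.ncard_univ, Nat.card_fin]
  have heq : Set.range f = S :=
    Set.eq_of_subset_of_ncard_le hsub (by rw [hS, hcard]) hfin
  intro z hz
  rw [← heq] at hz
  obtain ⟨k, rfl⟩ := hz
  exact ⟨k.1, k.2, hf2 k⟩

/-- A numerical code of an integer vector. -/
def codeF (f : GolayPt → ℤ) : ℕ :=
  (List.range 24).foldl (fun a i => 64 * a + (f (pt i) + 32).toNat) 0

theorem inj_of_nodup (Xs : List ℕ) (h : (Xs.map (fun L => codeF (vecN L))).Nodup)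
    (k l : ℕ) (hk : k < Xs.length) (hl : l < Xs.length)
    (e : vecN (Xs.getD k 0) = vecN (Xs.getD l 0)) : k = l := by
  have hk' : k < (Xs.map (fun L => codeF (vecN L))).length := by rw [List.length_map]; exact hk
  have hl' : l < (Xs.map (fun L => codeF (vecN L))).length := by rw [List.length_map]; exact hl
  have e2 : (Xs.map (fun L => codeF (vecN L)))[k] = (Xs.map (fun L => codeF (vecN L)))[l] := by
    rw [List.getElem_map, List.getElem_map]
    rw [List.getD_eq_getElem _ _ hk, List.getD_eq_getElem _ _ hl] at e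
    rw [e]
  exact (List.Nodup.getElem_inj_iff h).mp e2

/-! ### Membership of explicit vectors in the lattice -/

theorem vecN_mem_even (L : ℕ) (m : ℕ) (h1 : cw (kOf m) = m) (h2 : kOf m < 4096)
    (h3 : ∀ i : GolayPt, vecN L i % 4 = if i ∈ ms m then 2 else 0)
    (h4 : (∑ i, vecN L i) % 8 = 0) : vecN L ∈ leechLattice := by
  rw [mem_leechLattice_iff, leechSet_iff]
  exact Or.inl ⟨ms m, ms_mem m h1 h2, h3, h4⟩

theorem vecN_mem_odd (L : ℕ) (m : ℕ) (h1 : cw (kOf m) = m) (h2 : kOf m < 4096)
    (h3 : ∀ i : GolayPt, vecN L i % 4 = if i ∈ ms m then 1 else 3)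
    (h4 : (∑ i, vecN L i) % 8 = 4) : vecN L ∈ leechLattice := by
  rw [mem_leechLattice_iff, leechSet_iff]
  exact Or.inr ⟨ms m, ms_mem m h1 h2, h3, h4⟩

end Cfsg.Agent.Lib.Helper11.LeechOrb
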