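import Mathlib
import Cfsg.Agent.Lib.Helper11.LeechOrb

set_option autoImplicit false

namespace Cfsg.Agent.Lib.Helper11.LeechOrb

open Cfsg Cfsg.Agent.Lib.Helper3.Golay Cfsg.Agent.Lib.Helper3.Golay2
open Cfsg.Agent.Lib.Helper3.Leech Cfsg.Agent.Lib.Helper3.Leech2 Cfsg.Agent.Lib.Helper3.Leech4
open Cfsg.Agent.Lib.Helper3.GolayM24 Cfsg.Agent.Lib.Helper3.M24Perm
open Cfsg.Agent.Lib.Helper11.LeechGF Cfsg.Agent.Lib.Helper11.Co0Mono
open Cfsg.Agent.Lib.Helper11.LeechIP Cfsg.Agent.Lib.Helper11.LeechXi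
open Cfsg.Agent.Lib.Helper11.LeechCo1

/-- **Transitivity from a certificate**: a subgroup `H` preserving a set `S` of `n` lattice
vectors, together with a spanning tree of `n` different vectors from a base point of `S` under
words lying in `H`. -/
theorem trans_of_cert (H : Subgroup ↥Co0) (S : Set ↥leechLattice) (n : ℕ) (hS : S.ncard = n)
    (hn : 0 < n) (hHS : ∀ g ∈ H, ∀ z ∈ S, (g : ↥Co0).1 z ∈ S)
    (gens : List (List Mv)) (hok : ∀ w ∈ gens, w.all Mv.ok = true)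
    (hH : ∀ w ∈ gens, elW w ∈ H)
    (Xs : List ℕ) (hlen : Xs.length = n) (tree : List (ℕ × ℕ)) (htl : tree.length + 1 = n)
    (x1 : ↥leechLattice) (hx1S : x1 ∈ S) (hx1 : (x1 : GolayPt → ℤ) = vecN (Xs.getD 0 0))
    (hT : treeOK gens Xs tree = true) (hnd : (Xs.map (fun L => codeF (vecN L))).Nodup) :
    (∀ z ∈ S, ∃ k < n, (z : GolayPt → ℤ) = vecN (Xs.getD k 0)) ∧
    (∀ k < n, ∃ z ∈ S, (z : GolayPt → ℤ) = vecN (Xs.getD k 0)) ∧
    ∀ z ∈ S, ∀ z' ∈ S, ∃ g ∈ H, (g : ↥Co0).1 z = z' := by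
  have orb : ∀ k < n, ∃ g ∈ H,
      (((g : ↥Co0).1 x1 : ↥leechLattice) : GolayPt → ℤ) = vecN (Xs.getD k 0) :=
    fun k hk => orbit_of_tree H gens hok hH Xs tree x1 hx1 hT k (by omega)
  have hmem : ∀ k < n, ∃ z ∈ S, (z : GolayPt → ℤ) = vecN (Xs.getD k 0) := by
    intro k hk
    obtain ⟨g, hg, e⟩ := orb k hk
    exact ⟨g.1 x1, hHS g hg x1 hx1S, e⟩
  have cover := cover_of_card S n hS hn Xs hmem
    (fun k hk l hl e => inj_of_nodup Xs hnd k l (by rw [hlen]; exact hk)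
      (by rw [hlen]; exact hl) e)
  refine ⟨cover, hmem, ?_⟩
  intro z hz z' hz'
  obtain ⟨k, hk, e⟩ := cover z hz
  obtain ⟨k', hk', e'⟩ := cover z' hz'
  obtain ⟨g, hg, eg⟩ := orb k hk
  obtain ⟨g', hg', eg'⟩ := orb k' hk'
  refine ⟨g' * g⁻¹, H.mul_mem hg' (H.inv_mem hg), ?_⟩
  have e1 : g.1 x1 = z := Subtype.ext (eg.trans e.symm)
  have e2 : g'.1 x1 = z' := Subtype.ext (eg'.trans e'.symm)
  show g'.1 (g.1⁻¹ z) = z'
  rw [← e1, show g.1⁻¹ (g.1 x1) = x1 from Equiv.symm_apply_apply g.1 x1]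
  exact e2

/-- Counting the vectors of a listed set with a decidable property. -/
theorem count_of_cover (S : Set ↥leechLattice) (n : ℕ) (Xs : List ℕ)
    (hcov : ∀ z ∈ S, ∃ k < n, (z : GolayPt → ℤ) = vecN (Xs.getD k 0))
    (hmem : ∀ k < n, ∃ z ∈ S, (z : GolayPt → ℤ) = vecN (Xs.getD k 0))
    (hnd : (Xs.map (fun L => codeF (vecN L))).Nodup) (hlen : Xs.length = n)
    (P : (GolayPt → ℤ) → Prop) [DecidablePred P] :
    {z : ↥leechLattice | z ∈ S ∧ P (z : GolayPt → ℤ)}.ncard =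
      (Finset.univ.filter (fun k : Fin n => P (vecN (Xs.getD k 0)))).card := by
  choose f hf1 hf2 using fun k : Fin n => hmem k.1 k.2
  have hinjf : Function.Injective f := by
    intro a b hab
    apply Fin.ext
    apply inj_of_nodup Xs hnd a.1 b.1 (by rw [hlen]; exact a.2) (by rw [hlen]; exact b.2)
    rw [← hf2 a, ← hf2 b, hab]
  have himg : {z : ↥leechLattice | z ∈ S ∧ P (z : GolayPt → ℤ)} =
      f '' (↑(Finset.univ.filter (fun k : Fin n => P (vecN (Xs.getD k 0)))) : Set (Fin n)) := by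
    ext z
    constructor
    · rintro ⟨hz, hP⟩
      obtain ⟨k, hk, e⟩ := hcov z hz
      refine ⟨⟨k, hk⟩, ?_, Subtype.ext ((hf2 ⟨k, hk⟩).trans e.symm)⟩
      rw [Finset.mem_coe, Finset.mem_filter]
      refine ⟨Finset.mem_univ _, ?_⟩
      rw [← e]
      exact hP
    · rintro ⟨k, hk, rfl⟩
      rw [Finset.mem_coe, Finset.mem_filter] at hk
      refine ⟨hf1 k, ?_⟩
      rw [hf2 k]
      exact hk.2
  rw [himg, Set.ncard_image_of_injective _ hinjf, Set.ncard_coe_finset]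

/-- Transport of cardinalities along an automorphism. -/
theorem ncard_map (g : Equiv.Perm ↥leechLattice) (S S' : Set ↥leechLattice)
    (h1 : ∀ z ∈ S, g z ∈ S') (h2 : ∀ z ∈ S', g⁻¹ z ∈ S) : S.ncard = S'.ncard := by
  have : S' = g '' S := by
    ext z
    constructor
    · intro hz
      exact ⟨g⁻¹ z, h2 z hz, Equiv.apply_symm_apply g z⟩
    · rintro ⟨y, hy, rfl⟩
      exact h1 y hy
  rw [this, Set.ncard_image_of_injective _ g.injective]

end Cfsg.Agent.Lib.Helper11.LeechOrb
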