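import Mathlib
import Cfsg.Agent.Lib.Helper11.LeechOrb2
import Cfsg.Agent.Lib.Helper11.LeechMcL
import Cfsg.Agent.Lib.Helper11.LeechMcL2Data

set_option autoImplicit false

namespace Cfsg.Agent.Lib.Helper11.LeechMcL

open Cfsg Cfsg.Agent.Lib.Helper3.Golay Cfsg.Agent.Lib.Helper3.Golay2
open Cfsg.Agent.Lib.Helper3.Leech Cfsg.Agent.Lib.Helper3.Leech2 Cfsg.Agent.Lib.Helper3.Leech4
open Cfsg.Agent.Lib.Helper3.GolayM24 Cfsg.Agent.Lib.Helper3.M24Perm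
open Cfsg.Agent.Lib.Helper11.LeechGF Cfsg.Agent.Lib.Helper11.Co0Mono
open Cfsg.Agent.Lib.Helper11.LeechIP Cfsg.Agent.Lib.Helper11.LeechXi
open Cfsg.Agent.Lib.Helper11.LeechSt
open Cfsg.Agent.Lib.Helper11.LeechCo1 Cfsg.Agent.Lib.Helper11.LeechOrb
open Cfsg.Agent.Lib.Helper11.LeechMcLData Cfsg.Agent.Lib.Helper11.LeechMcL2Data

/-- The stabiliser of the standard frame and of the base vector. -/
def H3 : Subgroup ↥Co0 := Hs ⊓ MulAction.stabilizer ↥Co0 xs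

theorem mem_H3 {g : ↥Co0} : g ∈ H3 ↔ g ∈ Hs ∧ g.1 xs = xs := by
  rw [H3, Subgroup.mem_inf, MulAction.mem_stabilizer_iff]
  rfl

/-- The vectors at inner product `8` with the base vector. -/
def Y8 : Set ↥leechLattice :=
  {y | y ∈ XS us vs ∧ dotInt (xs : GolayPt → ℤ) (y : GolayPt → ℤ) = 8}

/-- The other vectors at inner product `16` with the base vector. -/
def Y16 : Set ↥leechLattice :=
  {y | y ∈ XS us vs ∧ y ≠ xs ∧ dotInt (xs : GolayPt → ℤ) (y : GolayPt → ℤ) = 16}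

theorem gens3_facts : ∀ w ∈ gens3, w.all Mv.ok = true ∧ elW w ∈ H3 := by
  intro w hw
  have h := gens3_ok
  rw [List.all_eq_true] at h
  have hw' := h w hw
  simp only [Bool.and_eq_true] at hw'
  obtain ⟨⟨⟨h1, h2⟩, h3⟩, h4⟩ := hw'
  refine ⟨h1, mem_H3.mpr ⟨mem_Hs.mpr ⟨Subtype.ext ?_, Subtype.ext ?_⟩, Subtype.ext ?_⟩⟩
  · rw [elW_act w h1]; exact eqV_eq h2
  · rw [elW_act w h1]; exact eqV_eq h3
  · rw [elW_act w h1]; exact eqV_eq h4

theorem hmemX : ∀ k < 275, ∃ z ∈ XS us vs, (z : GolayPt → ℤ) = vecN (Xs.getD k 0) := by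
  intro k hk
  obtain ⟨g, hg, e⟩ := orb k hk
  exact ⟨g.1 xs, Hs_XS g hg xs xs_mem, e⟩

theorem Y8_card : Y8.ncard = 112 :=
  (count_of_cover (XS us vs) 275 Xs cover hmemX Xs_nodup Xs_length
    (fun f => dotInt (vecN Lx) f = 8)).trans cnt8

theorem Y16_card : Y16.ncard = 162 := by
  have h := (count_of_cover (XS us vs) 275 Xs cover hmemX Xs_nodup Xs_length
    (fun f => f ≠ vecN Lx ∧ dotInt (vecN Lx) f = 16)).trans cnt16
  rw [← h]
  congr 1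
  ext y
  constructor
  · rintro ⟨h1, h2, h3⟩
    exact ⟨h1, fun e => h2 (Subtype.ext e), h3⟩
  · rintro ⟨h1, h2, h3⟩
    exact ⟨h1, fun e => h2 (congrArg Subtype.val e), h3⟩

theorem H3_Y8 (g : ↥Co0) (hg : g ∈ H3) (z : ↥leechLattice) (hz : z ∈ Y8) : g.1 z ∈ Y8 := by
  obtain ⟨hg1, hg2⟩ := mem_H3.mp hg
  refine ⟨Hs_XS g hg1 z hz.1, ?_⟩
  have := dot_co0 g.2 xs z
  rw [hg2] at this
  rw [this]
  exact hz.2

theorem H3_Y16 (g : ↥Co0) (hg : g ∈ H3) (z : ↥leechLattice) (hz : z ∈ Y16) :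
    g.1 z ∈ Y16 := by
  obtain ⟨hg1, hg2⟩ := mem_H3.mp hg
  refine ⟨Hs_XS g hg1 z hz.1, ?_, ?_⟩
  · intro e
    rw [← hg2] at e
    exact hz.2.1 (g.1.injective e)
  · have := dot_co0 g.2 xs z
    rw [hg2] at this
    rw [this]
    exact hz.2.2

def y8 : ↥leechLattice := ⟨vecN Ly8, Ly8_mem⟩

def y16 : ↥leechLattice := ⟨vecN Ly16, Ly16_mem⟩

theorem y8_mem : y8 ∈ Y8 := ⟨⟨y8_num.1, y8_num.2.1, y8_num.2.2.1⟩, y8_num.2.2.2⟩

theorem y16_mem : y16 ∈ Y16 :=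
  ⟨⟨y16_num.1, y16_num.2.1, y16_num.2.2.1⟩,
    fun e => y16_num.2.2.2.2 (congrArg Subtype.val e), y16_num.2.2.2.1⟩

theorem Y8_trans : ∀ z ∈ Y8, ∀ z' ∈ Y8, ∃ g ∈ H3, (g : ↥Co0).1 z = z' :=
  (trans_of_cert H3 Y8 112 Y8_card (by norm_num) H3_Y8 gens3
    (fun w hw => (gens3_facts w hw).1) (fun w hw => (gens3_facts w hw).2)
    Ys8 Ys8_length tree8 tree8_length y8 y8_mem (by rw [Ys8_zero]; rfl) tree8_ok
    Ys8_nodup).2.2

theorem Y16_trans : ∀ z ∈ Y16, ∀ z' ∈ Y16, ∃ g ∈ H3, (g : ↥Co0).1 z = z' :=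
  (trans_of_cert H3 Y16 162 Y16_card (by norm_num) H3_Y16 gens3
    (fun w hw => (gens3_facts w hw).1) (fun w hw => (gens3_facts w hw).2)
    Ys16 Ys16_length tree16 tree16_length y16 y16_mem (by rw [Ys16_zero]; rfl) tree16_ok
    Ys16_nodup).2.2

theorem exists_frame3 (u v x : ↥leechLattice) (hu : sqNorm (u : GolayPt → ℤ) = 48)
    (hv : sqNorm (v : GolayPt → ℤ) = 32)
    (hv2 : sqNorm ((u : GolayPt → ℤ) - (v : GolayPt → ℤ)) = 32) (hx : x ∈ XS u v) :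
    ∃ g ∈ Co0, g u = us ∧ g v = vs ∧ g x = xs := by
  obtain ⟨g0, hg0, e1, e2⟩ := exists_frame u v hu hv hv2
  have h1 := XS_map hg0 u v x hx
  rw [e1, e2] at h1
  obtain ⟨h, hh, e⟩ := frame_trans _ _ h1 xs_mem
  refine ⟨h.1 * g0, Co0.mul_mem h.2 hg0, ?_, ?_, ?_⟩
  · rw [Equiv.Perm.mul_apply, e1]; exact (mem_Hs.mp hh).1
  · rw [Equiv.Perm.mul_apply, e2]; exact (mem_Hs.mp hh).2
  · rw [Equiv.Perm.mul_apply]; exact e

theorem inv_of_eq {g : Equiv.Perm ↥leechLattice} {a b : ↥leechLattice} (h : g a = b) :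
    g⁻¹ b = a := by
  rw [← h]
  exact Equiv.symm_apply_apply g a

/-- **The rank `3` action on the `275` vectors.** -/
theorem mcl_rank3 (u v x : ↥leechLattice) (hu : sqNorm (u : GolayPt → ℤ) = 48)
    (hv : sqNorm (v : GolayPt → ℤ) = 32)
    (hv2 : sqNorm ((u : GolayPt → ℤ) - (v : GolayPt → ℤ)) = 32) (hx : x ∈ XS u v) :
    {y : ↥leechLattice | y ∈ XS u v ∧
      dotInt (x : GolayPt → ℤ) (y : GolayPt → ℤ) = 8}.ncard = 112 ∧
    {y : ↥leechLattice | y ∈ XS u v ∧ y ≠ x ∧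
      dotInt (x : GolayPt → ℤ) (y : GolayPt → ℤ) = 16}.ncard = 162 ∧
    ∀ y ∈ XS u v, ∀ y' ∈ XS u v, y ≠ x → y' ≠ x →
      dotInt (x : GolayPt → ℤ) (y : GolayPt → ℤ) = dotInt (x : GolayPt → ℤ) (y' : GolayPt → ℤ) →
      ∃ g : ↥Co0, g • u = u ∧ g • v = v ∧ g • x = x ∧ g • y = y' := by
  obtain ⟨g, hg, e1, e2, e3⟩ := exists_frame3 u v x hu hv hv2 hx
  have hgi := Co0.inv_mem hg
  have i1 := inv_of_eq e1
  have i2 := inv_of_eq e2
  have i3 := inv_of_eq e3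
  have fwd : ∀ z ∈ XS u v, g z ∈ XS us vs := by
    intro z hz
    have := XS_map hg u v z hz
    rw [e1, e2] at this
    exact this
  have bwd : ∀ z ∈ XS us vs, g⁻¹ z ∈ XS u v := by
    intro z hz
    have := XS_map hgi us vs z hz
    rw [i1, i2] at this
    exact this
  have dfwd : ∀ z : ↥leechLattice, dotInt (xs : GolayPt → ℤ) ((g z : ↥leechLattice) : GolayPt → ℤ) =
      dotInt (x : GolayPt → ℤ) (z : GolayPt → ℤ) := by
    intro z
    have := dot_co0 hg x z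
    rw [e3] at this
    exact this
  have dbwd : ∀ z : ↥leechLattice,
      dotInt (x : GolayPt → ℤ) ((g⁻¹ z : ↥leechLattice) : GolayPt → ℤ) =
      dotInt (xs : GolayPt → ℤ) (z : GolayPt → ℤ) := by
    intro z
    have := dot_co0 hgi xs z
    rw [i3] at this
    exact this
  refine ⟨?_, ?_, ?_⟩
  · rw [← Y8_card]
    apply ncard_map g
    · rintro z ⟨hz1, hz2⟩
      exact ⟨fwd z hz1, by rw [dfwd]; exact hz2⟩
    · rintro z ⟨hz1, hz2⟩
      exact ⟨bwd z hz1, by rw [dbwd]; exact hz2⟩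
  · rw [← Y16_card]
    apply ncard_map g
    · rintro z ⟨hz1, hz2, hz3⟩
      refine ⟨fwd z hz1, ?_, by rw [dfwd]; exact hz3⟩
      intro e
      rw [← e3] at e
      exact hz2 (g.injective e)
    · rintro z ⟨hz1, hz2, hz3⟩
      refine ⟨bwd z hz1, ?_, by rw [dbwd]; exact hz3⟩
      intro e
      rw [← i3] at e
      exact hz2 (g⁻¹.injective e)
  · intro y hy y' hy' hyx hy'x hd
    have hgy := fwd y hy
    have hgy' := fwd y' hy'
    have n1 : g y ≠ xs := by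
      intro e
      rw [← e3] at e
      exact hyx (g.injective e)
    have n2 : g y' ≠ xs := by
      intro e
      rw [← e3] at e
      exact hy'x (g.injective e)
    obtain ⟨k, hk, ek⟩ := cover (g y) hgy
    have hcase : dotInt (xs : GolayPt → ℤ) ((g y : ↥leechLattice) : GolayPt → ℤ) = 8 ∨
        dotInt (xs : GolayPt → ℤ) ((g y : ↥leechLattice) : GolayPt → ℤ) = 16 := by
      rcases dich ⟨k, hk⟩ with h | h | h
      · exact absurd (Subtype.ext (ek.trans h)) n1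
      · left
        rw [ek]
        exact h
      · right
        rw [ek]
        exact h
    have hd' : dotInt (xs : GolayPt → ℤ) ((g y' : ↥leechLattice) : GolayPt → ℤ) =
        dotInt (xs : GolayPt → ℤ) ((g y : ↥leechLattice) : GolayPt → ℤ) := by
      rw [dfwd, dfwd, hd]
    have key : ∃ h ∈ H3, (h : ↥Co0).1 (g y) = g y' := by
      rcases hcase with h8 | h16
      · exact Y8_trans (g y) ⟨hgy, h8⟩ (g y') ⟨hgy', by rw [hd']; exact h8⟩
      · exact Y16_trans (g y) ⟨hgy, n1, h16⟩ (g y') ⟨hgy', n2, by rw [hd']; exact h16⟩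
    obtain ⟨h, hh, eh⟩ := key
    obtain ⟨hh1, hh2⟩ := mem_H3.mp hh
    refine ⟨(⟨g, hg⟩ : ↥Co0)⁻¹ * h * ⟨g, hg⟩, ?_, ?_, ?_, ?_⟩
    · show g⁻¹ (h.1 (g u)) = u
      rw [e1, (mem_Hs.mp hh1).1]
      exact i1
    · show g⁻¹ (h.1 (g v)) = v
      rw [e2, (mem_Hs.mp hh1).2]
      exact i2
    · show g⁻¹ (h.1 (g x)) = x
      rw [e3, hh2]
      exact i3
    · show g⁻¹ (h.1 (g y)) = y'
      rw [eh]
      exact Equiv.symm_apply_apply g y'

end Cfsg.Agent.Lib.Helper11.LeechMcL
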