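import Mathlib
import Cfsg.Agent.Lib.Helper11.LeechOrb2

set_option autoImplicit false

namespace Cfsg.Agent.Lib.Helper11.LeechOrb

open Cfsg Cfsg.Agent.Lib.Helper3.Golay Cfsg.Agent.Lib.Helper3.Golay2
open Cfsg.Agent.Lib.Helper3.Leech Cfsg.Agent.Lib.Helper3.Leech2 Cfsg.Agent.Lib.Helper3.Leech4
open Cfsg.Agent.Lib.Helper3.GolayM24 Cfsg.Agent.Lib.Helper3.M24Perm
open Cfsg.Agent.Lib.Helper11.LeechGF Cfsg.Agent.Lib.Helper11.Co0Mono
open Cfsg.Agent.Lib.Helper11.LeechIP Cfsg.Agent.Lib.Helper11.LeechXi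
open Cfsg.Agent.Lib.Helper11.LeechCo1

/-! ### Strictly increasing lists -/

/-- The check that a list of numbers is strictly increasing. -/
def incr : List ℕ → Bool
  | [] => true
  | [_] => true
  | a :: b :: l => decide (a < b) && incr (b :: l)

theorem incr_tail : ∀ (l : List ℕ) (a : ℕ), incr (a :: l) = true → incr l = true
  | [], _, _ => rfl
  | b :: l, a, h => by
    simp only [incr, Bool.and_eq_true, decide_eq_true_eq] at h
    exact h.2

theorem incr_lt : ∀ (l : List ℕ) (a : ℕ), incr (a :: l) = true → ∀ b ∈ l, a < b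
  | [], _, _ => by simp
  | c :: l, a, h => by
    simp only [incr, Bool.and_eq_true, decide_eq_true_eq] at h
    intro b hb
    rcases List.mem_cons.mp hb with rfl | hb
    · exact h.1
    · exact lt_trans h.1 (incr_lt l c h.2 b hb)

theorem incr_nodup : ∀ l : List ℕ, incr l = true → l.Nodup
  | [], _ => List.nodup_nil
  | a :: l, h => by
    rw [List.nodup_cons]
    refine ⟨fun ha => lt_irrefl a (incr_lt l a h a ha), incr_nodup l (incr_tail l a h)⟩

/-! ### A boolean membership test for the lattice -/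

/-- The mask of the coordinates with a given residue modulo `4`. -/
def maskOf (r : ℤ) (f : GolayPt → ℤ) : ℕ :=
  (List.range 24).foldl (fun m i => if f (pt i) % 4 = r then m + 2 ^ i else m) 0

/-- The membership test for the vectors with even coordinates. -/
def evenOK (L : ℕ) : Bool :=
  Nat.beq (cw (kOf (maskOf 2 (vecN L)))) (maskOf 2 (vecN L)) &&
  decide (kOf (maskOf 2 (vecN L)) < 4096) &&
  (List.range 24).all (fun i => decide (vecN L (pt i) % 4 =
    if (maskOf 2 (vecN L)).testBit i = true then 2 else 0)) &&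
  decide ((∑ i, vecN L i) % 8 = 0)

/-- The membership test for the vectors with odd coordinates. -/
def oddOK (L : ℕ) : Bool :=
  Nat.beq (cw (kOf (maskOf 1 (vecN L)))) (maskOf 1 (vecN L)) &&
  decide (kOf (maskOf 1 (vecN L)) < 4096) &&
  (List.range 24).all (fun i => decide (vecN L (pt i) % 4 =
    if (maskOf 1 (vecN L)).testBit i = true then 1 else 3)) &&
  decide ((∑ i, vecN L i) % 8 = 4)

/-- The membership test. -/
def leechOK (L : ℕ) : Bool := evenOK L || oddOK L

theorem leechOK_mem (L : ℕ) (h : leechOK L = true) : vecN L ∈ leechLattice := by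
  unfold leechOK at h
  rw [Bool.or_eq_true] at h
  rcases h with h | h
  · simp only [evenOK, Bool.and_eq_true, List.all_eq_true, List.mem_range,
      decide_eq_true_eq] at h
    obtain ⟨⟨⟨h1, h2⟩, h3⟩, h4⟩ := h
    refine vecN_mem_even L _ (Nat.eq_of_beq_eq_true h1) h2 ?_ h4
    intro i
    have := h3 (idx i) (idx_lt i)
    rw [pt_idx] at this
    rw [this]
    by_cases hb : (maskOf 2 (vecN L)).testBit (idx i) = true
    · rw [if_pos hb, if_pos (mem_ms.mpr hb)]
    · rw [if_neg hb, if_neg (fun hm => hb (mem_ms.mp hm))]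
  · simp only [oddOK, Bool.and_eq_true, List.all_eq_true, List.mem_range,
      decide_eq_true_eq] at h
    obtain ⟨⟨⟨h1, h2⟩, h3⟩, h4⟩ := h
    refine vecN_mem_odd L _ (Nat.eq_of_beq_eq_true h1) h2 ?_ h4
    intro i
    have := h3 (idx i) (idx_lt i)
    rw [pt_idx] at this
    rw [this]
    by_cases hb : (maskOf 1 (vecN L)).testBit (idx i) = true
    · rw [if_pos hb, if_pos (mem_ms.mpr hb)]
    · rw [if_neg hb, if_neg (fun hm => hb (mem_ms.mp hm))]

/-! ### Covers and counts for lists -/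

theorem getD_mem (Xs : List ℕ) (k : ℕ) (hk : k < Xs.length) : Xs.getD k 0 ∈ Xs := by
  rw [List.getD_eq_getElem _ _ hk]
  exact List.getElem_mem hk

theorem exists_getD (Xs : List ℕ) (L : ℕ) (hL : L ∈ Xs) : ∃ k < Xs.length, Xs.getD k 0 = L := by
  obtain ⟨k, hk, e⟩ := List.getElem_of_mem hL
  exact ⟨k, hk, by rw [List.getD_eq_getElem _ _ hk]; exact e⟩

/-- If a set of lattice vectors has as many elements as a list of different vectors of the
set, then every vector of the set is listed. -/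
theorem cover_list (S : Set ↥leechLattice) (Xs : List ℕ) (hS : S.ncard = Xs.length)
    (hpos : 0 < Xs.length)
    (hmem : ∀ L ∈ Xs, ∃ z ∈ S, (z : GolayPt → ℤ) = vecN L)
    (hnd : (Xs.map (fun L => codeF (vecN L))).Nodup) :
    ∀ z ∈ S, ∃ L ∈ Xs, (z : GolayPt → ℤ) = vecN L := by
  have h := cover_of_card S Xs.length hS hpos Xs
    (fun k hk => hmem _ (getD_mem Xs k hk))
    (fun k hk l hl e => inj_of_nodup Xs hnd k l hk hl e)
  intro z hz
  obtain ⟨k, hk, e⟩ := h z hz
  exact ⟨_, getD_mem Xs k hk, e⟩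

/-- Counting the vectors of a listed set with a decidable property, list version. -/
theorem count_list (S : Set ↥leechLattice) (Xs : List ℕ)
    (hcov : ∀ z ∈ S, ∃ L ∈ Xs, (z : GolayPt → ℤ) = vecN L)
    (hmem : ∀ L ∈ Xs, ∃ z ∈ S, (z : GolayPt → ℤ) = vecN L)
    (hnd : (Xs.map (fun L => codeF (vecN L))).Nodup)
    (p : ℕ → Bool) (P : (GolayPt → ℤ) → Prop)
    (hp : ∀ L ∈ Xs, (p L = true ↔ P (vecN L))) :
    {z : ↥leechLattice | z ∈ S ∧ P (z : GolayPt → ℤ)}.ncard = (Xs.filter p).length := by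
  have hinj : Set.InjOn (fun z : ↥leechLattice => codeF (z : GolayPt → ℤ))
      {z : ↥leechLattice | z ∈ S ∧ P (z : GolayPt → ℤ)} := by
    rintro z ⟨hz, -⟩ z' ⟨hz', -⟩ e
    obtain ⟨L, hL, eL⟩ := hcov z hz
    obtain ⟨L', hL', eL'⟩ := hcov z' hz'
    have e2 : codeF (vecN L) = codeF (vecN L') := by
      rw [← eL, ← eL']
      exact e
    have := List.inj_on_of_nodup_map hnd hL hL' e2
    apply Subtype.ext
    rw [eL, eL', this]
  have himg : (fun z : ↥leechLattice => codeF (z : GolayPt → ℤ)) ''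
      {z : ↥leechLattice | z ∈ S ∧ P (z : GolayPt → ℤ)} =
      ↑(((Xs.filter p).map (fun L => codeF (vecN L))).toFinset) := by
    ext n
    rw [Finset.mem_coe, List.mem_toFinset, List.mem_map]
    constructor
    · rintro ⟨z, ⟨hz, hP⟩, rfl⟩
      obtain ⟨L, hL, eL⟩ := hcov z hz
      refine ⟨L, List.mem_filter.mpr ⟨hL, (hp L hL).mpr ?_⟩, ?_⟩
      · rw [← eL]
        exact hP
      · show codeF (vecN L) = codeF (z : GolayPt → ℤ)
        rw [eL]
    · rintro ⟨L, hL, rfl⟩
      obtain ⟨hL1, hL2⟩ := List.mem_filter.mp hL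
      obtain ⟨z, hz, e⟩ := hmem L hL1
      refine ⟨z, ⟨hz, ?_⟩, ?_⟩
      · rw [e]
        exact (hp L hL1).mp hL2
      · show codeF (z : GolayPt → ℤ) = codeF (vecN L)
        rw [e]
  rw [← hinj.ncard_image, himg, Set.ncard_coe_finset, List.toFinset_card_of_nodup, List.length_map]
  exact hnd.sublist (List.Sublist.map _ List.filter_sublist)

end Cfsg.Agent.Lib.Helper11.LeechOrb
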