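import Mathlib
import Cfsg.Agent.Lib.Helper11.LeechOrb3

set_option autoImplicit false

namespace Cfsg.Agent.Lib.Helper11.LeechOrb

open Cfsg Cfsg.Agent.Lib.Helper3.Golay Cfsg.Agent.Lib.Helper3.Golay2
open Cfsg.Agent.Lib.Helper3.Leech Cfsg.Agent.Lib.Helper3.Leech2 Cfsg.Agent.Lib.Helper3.Leech4
open Cfsg.Agent.Lib.Helper3.GolayM24 Cfsg.Agent.Lib.Helper3.M24Perm
open Cfsg.Agent.Lib.Helper11.LeechGF Cfsg.Agent.Lib.Helper11.Co0Mono
open Cfsg.Agent.Lib.Helper11.LeechIP Cfsg.Agent.Lib.Helper11.LeechXi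
open Cfsg.Agent.Lib.Helper11.LeechCo1

/-! ### Random access in chunked lists -/

/-- The entry number `k` of a list of numbers (`0` beyond the end). -/
def nthN (l : List ℕ) (k : ℕ) : ℕ :=
  Nat.rec (motive := fun _ => List ℕ → ℕ) (fun l => l.headD 0) (fun _ ih l => ih l.tail) k l

/-- The entry number `k` of a list of lists (`[]` beyond the end). -/
def nthL (l : List (List ℕ)) (k : ℕ) : List ℕ :=
  Nat.rec (motive := fun _ => List (List ℕ) → List ℕ) (fun l => l.headD [])
    (fun _ ih l => ih l.tail) k l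

/-- The entry number `k` of a list cut into chunks of length `64`. -/
def acc (XX : List (List ℕ)) (k : ℕ) : ℕ := nthN (nthL XX (Nat.div k 64)) (Nat.mod k 64)

/-! ### Orbit certificates in sorted order

The vectors are listed in any order; the certificate of the vector number `k` is the number
`d + 256 * i + 4096 * p`, meaning that the vector has depth `d` and, if `d ≠ 0`, is the image
of the vector number `p`, of smaller depth, under the generator number `i`. -/

/-- The check of a certificate. -/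
def certOK (gens : List (List Mv)) (X C : ℕ → ℕ) (n : ℕ) : ℕ → List ℕ → Bool
  | _, [] => true
  | k, e :: es =>
    Nat.beq (X k) e &&
    (Nat.beq (C k % 256) 0 ||
      (decide (C k / 4096 < n) && decide (C (C k / 4096) % 256 < C k % 256) &&
        eqV (actW (gens.getD (C k / 256 % 16) []) (vecN (X (C k / 4096)))) (vecN e))) &&
    certOK gens X C n (k + 1) es

theorem certOK_spec (gens : List (List Mv)) (X C : ℕ → ℕ) (n : ℕ) :
    ∀ (es : List ℕ) (k0 : ℕ), certOK gens X C n k0 es = true →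
    ∀ j < es.length, X (k0 + j) = es.getD j 0 ∧
      (C (k0 + j) % 256 = 0 ∨ (C (k0 + j) / 4096 < n ∧
        C (C (k0 + j) / 4096) % 256 < C (k0 + j) % 256 ∧
        actW (gens.getD (C (k0 + j) / 256 % 16) []) (vecN (X (C (k0 + j) / 4096))) =
          vecN (es.getD j 0)))
  | [], _, _ => by
    intro j hj
    simp at hj
  | e :: es, k0, h => by
    simp only [certOK, Bool.and_eq_true, Bool.or_eq_true, decide_eq_true_eq] at h
    obtain ⟨⟨h1, h2⟩, h3⟩ := h
    intro j hj
    rcases j with _ | j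
    · refine ⟨Nat.eq_of_beq_eq_true h1, ?_⟩
      rcases h2 with h2 | ⟨⟨a, b⟩, c⟩
      · left
        exact Nat.eq_of_beq_eq_true h2
      · right
        exact ⟨a, b, eqV_eq c⟩
    · have := certOK_spec gens X C n es (k0 + 1) h3 j (by simpa using hj)
      rw [show k0 + (j + 1) = k0 + 1 + j by omega]
      simpa using this

theorem certOK_X (gens : List (List Mv)) (X C : ℕ → ℕ) (n : ℕ) (Xs : List ℕ)
    (hc : certOK gens X C n 0 Xs = true) (k : ℕ) (hk : k < Xs.length) :
    X k = Xs.getD k 0 := by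
  have := (certOK_spec gens X C n Xs 0 hc k hk).1
  rwa [Nat.zero_add] at this

/-- Every listed vector is the image of a root (a listed vector of depth `0`) under the group
generated by the words. -/
theorem cert_orbit (H : Subgroup ↥Co0) (gens : List (List Mv))
    (hok : ∀ w ∈ gens, w.all Mv.ok = true) (hH : ∀ w ∈ gens, elW w ∈ H)
    (X C : ℕ → ℕ) (n : ℕ) (Xs : List ℕ) (hlen : Xs.length = n)
    (hc : certOK gens X C n 0 Xs = true) (R : Set ↥leechLattice)
    (hroot : ∀ k < n, C k % 256 = 0 → ∃ y ∈ R, (y : GolayPt → ℤ) = vecN (Xs.getD k 0)) :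
    ∀ k < n, ∃ y ∈ R, ∃ g ∈ H,
      (((g : ↥Co0).1 y : ↥leechLattice) : GolayPt → ℤ) = vecN (Xs.getD k 0) := by
  have spec := certOK_spec gens X C n Xs 0 hc
  have key : ∀ d k, k < n → C k % 256 = d → ∃ y ∈ R, ∃ g ∈ H,
      (((g : ↥Co0).1 y : ↥leechLattice) : GolayPt → ℤ) = vecN (Xs.getD k 0) := by
    intro d
    induction d using Nat.strong_induction_on with
    | _ d ih =>
      intro k hk hd
      obtain ⟨-, hcase⟩ := spec k (by rw [hlen]; exact hk)
      simp only [Nat.zero_add] at hcase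
      rcases hcase with h0 | ⟨hp, hlt, hact⟩
      · obtain ⟨y, hy, e⟩ := hroot k hk h0
        exact ⟨y, hy, 1, H.one_mem, e⟩
      · obtain ⟨y, hy, g, hg, e⟩ := ih _ (by rw [← hd]; exact hlt) (C k / 4096) hp rfl
        have hxp : X (C k / 4096) = Xs.getD (C k / 4096) 0 :=
          certOK_X gens X C n Xs hc _ (by rw [hlen]; exact hp)
        have hw : (gens.getD (C k / 256 % 16) []).all Mv.ok = true ∧
            elW (gens.getD (C k / 256 % 16) []) ∈ H := by
          rcases getD_mem_or gens (C k / 256 % 16) with h | h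
          · exact ⟨hok _ h, hH _ h⟩
          · rw [h]
            exact ⟨rfl, H.one_mem⟩
        refine ⟨y, hy, elW (gens.getD (C k / 256 % 16) []) * g, H.mul_mem hw.2 hg, ?_⟩
        show (((elW (gens.getD (C k / 256 % 16) [])).1 (g.1 y) : ↥leechLattice) :
          GolayPt → ℤ) = _
        rw [elW_act _ hw.1, e, ← hxp]
        exact hact
  intro k hk
  exact key _ k hk rfl

/-- The check that the roots of a certificate are among given vectors. -/
def rootOK (X C : ℕ → ℕ) (n : ℕ) (roots : List ℕ) : Bool :=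
  (List.range n).all (fun k => !(Nat.beq (C k % 256) 0) || roots.contains (X k))

theorem rootOK_spec (X C : ℕ → ℕ) (n : ℕ) (roots : List ℕ) (h : rootOK X C n roots = true)
    (k : ℕ) (hk : k < n) (h0 : C k % 256 = 0) : X k ∈ roots := by
  unfold rootOK at h
  rw [List.all_eq_true] at h
  have := h k (List.mem_range.mpr hk)
  rw [h0] at this
  simpa using this

/-- **Transitivity from a certificate with a single root.** -/
theorem trans_of_cert2 (H : Subgroup ↥Co0) (S : Set ↥leechLattice)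
    (hHS : ∀ g ∈ H, ∀ z ∈ S, (g : ↥Co0).1 z ∈ S)
    (gens : List (List Mv)) (hok : ∀ w ∈ gens, w.all Mv.ok = true)
    (hH : ∀ w ∈ gens, elW w ∈ H)
    (X C : ℕ → ℕ) (n : ℕ) (Xs : List ℕ) (hlen : Xs.length = n)
    (hc : certOK gens X C n 0 Xs = true) (hS : S.ncard = n) (hn : 0 < n)
    (x1 : ↥leechLattice) (hx1 : x1 ∈ S) (L1 : ℕ) (hL1 : (x1 : GolayPt → ℤ) = vecN L1)
    (hroot : rootOK X C n [L1] = true)
    (hnd : (Xs.map (fun L => codeF (vecN L))).Nodup) :
    (∀ z ∈ S, ∃ L ∈ Xs, (z : GolayPt → ℤ) = vecN L) ∧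
    (∀ L ∈ Xs, ∃ z ∈ S, (z : GolayPt → ℤ) = vecN L) ∧
    ∀ z ∈ S, ∀ z' ∈ S, ∃ g ∈ H, (g : ↥Co0).1 z = z' := by
  have orb : ∀ k < n, ∃ g ∈ H,
      (((g : ↥Co0).1 x1 : ↥leechLattice) : GolayPt → ℤ) = vecN (Xs.getD k 0) := by
    intro k hk
    obtain ⟨y, hy, g, hg, e⟩ := cert_orbit H gens hok hH X C n Xs hlen hc {x1}
      (fun k hk h0 => by
        have h1 := rootOK_spec X C n [L1] hroot k hk h0
        rw [List.mem_singleton] at h1
        refine ⟨x1, rfl, ?_⟩
        rw [hL1, ← h1, certOK_X gens X C n Xs hc k (by rw [hlen]; exact hk)]) k hk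
    rw [Set.mem_singleton_iff] at hy
    subst hy
    exact ⟨g, hg, e⟩
  have orb' : ∀ L ∈ Xs, ∃ g ∈ H, (((g : ↥Co0).1 x1 : ↥leechLattice) : GolayPt → ℤ) = vecN L := by
    intro L hL
    obtain ⟨k, hk, e⟩ := exists_getD Xs L hL
    rw [hlen] at hk
    obtain ⟨g, hg, eg⟩ := orb k hk
    exact ⟨g, hg, by rw [eg, e]⟩
  have hmem : ∀ L ∈ Xs, ∃ z ∈ S, (z : GolayPt → ℤ) = vecN L := by
    intro L hL
    obtain ⟨g, hg, e⟩ := orb' L hL
    exact ⟨g.1 x1, hHS g hg x1 hx1, e⟩
  have cover := cover_list S Xs (hS.trans hlen.symm) (by rw [hlen]; exact hn) hmem hnd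
  refine ⟨cover, hmem, ?_⟩
  intro z hz z' hz'
  obtain ⟨L, hL, e⟩ := cover z hz
  obtain ⟨L', hL', e'⟩ := cover z' hz'
  obtain ⟨g, hg, eg⟩ := orb' L hL
  obtain ⟨g', hg', eg'⟩ := orb' L' hL'
  refine ⟨g' * g⁻¹, H.mul_mem hg' (H.inv_mem hg), ?_⟩
  have e1 : g.1 x1 = z := Subtype.ext (eg.trans e.symm)
  have e2 : g'.1 x1 = z' := Subtype.ext (eg'.trans e'.symm)
  show g'.1 (g.1⁻¹ z) = z'
  rw [← e1, show g.1⁻¹ (g.1 x1) = x1 from Equiv.symm_apply_apply g.1 x1]
  exact e2

end Cfsg.Agent.Lib.Helper11.LeechOrb
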