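import Mathlib
import Cfsg.Agent.Lib.Helper11.LeechShape

set_option autoImplicit false

namespace Cfsg.Agent.Lib.Helper11.LeechIP

open Cfsg Cfsg.Agent.Lib.Helper3.Golay Cfsg.Agent.Lib.Helper3.M24Perm
open Cfsg.Agent.Lib.Helper11.LeechGF

/-- The classes of codewords with respect to the special set. -/
def YA : Finset (ℕ × ℕ) := {(0, 0), (1, 11), (0, 12), (1, 7), (1, 15), (0, 8), (0, 16), (2, 22), (2, 10), (2, 14), (2, 6)}

theorem hYA : (List.range 4096).all (fun k => decide (clsS 8388609 k ∈ YA)) = true := by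
  decide +kernel

set_option maxRecDepth 100000 in
theorem numAa : ∑ y ∈ YA, (if cntS 8388609 y = 0 then 0 else
    cntS 8388609 y * gS (pc 8388609) (mkr 1 8) (mkr 0 0) 33 32 {12} y.1 y.2) = 4600 := by
  decide +kernel

set_option maxRecDepth 100000 in
theorem numAb : ∑ y ∈ YA, (if cntS 8388609 y = 0 then 0 else
    cntS 8388609 y * gS (pc 8388609) (mkr 1 8) (mkr 0 0) 33 32 {14} y.1 y.2) = 47104 := by
  decide +kernel

set_option maxRecDepth 100000 in
theorem numAc : ∑ y ∈ YA, (if cntS 8388609 y = 0 then 0 else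
    cntS 8388609 y * gS (pc 8388609) (mkr 1 8) (mkr 0 0) 33 32 {16} y.1 y.2) = 93150 := by
  decide +kernel

theorem pcA : pc 8388609 = 2 := by decide

theorem cntAa : (ipSet VA (-16)).ncard = 4600 := by
  unfold VA
  rw [ip_count 8388609 2 pcA 1 1 8 0 0 0 (by norm_num) (by norm_num) (by norm_num) (by norm_num)
    4 (by norm_num) 33 (by norm_num) (-16) 12 (by norm_num) (by norm_num) YA
    (hY_of_all _ _ hYA)]
  exact numAa

theorem cntAb : (ipSet VA (-8)).ncard = 47104 := by
  unfold VA
  rw [ip_count 8388609 2 pcA 1 1 8 0 0 0 (by norm_num) (by norm_num) (by norm_num) (by norm_num)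
    4 (by norm_num) 33 (by norm_num) (-8) 14 (by norm_num) (by norm_num) YA
    (hY_of_all _ _ hYA)]
  exact numAb

theorem cntAc : (ipSet VA 0).ncard = 93150 := by
  unfold VA
  rw [ip_count 8388609 2 pcA 1 1 8 0 0 0 (by norm_num) (by norm_num) (by norm_num) (by norm_num)
    4 (by norm_num) 33 (by norm_num) 0 16 (by norm_num) (by norm_num) YA
    (hY_of_all _ _ hYA)]
  exact numAc

end Cfsg.Agent.Lib.Helper11.LeechIP
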