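import Mathlib
import Cfsg.Agent.Lib.Helper11.LeechShape

set_option autoImplicit false

namespace Cfsg.Agent.Lib.Helper11.LeechIP

open Cfsg Cfsg.Agent.Lib.Helper3.Golay Cfsg.Agent.Lib.Helper3.M24Perm
open Cfsg.Agent.Lib.Helper11.LeechGF

/-- The classes of codewords with respect to the special set. -/
def YB : Finset (ℕ × ℕ) := {(0, 0), (6, 6), (4, 8), (2, 10), (2, 6), (6, 10), (4, 12), (4, 4), (0, 8), (8, 8), (8, 0), (8, 16), (0, 16)}

theorem hYB : (List.range 4096).all (fun k => decide (clsS 5279 k ∈ YB)) = true := by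
  decide +kernel

set_option maxRecDepth 100000 in
theorem numBa : ∑ y ∈ YB, (if cntS 5279 y = 0 then 0 else
    cntS 5279 y * gS (pc 5279) (mkr 1 8) (mkr 0 0) 129 32 {56} y.1 y.2) = 4600 := by
  decide +kernel

set_option maxRecDepth 100000 in
theorem numBb : ∑ y ∈ YB, (if cntS 5279 y = 0 then 0 else
    cntS 5279 y * gS (pc 5279) (mkr 1 8) (mkr 0 0) 129 32 {60} y.1 y.2) = 47104 := by
  decide +kernel

set_option maxRecDepth 100000 in
theorem numBc : ∑ y ∈ YB, (if cntS 5279 y = 0 then 0 else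
    cntS 5279 y * gS (pc 5279) (mkr 1 8) (mkr 0 0) 129 32 {64} y.1 y.2) = 93150 := by
  decide +kernel

theorem pcB : pc 5279 = 8 := by decide

theorem cntBa : (ipSet VB (-16)).ncard = 4600 := by
  unfold VB
  rw [ip_count 5279 8 pcB 1 1 8 0 0 0 (by norm_num) (by norm_num) (by norm_num) (by norm_num)
    2 (by norm_num) 129 (by norm_num) (-16) 56 (by norm_num) (by norm_num) YB
    (hY_of_all _ _ hYB)]
  exact numBa

theorem cntBb : (ipSet VB (-8)).ncard = 47104 := by
  unfold VB
  rw [ip_count 5279 8 pcB 1 1 8 0 0 0 (by norm_num) (by norm_num) (by norm_num) (by norm_num)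
    2 (by norm_num) 129 (by norm_num) (-8) 60 (by norm_num) (by norm_num) YB
    (hY_of_all _ _ hYB)]
  exact numBb

theorem cntBc : (ipSet VB 0).ncard = 93150 := by
  unfold VB
  rw [ip_count 5279 8 pcB 1 1 8 0 0 0 (by norm_num) (by norm_num) (by norm_num) (by norm_num)
    2 (by norm_num) 129 (by norm_num) 0 64 (by norm_num) (by norm_num) YB
    (hY_of_all _ _ hYB)]
  exact numBc

end Cfsg.Agent.Lib.Helper11.LeechIP
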