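import Mathlib
import Cfsg.Agent.Lib.Helper11.LeechShape

set_option autoImplicit false

namespace Cfsg.Agent.Lib.Helper11.LeechIP

open Cfsg Cfsg.Agent.Lib.Helper3.Golay Cfsg.Agent.Lib.Helper3.M24Perm
open Cfsg.Agent.Lib.Helper11.LeechGF

/-- The classes of codewords with respect to the special set. -/
def YC : Finset (ℕ × ℕ) := {(0, 0), (0, 12), (0, 8), (0, 16), (1, 23), (1, 11), (1, 15), (1, 7)}

theorem hYC : (List.range 4096).all (fun k => decide (clsS 8388608 k ∈ YC)) = true := by
  decide +kernel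

set_option maxRecDepth 100000 in
theorem numCa : ∑ y ∈ YC, (if cntS 8388608 y = 0 then 0 else
    cntS 8388608 y * gS (pc 8388608) (mkr (-3) 24) (mkr 1 8) 417 32 {192} y.1 y.2) = 4600 := by
  decide +kernel

set_option maxRecDepth 100000 in
theorem numCb : ∑ y ∈ YC, (if cntS 8388608 y = 0 then 0 else
    cntS 8388608 y * gS (pc 8388608) (mkr (-3) 24) (mkr 1 8) 417 32 {200} y.1 y.2) = 47104 := by
  decide +kernel

set_option maxRecDepth 100000 in
theorem numCc : ∑ y ∈ YC, (if cntS 8388608 y = 0 then 0 else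
    cntS 8388608 y * gS (pc 8388608) (mkr (-3) 24) (mkr 1 8) 417 32 {208} y.1 y.2) = 93150 := by
  decide +kernel

theorem pcC : pc 8388608 = 1 := by decide

theorem cntCa : (ipSet VC (-16)).ncard = 4600 := by
  unfold VC
  rw [ip_count 8388608 1 pcC (-3) 3 24 1 1 8 (by norm_num) (by norm_num) (by norm_num) (by norm_num)
    1 (by norm_num) 417 (by norm_num) (-16) 192 (by norm_num) (by norm_num) YC
    (hY_of_all _ _ hYC)]
  exact numCa

theorem cntCb : (ipSet VC (-8)).ncard = 47104 := by
  unfold VC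
  rw [ip_count 8388608 1 pcC (-3) 3 24 1 1 8 (by norm_num) (by norm_num) (by norm_num) (by norm_num)
    1 (by norm_num) 417 (by norm_num) (-8) 200 (by norm_num) (by norm_num) YC
    (hY_of_all _ _ hYC)]
  exact numCb

theorem cntCc : (ipSet VC 0).ncard = 93150 := by
  unfold VC
  rw [ip_count 8388608 1 pcC (-3) 3 24 1 1 8 (by norm_num) (by norm_num) (by norm_num) (by norm_num)
    1 (by norm_num) 417 (by norm_num) 0 208 (by norm_num) (by norm_num) YC
    (hY_of_all _ _ hYC)]
  exact numCc

end Cfsg.Agent.Lib.Helper11.LeechIP
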