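import Mathlib
import Cfsg.Agent.Lib.Helper11.LeechOrb4
import Cfsg.Agent.Lib.Helper11.LeechMcL2
import Cfsg.Agent.Lib.Helper11.LeechMcL3Data
import Cfsg.Agent.S1573

set_option autoImplicit false

namespace Cfsg.Agent.Lib.Helper11.LeechMcL

open Cfsg Cfsg.Agent.Lib.Helper3.Golay Cfsg.Agent.Lib.Helper3.Golay2
open Cfsg.Agent.Lib.Helper3.Leech Cfsg.Agent.Lib.Helper3.Leech2 Cfsg.Agent.Lib.Helper3.Leech4
open Cfsg.Agent.Lib.Helper3.GolayM24 Cfsg.Agent.Lib.Helper3.M24Perm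
open Cfsg.Agent.Lib.Helper11.LeechGF Cfsg.Agent.Lib.Helper11.Co0Mono
open Cfsg.Agent.Lib.Helper11.LeechIP Cfsg.Agent.Lib.Helper11.LeechXi
open Cfsg.Agent.Lib.Helper11.LeechSt
open Cfsg.Agent.Lib.Helper11.LeechCo1 Cfsg.Agent.Lib.Helper11.LeechOrb
open Cfsg.Agent.Lib.Helper11.LeechMcLData Cfsg.Agent.Lib.Helper11.LeechMcL3Data

/-- The minimal vectors orthogonal to `v` with inner product `16` with `w`. -/
def ZS (v w : ↥leechLattice) : Set ↥leechLattice :=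
  {x | sqNorm (x : GolayPt → ℤ) = 32 ∧ dotInt (v : GolayPt → ℤ) (x : GolayPt → ℤ) = 0 ∧
    dotInt (w : GolayPt → ℤ) (x : GolayPt → ℤ) = 16}

theorem ZS_map {g : Equiv.Perm ↥leechLattice} (hg : g ∈ Co0) (v w x : ↥leechLattice)
    (hx : x ∈ ZS v w) : g x ∈ ZS (g v) (g w) := by
  obtain ⟨h1, h2, h3⟩ := hx
  exact ⟨by rw [hg.2]; exact h1, by rw [dot_co0 hg]; exact h2, by rw [dot_co0 hg]; exact h3⟩

/-- The third vector of the standard frame. -/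
def ws : ↥leechLattice := us - vs

theorem ws_val : (ws : GolayPt → ℤ) = vecN Lu - vecN Lv := rfl

theorem ws_norm : sqNorm (ws : GolayPt → ℤ) = 32 := frame_num.2.2.1

/-- The minimal vectors with inner product `16` with the third vector of the frame. -/
def S46set : Set ↥leechLattice :=
  {x | sqNorm (x : GolayPt → ℤ) = 32 ∧ dotInt (ws : GolayPt → ℤ) (x : GolayPt → ℤ) = 16}

theorem S46set_card : S46set.ncard = 4600 := by
  have h := (Cfsg.Agent.S1573.result (-(ws : GolayPt → ℤ)) (leechLattice.neg_mem ws.2)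
    (by
      have : sqNorm (-(ws : GolayPt → ℤ)) = sqNorm (ws : GolayPt → ℤ) := by
        unfold sqNorm; simp
      rw [this]; exact ws_norm)).1
  rw [← h, ← Set.ncard_image_of_injective S46set Subtype.val_injective]
  congr 1
  ext f
  constructor
  · rintro ⟨x, ⟨h1, h2⟩, rfl⟩
    exact ⟨x.2, h1, by rw [dot_neg_left, h2]⟩
  · rintro ⟨hf, h1, h2⟩
    rw [dot_neg_left] at h2
    exact ⟨⟨f, hf⟩, ⟨h1, by linarith⟩, rfl⟩

theorem hmem46 : ∀ L ∈ S46, ∃ z ∈ S46set, (z : GolayPt → ℤ) = vecN L := by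
  intro L hL
  have h := List.all_eq_true.mp S46_ok L hL
  simp only [Bool.and_eq_true, decide_eq_true_eq] at h
  obtain ⟨⟨h1, h2⟩, h3⟩ := h
  exact ⟨⟨vecN L, leechOK_mem L h1⟩, ⟨h2, h3⟩, rfl⟩

theorem S46_nodup : (S46.map (fun L => codeF (vecN L))).Nodup := incr_nodup _ S46_incr

theorem cover46 : ∀ z ∈ S46set, ∃ L ∈ S46, (z : GolayPt → ℤ) = vecN L :=
  cover_list S46set S46 (by rw [S46set_card, S46_length]) (by rw [S46_length]; norm_num)
    hmem46 S46_nodup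

theorem ZS_card : (ZS vs ws).ncard = 2025 := by
  have h := (count_list S46set S46 cover46 hmem46 S46_nodup
    (fun L => decide (dotInt (vecN Lv) (vecN L) = 0)) (fun f => dotInt (vecN Lv) f = 0)
    (fun L _ => decide_eq_true_iff)).trans cntZ
  rw [← h]
  congr 1
  ext z
  constructor
  · rintro ⟨h1, h2, h3⟩
    exact ⟨⟨h1, h3⟩, h2⟩
  · rintro ⟨⟨h1, h3⟩, h2⟩
    exact ⟨h1, h2, h3⟩

theorem Hs_ws (g : ↥Co0) (hg : g ∈ Hs) : g.1 ws = ws := by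
  show g.1 (us - vs) = us - vs
  rw [perm_sub g.1 g.2, (mem_Hs.mp hg).1, (mem_Hs.mp hg).2]

theorem Hs_ZS (g : ↥Co0) (hg : g ∈ Hs) (x : ↥leechLattice) (hx : x ∈ ZS vs ws) :
    g.1 x ∈ ZS vs ws := by
  have := ZS_map g.2 vs ws x hx
  rw [(mem_Hs.mp hg).2, Hs_ws g hg] at this
  exact this

def zs : ↥leechLattice := ⟨vecN Lz, Lz_mem⟩

theorem zs_mem : zs ∈ ZS vs ws := ⟨z_num.1, z_num.2.1, z_num.2.2⟩

theorem Zs_nodup : (Zs.map (fun L => codeF (vecN L))).Nodup := incr_nodup _ Zs_incr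

theorem certZ : (∀ z ∈ ZS vs ws, ∃ L ∈ Zs, (z : GolayPt → ℤ) = vecN L) ∧
    (∀ L ∈ Zs, ∃ z ∈ ZS vs ws, (z : GolayPt → ℤ) = vecN L) ∧
    ∀ z ∈ ZS vs ws, ∀ z' ∈ ZS vs ws, ∃ g ∈ Hs, (g : ↥Co0).1 z = z' :=
  trans_of_cert2 Hs (ZS vs ws) Hs_ZS LeechMcLData.gens
    (fun w hw => (gens_facts w hw).1) (fun w hw => (gens_facts w hw).2)
    (acc XXZ) (acc CCZ) 2025 Zs Zs_length certZ_ok ZS_card (by norm_num) zs zs_mem Lz rfl
    rootZ_ok Zs_nodup

theorem coverZ : ∀ z ∈ ZS vs ws, ∃ L ∈ Zs, (z : GolayPt → ℤ) = vecN L := certZ.1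

theorem hmemZ : ∀ L ∈ Zs, ∃ z ∈ ZS vs ws, (z : GolayPt → ℤ) = vecN L := certZ.2.1

/-- The stabiliser of the standard frame and of the base vector of the `2025`. -/
def K4 : Subgroup ↥Co0 := Hs ⊓ MulAction.stabilizer ↥Co0 zs

theorem mem_K4 {g : ↥Co0} : g ∈ K4 ↔ g ∈ Hs ∧ g.1 zs = zs := by
  rw [K4, Subgroup.mem_inf, MulAction.mem_stabilizer_iff]
  rfl

theorem gens4_facts : ∀ w ∈ gens4, w.all Mv.ok = true ∧ elW w ∈ K4 := by
  intro w hw
  have h := gens4_ok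
  rw [List.all_eq_true] at h
  have hw' := h w hw
  simp only [Bool.and_eq_true] at hw'
  obtain ⟨⟨⟨h1, h2⟩, h3⟩, h4⟩ := hw'
  refine ⟨h1, mem_K4.mpr ⟨mem_Hs.mpr ⟨Subtype.ext ?_, Subtype.ext ?_⟩, Subtype.ext ?_⟩⟩
  · rw [elW_act w h1]; exact eqV_eq h2
  · rw [elW_act w h1]; exact eqV_eq h3
  · rw [elW_act w h1]; exact eqV_eq h4

/-- The vectors of the `2025` at a given inner product with the base vector. -/
def YL (c : ℤ) : Set ↥leechLattice :=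
  {y | y ∈ ZS vs ws ∧ dotInt (zs : GolayPt → ℤ) (y : GolayPt → ℤ) = c}

theorem YL_count (c : ℤ) : (YL c).ncard =
    (Zs.filter (fun L => decide (dotInt (vecN Lz) (vecN L) = c))).length :=
  count_list (ZS vs ws) Zs coverZ hmemZ Zs_nodup
    (fun L => decide (dotInt (vecN Lz) (vecN L) = c)) (fun f => dotInt (vecN Lz) f = c)
    (fun _ _ => decide_eq_true_iff)

theorem YL0_card : (YL 0).ncard = 330 := (YL_count 0).trans cnt0

theorem YL16_card : (YL 16).ncard = 462 := (YL_count 16).trans cnt16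

theorem YL8_card : (YL 8).ncard = 1232 := (YL_count 8).trans cnt8

theorem K4_YL (c : ℤ) (g : ↥Co0) (hg : g ∈ K4) (z : ↥leechLattice) (hz : z ∈ YL c) :
    g.1 z ∈ YL c := by
  obtain ⟨hg1, hg2⟩ := mem_K4.mp hg
  refine ⟨Hs_ZS g hg1 z hz.1, ?_⟩
  have := dot_co0 g.2 zs z
  rw [hg2] at this
  rw [this]
  exact hz.2

def y0s : ↥leechLattice := ⟨vecN Ly0, Ly0_mem⟩

def y16s : ↥leechLattice := ⟨vecN Ly16, Ly16_mem⟩

def y8s : ↥leechLattice := ⟨vecN Ly8, Ly8_mem⟩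

theorem y0s_mem : y0s ∈ YL 0 := ⟨⟨y0_num.1, y0_num.2.1, y0_num.2.2.1⟩, y0_num.2.2.2⟩

theorem y16s_mem : y16s ∈ YL 16 := ⟨⟨y16_num.1, y16_num.2.1, y16_num.2.2.1⟩, y16_num.2.2.2⟩

theorem y8s_mem : y8s ∈ YL 8 := ⟨⟨y8_num.1, y8_num.2.1, y8_num.2.2.1⟩, y8_num.2.2.2⟩

/-- The roots of the certificate of the stabiliser of the base vector. -/
def RK : Set ↥leechLattice := {zs, y0s, y16s, y8s}

theorem orbK : ∀ L ∈ Zs, ∃ y ∈ RK, ∃ g ∈ K4,
    (((g : ↥Co0).1 y : ↥leechLattice) : GolayPt → ℤ) = vecN L := by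
  intro L hL
  obtain ⟨k, hk, e⟩ := exists_getD Zs L hL
  rw [Zs_length] at hk
  obtain ⟨y, hy, g, hg, eg⟩ := cert_orbit K4 gens4 (fun w hw => (gens4_facts w hw).1)
    (fun w hw => (gens4_facts w hw).2) (acc XXZ) (acc CCK) 2025 Zs Zs_length certK_ok RK
    (fun k hk h0 => by
      have h1 := rootOK_spec (acc XXZ) (acc CCK) 2025 [Lz, Ly0, Ly16, Ly8] rootK_ok k hk h0
      rw [certOK_X gens4 (acc XXZ) (acc CCK) 2025 Zs certK_ok k (by rw [Zs_length]; exact hk)]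
        at h1
      simp only [List.mem_cons, List.not_mem_nil, or_false] at h1
      rcases h1 with h1 | h1 | h1 | h1
      · exact ⟨zs, Or.inl rfl, by rw [h1]; rfl⟩
      · exact ⟨y0s, Or.inr (Or.inl rfl), by rw [h1]; rfl⟩
      · exact ⟨y16s, Or.inr (Or.inr (Or.inl rfl)), by rw [h1]; rfl⟩
      · exact ⟨y8s, Or.inr (Or.inr (Or.inr rfl)), by rw [h1]; rfl⟩) k hk
  exact ⟨y, hy, g, hg, by rw [eg, e]⟩

theorem zs_dot : dotInt (zs : GolayPt → ℤ) (zs : GolayPt → ℤ) = 32 := by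
  rw [dot_self]; exact z_num.1

/-- Every vector of a level set is the image of the root of that level. -/
theorem YL_orb (c : ℤ) (z : ↥leechLattice) (hz : z ∈ YL c) :
    ∃ y ∈ RK, dotInt (zs : GolayPt → ℤ) (y : GolayPt → ℤ) = c ∧
      ∃ g ∈ K4, (g : ↥Co0).1 y = z := by
  obtain ⟨L, hL, e⟩ := coverZ z hz.1
  obtain ⟨y, hy, g, hg, eg⟩ := orbK L hL
  have hgy : g.1 y = z := Subtype.ext (eg.trans e.symm)
  refine ⟨y, hy, ?_, g, hg, hgy⟩
  have := dot_co0 g.2 zs y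
  rw [(mem_K4.mp hg).2, hgy] at this
  rw [← this]
  exact hz.2

theorem YL_trans_aux (c : ℤ) (yc : ↥leechLattice)
    (huniq : ∀ y ∈ RK, dotInt (zs : GolayPt → ℤ) (y : GolayPt → ℤ) = c → y = yc) :
    ∀ z ∈ YL c, ∀ z' ∈ YL c, ∃ g ∈ K4, (g : ↥Co0).1 z = z' := by
  intro z hz z' hz'
  obtain ⟨y, hy, hd, g, hg, e⟩ := YL_orb c z hz
  obtain ⟨y', hy', hd', g', hg', e'⟩ := YL_orb c z' hz'
  rw [huniq y hy hd] at e
  rw [huniq y' hy' hd'] at e'
  refine ⟨g' * g⁻¹, K4.mul_mem hg' (K4.inv_mem hg), ?_⟩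
  show g'.1 (g.1⁻¹ z) = z'
  rw [← e, show g.1⁻¹ (g.1 yc) = yc from Equiv.symm_apply_apply g.1 yc]
  exact e'

theorem YL0_trans : ∀ z ∈ YL 0, ∀ z' ∈ YL 0, ∃ g ∈ K4, (g : ↥Co0).1 z = z' := by
  apply YL_trans_aux 0 y0s
  intro y hy hd
  rcases hy with rfl | rfl | rfl | rfl
  · rw [zs_dot] at hd; norm_num at hd
  · rfl
  · rw [y16s_mem.2] at hd; norm_num at hd
  · rw [y8s_mem.2] at hd; norm_num at hd

theorem YL16_trans : ∀ z ∈ YL 16, ∀ z' ∈ YL 16, ∃ g ∈ K4, (g : ↥Co0).1 z = z' := by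
  apply YL_trans_aux 16 y16s
  intro y hy hd
  rcases hy with rfl | rfl | rfl | rfl
  · rw [zs_dot] at hd; norm_num at hd
  · rw [y0s_mem.2] at hd; norm_num at hd
  · rfl
  · rw [y8s_mem.2] at hd; norm_num at hd

theorem YL8_trans : ∀ z ∈ YL 8, ∀ z' ∈ YL 8, ∃ g ∈ K4, (g : ↥Co0).1 z = z' := by
  apply YL_trans_aux 8 y8s
  intro y hy hd
  rcases hy with rfl | rfl | rfl | rfl
  · rw [zs_dot] at hd; norm_num at hd
  · rw [y0s_mem.2] at hd; norm_num at hd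
  · rw [y16s_mem.2] at hd; norm_num at hd
  · rfl

theorem exists_frame2 (v w : ↥leechLattice) (hv : sqNorm (v : GolayPt → ℤ) = 32)
    (hw : sqNorm (w : GolayPt → ℤ) = 32)
    (hvw : dotInt (v : GolayPt → ℤ) (w : GolayPt → ℤ) = -8) :
    ∃ g ∈ Co0, g v = vs ∧ g w = ws := by
  have hu : sqNorm ((v + w : ↥leechLattice) : GolayPt → ℤ) = 48 := by
    rw [AddSubgroup.coe_add, sqNorm_add, hv, hw, hvw]; norm_num
  have hv2 : sqNorm (((v + w : ↥leechLattice) : GolayPt → ℤ) - (v : GolayPt → ℤ)) = 32 := by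
    rw [AddSubgroup.coe_add, add_sub_cancel_left]; exact hw
  obtain ⟨g, hg, e1, e2⟩ := exists_frame (v + w) v hu hv hv2
  refine ⟨g, hg, e2, ?_⟩
  have : w = (v + w) - v := by abel
  rw [this, perm_sub g hg, e1, e2]
  rfl

theorem exists_frame4 (v w x : ↥leechLattice) (hv : sqNorm (v : GolayPt → ℤ) = 32)
    (hw : sqNorm (w : GolayPt → ℤ) = 32)
    (hvw : dotInt (v : GolayPt → ℤ) (w : GolayPt → ℤ) = -8) (hx : x ∈ ZS v w) :
    ∃ g ∈ Co0, g v = vs ∧ g w = ws ∧ g x = zs := by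
  obtain ⟨g0, hg0, e1, e2⟩ := exists_frame2 v w hv hw hvw
  have h1 := ZS_map hg0 v w x hx
  rw [e1, e2] at h1
  obtain ⟨h, hh, e⟩ := certZ.2.2 _ h1 zs zs_mem
  refine ⟨h.1 * g0, Co0.mul_mem h.2 hg0, ?_, ?_, ?_⟩
  · rw [Equiv.Perm.mul_apply, e1]; exact (mem_Hs.mp hh).2
  · rw [Equiv.Perm.mul_apply, e2]; exact Hs_ws h hh
  · rw [Equiv.Perm.mul_apply]; exact e

/-- The orbit of the stabiliser of `v`, `w`, `x` on a transported base vector is a level set. -/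
theorem orbit_card (v w x : ↥leechLattice) (g : Equiv.Perm ↥leechLattice) (hg : g ∈ Co0)
    (e1 : g v = vs) (e2 : g w = ws) (e3 : g x = zs) (c : ℤ) (n : ℕ) (ys : ↥leechLattice)
    (hys : ys ∈ YL c) (hcard : (YL c).ncard = n)
    (htr : ∀ z ∈ YL c, ∀ z' ∈ YL c, ∃ h ∈ K4, (h : ↥Co0).1 z = z') :
    g⁻¹ ys ∈ ZS v w ∧
    (MulAction.orbit ↥(MulAction.stabilizer ↥Co0 v ⊓ MulAction.stabilizer ↥Co0 w ⊓
      MulAction.stabilizer ↥Co0 x) (g⁻¹ ys)).ncard = n := by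
  have hgi := Co0.inv_mem hg
  have i1 := inv_of_eq e1
  have i2 := inv_of_eq e2
  have i3 := inv_of_eq e3
  have fwd : ∀ z ∈ ZS v w, g z ∈ ZS vs ws := by
    intro z hz
    have := ZS_map hg v w z hz
    rw [e1, e2] at this
    exact this
  have bwd : ∀ z ∈ ZS vs ws, g⁻¹ z ∈ ZS v w := by
    intro z hz
    have := ZS_map hgi vs ws z hz
    rw [i1, i2] at this
    exact this
  have dfwd : ∀ z : ↥leechLattice,
      dotInt (zs : GolayPt → ℤ) ((g z : ↥leechLattice) : GolayPt → ℤ) =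
      dotInt (x : GolayPt → ℤ) (z : GolayPt → ℤ) := by
    intro z
    have := dot_co0 hg x z
    rw [e3] at this
    exact this
  have dbwd : ∀ z : ↥leechLattice,
      dotInt (x : GolayPt → ℤ) ((g⁻¹ z : ↥leechLattice) : GolayPt → ℤ) =
      dotInt (zs : GolayPt → ℤ) (z : GolayPt → ℤ) := by
    intro z
    have := dot_co0 hgi zs z
    rw [i3] at this
    exact this
  have hy : g⁻¹ ys ∈ ZS v w := bwd ys hys.1
  have hset : MulAction.orbit ↥(MulAction.stabilizer ↥Co0 v ⊓ MulAction.stabilizer ↥Co0 w ⊓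
      MulAction.stabilizer ↥Co0 x) (g⁻¹ ys) =
      {z : ↥leechLattice | z ∈ ZS v w ∧ dotInt (x : GolayPt → ℤ) (z : GolayPt → ℤ) = c} := by
    ext z
    constructor
    · rintro ⟨k, rfl⟩
      obtain ⟨⟨k, hkC⟩, hk⟩ := k
      rw [Subgroup.mem_inf, Subgroup.mem_inf, MulAction.mem_stabilizer_iff,
        MulAction.mem_stabilizer_iff, MulAction.mem_stabilizer_iff] at hk
      obtain ⟨⟨k1, k2⟩, k3⟩ := hk
      have k1' : k v = v := k1
      have k2' : k w = w := k2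
      have k3' : k x = x := k3
      show k (g⁻¹ ys) ∈ ZS v w ∧
        dotInt (x : GolayPt → ℤ) ((k (g⁻¹ ys) : ↥leechLattice) : GolayPt → ℤ) = c
      constructor
      · have := ZS_map hkC v w _ hy
        rw [k1', k2'] at this
        exact this
      · have := dot_co0 hkC x (g⁻¹ ys)
        rw [k3'] at this
        rw [this, dbwd]
        exact hys.2
    · rintro ⟨hz1, hz2⟩
      have hgz : g z ∈ YL c := ⟨fwd z hz1, by rw [dfwd]; exact hz2⟩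
      obtain ⟨h, hh, eh⟩ := htr ys hys (g z) hgz
      obtain ⟨hh1, hh2⟩ := mem_K4.mp hh
      have hmem : (⟨g, hg⟩ : ↥Co0)⁻¹ * h * ⟨g, hg⟩ ∈
          MulAction.stabilizer ↥Co0 v ⊓ MulAction.stabilizer ↥Co0 w ⊓
          MulAction.stabilizer ↥Co0 x := by
        rw [Subgroup.mem_inf, Subgroup.mem_inf, MulAction.mem_stabilizer_iff,
          MulAction.mem_stabilizer_iff, MulAction.mem_stabilizer_iff]
        refine ⟨⟨?_, ?_⟩, ?_⟩
        · show g⁻¹ (h.1 (g v)) = v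
          rw [e1, (mem_Hs.mp hh1).2]
          exact i1
        · show g⁻¹ (h.1 (g w)) = w
          rw [e2, Hs_ws h hh1]
          exact i2
        · show g⁻¹ (h.1 (g x)) = x
          rw [e3, hh2]
          exact i3
      refine ⟨⟨_, hmem⟩, ?_⟩
      show g⁻¹ (h.1 (g (g⁻¹ ys))) = z
      rw [show g (g⁻¹ ys) = ys from Equiv.apply_symm_apply g ys, eh]
      exact Equiv.symm_apply_apply g z
  refine ⟨hy, ?_⟩
  rw [hset, ← hcard]
  apply ncard_map g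
  · rintro z ⟨hz1, hz2⟩
    exact ⟨fwd z hz1, by rw [dfwd]; exact hz2⟩
  · rintro z ⟨hz1, hz2⟩
    exact ⟨bwd z hz1, by rw [dbwd]; exact hz2⟩

/-- **The rank `4` action on the `2025` vectors.** -/
theorem mcl_rank4 (v w : ↥leechLattice) (hv : sqNorm (v : GolayPt → ℤ) = 32)
    (hw : sqNorm (w : GolayPt → ℤ) = 32)
    (hvw : dotInt (v : GolayPt → ℤ) (w : GolayPt → ℤ) = -8) :
    (ZS v w).ncard = 2025 ∧
    (∀ x ∈ ZS v w, ∀ x' ∈ ZS v w, ∃ g : ↥Co0, g • v = v ∧ g • w = w ∧ g • x = x') ∧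
    ∀ x ∈ ZS v w, ∃ y₁ ∈ ZS v w, ∃ y₂ ∈ ZS v w, ∃ y₃ ∈ ZS v w,
      (MulAction.orbit ↥(MulAction.stabilizer ↥Co0 v ⊓ MulAction.stabilizer ↥Co0 w ⊓
        MulAction.stabilizer ↥Co0 x) y₁).ncard = 330 ∧
      (MulAction.orbit ↥(MulAction.stabilizer ↥Co0 v ⊓ MulAction.stabilizer ↥Co0 w ⊓
        MulAction.stabilizer ↥Co0 x) y₂).ncard = 462 ∧
      (MulAction.orbit ↥(MulAction.stabilizer ↥Co0 v ⊓ MulAction.stabilizer ↥Co0 w ⊓
        MulAction.stabilizer ↥Co0 x) y₃).ncard = 1232 := by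
  obtain ⟨g, hg, e1, e2⟩ := exists_frame2 v w hv hw hvw
  have hgi := Co0.inv_mem hg
  have i1 := inv_of_eq e1
  have i2 := inv_of_eq e2
  have fwd : ∀ z ∈ ZS v w, g z ∈ ZS vs ws := by
    intro z hz
    have := ZS_map hg v w z hz
    rw [e1, e2] at this
    exact this
  have bwd : ∀ z ∈ ZS vs ws, g⁻¹ z ∈ ZS v w := by
    intro z hz
    have := ZS_map hgi vs ws z hz
    rw [i1, i2] at this
    exact this
  refine ⟨?_, ?_, ?_⟩
  · rw [← ZS_card]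
    exact ncard_map g _ _ fwd bwd
  · intro x hx x' hx'
    obtain ⟨h, hh, eh⟩ := certZ.2.2 (g x) (fwd x hx) (g x') (fwd x' hx')
    refine ⟨(⟨g, hg⟩ : ↥Co0)⁻¹ * h * ⟨g, hg⟩, ?_, ?_, ?_⟩
    · show g⁻¹ (h.1 (g v)) = v
      rw [e1, (mem_Hs.mp hh).2]
      exact i1
    · show g⁻¹ (h.1 (g w)) = w
      rw [e2, Hs_ws h hh]
      exact i2
    · show g⁻¹ (h.1 (g x)) = x'
      rw [eh]
      exact Equiv.symm_apply_apply g x'
  · intro x hx
    obtain ⟨g', hg', f1, f2, f3⟩ := exists_frame4 v w x hv hw hvw hx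
    obtain ⟨a1, a2⟩ := orbit_card v w x g' hg' f1 f2 f3 0 330 y0s y0s_mem YL0_card YL0_trans
    obtain ⟨b1, b2⟩ := orbit_card v w x g' hg' f1 f2 f3 16 462 y16s y16s_mem YL16_card
      YL16_trans
    obtain ⟨c1, c2⟩ := orbit_card v w x g' hg' f1 f2 f3 8 1232 y8s y8s_mem YL8_card YL8_trans
    exact ⟨_, a1, _, b1, _, c1, a2, b2, c2⟩

end Cfsg.Agent.Lib.Helper11.LeechMcL
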