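import Mathlib
import Cfsg.Agent.Lib.Helper11.LeechMcL3
import Cfsg.Agent.Lib.Helper11.LeechHS4
import Cfsg.Agent.Lib.Helper11.Rank4Simple

set_option autoImplicit false

namespace Cfsg.Agent.Lib.Helper11.LeechMcL4

open Cfsg Cfsg.Agent.Lib.Helper3.Golay Cfsg.Agent.Lib.Helper3.Golay2
open Cfsg.Agent.Lib.Helper3.Leech Cfsg.Agent.Lib.Helper3.Leech2 Cfsg.Agent.Lib.Helper3.Leech4
open Cfsg.Agent.Lib.Helper3.GolayM24 Cfsg.Agent.Lib.Helper3.M24Perm
open Cfsg.Agent.Lib.Helper11.LeechGF Cfsg.Agent.Lib.Helper11.Co0Mono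
open Cfsg.Agent.Lib.Helper11.LeechIP Cfsg.Agent.Lib.Helper11.LeechXi
open Cfsg.Agent.Lib.Helper11.LeechSt
open Cfsg.Agent.Lib.Helper11.LeechCo1 Cfsg.Agent.Lib.Helper11.LeechOrb
open Cfsg.Agent.Lib.Helper11.LeechMcL Cfsg.Agent.Lib.Helper11.Rank4Simple

/-! ### The special frame -/

/-- The code of the vector with `-3` at the point at infinity and `1` elsewhere. -/
def Lw0 : ℕ := 562777982086355510705240892457403953

theorem Lw0_ok : leechOK Lw0 = true := by decide +kernel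

/-- The vector with `-3` at the point at infinity and `1` elsewhere. -/
def w0 : ↥leechLattice := ⟨vecN Lw0, leechOK_mem Lw0 Lw0_ok⟩

theorem w0_val : ∀ j : GolayPt, vecN Lw0 j = if j = p0 then -3 else 1 := by decide +kernel

theorem w0_apply (j : GolayPt) : (w0 : GolayPt → ℤ) j = if j = p0 then -3 else 1 := w0_val j

theorem w0_ne (j : GolayPt) : (w0 : GolayPt → ℤ) j ≠ 0 := by
  rw [w0_apply]
  split_ifs <;> norm_num

theorem w0_num : sqNorm (vecN Lw0) = 32 ∧ dotInt V0 (vecN Lw0) = -8 ∧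
    sqNorm Wc0 = 32 ∧ dotInt V0 Wc0 = 0 ∧ dotInt (vecN Lw0) Wc0 = 16 := by decide +kernel

/-- The vector `-4 e_{p0} + 4 e_{p1}`. -/
def z0 : ↥leechLattice := E p1 - V0'

theorem z0_aux : ∀ j : GolayPt, (E p1 : GolayPt → ℤ) j - V0 j = Wc0 j := by decide +kernel

theorem z0_val : (z0 : GolayPt → ℤ) = Wc0 := by
  funext j
  exact z0_aux j

theorem e0_aux : ∀ j : GolayPt, V0 j - Wc0 j = (E p0 : GolayPt → ℤ) j := by decide +kernel

theorem hE0 : V0' - z0 = E p0 := by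
  apply Subtype.ext
  funext j
  show V0 j - (z0 : GolayPt → ℤ) j = (E p0 : GolayPt → ℤ) j
  rw [z0_val]
  exact e0_aux j

theorem hE1 : V0' + z0 = E p1 := by
  unfold z0
  abel

theorem z0_mem : z0 ∈ ZS V0' w0 := by
  refine ⟨?_, ?_, ?_⟩
  · rw [z0_val]; exact w0_num.2.2.1
  · rw [z0_val]; exact w0_num.2.2.2.1
  · rw [z0_val]; exact w0_num.2.2.2.2

/-! ### The point stabiliser is the Mathieu group of degree 22 -/

theorem prm_sp (π : Equiv.Perm GolayPt) (hπ : π ∈ M24) : IsSP (prmP π hπ) π :=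
  ⟨fun _ => 1, fun _ => Or.inl rfl, fun u j => by
    rw [prmP_apply, one_mul]
    rfl⟩

theorem prm_fix (π : Equiv.Perm GolayPt) (hπ : π ∈ M24) (h0 : π p0 = p0) (h1 : π p1 = p1) :
    prmP π hπ V0' = V0' ∧ prmP π hπ w0 = w0 ∧ prmP π hπ z0 = z0 := by
  have s0 : ∀ j, π.symm j = p0 ↔ j = p0 := fun j => by rw [Equiv.symm_apply_eq, h0]
  have s1 : ∀ j, π.symm j = p1 ↔ j = p1 := fun j => by rw [Equiv.symm_apply_eq, h1]
  refine ⟨?_, ?_, ?_⟩
  · apply Subtype.ext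
    rw [prmP_apply]
    funext j
    show V0 (π.symm j) = V0 j
    unfold V0
    simp only [s0, s1]
  · apply Subtype.ext
    rw [prmP_apply]
    funext j
    show (w0 : GolayPt → ℤ) (π.symm j) = (w0 : GolayPt → ℤ) j
    rw [w0_apply, w0_apply]
    simp only [s0]
  · apply Subtype.ext
    rw [prmP_apply, z0_val]
    funext j
    show Wc0 (π.symm j) = Wc0 j
    unfold Wc0
    simp only [s0, s1]

/-- Elements fixing the special frame are coordinate permutations. -/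
theorem prm_of_stab {g : Equiv.Perm ↥leechLattice} (hg : g ∈ Co0)
    (gv : g V0' = V0') (gw : g w0 = w0) (gz : g z0 = z0) :
    ∃ σ, ∃ hσ : σ ∈ M24, σ p0 = p0 ∧ σ p1 = p1 ∧ g = prmP σ hσ := by
  have gE0 : g (E p0) = E p0 := by
    rw [← hE0, sub_eq_add_neg, hg.1, perm_neg g hg.1, gv, gz]
  have gE1 : g (E p1) = E p1 := by
    rw [← hE1, hg.1, gv, gz]
  have hPN : PN ⟨g, hg⟩ := PN_fix ⟨g, hg⟩ gE0
  obtain ⟨σ, hσ, c, hc, hform⟩ := cross_stab g hg hPN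
  have sp : IsSP g σ := by
    refine ⟨fun j => if j ∈ c then -1 else 1, fun j => ?_, fun u j => ?_⟩
    · by_cases hj : j ∈ c
      · right; simp [hj]
      · left; simp [hj]
    · rw [hform u]
      unfold signedPerm
      by_cases hj : j ∈ c <;> simp [hj]
  have fix : ∀ i, g (E i) = E i → σ i = i := by
    intro i hi
    obtain ⟨ε, hε1, hε⟩ := sp
    have h := hε (E i) (σ i)
    rw [hi, Equiv.symm_apply_apply, E_apply, E_apply, if_pos rfl] at h
    by_contra hne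
    rw [if_neg hne] at h
    rcases hε1 (σ i) with e | e <;> rw [e] at h <;> norm_num at h
  have h0 := fix p0 gE0
  have h1 := fix p1 gE1
  exact ⟨σ, hσ, h0, h1, IsSP.unique sp (prm_sp σ hσ) w0 w0_ne gw (prm_fix σ hσ h0 h1).2.1⟩

theorem M22_fix (π : ↥(MulAction.stabilizer ↥M24 p0 ⊓ MulAction.stabilizer ↥M24 p1)) :
    prmP π.1.1 π.1.2 V0' = V0' ∧ prmP π.1.1 π.1.2 w0 = w0 ∧ prmP π.1.1 π.1.2 z0 = z0 :=
  prm_fix π.1.1 π.1.2 (MulAction.mem_stabilizer_iff.mp (Subgroup.mem_inf.mp π.2).1)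
    (MulAction.mem_stabilizer_iff.mp (Subgroup.mem_inf.mp π.2).2)

theorem prm_mul (π π' : ↥(MulAction.stabilizer ↥M24 p0 ⊓ MulAction.stabilizer ↥M24 p1)) :
    prmP (π * π').1.1 (π * π').1.2 = prmP π.1.1 π.1.2 * prmP π'.1.1 π'.1.2 := by
  have s1 : IsSP (prmP (π * π').1.1 (π * π').1.2) (π.1.1 * π'.1.1) :=
    prm_sp (π * π').1.1 (π * π').1.2
  have s2 := (prm_sp π.1.1 π.1.2).mul (prm_sp π'.1.1 π'.1.2)
  exact IsSP.unique s1 s2 w0 w0_ne (M22_fix (π * π')).2.1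
    (by rw [Equiv.Perm.mul_apply, (M22_fix π').2.1, (M22_fix π).2.1])

/-- The isomorphism from the Mathieu group of degree 22 onto the point stabiliser. -/
noncomputable def fH :
    ↥(MulAction.stabilizer ↥M24 p0 ⊓ MulAction.stabilizer ↥M24 p1) →*
      ↥(MulAction.stabilizer
        ↥(MulAction.stabilizer ↥Co0 V0' ⊓ MulAction.stabilizer ↥Co0 w0) z0) :=
  MonoidHom.mk' (fun π => ⟨⟨⟨prmP π.1.1 π.1.2, prmP_mem π.1.1 π.1.2⟩,
      Subgroup.mem_inf.mpr ⟨MulAction.mem_stabilizer_iff.mpr (M22_fix π).1,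
        MulAction.mem_stabilizer_iff.mpr (M22_fix π).2.1⟩⟩,
      MulAction.mem_stabilizer_iff.mpr (M22_fix π).2.2⟩) (by
    intro π π'
    apply Subtype.ext
    apply Subtype.ext
    apply Subtype.ext
    exact prm_mul π π')

theorem fH_val (π : ↥(MulAction.stabilizer ↥M24 p0 ⊓ MulAction.stabilizer ↥M24 p1)) :
    ((fH π).1.1.1 : Equiv.Perm ↥leechLattice) = prmP π.1.1 π.1.2 := rfl

theorem fH_inj : Function.Injective fH := by
  intro π π' h
  have h1 : prmP π.1.1 π.1.2 = prmP π'.1.1 π'.1.2 := by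
    rw [← fH_val π, ← fH_val π', h]
  have s1 := prm_sp π.1.1 π.1.2
  have s2 := prm_sp π'.1.1 π'.1.2
  rw [← h1] at s2
  have h3 := IsSP.perm_unique s1 s2
  apply Subtype.ext
  apply Subtype.ext
  exact h3

theorem fH_surj : Function.Surjective fH := by
  intro h
  have hg : (h.1.1.1 : Equiv.Perm ↥leechLattice) ∈ Co0 := h.1.1.2
  have gv : h.1.1.1 V0' = V0' := MulAction.mem_stabilizer_iff.mp (Subgroup.mem_inf.mp h.1.2).1
  have gw : h.1.1.1 w0 = w0 := MulAction.mem_stabilizer_iff.mp (Subgroup.mem_inf.mp h.1.2).2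
  have gz : h.1.1.1 z0 = z0 := MulAction.mem_stabilizer_iff.mp h.2
  obtain ⟨σ, hσ, e0, e1, e⟩ := prm_of_stab hg gv gw gz
  refine ⟨⟨⟨σ, hσ⟩, Subgroup.mem_inf.mpr ⟨MulAction.mem_stabilizer_iff.mpr e0,
    MulAction.mem_stabilizer_iff.mpr e1⟩⟩, ?_⟩
  apply Subtype.ext
  apply Subtype.ext
  apply Subtype.ext
  rw [fH_val]
  exact e.symm

theorem stab_simple : IsSimpleGroup ↥(MulAction.stabilizer
    ↥(MulAction.stabilizer ↥Co0 V0' ⊓ MulAction.stabilizer ↥Co0 w0) z0) := by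
  have := Cfsg.Agent.S0379.result p0 p1 (by decide)
  exact (MulEquiv.ofBijective fH ⟨fH_inj, fH_surj⟩).symm.isSimpleGroup

theorem stab_card : Nat.card ↥(MulAction.stabilizer
    ↥(MulAction.stabilizer ↥Co0 V0' ⊓ MulAction.stabilizer ↥Co0 w0) z0) = 443520 := by
  rw [← Nat.card_congr (MulEquiv.ofBijective fH ⟨fH_inj, fH_surj⟩).toEquiv]
  exact Cfsg.Agent.S0378.result p0 p1 (by decide)

/-! ### The McLaughlin group -/

theorem mcl_special :
    IsMcL ↥(MulAction.stabilizer ↥Co0 V0' ⊓ MulAction.stabilizer ↥Co0 w0) := by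
  have hv : sqNorm (V0' : GolayPt → ℤ) = 32 := sqNorm_V0
  have hw : sqNorm (w0 : GolayPt → ℤ) = 32 := w0_num.1
  have hvw : dotInt (V0' : GolayPt → ℤ) (w0 : GolayPt → ℤ) = -8 := w0_num.2.1
  obtain ⟨hZ, htr, hrk⟩ := mcl_rank4 V0' w0 hv hw hvw
  have hz : z0 ∈ ZS V0' w0 := z0_mem
  obtain ⟨y₁, hy₁, y₂, hy₂, y₃, hy₃, c₁, c₂, c₃⟩ := hrk z0 hz
  have horb : MulAction.orbit
      ↥(MulAction.stabilizer ↥Co0 V0' ⊓ MulAction.stabilizer ↥Co0 w0) z0 = ZS V0' w0 := by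
    ext z
    constructor
    · rintro ⟨k, rfl⟩
      have h1 : k.1.1 V0' = V0' := MulAction.mem_stabilizer_iff.mp (Subgroup.mem_inf.mp k.2).1
      have h2 : k.1.1 w0 = w0 := MulAction.mem_stabilizer_iff.mp (Subgroup.mem_inf.mp k.2).2
      have := ZS_map k.1.2 V0' w0 z0 hz
      rw [h1, h2] at this
      exact this
    · intro hz'
      obtain ⟨g, g1, g2, g3⟩ := htr z0 hz z hz'
      exact ⟨⟨g, Subgroup.mem_inf.mpr ⟨MulAction.mem_stabilizer_iff.mpr g1,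
        MulAction.mem_stabilizer_iff.mpr g2⟩⟩, g3⟩
  have hsub : ∀ y : ↥leechLattice,
      MulAction.orbit ↥(MulAction.stabilizer
        ↥(MulAction.stabilizer ↥Co0 V0' ⊓ MulAction.stabilizer ↥Co0 w0) z0) y =
      MulAction.orbit ↥(MulAction.stabilizer ↥Co0 V0' ⊓ MulAction.stabilizer ↥Co0 w0 ⊓
        MulAction.stabilizer ↥Co0 z0) y := by
    intro y
    ext z
    constructor
    · rintro ⟨k, rfl⟩
      exact ⟨⟨k.1.1, Subgroup.mem_inf.mpr ⟨k.1.2,
        MulAction.mem_stabilizer_iff.mpr (MulAction.mem_stabilizer_iff.mp k.2)⟩⟩, rfl⟩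
    · rintro ⟨k, rfl⟩
      exact ⟨⟨⟨k.1, (Subgroup.mem_inf.mp k.2).1⟩,
        MulAction.mem_stabilizer_iff.mpr
          (MulAction.mem_stabilizer_iff.mp (Subgroup.mem_inf.mp k.2).2)⟩, rfl⟩
  have hcardG : Nat.card
      ↥(MulAction.stabilizer ↥Co0 V0' ⊓ MulAction.stabilizer ↥Co0 w0) = 898128000 := by
    have h1 := Subgroup.card_mul_index (MulAction.stabilizer
      ↥(MulAction.stabilizer ↥Co0 V0' ⊓ MulAction.stabilizer ↥Co0 w0) z0)
    rw [MulAction.index_stabilizer, horb, hZ, stab_card] at h1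
    rw [← h1]
  refine ⟨?_, hcardG⟩
  have : Finite ↥Co0 := finite_Co0
  have : Nontrivial ↥(MulAction.stabilizer ↥Co0 V0' ⊓ MulAction.stabilizer ↥Co0 w0) :=
    Finite.one_lt_card_iff_nontrivial.mp (by rw [hcardG]; norm_num)
  apply simple_of_rank4 z0 y₁ y₂ y₃ 330 462 1232 stab_simple
    (by rw [horb]; exact hy₁) (by rw [horb]; exact hy₂) (by rw [horb]; exact hy₃)
    (by rw [hsub]; exact c₁) (by rw [hsub]; exact c₂) (by rw [hsub]; exact c₃)
    (by rw [horb, hZ]) (by norm_num) (by norm_num) (by norm_num) (by norm_num) (by norm_num)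
    (by norm_num) ?_ 3 5 (by norm_num) (by norm_num) (by norm_num) (by norm_num) (by norm_num)
    ?_ ?_
  · intro a₁ a₂ a₃ h1 h2 h3 hd
    rw [hcardG] at hd
    rcases h1 with rfl | rfl <;> rcases h2 with rfl | rfl <;> rcases h3 with rfl | rfl <;>
      first
      | exact Or.inl ⟨rfl, rfl, rfl⟩
      | exact Or.inr ⟨rfl, rfl, rfl⟩
      | (exfalso; norm_num at hd)
  · intro a₁ a₂ a₃ h1 h2 h3 hd
    rcases h1 with rfl | rfl <;> rcases h2 with rfl | rfl <;> rcases h3 with rfl | rfl <;> omega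
  · intro a₁ a₂ a₃ h1 h2 h3 hd
    rcases h1 with rfl | rfl <;> rcases h2 with rfl | rfl <;> rcases h3 with rfl | rfl <;> omega

/-- **The stabiliser of two minimal vectors with inner product `-8` is the McLaughlin group.** -/
theorem isMcL (v w : ↥leechLattice) (hv : sqNorm (v : GolayPt → ℤ) = 32)
    (hw : sqNorm (w : GolayPt → ℤ) = 32)
    (hvw : dotInt (v : GolayPt → ℤ) (w : GolayPt → ℤ) = -8) :
    IsMcL ↥(MulAction.stabilizer ↥Co0 v ⊓ MulAction.stabilizer ↥Co0 w) := by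
  obtain ⟨g₁, hg₁, a1, a2⟩ := exists_frame2 v w hv hw hvw
  obtain ⟨g₂, hg₂, b1, b2⟩ := exists_frame2 V0' w0 sqNorm_V0 w0_num.1 w0_num.2.1
  obtain ⟨g, hg, e1, e2⟩ : ∃ g ∈ Co0, g v = V0' ∧ g w = w0 := by
    refine ⟨g₂⁻¹ * g₁, Co0.mul_mem (Co0.inv_mem hg₂) hg₁, ?_, ?_⟩
    · rw [Equiv.Perm.mul_apply, a1]; exact inv_of_eq b1
    · rw [Equiv.Perm.mul_apply, a2]; exact inv_of_eq b2
  have hN : IsMcL ↥(MulAction.stabilizer ↥Co0 (g v) ⊓ MulAction.stabilizer ↥Co0 (g w)) := by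
    rw [e1, e2]
    exact mcl_special
  have E1 : MulAction.stabilizer ↥Co0 (g v) = (MulAction.stabilizer ↥Co0 v).map
      (MulAut.conj (⟨g, hg⟩ : ↥Co0)).toMonoidHom :=
    MulAction.stabilizer_smul_eq_stabilizer_map_conj (⟨g, hg⟩ : ↥Co0) v
  have E2 : MulAction.stabilizer ↥Co0 (g w) = (MulAction.stabilizer ↥Co0 w).map
      (MulAut.conj (⟨g, hg⟩ : ↥Co0)).toMonoidHom :=
    MulAction.stabilizer_smul_eq_stabilizer_map_conj (⟨g, hg⟩ : ↥Co0) w
  have E3 : MulAction.stabilizer ↥Co0 (g v) ⊓ MulAction.stabilizer ↥Co0 (g w) =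
      (MulAction.stabilizer ↥Co0 v ⊓ MulAction.stabilizer ↥Co0 w).map
        (MulAut.conj (⟨g, hg⟩ : ↥Co0)).toMonoidHom := by
    rw [E1, E2, Subgroup.map_inf_eq _ _ _ (MulAut.conj (⟨g, hg⟩ : ↥Co0)).injective]
  have hs := hN.1
  exact ⟨((Subgroup.equivMapOfInjective
      (MulAction.stabilizer ↥Co0 v ⊓ MulAction.stabilizer ↥Co0 w)
      (MulAut.conj (⟨g, hg⟩ : ↥Co0)).toMonoidHom
      (MulAut.conj (⟨g, hg⟩ : ↥Co0)).injective).trans
      (MulEquiv.subgroupCongr E3.symm)).isSimpleGroup, by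
    rw [Nat.card_congr ((Subgroup.equivMapOfInjective
      (MulAction.stabilizer ↥Co0 v ⊓ MulAction.stabilizer ↥Co0 w)
      (MulAut.conj (⟨g, hg⟩ : ↥Co0)).toMonoidHom
      (MulAut.conj (⟨g, hg⟩ : ↥Co0)).injective).trans
      (MulEquiv.subgroupCongr E3.symm)).toEquiv]
    exact hN.2⟩

end Cfsg.Agent.Lib.Helper11.LeechMcL4
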