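import Mathlib
import Cfsg.Agent.Lib.Helper11.LeechOrb4

set_option autoImplicit false

namespace Cfsg.Agent.Lib.Helper11.LeechOrb

open Cfsg Cfsg.Agent.Lib.Helper3.Golay Cfsg.Agent.Lib.Helper3.Golay2
open Cfsg.Agent.Lib.Helper3.Leech Cfsg.Agent.Lib.Helper3.Leech2 Cfsg.Agent.Lib.Helper3.Leech4
open Cfsg.Agent.Lib.Helper3.GolayM24 Cfsg.Agent.Lib.Helper3.M24Perm
open Cfsg.Agent.Lib.Helper11.LeechGF Cfsg.Agent.Lib.Helper11.Co0Mono
open Cfsg.Agent.Lib.Helper11.LeechIP Cfsg.Agent.Lib.Helper11.LeechXi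
open Cfsg.Agent.Lib.Helper11.LeechCo1

/-! ### Inner products computed on the codes -/

/-- The digit number `k` of a code. -/
def dg (L k : ℕ) : ℕ := Nat.mod (Nat.div L (Nat.pow 32 k)) 32

theorem vecN_pt (L k : ℕ) (hk : k < 24) : vecN L (pt k) = (dg L k : ℤ) - 16 := by
  unfold vecN dg
  rw [idx_pt k hk]
  rfl

/-- The sum of the first `n` values of a function. -/
def sumTo (n : ℕ) (f : ℕ → ℕ) : ℕ := Nat.rec 0 (fun k s => Nat.add s (f k)) n

theorem sumTo_eq (n : ℕ) (f : ℕ → ℕ) : sumTo n f = ∑ k ∈ Finset.range n, f k := by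
  induction n with
  | zero => rfl
  | succ n ih =>
    rw [Finset.sum_range_succ, ← ih]
    rfl

theorem sum_pt (f : GolayPt → ℤ) : ∑ i, f i = ∑ k ∈ Finset.range 24, f (pt k) := by
  rw [← image_idx, Finset.sum_image (fun a _ b _ h => idx_injective h)]
  exact Finset.sum_congr rfl (fun i _ => by rw [pt_idx])

/-- The inner product of the vectors with given codes. -/
def dotZ (a b : ℕ) : ℤ :=
  Int.add (Int.sub (Int.sub (Int.ofNat (sumTo 24 (fun k => Nat.mul (dg a k) (dg b k))))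
    (Int.mul 16 (Int.ofNat (sumTo 24 (fun k => dg a k)))))
    (Int.mul 16 (Int.ofNat (sumTo 24 (fun k => dg b k))))) 6144

theorem dot_vecN (a b : ℕ) : dotInt (vecN a) (vecN b) = dotZ a b := by
  have h : ∀ k ∈ Finset.range 24, vecN a (pt k) * vecN b (pt k) =
      ((dg a k : ℤ) * (dg b k : ℤ) - 16 * (dg a k : ℤ) - 16 * (dg b k : ℤ)) + 256 := by
    intro k hk
    rw [vecN_pt a k (Finset.mem_range.mp hk), vecN_pt b k (Finset.mem_range.mp hk)]
    ring
  have e : dotZ a b = ((sumTo 24 (fun k => dg a k * dg b k) : ℕ) : ℤ) -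
      16 * ((sumTo 24 (fun k => dg a k) : ℕ) : ℤ) -
      16 * ((sumTo 24 (fun k => dg b k) : ℕ) : ℤ) + 6144 := rfl
  rw [e]
  unfold dotInt
  rw [sum_pt, Finset.sum_congr rfl h, sumTo_eq, sumTo_eq, sumTo_eq, Finset.sum_add_distrib,
    Finset.sum_sub_distrib, Finset.sum_sub_distrib, ← Finset.mul_sum, ← Finset.mul_sum]
  push_cast
  simp

theorem dotZ_iff (a b : ℕ) (c : ℤ) :
    decide (dotZ a b = c) = true ↔ dotInt (vecN a) (vecN b) = c := by
  rw [decide_eq_true_iff, dot_vecN]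

/-! ### Splitting the check of a certificate -/

theorem certOK_append (gens : List (List Mv)) (X C : ℕ → ℕ) (n : ℕ) :
    ∀ (l1 l2 : List ℕ) (k0 k1 : ℕ), k1 = k0 + l1.length →
      certOK gens X C n k0 l1 = true → certOK gens X C n k1 l2 = true →
      certOK gens X C n k0 (l1 ++ l2) = true
  | [], l2, k0, k1, hk, _, h2 => by
    rw [List.length_nil, Nat.add_zero] at hk
    rw [List.nil_append, ← hk]
    exact h2
  | e :: es, l2, k0, k1, hk, h1, h2 => by
    rw [List.cons_append]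
    simp only [certOK, Bool.and_eq_true] at h1 ⊢
    refine ⟨h1.1, certOK_append gens X C n es l2 (k0 + 1) k1 ?_ h1.2 h2⟩
    rw [hk, List.length_cons]
    omega

end Cfsg.Agent.Lib.Helper11.LeechOrb
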