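import Mathlib
import Cfsg.Agent.Lib.Helper11.LeechOrb5

set_option autoImplicit false

namespace Cfsg.Agent.Lib.Helper11.LeechOrb

open Cfsg Cfsg.Agent.Lib.Helper3.Golay Cfsg.Agent.Lib.Helper3.Golay2
open Cfsg.Agent.Lib.Helper3.Leech Cfsg.Agent.Lib.Helper3.Leech2 Cfsg.Agent.Lib.Helper3.Leech4
open Cfsg.Agent.Lib.Helper3.GolayM24 Cfsg.Agent.Lib.Helper3.M24Perm
open Cfsg.Agent.Lib.Helper11.LeechGF Cfsg.Agent.Lib.Helper11.Co0Mono
open Cfsg.Agent.Lib.Helper11.LeechIP Cfsg.Agent.Lib.Helper11.LeechXi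
open Cfsg.Agent.Lib.Helper11.LeechCo1

/-! ### Codes below `32 ^ 24` are determined by their vectors -/

theorem fold_inj : ∀ (n : ℕ) (d d' : ℕ → ℕ), (∀ i < n, d i < 64) → (∀ i < n, d' i < 64) →
    (List.range n).foldl (fun a i => 64 * a + d i) 0 =
      (List.range n).foldl (fun a i => 64 * a + d' i) 0 → ∀ i < n, d i = d' i
  | 0, _, _, _, _, _ => fun i hi => absurd hi (Nat.not_lt_zero i)
  | n + 1, d, d', hd, hd', h => by
    rw [List.range_succ, List.foldl_append, List.foldl_append] at h
    simp only [List.foldl_cons, List.foldl_nil] at h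
    have h1 := hd n (Nat.lt_succ_self n)
    have h2 := hd' n (Nat.lt_succ_self n)
    have e1 : (List.range n).foldl (fun a i => 64 * a + d i) 0 =
        (List.range n).foldl (fun a i => 64 * a + d' i) 0 := by omega
    have e2 : d n = d' n := by omega
    have ih := fold_inj n d d' (fun i hi => hd i (Nat.lt_succ_of_lt hi))
      (fun i hi => hd' i (Nat.lt_succ_of_lt hi)) e1
    intro i hi
    rcases Nat.lt_succ_iff_lt_or_eq.mp hi with hlt | rfl
    · exact ih i hlt
    · exact e2

theorem dg_lt (L k : ℕ) : dg L k < 32 := Nat.mod_lt _ (by norm_num)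

theorem eq_of_dg (L L' : ℕ) (hL : L < 32 ^ 24) (hL' : L' < 32 ^ 24)
    (h : ∀ k < 24, dg L k = dg L' k) : L = L' := by
  have key : ∀ k, k ≤ 24 → L % 32 ^ k = L' % 32 ^ k := by
    intro k
    induction k with
    | zero => intro _; rw [pow_zero, Nat.mod_one, Nat.mod_one]
    | succ k ih =>
      intro hk
      have hd : L / 32 ^ k % 32 = L' / 32 ^ k % 32 := h k (by omega)
      rw [Nat.mod_pow_succ, Nat.mod_pow_succ, ih (by omega), hd]
  have := key 24 (le_refl 24)
  rwa [Nat.mod_eq_of_lt hL, Nat.mod_eq_of_lt hL'] at this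

theorem code_inj (L L' : ℕ) (hL : L < 32 ^ 24) (hL' : L' < 32 ^ 24)
    (h : codeF (vecN L) = codeF (vecN L')) : L = L' := by
  have val : ∀ (M i : ℕ), i < 24 → (vecN M (pt i) + 32).toNat = dg M i + 16 := by
    intro M i hi
    rw [vecN_pt M i hi]
    have : (dg M i : ℤ) - 16 + 32 = ((dg M i + 16 : ℕ) : ℤ) := by push_cast; ring
    rw [this, Int.toNat_natCast]
  have hb : ∀ (M i : ℕ), i < 24 → (vecN M (pt i) + 32).toNat < 64 := by
    intro M i hi
    rw [val M i hi]
    have := dg_lt M i
    omega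
  have hdig := fold_inj 24 (fun i => (vecN L (pt i) + 32).toNat)
    (fun i => (vecN L' (pt i) + 32).toNat) (hb L) (hb L') h
  apply eq_of_dg L L' hL hL'
  intro k hk
  have := hdig k hk
  rw [val L k hk, val L' k hk] at this
  omega

/-- A strictly increasing list of codes below `32 ^ 24` lists different vectors. -/
theorem nodup_of_incr (Xs : List ℕ)
    (hb : Xs.all (fun L => decide (L < 1329227995784915872903807060280344576)) = true)
    (hi : incr Xs = true) : (Xs.map (fun L => codeF (vecN L))).Nodup := by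
  rw [List.all_eq_true] at hb
  have hpow : (32 : ℕ) ^ 24 = 1329227995784915872903807060280344576 := by norm_num
  apply List.Nodup.map_on _ (incr_nodup Xs hi)
  intro x hx y hy e
  have hx' := hb x hx
  have hy' := hb y hy
  rw [decide_eq_true_eq] at hx' hy'
  exact code_inj x y (by rw [hpow]; exact hx') (by rw [hpow]; exact hy') e

end Cfsg.Agent.Lib.Helper11.LeechOrb
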