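import Mathlib
import Cfsg.Agent.Lib.Helper11.LeechOrb6
import Cfsg.Agent.Lib.Helper11.LeechMcL4
import Cfsg.Agent.Lib.Helper11.PrimSimple2
import Cfsg.Agent.Lib.Helper11.LeechCo2DataH

set_option autoImplicit false

namespace Cfsg.Agent.Lib.Helper11.LeechCo2

open Cfsg Cfsg.Agent.Lib.Helper3.Golay Cfsg.Agent.Lib.Helper3.Golay2
open Cfsg.Agent.Lib.Helper3.Leech Cfsg.Agent.Lib.Helper3.Leech2 Cfsg.Agent.Lib.Helper3.Leech4
open Cfsg.Agent.Lib.Helper3.GolayM24 Cfsg.Agent.Lib.Helper3.M24Perm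
open Cfsg.Agent.Lib.Helper11.LeechGF Cfsg.Agent.Lib.Helper11.Co0Mono
open Cfsg.Agent.Lib.Helper11.LeechIP Cfsg.Agent.Lib.Helper11.LeechXi
open Cfsg.Agent.Lib.Helper11.LeechSt
open Cfsg.Agent.Lib.Helper11.LeechCo1 Cfsg.Agent.Lib.Helper11.LeechOrb
open Cfsg.Agent.Lib.Helper11.LeechMcLData Cfsg.Agent.Lib.Helper11.LeechCo2Data
open Cfsg.Agent.Lib.Helper11.LeechMcL Cfsg.Agent.Lib.Helper11.PrimSimple2

/-! ### The `47104` vectors -/

theorem vs_norm : sqNorm (vs : GolayPt → ℤ) = 32 := frame_num.2.1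

theorem ws_code : (ws : GolayPt → ℤ) = vecN Lws := by
  rw [ws_val]
  funext j
  exact (Lws_eq j).symm

theorem vs_ws : dotInt (vs : GolayPt → ℤ) (ws : GolayPt → ℤ) = -8 := by
  rw [ws_code]
  exact Lws_num.2

theorem ws_dot : dotInt (ws : GolayPt → ℤ) (ws : GolayPt → ℤ) = 32 := by
  rw [dot_self]
  exact ws_norm

/-- The minimal vectors with inner product `-8` with the standard minimal vector. -/
def WC : Set ↥leechLattice :=
  {x | sqNorm (x : GolayPt → ℤ) = 32 ∧ dotInt (vs : GolayPt → ℤ) (x : GolayPt → ℤ) = -8}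

theorem WC_card : WC.ncard = 47104 := by
  have h := (Cfsg.Agent.S1573.result (vs : GolayPt → ℤ) vs.2 vs_norm).2.1
  rw [← h, ← Set.ncard_image_of_injective WC Subtype.val_injective]
  congr 1
  ext f
  constructor
  · rintro ⟨x, ⟨h1, h2⟩, rfl⟩
    exact ⟨x.2, h1, h2⟩
  · rintro ⟨hf, h1, h2⟩
    exact ⟨⟨f, hf⟩, ⟨h1, h2⟩, rfl⟩

theorem ws_mem : ws ∈ WC := ⟨ws_norm, vs_ws⟩

theorem Hs_WC (g : ↥Co0) (hg : g ∈ Hs) (z : ↥leechLattice) (hz : z ∈ WC) : g.1 z ∈ WC := by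
  refine ⟨by rw [g.2.2]; exact hz.1, ?_⟩
  have := dot_co0 g.2 vs z
  rw [(mem_Hs.mp hg).2] at this
  rw [this]
  exact hz.2

theorem mem_Hs_of (g : ↥Co0) (h1 : g.1 vs = vs) (h2 : g.1 ws = ws) : g ∈ Hs := by
  refine mem_Hs.mpr ⟨?_, h1⟩
  have e : us = ws + vs := (sub_add_cancel us vs).symm
  rw [e, g.2.1, h2, h1]

def r16 : ↥leechLattice := ⟨vecN Lr16, Lr16_mem⟩

def r8 : ↥leechLattice := ⟨vecN Lr8, Lr8_mem⟩

def r0 : ↥leechLattice := ⟨vecN Lr0, Lr0_mem⟩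

def rm8 : ↥leechLattice := ⟨vecN Lrm8, Lrm8_mem⟩

def rm16 : ↥leechLattice := ⟨vecN Lrm16, Lrm16_mem⟩

theorem r16_mem : r16 ∈ WC := ⟨Lr16_num.1, Lr16_num.2.1⟩

theorem r8_mem : r8 ∈ WC := ⟨Lr8_num.1, Lr8_num.2.1⟩

theorem r0_mem : r0 ∈ WC := ⟨Lr0_num.1, Lr0_num.2.1⟩

theorem rm8_mem : rm8 ∈ WC := ⟨Lrm8_num.1, Lrm8_num.2.1⟩

theorem rm16_mem : rm16 ∈ WC := ⟨Lrm16_num.1, Lrm16_num.2.1⟩

theorem r16_dot : dotInt (ws : GolayPt → ℤ) (r16 : GolayPt → ℤ) = 16 := by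
  rw [ws_code]; exact Lr16_num.2.2

theorem r8_dot : dotInt (ws : GolayPt → ℤ) (r8 : GolayPt → ℤ) = 8 := by
  rw [ws_code]; exact Lr8_num.2.2

theorem r0_dot : dotInt (ws : GolayPt → ℤ) (r0 : GolayPt → ℤ) = 0 := by
  rw [ws_code]; exact Lr0_num.2.2

theorem rm8_dot : dotInt (ws : GolayPt → ℤ) (rm8 : GolayPt → ℤ) = -8 := by
  rw [ws_code]; exact Lrm8_num.2.2

theorem rm16_dot : dotInt (ws : GolayPt → ℤ) (rm16 : GolayPt → ℤ) = -16 := by
  rw [ws_code]; exact Lrm16_num.2.2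

/-- The roots of the certificate. -/
def RC : Set ↥leechLattice := {ws, r16, r8, r0, rm8, rm16}

theorem RC_sub : ∀ y ∈ RC, y ∈ WC := by
  intro y hy
  rcases hy with rfl | rfl | rfl | rfl | rfl | rfl
  · exact ws_mem
  · exact r16_mem
  · exact r8_mem
  · exact r0_mem
  · exact rm8_mem
  · exact rm16_mem

theorem orbC : ∀ L ∈ Cs, ∃ y ∈ RC, ∃ g ∈ Hs,
    (((g : ↥Co0).1 y : ↥leechLattice) : GolayPt → ℤ) = vecN L := by
  intro L hL
  obtain ⟨k, hk, e⟩ := exists_getD Cs L hL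
  rw [Cs_length] at hk
  obtain ⟨y, hy, g, hg, eg⟩ := cert_orbit Hs LeechMcLData.gens
    (fun w hw => (gens_facts w hw).1)
    (fun w hw => (gens_facts w hw).2) (acc XXC) (acc CCC) 47104 Cs Cs_length certC_ok RC
    (fun k hk h0 => by
      have h1 := rootOK_spec (acc XXC) (acc CCC) 47104 [Lws, Lr16, Lr8, Lr0, Lrm8, Lrm16]
        rootC_ok k hk h0
      rw [certOK_X LeechMcLData.gens (acc XXC) (acc CCC) 47104 Cs certC_ok k
        (by rw [Cs_length]; exact hk)] at h1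
      simp only [List.mem_cons, List.not_mem_nil, or_false] at h1
      rcases h1 with h1 | h1 | h1 | h1 | h1 | h1
      · exact ⟨ws, Or.inl rfl, by rw [h1]; exact ws_code⟩
      · exact ⟨r16, Or.inr (Or.inl rfl), by rw [h1]; rfl⟩
      · exact ⟨r8, Or.inr (Or.inr (Or.inl rfl)), by rw [h1]; rfl⟩
      · exact ⟨r0, Or.inr (Or.inr (Or.inr (Or.inl rfl))), by rw [h1]; rfl⟩
      · exact ⟨rm8, Or.inr (Or.inr (Or.inr (Or.inr (Or.inl rfl)))), by rw [h1]; rfl⟩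
      · exact ⟨rm16, Or.inr (Or.inr (Or.inr (Or.inr (Or.inr rfl)))), by rw [h1]; rfl⟩) k hk
  exact ⟨y, hy, g, hg, by rw [eg, e]⟩

theorem hmemC : ∀ L ∈ Cs, ∃ z ∈ WC, (z : GolayPt → ℤ) = vecN L := by
  intro L hL
  obtain ⟨y, hy, g, hg, e⟩ := orbC L hL
  exact ⟨g.1 y, Hs_WC g hg y (RC_sub y hy), e⟩

theorem Cs_nodup : (Cs.map (fun L => codeF (vecN L))).Nodup := nodup_of_incr Cs Cs_bound Cs_incr

theorem coverC : ∀ z ∈ WC, ∃ L ∈ Cs, (z : GolayPt → ℤ) = vecN L :=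
  cover_list WC Cs (by rw [WC_card, Cs_length]) (by rw [Cs_length]; norm_num)
    hmemC Cs_nodup

/-- The vectors at a given inner product with the base vector. -/
def CL (c : ℤ) : Set ↥leechLattice :=
  {y | y ∈ WC ∧ dotInt (ws : GolayPt → ℤ) (y : GolayPt → ℤ) = c}

theorem CL_count (c : ℤ) : (CL c).ncard =
    (Cs.filter (fun L => decide (dotZ Lws L = c))).length := by
  have h := count_list WC Cs coverC hmemC Cs_nodup
    (fun L => decide (dotZ Lws L = c)) (fun f => dotInt (vecN Lws) f = c)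
    (fun L _ => dotZ_iff Lws L c)
  have hset : CL c =
      {z : ↥leechLattice | z ∈ WC ∧ dotInt (vecN Lws) (z : GolayPt → ℤ) = c} := by
    ext z
    show (z ∈ WC ∧ dotInt (ws : GolayPt → ℤ) (z : GolayPt → ℤ) = c) ↔
      (z ∈ WC ∧ dotInt (vecN Lws) (z : GolayPt → ℤ) = c)
    rw [ws_code]
  rw [hset]
  exact h

theorem CL16_card : (CL 16).ncard = 2025 := (CL_count 16).trans cntC16

theorem CL8_card : (CL 8).ncard = 15400 := (CL_count 8).trans cntC8

theorem CL0_card : (CL 0).ncard = 22275 := (CL_count 0).trans cntC0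

theorem CLm8_card : (CL (-8)).ncard = 7128 := (CL_count (-8)).trans cntCm8

theorem CLm16_card : (CL (-16)).ncard = 275 := (CL_count (-16)).trans cntCm16

theorem CL_orb (c : ℤ) (z : ↥leechLattice) (hz : z ∈ CL c) :
    ∃ y ∈ RC, dotInt (ws : GolayPt → ℤ) (y : GolayPt → ℤ) = c ∧
      ∃ g ∈ Hs, (g : ↥Co0).1 y = z := by
  obtain ⟨L, hL, e⟩ := coverC z hz.1
  obtain ⟨y, hy, g, hg, eg⟩ := orbC L hL
  have hgy : g.1 y = z := Subtype.ext (eg.trans e.symm)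
  refine ⟨y, hy, ?_, g, hg, hgy⟩
  have := dot_co0 g.2 ws y
  rw [Hs_ws g hg, hgy] at this
  rw [← this]
  exact hz.2

theorem casesC (z : ↥leechLattice) (hz : z ∈ WC) :
    z = ws ∨ dotInt (ws : GolayPt → ℤ) (z : GolayPt → ℤ) = 16 ∨
    dotInt (ws : GolayPt → ℤ) (z : GolayPt → ℤ) = 8 ∨
    dotInt (ws : GolayPt → ℤ) (z : GolayPt → ℤ) = 0 ∨
    dotInt (ws : GolayPt → ℤ) (z : GolayPt → ℤ) = -8 ∨
    dotInt (ws : GolayPt → ℤ) (z : GolayPt → ℤ) = -16 := by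
  obtain ⟨L, hL, e⟩ := coverC z hz
  obtain ⟨y, hy, g, hg, eg⟩ := orbC L hL
  have hgy : g.1 y = z := Subtype.ext (eg.trans e.symm)
  have hd : dotInt (ws : GolayPt → ℤ) (z : GolayPt → ℤ) =
      dotInt (ws : GolayPt → ℤ) (y : GolayPt → ℤ) := by
    have := dot_co0 g.2 ws y
    rw [Hs_ws g hg, hgy] at this
    exact this
  rw [hd]
  rcases hy with rfl | rfl | rfl | rfl | rfl | rfl
  · left
    rw [← hgy]
    exact Hs_ws g hg
  · exact Or.inr (Or.inl r16_dot)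
  · exact Or.inr (Or.inr (Or.inl r8_dot))
  · exact Or.inr (Or.inr (Or.inr (Or.inl r0_dot)))
  · exact Or.inr (Or.inr (Or.inr (Or.inr (Or.inl rm8_dot))))
  · exact Or.inr (Or.inr (Or.inr (Or.inr (Or.inr rm16_dot))))

theorem CL_trans (c : ℤ) (yc : ↥leechLattice)
    (huniq : ∀ y ∈ RC, dotInt (ws : GolayPt → ℤ) (y : GolayPt → ℤ) = c → y = yc) :
    ∀ z ∈ CL c, ∀ z' ∈ CL c, ∃ g ∈ Hs, (g : ↥Co0).1 z = z' := by
  intro z hz z' hz'
  obtain ⟨y, hy, hd, g, hg, e⟩ := CL_orb c z hz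
  obtain ⟨y', hy', hd', g', hg', e'⟩ := CL_orb c z' hz'
  rw [huniq y hy hd] at e
  rw [huniq y' hy' hd'] at e'
  refine ⟨g' * g⁻¹, Hs.mul_mem hg' (Hs.inv_mem hg), ?_⟩
  show g'.1 (g.1⁻¹ z) = z'
  rw [← e, show g.1⁻¹ (g.1 yc) = yc from Equiv.symm_apply_apply g.1 yc]
  exact e'

theorem tr16 : ∀ z ∈ CL 16, ∀ z' ∈ CL 16, ∃ g ∈ Hs, (g : ↥Co0).1 z = z' := by
  apply CL_trans 16 r16
  intro y hy hd
  rcases hy with rfl | rfl | rfl | rfl | rfl | rfl
  · rw [ws_dot] at hd; norm_num at hd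
  · rfl
  · rw [r8_dot] at hd; norm_num at hd
  · rw [r0_dot] at hd; norm_num at hd
  · rw [rm8_dot] at hd; norm_num at hd
  · rw [rm16_dot] at hd; norm_num at hd

theorem tr8 : ∀ z ∈ CL 8, ∀ z' ∈ CL 8, ∃ g ∈ Hs, (g : ↥Co0).1 z = z' := by
  apply CL_trans 8 r8
  intro y hy hd
  rcases hy with rfl | rfl | rfl | rfl | rfl | rfl
  · rw [ws_dot] at hd; norm_num at hd
  · rw [r16_dot] at hd; norm_num at hd
  · rfl
  · rw [r0_dot] at hd; norm_num at hd
  · rw [rm8_dot] at hd; norm_num at hd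
  · rw [rm16_dot] at hd; norm_num at hd

theorem tr0 : ∀ z ∈ CL 0, ∀ z' ∈ CL 0, ∃ g ∈ Hs, (g : ↥Co0).1 z = z' := by
  apply CL_trans 0 r0
  intro y hy hd
  rcases hy with rfl | rfl | rfl | rfl | rfl | rfl
  · rw [ws_dot] at hd; norm_num at hd
  · rw [r16_dot] at hd; norm_num at hd
  · rw [r8_dot] at hd; norm_num at hd
  · rfl
  · rw [rm8_dot] at hd; norm_num at hd
  · rw [rm16_dot] at hd; norm_num at hd

theorem trm8 : ∀ z ∈ CL (-8), ∀ z' ∈ CL (-8), ∃ g ∈ Hs, (g : ↥Co0).1 z = z' := by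
  apply CL_trans (-8) rm8
  intro y hy hd
  rcases hy with rfl | rfl | rfl | rfl | rfl | rfl
  · rw [ws_dot] at hd; norm_num at hd
  · rw [r16_dot] at hd; norm_num at hd
  · rw [r8_dot] at hd; norm_num at hd
  · rw [r0_dot] at hd; norm_num at hd
  · rfl
  · rw [rm16_dot] at hd; norm_num at hd

theorem trm16 : ∀ z ∈ CL (-16), ∀ z' ∈ CL (-16), ∃ g ∈ Hs, (g : ↥Co0).1 z = z' := by
  apply CL_trans (-16) rm16
  intro y hy hd
  rcases hy with rfl | rfl | rfl | rfl | rfl | rfl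
  · rw [ws_dot] at hd; norm_num at hd
  · rw [r16_dot] at hd; norm_num at hd
  · rw [r8_dot] at hd; norm_num at hd
  · rw [r0_dot] at hd; norm_num at hd
  · rw [rm8_dot] at hd; norm_num at hd
  · rfl

/-! ### Invariant sets -/

theorem sqNorm_zero {f : GolayPt → ℤ} (h : sqNorm f = 0) : f = 0 := by
  unfold sqNorm at h
  funext i
  have := (Finset.sum_eq_zero_iff_of_nonneg (fun j _ => sq_nonneg (f j))).mp h i
    (Finset.mem_univ i)
  exact pow_eq_zero_iff (two_ne_zero) |>.mp this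

theorem eq_of_dot (x z : ↥leechLattice) (hx : sqNorm (x : GolayPt → ℤ) = 32)
    (hz : sqNorm (z : GolayPt → ℤ) = 32)
    (h : dotInt (x : GolayPt → ℤ) (z : GolayPt → ℤ) = 32) : z = x := by
  have h0 : sqNorm ((x : GolayPt → ℤ) - (z : GolayPt → ℤ)) = 0 := by
    rw [sqNorm_sub', hx, hz, h]; norm_num
  have := sqNorm_zero h0
  apply Subtype.ext
  exact (sub_eq_zero.mp this).symm

theorem lev_card (B : Set ↥leechLattice) (hBsub : B ⊆ WC)
    (hinv : ∀ g ∈ Hs, ∀ b ∈ B, (g : ↥Co0).1 b ∈ B) (hBfin : B.Finite) (c : ℤ) (n : ℕ)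
    (hn : (CL c).ncard = n)
    (tr : ∀ z ∈ CL c, ∀ z' ∈ CL c, ∃ g ∈ Hs, (g : ↥Co0).1 z = z') :
    (hBfin.toFinset.filter (fun z : ↥leechLattice =>
      dotInt (ws : GolayPt → ℤ) (z : GolayPt → ℤ) = c)).card = 0 ∨
    (hBfin.toFinset.filter (fun z : ↥leechLattice =>
      dotInt (ws : GolayPt → ℤ) (z : GolayPt → ℤ) = c)).card = n := by
  by_cases h : ∃ z ∈ B, dotInt (ws : GolayPt → ℤ) (z : GolayPt → ℤ) = c
  · right
    obtain ⟨z0, hz0B, hz0⟩ := h
    rw [← hn, ← Set.ncard_coe_finset]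
    congr 1
    ext z
    rw [Finset.mem_coe, Finset.mem_filter, Set.Finite.mem_toFinset]
    constructor
    · rintro ⟨hz, hc⟩
      exact ⟨hBsub hz, hc⟩
    · rintro ⟨hz, hc⟩
      obtain ⟨g, hg, e⟩ := tr z0 ⟨hBsub hz0B, hz0⟩ z ⟨hz, hc⟩
      have := hinv g hg z0 hz0B
      rw [e] at this
      exact ⟨this, hc⟩
  · left
    rw [Finset.card_eq_zero, Finset.filter_eq_empty_iff]
    intro z hz hc
    rw [Set.Finite.mem_toFinset] at hz
    exact h ⟨z, hz, hc⟩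

/-- The possible cardinalities of the sets invariant under the stabiliser of the frame. -/
theorem inv_sizes (B : Set ↥leechLattice) (hxB : ws ∈ B) (hBsub : B ⊆ WC)
    (hinv : ∀ g ∈ Hs, ∀ b ∈ B, (g : ↥Co0).1 b ∈ B) :
    ∃ a b c d e : ℕ, B.ncard = 1 + (a + (b + (c + (d + e)))) ∧ (a = 0 ∨ a = 2025) ∧
      (b = 0 ∨ b = 15400) ∧ (c = 0 ∨ c = 22275) ∧ (d = 0 ∨ d = 7128) ∧ (e = 0 ∨ e = 275) := by
  have hWfin : WC.Finite := Set.finite_of_ncard_ne_zero (by rw [WC_card]; norm_num)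
  have hBfin : B.Finite := hWfin.subset hBsub
  have hsum := Finset.card_eq_sum_card_fiberwise (s := hBfin.toFinset)
    (t := ({32, 16, 8, 0, -8, -16} : Finset ℤ))
    (f := fun z : ↥leechLattice => dotInt (ws : GolayPt → ℤ) (z : GolayPt → ℤ))
    (by
      intro z hz
      rw [Finset.mem_coe, Set.Finite.mem_toFinset] at hz
      rw [Finset.mem_coe]
      rcases casesC z (hBsub hz) with rfl | h | h | h | h | h
      · simp [ws_dot]
      · simp [h]
      · simp [h]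
      · simp [h]
      · simp [h]
      · simp [h])
  rw [Finset.sum_insert (by decide), Finset.sum_insert (by decide), Finset.sum_insert (by decide),
    Finset.sum_insert (by decide), Finset.sum_insert (by decide), Finset.sum_singleton,
    ← Set.ncard_eq_toFinset_card B hBfin] at hsum
  have h32 : (hBfin.toFinset.filter (fun z : ↥leechLattice =>
      dotInt (ws : GolayPt → ℤ) (z : GolayPt → ℤ) = 32)).card = 1 := by
    rw [Finset.card_eq_one]
    refine ⟨ws, ?_⟩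
    ext z
    rw [Finset.mem_filter, Set.Finite.mem_toFinset, Finset.mem_singleton]
    constructor
    · rintro ⟨hz, h⟩
      exact eq_of_dot ws z ws_norm (hBsub hz).1 h
    · rintro rfl
      exact ⟨hxB, ws_dot⟩
  rw [h32] at hsum
  exact ⟨_, _, _, _, _, hsum, lev_card B hBsub hinv hBfin 16 2025 CL16_card tr16,
    lev_card B hBsub hinv hBfin 8 15400 CL8_card tr8,
    lev_card B hBsub hinv hBfin 0 22275 CL0_card tr0,
    lev_card B hBsub hinv hBfin (-8) 7128 CLm8_card trm8,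
    lev_card B hBsub hinv hBfin (-16) 275 CLm16_card trm16⟩

/-! ### The second Conway group -/

theorem orbit_eq_WC : MulAction.orbit ↥(MulAction.stabilizer ↥Co0 vs) ws = WC := by
  ext z
  constructor
  · rintro ⟨k, rfl⟩
    have h1 : k.1.1 vs = vs := MulAction.mem_stabilizer_iff.mp k.2
    refine ⟨?_, ?_⟩
    · show sqNorm ((k.1.1 ws : ↥leechLattice) : GolayPt → ℤ) = 32
      rw [k.1.2.2]
      exact ws_norm
    · show dotInt (vs : GolayPt → ℤ) ((k.1.1 ws : ↥leechLattice) : GolayPt → ℤ) = -8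
      have := dot_co0 k.1.2 vs ws
      rw [h1] at this
      rw [this]
      exact vs_ws
  · intro hz
    obtain ⟨g, hg, e1, e2⟩ := pairT (-8) (Or.inr (Or.inr (Or.inl rfl))) vs ws vs z vs_norm ws_norm
      vs_norm hz.1 vs_ws hz.2
    exact ⟨⟨⟨g, hg⟩, MulAction.mem_stabilizer_iff.mpr e1⟩, e2⟩

theorem stabG_eq (u x : ↥leechLattice) :
    MulAction.stabilizer ↥(MulAction.stabilizer ↥Co0 u) x =
      (MulAction.stabilizer ↥Co0 u ⊓ MulAction.stabilizer ↥Co0 x).subgroupOf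
        (MulAction.stabilizer ↥Co0 u) := by
  ext k
  rw [Subgroup.mem_subgroupOf, MulAction.mem_stabilizer_iff, Subgroup.mem_inf,
    MulAction.mem_stabilizer_iff, MulAction.mem_stabilizer_iff]
  constructor
  · intro h
    exact ⟨k.2, h⟩
  · rintro ⟨-, h⟩
    exact h

theorem stab_isMcL :
    IsSimpleGroup ↥(MulAction.stabilizer ↥(MulAction.stabilizer ↥Co0 vs) ws) ∧
    Nat.card ↥(MulAction.stabilizer ↥(MulAction.stabilizer ↥Co0 vs) ws) = 898128000 := by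
  have h := Cfsg.Agent.Lib.Helper11.LeechMcL4.isMcL vs ws vs_norm ws_norm vs_ws
  obtain ⟨h1, h2⟩ := h
  rw [stabG_eq]
  exact ⟨(Subgroup.subgroupOfEquivOfLe inf_le_left).isSimpleGroup,
    (Nat.card_congr (Subgroup.subgroupOfEquivOfLe inf_le_left).toEquiv).trans h2⟩

theorem hmoveC : ∃ h ∈ MulAction.stabilizer ↥(MulAction.stabilizer ↥Co0 vs) ws,
    ∃ g : ↥(MulAction.stabilizer ↥Co0 vs), h • (g • ws) ≠ g • ws := by
  have hfin : (CL 16).Finite := Set.finite_of_ncard_ne_zero (by rw [CL16_card]; norm_num)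
  obtain ⟨a, ha, b, hb, hab⟩ := (Set.one_lt_ncard hfin).mp (by rw [CL16_card]; norm_num)
  obtain ⟨k, hk, e⟩ := tr16 a ha b hb
  have haO : a ∈ MulAction.orbit ↥(MulAction.stabilizer ↥Co0 vs) ws := by
    rw [orbit_eq_WC]
    exact ha.1
  obtain ⟨g, rfl⟩ := haO
  refine ⟨⟨k, MulAction.mem_stabilizer_iff.mpr (mem_Hs.mp hk).2⟩,
    MulAction.mem_stabilizer_iff.mpr (Hs_ws k hk), g, ?_⟩
  intro h
  have h' : (k : ↥Co0).1 (g • ws) = g • ws := h
  exact hab (e.symm.trans h').symm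

theorem co2_special : IsCo2 ↥(MulAction.stabilizer ↥Co0 vs) := by
  have horb := orbit_eq_WC
  obtain ⟨hs, hc⟩ := stab_isMcL
  have hcardG : Nat.card ↥(MulAction.stabilizer ↥Co0 vs) = 42305421312000 := by
    have h1 := Subgroup.card_mul_index
      (MulAction.stabilizer ↥(MulAction.stabilizer ↥Co0 vs) ws)
    rw [MulAction.index_stabilizer, horb, WC_card, hc] at h1
    rw [← h1]
  refine ⟨?_, hcardG⟩
  have : Finite ↥Co0 := finite_Co0
  have : Nontrivial ↥(MulAction.stabilizer ↥Co0 vs) :=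
    Finite.one_lt_card_iff_nontrivial.mp (by rw [hcardG]; norm_num)
  apply simple_of_sizes ws hs hmoveC
    (fun n => ∃ a b c d e : ℕ, n = 1 + (a + (b + (c + (d + e)))) ∧ (a = 0 ∨ a = 2025) ∧
      (b = 0 ∨ b = 15400) ∧ (c = 0 ∨ c = 22275) ∧ (d = 0 ∨ d = 7128) ∧ (e = 0 ∨ e = 275))
    ?_ ?_ 23 (by norm_num) (by norm_num) (by rw [horb, WC_card]; norm_num) ?_
  · intro B hxB hBsub hinv
    rw [horb] at hBsub
    exact inv_sizes B hxB hBsub (fun g hg b hb =>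
      hinv ⟨g, MulAction.mem_stabilizer_iff.mpr (mem_Hs.mp hg).2⟩
        (MulAction.mem_stabilizer_iff.mpr (Hs_ws g hg)) b hb)
  · rintro n ⟨a, b, c, d, e, rfl, ha, hb, hc', hd, he⟩ hdvd
    rw [horb, WC_card] at hdvd ⊢
    rcases ha with rfl | rfl <;> rcases hb with rfl | rfl <;> rcases hc' with rfl | rfl <;>
      rcases hd with rfl | rfl <;> rcases he with rfl | rfl <;>
      first
      | exact Or.inl rfl
      | exact Or.inr rfl
      | (exfalso; norm_num at hdvd)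
  · rintro n ⟨a, b, c, d, e, rfl, ha, hb, hc', hd, he⟩ hdvd
    rcases ha with rfl | rfl <;> rcases hb with rfl | rfl <;> rcases hc' with rfl | rfl <;>
      rcases hd with rfl | rfl <;> rcases he with rfl | rfl <;> omega

/-- **The stabiliser of a minimal vector is the second Conway group.** -/
theorem isCo2 (v : ↥leechLattice) (hv : sqNorm (v : GolayPt → ℤ) = 32) :
    IsCo2 ↥(MulAction.stabilizer ↥Co0 v) := by
  obtain ⟨g, hg, e⟩ := min_trans v vs hv vs_norm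
  have hN : IsCo2 ↥(MulAction.stabilizer ↥Co0 (g v)) := by
    rw [e]
    exact co2_special
  have E1 : MulAction.stabilizer ↥Co0 (g v) = (MulAction.stabilizer ↥Co0 v).map
      (MulAut.conj (⟨g, hg⟩ : ↥Co0)).toMonoidHom :=
    MulAction.stabilizer_smul_eq_stabilizer_map_conj (⟨g, hg⟩ : ↥Co0) v
  have hs := hN.1
  exact ⟨((Subgroup.equivMapOfInjective (MulAction.stabilizer ↥Co0 v)
      (MulAut.conj (⟨g, hg⟩ : ↥Co0)).toMonoidHom
      (MulAut.conj (⟨g, hg⟩ : ↥Co0)).injective).trans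
      (MulEquiv.subgroupCongr E1.symm)).isSimpleGroup, by
    rw [Nat.card_congr ((Subgroup.equivMapOfInjective (MulAction.stabilizer ↥Co0 v)
      (MulAut.conj (⟨g, hg⟩ : ↥Co0)).toMonoidHom
      (MulAut.conj (⟨g, hg⟩ : ↥Co0)).injective).trans
      (MulEquiv.subgroupCongr E1.symm)).toEquiv]
    exact hN.2⟩

end Cfsg.Agent.Lib.Helper11.LeechCo2
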