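import Mathlib
import Cfsg.Agent.Lib.Helper11.LeechCo3

set_option autoImplicit false

namespace Cfsg.Agent.Lib.Helper11.LeechXi

open Cfsg Cfsg.Agent.Lib.Helper3.Golay Cfsg.Agent.Lib.Helper3.Golay2
open Cfsg.Agent.Lib.Helper3.Leech Cfsg.Agent.Lib.Helper3.Leech2
open Cfsg.Agent.Lib.Helper3.M24Perm
open Cfsg.Agent.Lib.Helper11.LeechGF Cfsg.Agent.Lib.Helper11.Co0Mono
open Cfsg.Agent.Lib.Helper11.LeechIP

set_option maxRecDepth 100000 in
theorem numE : ∑ y ∈ YD, (if cntS 340831 y = 0 then 0 else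
    cntS 340831 y * gS (pc 340831) (mkr 1 8) (mkr 0 0) 193 32 {88} y.1 y.2) = 11178 := by
  decide +kernel

theorem cntE : (ipSet VD (-16)).ncard = 11178 := by
  unfold VD
  rw [ip_count 340831 12 pcD 1 1 8 0 0 0 (by norm_num) (by norm_num) (by norm_num) (by norm_num)
    2 (by norm_num) 193 (by norm_num) (-16) 88 (by norm_num) (by norm_num) YD
    (hY_of_all _ _ hYD)]
  exact numE

/-- A vector of norm `48` has inner product `-16` with exactly `11178` minimal vectors. -/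
theorem ipm16_count (u : ↥leechLattice) (hu : sqNorm (u : GolayPt → ℤ) = 48) :
    (ipSet (u : GolayPt → ℤ) (-16)).ncard = 11178 := by
  obtain ⟨g, hg, hgu⟩ := t6_trans u ⟨VD, VD_mem⟩ hu sqNorm_VD
  have h1 := ipSet_co0 hg u (-16)
  rw [hgu] at h1
  rw [← h1]
  exact cntE

theorem count11178 (u : ↥leechLattice) (hu : sqNorm (u : GolayPt → ℤ) = 48) :
    {x : ↥leechLattice | sqNorm (x : GolayPt → ℤ) = 32 ∧
      dotInt (u : GolayPt → ℤ) (x : GolayPt → ℤ) = -16}.ncard = 11178 := by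
  rw [← ipm16_count u hu]
  have himg : Subtype.val '' {x : ↥leechLattice | sqNorm (x : GolayPt → ℤ) = 32 ∧
      dotInt (u : GolayPt → ℤ) (x : GolayPt → ℤ) = -16} = ipSet (u : GolayPt → ℤ) (-16) := by
    ext w
    constructor
    · rintro ⟨v, ⟨hv1, hv2⟩, rfl⟩
      exact ⟨v.2, hv1, hv2⟩
    · rintro ⟨hw, hw1, hw2⟩
      exact ⟨⟨w, hw⟩, ⟨hw1, hw2⟩, rfl⟩
  rw [← himg, Set.ncard_image_of_injective _ Subtype.val_injective]

end Cfsg.Agent.Lib.Helper11.LeechXi
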