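import Mathlib
import Cfsg.Agent.Lib.Helper11.LeechOrb5
import Cfsg.Agent.Lib.Helper11.LeechMcL2
import Cfsg.Agent.Lib.Helper11.LeechCo3b
import Cfsg.Agent.Lib.Helper11.LeechSt48
import Cfsg.Agent.Lib.Helper11.LeechHS5Data

set_option autoImplicit false

namespace Cfsg.Agent.Lib.Helper11.LeechHS5

open Cfsg Cfsg.Agent.Lib.Helper3.Golay Cfsg.Agent.Lib.Helper3.Golay2
open Cfsg.Agent.Lib.Helper3.Leech Cfsg.Agent.Lib.Helper3.Leech2 Cfsg.Agent.Lib.Helper3.Leech4
open Cfsg.Agent.Lib.Helper3.GolayM24 Cfsg.Agent.Lib.Helper3.M24Perm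
open Cfsg.Agent.Lib.Helper11.LeechGF Cfsg.Agent.Lib.Helper11.Co0Mono
open Cfsg.Agent.Lib.Helper11.LeechIP Cfsg.Agent.Lib.Helper11.LeechXi
open Cfsg.Agent.Lib.Helper11.LeechSt
open Cfsg.Agent.Lib.Helper11.LeechCo1 Cfsg.Agent.Lib.Helper11.LeechOrb
open Cfsg.Agent.Lib.Helper11.LeechMcLData Cfsg.Agent.Lib.Helper11.LeechHS5Data
open Cfsg.Agent.Lib.Helper11.LeechMcL

/-- The minimal vectors with inner product `-16` with `u`. -/
def WS (u : ↥leechLattice) : Set ↥leechLattice :=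
  {x | sqNorm (x : GolayPt → ℤ) = 32 ∧ dotInt (u : GolayPt → ℤ) (x : GolayPt → ℤ) = -16}

theorem WS_map {g : Equiv.Perm ↥leechLattice} (hg : g ∈ Co0) (u x : ↥leechLattice)
    (hx : x ∈ WS u) : g x ∈ WS (g u) := by
  obtain ⟨h1, h2⟩ := hx
  exact ⟨by rw [hg.2]; exact h1, by rw [dot_co0 hg]; exact h2⟩

theorem us_norm : sqNorm (us : GolayPt → ℤ) = 48 := frame_num.1

theorem WS_card : (WS us).ncard = 11178 := count11178 us us_norm

/-- The base vector. -/
def x1s : ↥leechLattice := ⟨vecN Lx1, Lx1_mem⟩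

theorem x1s_mem : x1s ∈ WS us := ⟨x1_num.1, x1_num.2⟩

/-- The stabiliser of the standard vector of norm `48` and of the base vector. -/
def K5 : Subgroup ↥Co0 := MulAction.stabilizer ↥Co0 us ⊓ MulAction.stabilizer ↥Co0 x1s

theorem mem_K5 {g : ↥Co0} : g ∈ K5 ↔ g.1 us = us ∧ g.1 x1s = x1s := by
  rw [K5, Subgroup.mem_inf, MulAction.mem_stabilizer_iff, MulAction.mem_stabilizer_iff]
  rfl

theorem gensK_facts : ∀ w ∈ gensK, w.all Mv.ok = true ∧ elW w ∈ K5 := by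
  intro w hw
  have h := gensK_ok
  rw [List.all_eq_true] at h
  have hw' := h w hw
  simp only [Bool.and_eq_true] at hw'
  obtain ⟨⟨h1, h2⟩, h3⟩ := hw'
  refine ⟨h1, mem_K5.mpr ⟨Subtype.ext ?_, Subtype.ext ?_⟩⟩
  · rw [elW_act w h1]; exact eqV_eq h2
  · rw [elW_act w h1]; exact eqV_eq h3

theorem K5_WS (g : ↥Co0) (hg : g ∈ K5) (z : ↥leechLattice) (hz : z ∈ WS us) :
    g.1 z ∈ WS us := by
  have := WS_map g.2 us z hz
  rw [(mem_K5.mp hg).1] at this
  exact this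

def ya : ↥leechLattice := ⟨vecN La, La_mem⟩

def yb : ↥leechLattice := ⟨vecN Lb, Lb_mem⟩

def yc : ↥leechLattice := ⟨vecN Lc, Lc_mem⟩

def yd : ↥leechLattice := ⟨vecN Ld, Ld_mem⟩

theorem ya_mem : ya ∈ WS us := ⟨La_num.1, La_num.2.1⟩

theorem yb_mem : yb ∈ WS us := ⟨Lb_num.1, Lb_num.2.1⟩

theorem yc_mem : yc ∈ WS us := ⟨Lc_num.1, Lc_num.2.1⟩

theorem yd_mem : yd ∈ WS us := ⟨Ld_num.1, Ld_num.2.1⟩

theorem ya_dot : dotInt (x1s : GolayPt → ℤ) (ya : GolayPt → ℤ) = -8 := La_num.2.2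

theorem yb_dot : dotInt (x1s : GolayPt → ℤ) (yb : GolayPt → ℤ) = 16 := Lb_num.2.2

theorem yc_dot : dotInt (x1s : GolayPt → ℤ) (yc : GolayPt → ℤ) = 0 := Lc_num.2.2

theorem yd_dot : dotInt (x1s : GolayPt → ℤ) (yd : GolayPt → ℤ) = 8 := Ld_num.2.2

theorem x1s_dot : dotInt (x1s : GolayPt → ℤ) (x1s : GolayPt → ℤ) = 32 := by
  rw [dot_self]; exact x1_num.1

/-- The roots of the certificate. -/
def RW : Set ↥leechLattice := {x1s, ya, yb, yc, yd}

theorem RW_sub : ∀ y ∈ RW, y ∈ WS us := by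
  intro y hy
  rcases hy with rfl | rfl | rfl | rfl | rfl
  · exact x1s_mem
  · exact ya_mem
  · exact yb_mem
  · exact yc_mem
  · exact yd_mem

theorem orbW : ∀ L ∈ Ws, ∃ y ∈ RW, ∃ g ∈ K5,
    (((g : ↥Co0).1 y : ↥leechLattice) : GolayPt → ℤ) = vecN L := by
  intro L hL
  obtain ⟨k, hk, e⟩ := exists_getD Ws L hL
  rw [Ws_length] at hk
  obtain ⟨y, hy, g, hg, eg⟩ := cert_orbit K5 gensK (fun w hw => (gensK_facts w hw).1)
    (fun w hw => (gensK_facts w hw).2) (acc XXW) (acc CCW) 11178 Ws Ws_length certW_ok RW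
    (fun k hk h0 => by
      have h1 := rootOK_spec (acc XXW) (acc CCW) 11178 [Lx1, La, Lb, Lc, Ld] rootW_ok k hk h0
      rw [certOK_X gensK (acc XXW) (acc CCW) 11178 Ws certW_ok k (by rw [Ws_length]; exact hk)]
        at h1
      simp only [List.mem_cons, List.not_mem_nil, or_false] at h1
      rcases h1 with h1 | h1 | h1 | h1 | h1
      · exact ⟨x1s, Or.inl rfl, by rw [h1]; rfl⟩
      · exact ⟨ya, Or.inr (Or.inl rfl), by rw [h1]; rfl⟩
      · exact ⟨yb, Or.inr (Or.inr (Or.inl rfl)), by rw [h1]; rfl⟩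
      · exact ⟨yc, Or.inr (Or.inr (Or.inr (Or.inl rfl))), by rw [h1]; rfl⟩
      · exact ⟨yd, Or.inr (Or.inr (Or.inr (Or.inr rfl))), by rw [h1]; rfl⟩) k hk
  exact ⟨y, hy, g, hg, by rw [eg, e]⟩

theorem hmemW : ∀ L ∈ Ws, ∃ z ∈ WS us, (z : GolayPt → ℤ) = vecN L := by
  intro L hL
  obtain ⟨y, hy, g, hg, e⟩ := orbW L hL
  exact ⟨g.1 y, K5_WS g hg y (RW_sub y hy), e⟩

theorem Ws_nodup : (Ws.map (fun L => codeF (vecN L))).Nodup := incr_nodup _ Ws_incr

theorem coverW : ∀ z ∈ WS us, ∃ L ∈ Ws, (z : GolayPt → ℤ) = vecN L :=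
  cover_list (WS us) Ws (by rw [WS_card, Ws_length]) (by rw [Ws_length]; norm_num)
    hmemW Ws_nodup

/-- The vectors at a given inner product with the base vector. -/
def WL (c : ℤ) : Set ↥leechLattice :=
  {y | y ∈ WS us ∧ dotInt (x1s : GolayPt → ℤ) (y : GolayPt → ℤ) = c}

theorem WL_count (c : ℤ) : (WL c).ncard =
    (Ws.filter (fun L => decide (dotZ Lx1 L = c))).length :=
  count_list (WS us) Ws coverW hmemW Ws_nodup
    (fun L => decide (dotZ Lx1 L = c)) (fun f => dotInt (vecN Lx1) f = c)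
    (fun L _ => dotZ_iff Lx1 L c)

theorem WLa_card : (WL (-8)).ncard = 352 := by
  rw [WL_count]
  exact LeechHS5Data.cntA

theorem WLb_card : (WL 16).ncard = 1100 := by
  rw [WL_count]
  exact LeechHS5Data.cntB

theorem WLc_card : (WL 0).ncard = 4125 := by
  rw [WL_count]
  exact LeechHS5Data.cntC

theorem WLd_card : (WL 8).ncard = 5600 := by
  rw [WL_count]
  exact LeechHS5Data.cntD

theorem dich (z : ↥leechLattice) (hz : z ∈ WS us) :
    dotInt (x1s : GolayPt → ℤ) (z : GolayPt → ℤ) = 32 ∨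
    dotInt (x1s : GolayPt → ℤ) (z : GolayPt → ℤ) = -8 ∨
    dotInt (x1s : GolayPt → ℤ) (z : GolayPt → ℤ) = 16 ∨
    dotInt (x1s : GolayPt → ℤ) (z : GolayPt → ℤ) = 0 ∨
    dotInt (x1s : GolayPt → ℤ) (z : GolayPt → ℤ) = 8 := by
  obtain ⟨L, hL, e⟩ := coverW z hz
  have h := List.all_eq_true.mp dichW L hL
  simp only [Bool.or_eq_true, decide_eq_true_eq] at h
  have hd : dotInt (x1s : GolayPt → ℤ) (vecN L) = dotZ Lx1 L := dot_vecN Lx1 L
  rw [e, hd]
  tauto

theorem sqNorm_eq_zero {f : GolayPt → ℤ} (h : sqNorm f = 0) : f = 0 := by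
  unfold sqNorm at h
  funext i
  have := (Finset.sum_eq_zero_iff_of_nonneg (fun j _ => sq_nonneg (f j))).mp h i
    (Finset.mem_univ i)
  exact pow_eq_zero_iff (two_ne_zero) |>.mp this

theorem eq_of_dot32 (x z : ↥leechLattice) (hx : sqNorm (x : GolayPt → ℤ) = 32)
    (hz : sqNorm (z : GolayPt → ℤ) = 32)
    (h : dotInt (x : GolayPt → ℤ) (z : GolayPt → ℤ) = 32) : z = x := by
  have h0 : sqNorm ((x : GolayPt → ℤ) - (z : GolayPt → ℤ)) = 0 := by
    rw [sqNorm_sub', hx, hz, h]; norm_num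
  have := sqNorm_eq_zero h0
  apply Subtype.ext
  exact (sub_eq_zero.mp this).symm

theorem WL_orb (c : ℤ) (z : ↥leechLattice) (hz : z ∈ WL c) :
    ∃ y ∈ RW, dotInt (x1s : GolayPt → ℤ) (y : GolayPt → ℤ) = c ∧
      ∃ g ∈ K5, (g : ↥Co0).1 y = z := by
  obtain ⟨L, hL, e⟩ := coverW z hz.1
  obtain ⟨y, hy, g, hg, eg⟩ := orbW L hL
  have hgy : g.1 y = z := Subtype.ext (eg.trans e.symm)
  refine ⟨y, hy, ?_, g, hg, hgy⟩
  have := dot_co0 g.2 x1s y
  rw [(mem_K5.mp hg).2, hgy] at this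
  rw [← this]
  exact hz.2

theorem exists_frame5 (u x : ↥leechLattice) (hu : sqNorm (u : GolayPt → ℤ) = 48)
    (hx : x ∈ WS u) : ∃ g ∈ Co0, g u = us ∧ g x = x1s := by
  obtain ⟨g0, hg0, e0⟩ := t6_trans u us hu us_norm
  have h1 := WS_map hg0 u x hx
  rw [e0] at h1
  obtain ⟨h, hh, f1, f2⟩ := trans11178 us (g0 x) x1s us_norm h1.1 x1s_mem.1 h1.2 x1s_mem.2
  refine ⟨h * g0, Co0.mul_mem hh hg0, ?_, ?_⟩
  · rw [Equiv.Perm.mul_apply, e0, f1]
  · rw [Equiv.Perm.mul_apply, f2]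

/-- The orbit of the stabiliser of `u`, `x` on a transported root is a level set. -/
theorem orbit_eq (u x : ↥leechLattice) (g : Equiv.Perm ↥leechLattice) (hg : g ∈ Co0)
    (e1 : g u = us) (e2 : g x = x1s) (c : ℤ) (n : ℕ) (ys : ↥leechLattice)
    (hys : ys ∈ WL c) (hcard : (WL c).ncard = n)
    (huniq : ∀ y ∈ RW, dotInt (x1s : GolayPt → ℤ) (y : GolayPt → ℤ) = c → y = ys) :
    g⁻¹ ys ∈ WS u ∧
    MulAction.orbit ↥(MulAction.stabilizer ↥Co0 u ⊓ MulAction.stabilizer ↥Co0 x) (g⁻¹ ys) =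
      {z : ↥leechLattice | z ∈ WS u ∧ dotInt (x : GolayPt → ℤ) (z : GolayPt → ℤ) = c} ∧
    (MulAction.orbit ↥(MulAction.stabilizer ↥Co0 u ⊓ MulAction.stabilizer ↥Co0 x)
      (g⁻¹ ys)).ncard = n := by
  have hgi := Co0.inv_mem hg
  have i1 := inv_of_eq e1
  have i2 := inv_of_eq e2
  have fwd : ∀ z ∈ WS u, g z ∈ WS us := by
    intro z hz
    have := WS_map hg u z hz
    rw [e1] at this
    exact this
  have bwd : ∀ z ∈ WS us, g⁻¹ z ∈ WS u := by
    intro z hz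
    have := WS_map hgi us z hz
    rw [i1] at this
    exact this
  have dfwd : ∀ z : ↥leechLattice,
      dotInt (x1s : GolayPt → ℤ) ((g z : ↥leechLattice) : GolayPt → ℤ) =
      dotInt (x : GolayPt → ℤ) (z : GolayPt → ℤ) := by
    intro z
    have := dot_co0 hg x z
    rw [e2] at this
    exact this
  have dbwd : ∀ z : ↥leechLattice,
      dotInt (x : GolayPt → ℤ) ((g⁻¹ z : ↥leechLattice) : GolayPt → ℤ) =
      dotInt (x1s : GolayPt → ℤ) (z : GolayPt → ℤ) := by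
    intro z
    have := dot_co0 hgi x1s z
    rw [i2] at this
    exact this
  have hy : g⁻¹ ys ∈ WS u := bwd ys hys.1
  have hset : MulAction.orbit ↥(MulAction.stabilizer ↥Co0 u ⊓ MulAction.stabilizer ↥Co0 x)
      (g⁻¹ ys) =
      {z : ↥leechLattice | z ∈ WS u ∧ dotInt (x : GolayPt → ℤ) (z : GolayPt → ℤ) = c} := by
    ext z
    constructor
    · rintro ⟨k, rfl⟩
      obtain ⟨⟨k, hkC⟩, hk⟩ := k
      rw [Subgroup.mem_inf, MulAction.mem_stabilizer_iff, MulAction.mem_stabilizer_iff] at hk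
      obtain ⟨k1, k2⟩ := hk
      have k1' : k u = u := k1
      have k2' : k x = x := k2
      show k (g⁻¹ ys) ∈ WS u ∧
        dotInt (x : GolayPt → ℤ) ((k (g⁻¹ ys) : ↥leechLattice) : GolayPt → ℤ) = c
      constructor
      · have := WS_map hkC u _ hy
        rw [k1'] at this
        exact this
      · have := dot_co0 hkC x (g⁻¹ ys)
        rw [k2'] at this
        rw [this, dbwd]
        exact hys.2
    · rintro ⟨hz1, hz2⟩
      have hgz : g z ∈ WL c := ⟨fwd z hz1, by rw [dfwd]; exact hz2⟩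
      obtain ⟨y, hyR, hd, h, hh, eh⟩ := WL_orb c (g z) hgz
      rw [huniq y hyR hd] at eh
      obtain ⟨hh1, hh2⟩ := mem_K5.mp hh
      have hmem : (⟨g, hg⟩ : ↥Co0)⁻¹ * h * ⟨g, hg⟩ ∈
          MulAction.stabilizer ↥Co0 u ⊓ MulAction.stabilizer ↥Co0 x := by
        rw [Subgroup.mem_inf, MulAction.mem_stabilizer_iff, MulAction.mem_stabilizer_iff]
        refine ⟨?_, ?_⟩
        · show g⁻¹ (h.1 (g u)) = u
          rw [e1, hh1]
          exact i1
        · show g⁻¹ (h.1 (g x)) = x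
          rw [e2, hh2]
          exact i2
      refine ⟨⟨_, hmem⟩, ?_⟩
      show g⁻¹ (h.1 (g (g⁻¹ ys))) = z
      rw [show g (g⁻¹ ys) = ys from Equiv.apply_symm_apply g ys, eh]
      exact Equiv.symm_apply_apply g z
  refine ⟨hy, hset, ?_⟩
  rw [hset, ← hcard]
  apply ncard_map g
  · rintro z ⟨hz1, hz2⟩
    exact ⟨fwd z hz1, by rw [dfwd]; exact hz2⟩
  · rintro z ⟨hz1, hz2⟩
    exact ⟨bwd z hz1, by rw [dbwd]; exact hz2⟩

/-- **The rank `5` action on the `11178` vectors.** -/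
theorem co3_rank5 (u x : ↥leechLattice) (hu : sqNorm (u : GolayPt → ℤ) = 48)
    (hx : x ∈ WS u) :
    ∃ y₁ ∈ WS u, ∃ y₂ ∈ WS u, ∃ y₃ ∈ WS u, ∃ y₄ ∈ WS u,
      (MulAction.orbit ↥(MulAction.stabilizer ↥Co0 u ⊓ MulAction.stabilizer ↥Co0 x)
        y₁).ncard = 352 ∧
      (MulAction.orbit ↥(MulAction.stabilizer ↥Co0 u ⊓ MulAction.stabilizer ↥Co0 x)
        y₂).ncard = 1100 ∧
      (MulAction.orbit ↥(MulAction.stabilizer ↥Co0 u ⊓ MulAction.stabilizer ↥Co0 x)
        y₃).ncard = 4125 ∧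
      (MulAction.orbit ↥(MulAction.stabilizer ↥Co0 u ⊓ MulAction.stabilizer ↥Co0 x)
        y₄).ncard = 5600 ∧
      WS u = {x} ∪
        MulAction.orbit ↥(MulAction.stabilizer ↥Co0 u ⊓ MulAction.stabilizer ↥Co0 x) y₁ ∪
        MulAction.orbit ↥(MulAction.stabilizer ↥Co0 u ⊓ MulAction.stabilizer ↥Co0 x) y₂ ∪
        MulAction.orbit ↥(MulAction.stabilizer ↥Co0 u ⊓ MulAction.stabilizer ↥Co0 x) y₃ ∪
        MulAction.orbit ↥(MulAction.stabilizer ↥Co0 u ⊓ MulAction.stabilizer ↥Co0 x) y₄ := by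
  obtain ⟨g, hg, e1, e2⟩ := exists_frame5 u x hu hx
  obtain ⟨a1, a2, a3⟩ := orbit_eq u x g hg e1 e2 (-8) 352 ya ⟨ya_mem, ya_dot⟩ WLa_card
    (by
      intro y hy hd
      rcases hy with rfl | rfl | rfl | rfl | rfl
      · rw [x1s_dot] at hd; norm_num at hd
      · rfl
      · rw [yb_dot] at hd; norm_num at hd
      · rw [yc_dot] at hd; norm_num at hd
      · rw [yd_dot] at hd; norm_num at hd)
  obtain ⟨b1, b2, b3⟩ := orbit_eq u x g hg e1 e2 16 1100 yb ⟨yb_mem, yb_dot⟩ WLb_card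
    (by
      intro y hy hd
      rcases hy with rfl | rfl | rfl | rfl | rfl
      · rw [x1s_dot] at hd; norm_num at hd
      · rw [ya_dot] at hd; norm_num at hd
      · rfl
      · rw [yc_dot] at hd; norm_num at hd
      · rw [yd_dot] at hd; norm_num at hd)
  obtain ⟨c1, c2, c3⟩ := orbit_eq u x g hg e1 e2 0 4125 yc ⟨yc_mem, yc_dot⟩ WLc_card
    (by
      intro y hy hd
      rcases hy with rfl | rfl | rfl | rfl | rfl
      · rw [x1s_dot] at hd; norm_num at hd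
      · rw [ya_dot] at hd; norm_num at hd
      · rw [yb_dot] at hd; norm_num at hd
      · rfl
      · rw [yd_dot] at hd; norm_num at hd)
  obtain ⟨d1, d2, d3⟩ := orbit_eq u x g hg e1 e2 8 5600 yd ⟨yd_mem, yd_dot⟩ WLd_card
    (by
      intro y hy hd
      rcases hy with rfl | rfl | rfl | rfl | rfl
      · rw [x1s_dot] at hd; norm_num at hd
      · rw [ya_dot] at hd; norm_num at hd
      · rw [yb_dot] at hd; norm_num at hd
      · rw [yc_dot] at hd; norm_num at hd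
      · rfl)
  refine ⟨_, a1, _, b1, _, c1, _, d1, a3, b3, c3, d3, ?_⟩
  rw [a2, b2, c2, d2]
  ext z
  constructor
  · intro hz
    have hgz : g z ∈ WS us := by
      have := WS_map hg u z hz
      rw [e1] at this
      exact this
    have hd : dotInt (x1s : GolayPt → ℤ) ((g z : ↥leechLattice) : GolayPt → ℤ) =
        dotInt (x : GolayPt → ℤ) (z : GolayPt → ℤ) := by
      have := dot_co0 hg x z
      rw [e2] at this
      exact this
    rcases dich (g z) hgz with h | h | h | h | h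
    · left; left; left; left
      rw [hd] at h
      exact eq_of_dot32 x z hx.1 hz.1 h
    · left; left; left; right
      exact ⟨hz, by rw [← hd]; exact h⟩
    · left; left; right
      exact ⟨hz, by rw [← hd]; exact h⟩
    · left; right
      exact ⟨hz, by rw [← hd]; exact h⟩
    · right
      exact ⟨hz, by rw [← hd]; exact h⟩
  · rintro ((((h | h) | h) | h) | h)
    · rw [Set.mem_singleton_iff] at h
      rw [h]
      exact hx
    · exact h.1
    · exact h.1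
    · exact h.1
    · exact h.1

/-- The level sets of the inner product with `x` on the `11178` vectors: they cover everything
except `x`, have the cardinalities `352`, `1100`, `4125`, `5600`, and the stabiliser of `u`
and `x` is transitive on each of them. -/
theorem level_facts (u x : ↥leechLattice) (hu : sqNorm (u : GolayPt → ℤ) = 48)
    (hx : x ∈ WS u) :
    (∀ z ∈ WS u, z = x ∨ dotInt (x : GolayPt → ℤ) (z : GolayPt → ℤ) = -8 ∨
      dotInt (x : GolayPt → ℤ) (z : GolayPt → ℤ) = 16 ∨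
      dotInt (x : GolayPt → ℤ) (z : GolayPt → ℤ) = 0 ∨
      dotInt (x : GolayPt → ℤ) (z : GolayPt → ℤ) = 8) ∧
    {z : ↥leechLattice | z ∈ WS u ∧
      dotInt (x : GolayPt → ℤ) (z : GolayPt → ℤ) = -8}.ncard = 352 ∧
    {z : ↥leechLattice | z ∈ WS u ∧
      dotInt (x : GolayPt → ℤ) (z : GolayPt → ℤ) = 16}.ncard = 1100 ∧
    {z : ↥leechLattice | z ∈ WS u ∧
      dotInt (x : GolayPt → ℤ) (z : GolayPt → ℤ) = 0}.ncard = 4125 ∧
    {z : ↥leechLattice | z ∈ WS u ∧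
      dotInt (x : GolayPt → ℤ) (z : GolayPt → ℤ) = 8}.ncard = 5600 ∧
    ∀ c : ℤ, (c = -8 ∨ c = 16 ∨ c = 0 ∨ c = 8) →
      ∀ z ∈ {z : ↥leechLattice | z ∈ WS u ∧ dotInt (x : GolayPt → ℤ) (z : GolayPt → ℤ) = c},
      ∀ z' ∈ {z : ↥leechLattice | z ∈ WS u ∧ dotInt (x : GolayPt → ℤ) (z : GolayPt → ℤ) = c},
      ∃ k : ↥Co0, k • u = u ∧ k • x = x ∧ k • z = z' := by
  obtain ⟨g, hg, e1, e2⟩ := exists_frame5 u x hu hx
  obtain ⟨-, a2, a3⟩ := orbit_eq u x g hg e1 e2 (-8) 352 ya ⟨ya_mem, ya_dot⟩ WLa_card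
    (by
      intro y hy hd
      rcases hy with rfl | rfl | rfl | rfl | rfl
      · rw [x1s_dot] at hd; norm_num at hd
      · rfl
      · rw [yb_dot] at hd; norm_num at hd
      · rw [yc_dot] at hd; norm_num at hd
      · rw [yd_dot] at hd; norm_num at hd)
  obtain ⟨-, b2, b3⟩ := orbit_eq u x g hg e1 e2 16 1100 yb ⟨yb_mem, yb_dot⟩ WLb_card
    (by
      intro y hy hd
      rcases hy with rfl | rfl | rfl | rfl | rfl
      · rw [x1s_dot] at hd; norm_num at hd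
      · rw [ya_dot] at hd; norm_num at hd
      · rfl
      · rw [yc_dot] at hd; norm_num at hd
      · rw [yd_dot] at hd; norm_num at hd)
  obtain ⟨-, c2, c3⟩ := orbit_eq u x g hg e1 e2 0 4125 yc ⟨yc_mem, yc_dot⟩ WLc_card
    (by
      intro y hy hd
      rcases hy with rfl | rfl | rfl | rfl | rfl
      · rw [x1s_dot] at hd; norm_num at hd
      · rw [ya_dot] at hd; norm_num at hd
      · rw [yb_dot] at hd; norm_num at hd
      · rfl
      · rw [yd_dot] at hd; norm_num at hd)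
  obtain ⟨-, d2, d3⟩ := orbit_eq u x g hg e1 e2 8 5600 yd ⟨yd_mem, yd_dot⟩ WLd_card
    (by
      intro y hy hd
      rcases hy with rfl | rfl | rfl | rfl | rfl
      · rw [x1s_dot] at hd; norm_num at hd
      · rw [ya_dot] at hd; norm_num at hd
      · rw [yb_dot] at hd; norm_num at hd
      · rw [yc_dot] at hd; norm_num at hd
      · rfl)
  have tr : ∀ (y0 : ↥leechLattice) (S : Set ↥leechLattice),
      MulAction.orbit ↥(MulAction.stabilizer ↥Co0 u ⊓ MulAction.stabilizer ↥Co0 x) y0 = S →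
      ∀ z ∈ S, ∀ z' ∈ S, ∃ k : ↥Co0, k • u = u ∧ k • x = x ∧ k • z = z' := by
    intro y0 S hS z hz z' hz'
    rw [← hS] at hz hz'
    obtain ⟨k, rfl⟩ := hz
    obtain ⟨k', rfl⟩ := hz'
    have hk := (k' * k⁻¹).2
    rw [Subgroup.mem_inf, MulAction.mem_stabilizer_iff, MulAction.mem_stabilizer_iff] at hk
    refine ⟨(k' * k⁻¹ : ↥(MulAction.stabilizer ↥Co0 u ⊓ MulAction.stabilizer ↥Co0 x)).1,
      hk.1, hk.2, ?_⟩
    show (k' * k⁻¹) • (k • y0) = k' • y0
    rw [smul_smul, inv_mul_cancel_right]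
  refine ⟨?_, by rw [← a2]; exact a3, by rw [← b2]; exact b3, by rw [← c2]; exact c3,
    by rw [← d2]; exact d3, ?_⟩
  · intro z hz
    have hgz : g z ∈ WS us := by
      have := WS_map hg u z hz
      rw [e1] at this
      exact this
    have hd : dotInt (x1s : GolayPt → ℤ) ((g z : ↥leechLattice) : GolayPt → ℤ) =
        dotInt (x : GolayPt → ℤ) (z : GolayPt → ℤ) := by
      have := dot_co0 hg x z
      rw [e2] at this
      exact this
    rw [← hd]
    rcases dich (g z) hgz with h | h | h | h | h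
    · left
      rw [hd] at h
      exact eq_of_dot32 x z hx.1 hz.1 h
    · exact Or.inr (Or.inl h)
    · exact Or.inr (Or.inr (Or.inl h))
    · exact Or.inr (Or.inr (Or.inr (Or.inl h)))
    · exact Or.inr (Or.inr (Or.inr (Or.inr h)))
  · intro c hc
    rcases hc with rfl | rfl | rfl | rfl
    · exact tr _ _ a2
    · exact tr _ _ b2
    · exact tr _ _ c2
    · exact tr _ _ d2

end Cfsg.Agent.Lib.Helper11.LeechHS5
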