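import Mathlib
import Cfsg.Agent.Lib.Helper11.LeechHS5
import Cfsg.Agent.Lib.Helper11.LeechHS4
import Cfsg.Agent.Lib.Helper11.PrimSimple

set_option autoImplicit false

namespace Cfsg.Agent.Lib.Helper11.LeechCo3S

open Cfsg Cfsg.Agent.Lib.Helper3.Golay Cfsg.Agent.Lib.Helper3.Golay2
open Cfsg.Agent.Lib.Helper3.Leech Cfsg.Agent.Lib.Helper3.Leech2 Cfsg.Agent.Lib.Helper3.Leech4
open Cfsg.Agent.Lib.Helper11.LeechGF Cfsg.Agent.Lib.Helper11.Co0Mono
open Cfsg.Agent.Lib.Helper11.LeechIP Cfsg.Agent.Lib.Helper11.LeechXi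
open Cfsg.Agent.Lib.Helper11.LeechSt
open Cfsg.Agent.Lib.Helper11.LeechCo1
open Cfsg.Agent.Lib.Helper11.LeechMcL Cfsg.Agent.Lib.Helper11.LeechHS5
open Cfsg.Agent.Lib.Helper11.PrimSimple

/-- The second vector of norm `48` attached to `u` and `x`. -/
def wOf (u x : ↥leechLattice) : ↥leechLattice := -(u + x)

theorem wOf_norm (u x : ↥leechLattice) (hu : sqNorm (u : GolayPt → ℤ) = 48)
    (hx : x ∈ WS u) : sqNorm (wOf u x : GolayPt → ℤ) = 48 := by
  have : sqNorm (-((u : GolayPt → ℤ) + (x : GolayPt → ℤ))) = 48 := by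
    rw [sqNorm_neg_add, hu, hx.1, hx.2]; norm_num
  exact this

theorem wOf_dot (u x : ↥leechLattice) (hu : sqNorm (u : GolayPt → ℤ) = 48)
    (hx : x ∈ WS u) : dotInt (u : GolayPt → ℤ) (wOf u x : GolayPt → ℤ) = -32 := by
  have : dotInt (u : GolayPt → ℤ) (-((u : GolayPt → ℤ) + (x : GolayPt → ℤ))) = -32 := by
    rw [dot_neg_right, ← sub_neg_eq_add, dot_sub_right, dot_neg_right, dot_self, hu, hx.2]
    norm_num
  exact this

theorem WS_ncard (u : ↥leechLattice) (hu : sqNorm (u : GolayPt → ℤ) = 48) :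
    (WS u).ncard = 11178 := count11178 u hu

theorem stab_eq (u x : ↥leechLattice) :
    MulAction.stabilizer ↥Co0 u ⊓ MulAction.stabilizer ↥Co0 x =
      MulAction.stabilizer ↥Co0 u ⊓ MulAction.stabilizer ↥Co0 (wOf u x) := by
  ext g
  simp only [Subgroup.mem_inf, MulAction.mem_stabilizer_iff]
  constructor
  · rintro ⟨h1, h2⟩
    refine ⟨h1, ?_⟩
    have h1' : g.1 u = u := h1
    have h2' : g.1 x = x := h2
    show g.1 (-(u + x)) = -(u + x)
    rw [perm_neg g.1 g.2.1, g.2.1, h1', h2']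
  · rintro ⟨h1, h2⟩
    refine ⟨h1, ?_⟩
    have h1' : g.1 u = u := h1
    have h2' : g.1 (-(u + x)) = -(u + x) := h2
    show g.1 x = x
    have e : x = -(-(u + x)) - u := by abel
    rw [e, perm_sub g.1 g.2, perm_neg g.1 g.2.1, h2', h1']

theorem orbit_eq_WS (u x : ↥leechLattice) (hu : sqNorm (u : GolayPt → ℤ) = 48)
    (hx : x ∈ WS u) : MulAction.orbit ↥(MulAction.stabilizer ↥Co0 u) x = WS u := by
  ext z
  constructor
  · rintro ⟨k, rfl⟩
    show k.1.1 x ∈ WS u
    have := WS_map k.1.2 u x hx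
    have e : k.1.1 u = u := k.2
    rw [e] at this
    exact this
  · intro hz
    obtain ⟨g, hg, f1, f2⟩ := trans11178 u x z hu hx.1 hz.1 hx.2 hz.2
    exact ⟨⟨⟨g, hg⟩, MulAction.mem_stabilizer_iff.mpr f1⟩, f2⟩

theorem stabG_eq (u x : ↥leechLattice) :
    MulAction.stabilizer ↥(MulAction.stabilizer ↥Co0 u) x =
      (MulAction.stabilizer ↥Co0 u ⊓ MulAction.stabilizer ↥Co0 x).subgroupOf
        (MulAction.stabilizer ↥Co0 u) := by
  ext k
  rw [Subgroup.mem_subgroupOf, MulAction.mem_stabilizer_iff, Subgroup.mem_inf,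
    MulAction.mem_stabilizer_iff, MulAction.mem_stabilizer_iff]
  constructor
  · intro h
    exact ⟨k.2, h⟩
  · rintro ⟨-, h⟩
    exact h

theorem stabG_isHS (u x : ↥leechLattice) (hu : sqNorm (u : GolayPt → ℤ) = 48)
    (hx : x ∈ WS u) :
    IsSimpleGroup ↥(MulAction.stabilizer ↥(MulAction.stabilizer ↥Co0 u) x) ∧
    Nat.card ↥(MulAction.stabilizer ↥(MulAction.stabilizer ↥Co0 u) x) = 44352000 := by
  have h := hs_isHS u (wOf u x) hu (wOf_norm u x hu hx) (wOf_dot u x hu hx)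
  rw [← stab_eq] at h
  obtain ⟨h1, h2⟩ := h
  rw [stabG_eq]
  exact ⟨(Subgroup.subgroupOfEquivOfLe inf_le_left).isSimpleGroup,
    (Nat.card_congr (Subgroup.subgroupOfEquivOfLe inf_le_left).toEquiv).trans h2⟩

theorem card_G (u x : ↥leechLattice) (hu : sqNorm (u : GolayPt → ℤ) = 48)
    (hx : x ∈ WS u) : Nat.card ↥(MulAction.stabilizer ↥Co0 u) = 495766656000 := by
  have h1 := Subgroup.card_mul_index
    (MulAction.stabilizer ↥(MulAction.stabilizer ↥Co0 u) x)
  rw [MulAction.index_stabilizer, orbit_eq_WS u x hu hx, WS_ncard u hu,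
    (stabG_isHS u x hu hx).2] at h1
  rw [← h1]

/-- An element of `Co0` fixing `u` and `x`, as an element of the point stabiliser. -/
theorem exists_stab (u x : ↥leechLattice) (k : ↥Co0) (h1 : k • u = u) (h2 : k • x = x) :
    ∃ h ∈ MulAction.stabilizer ↥(MulAction.stabilizer ↥Co0 u) x,
      ∀ z : ↥leechLattice, h • z = k • z :=
  ⟨⟨k, MulAction.mem_stabilizer_iff.mpr h1⟩, MulAction.mem_stabilizer_iff.mpr h2, fun _ => rfl⟩

theorem hmove (u x : ↥leechLattice) (hu : sqNorm (u : GolayPt → ℤ) = 48) (hx : x ∈ WS u) :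
    ∃ h ∈ MulAction.stabilizer ↥(MulAction.stabilizer ↥Co0 u) x,
      ∃ g : ↥(MulAction.stabilizer ↥Co0 u), h • (g • x) ≠ g • x := by
  obtain ⟨-, ca, -, -, -, tr⟩ := level_facts u x hu hx
  have hfin : {z : ↥leechLattice | z ∈ WS u ∧
      dotInt (x : GolayPt → ℤ) (z : GolayPt → ℤ) = -8}.Finite :=
    Set.finite_of_ncard_ne_zero (by rw [ca]; norm_num)
  obtain ⟨a, ha, b, hb, hab⟩ := Set.one_lt_ncard hfin |>.mp (by rw [ca]; norm_num)
  obtain ⟨k, k1, k2, k3⟩ := tr (-8) (Or.inl rfl) a ha b hb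
  obtain ⟨h, hh, he⟩ := exists_stab u x k k1 k2
  have haO : a ∈ MulAction.orbit ↥(MulAction.stabilizer ↥Co0 u) x := by
    rw [orbit_eq_WS u x hu hx]
    exact ha.1
  obtain ⟨g, rfl⟩ := haO
  refine ⟨h, hh, g, ?_⟩
  rw [he, k3]
  exact fun e => hab e.symm

theorem hB (u x : ↥leechLattice) (hu : sqNorm (u : GolayPt → ℤ) = 48) (hx : x ∈ WS u)
    (B : Set ↥leechLattice) (hxB : x ∈ B) (hBsub : B ⊆ WS u)
    (hinv : ∀ h ∈ MulAction.stabilizer ↥(MulAction.stabilizer ↥Co0 u) x, ∀ b ∈ B, h • b ∈ B)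
    (hdiv : B.ncard ∣ 495766656000) : B = {x} ∨ B = WS u := by
  classical
  obtain ⟨cases, ca, cb, cc, cd, tr⟩ := level_facts u x hu hx
  have hWfin : (WS u).Finite :=
    Set.finite_of_ncard_ne_zero (by rw [WS_ncard u hu]; norm_num)
  have hBfin : B.Finite := hWfin.subset hBsub
  -- each level set is inside `B` or disjoint from `B`
  have dichot : ∀ c : ℤ, (c = -8 ∨ c = 16 ∨ c = 0 ∨ c = 8) →
      (∀ z ∈ WS u, dotInt (x : GolayPt → ℤ) (z : GolayPt → ℤ) = c → z ∈ B) ∨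
      (∀ z ∈ WS u, dotInt (x : GolayPt → ℤ) (z : GolayPt → ℤ) = c → z ∉ B) := by
    intro c hc
    by_cases h : ∃ z ∈ WS u, dotInt (x : GolayPt → ℤ) (z : GolayPt → ℤ) = c ∧ z ∈ B
    · left
      obtain ⟨z, hz1, hz2, hzB⟩ := h
      intro z' hz'1 hz'2
      obtain ⟨k, k1, k2, k3⟩ := tr c hc z ⟨hz1, hz2⟩ z' ⟨hz'1, hz'2⟩
      obtain ⟨h, hh, he⟩ := exists_stab u x k k1 k2
      have := hinv h hh z hzB
      rw [he, k3] at this
      exact this
    · right
      intro z hz1 hz2 hzB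
      exact h ⟨z, hz1, hz2, hzB⟩
  by_cases hall : ∀ z ∈ WS u, z ∈ B
  · right
    exact Set.Subset.antisymm hBsub hall
  by_cases hnone : ∀ z ∈ B, z = x
  · left
    exact Set.Subset.antisymm hnone (Set.singleton_subset_iff.mpr hxB)
  exfalso
  -- the cardinality of `B`
  have hxx : dotInt (x : GolayPt → ℤ) (x : GolayPt → ℤ) = 32 := by rw [dot_self]; exact hx.1
  have hsum := Finset.card_eq_sum_card_fiberwise (s := hBfin.toFinset)
    (t := ({32, -8, 16, 0, 8} : Finset ℤ))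
    (f := fun z : ↥leechLattice => dotInt (x : GolayPt → ℤ) (z : GolayPt → ℤ))
    (by
      intro z hz
      rw [Finset.mem_coe, Set.Finite.mem_toFinset] at hz
      rw [Finset.mem_coe]
      rcases cases z (hBsub hz) with rfl | h | h | h | h
      · simp [hxx]
      · simp [h]
      · simp [h]
      · simp [h]
      · simp [h])
  rw [Finset.sum_insert (by decide), Finset.sum_insert (by decide), Finset.sum_insert (by decide),
    Finset.sum_insert (by decide), Finset.sum_singleton, ← Set.ncard_eq_toFinset_card B hBfin]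
    at hsum
  have h32 : (hBfin.toFinset.filter
      (fun z : ↥leechLattice => dotInt (x : GolayPt → ℤ) (z : GolayPt → ℤ) = 32)).card = 1 := by
    rw [Finset.card_eq_one]
    refine ⟨x, ?_⟩
    ext z
    rw [Finset.mem_filter, Set.Finite.mem_toFinset, Finset.mem_singleton]
    constructor
    · rintro ⟨hz, h⟩
      exact eq_of_dot32 x z hx.1 (hBsub hz).1 h
    · rintro rfl
      exact ⟨hxB, hxx⟩
  have full : ∀ (c : ℤ) (n : ℕ),
      {z : ↥leechLattice | z ∈ WS u ∧ dotInt (x : GolayPt → ℤ) (z : GolayPt → ℤ) = c}.ncard = n →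
      (∀ z ∈ WS u, dotInt (x : GolayPt → ℤ) (z : GolayPt → ℤ) = c → z ∈ B) →
      (hBfin.toFinset.filter
        (fun z : ↥leechLattice => dotInt (x : GolayPt → ℤ) (z : GolayPt → ℤ) = c)).card = n := by
    intro c n hn h
    rw [← hn, ← Set.ncard_coe_finset]
    congr 1
    ext z
    rw [Finset.mem_coe, Finset.mem_filter, Set.Finite.mem_toFinset]
    constructor
    · rintro ⟨hz, hc⟩
      exact ⟨hBsub hz, hc⟩
    · rintro ⟨hz, hc⟩
      exact ⟨h z hz hc, hc⟩
  have empty : ∀ (c : ℤ),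
      (∀ z ∈ WS u, dotInt (x : GolayPt → ℤ) (z : GolayPt → ℤ) = c → z ∉ B) →
      (hBfin.toFinset.filter
        (fun z : ↥leechLattice => dotInt (x : GolayPt → ℤ) (z : GolayPt → ℤ) = c)).card = 0 := by
    intro c h
    rw [Finset.card_eq_zero, Finset.filter_eq_empty_iff]
    intro z hz hc
    rw [Set.Finite.mem_toFinset] at hz
    exact h z (hBsub hz) hc hz
  have allfull : (∀ z ∈ WS u, dotInt (x : GolayPt → ℤ) (z : GolayPt → ℤ) = -8 → z ∈ B) →
      (∀ z ∈ WS u, dotInt (x : GolayPt → ℤ) (z : GolayPt → ℤ) = 16 → z ∈ B) →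
      (∀ z ∈ WS u, dotInt (x : GolayPt → ℤ) (z : GolayPt → ℤ) = 0 → z ∈ B) →
      (∀ z ∈ WS u, dotInt (x : GolayPt → ℤ) (z : GolayPt → ℤ) = 8 → z ∈ B) → False := by
    intro h1 h2 h3 h4
    apply hall
    intro z hz
    rcases cases z hz with rfl | h | h | h | h
    · exact hxB
    · exact h1 z hz h
    · exact h2 z hz h
    · exact h3 z hz h
    · exact h4 z hz h
  have allempty : (∀ z ∈ WS u, dotInt (x : GolayPt → ℤ) (z : GolayPt → ℤ) = -8 → z ∉ B) →
      (∀ z ∈ WS u, dotInt (x : GolayPt → ℤ) (z : GolayPt → ℤ) = 16 → z ∉ B) →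
      (∀ z ∈ WS u, dotInt (x : GolayPt → ℤ) (z : GolayPt → ℤ) = 0 → z ∉ B) →
      (∀ z ∈ WS u, dotInt (x : GolayPt → ℤ) (z : GolayPt → ℤ) = 8 → z ∉ B) → False := by
    intro h1 h2 h3 h4
    apply hnone
    intro z hz
    rcases cases z (hBsub hz) with h | h | h | h | h
    · exact h
    · exact absurd hz (h1 z (hBsub hz) h)
    · exact absurd hz (h2 z (hBsub hz) h)
    · exact absurd hz (h3 z (hBsub hz) h)
    · exact absurd hz (h4 z (hBsub hz) h)
  rw [h32] at hsum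
  rcases dichot (-8) (Or.inl rfl) with ha | ha <;>
  rcases dichot 16 (Or.inr (Or.inl rfl)) with hb | hb <;>
  rcases dichot 0 (Or.inr (Or.inr (Or.inl rfl))) with hc | hc <;>
  rcases dichot 8 (Or.inr (Or.inr (Or.inr rfl))) with hd | hd <;>
  first
  | exact allfull ha hb hc hd
  | exact allempty ha hb hc hd
  | (first | rw [full (-8) 352 ca ha] at hsum | rw [empty (-8) ha] at hsum
     first | rw [full 16 1100 cb hb] at hsum | rw [empty 16 hb] at hsum
     first | rw [full 0 4125 cc hc] at hsum | rw [empty 0 hc] at hsum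
     first | rw [full 8 5600 cd hd] at hsum | rw [empty 8 hd] at hsum
     rw [hsum] at hdiv
     norm_num at hdiv)

/-- **The stabiliser of a vector of norm `48` is the third Conway group.** -/
theorem isCo3 (u : ↥leechLattice) (hu : sqNorm (u : GolayPt → ℤ) = 48) :
    IsCo3 ↥(MulAction.stabilizer ↥Co0 u) := by
  have hne : (WS u).Nonempty :=
    Set.nonempty_of_ncard_ne_zero (by rw [WS_ncard u hu]; norm_num)
  obtain ⟨x, hx⟩ := hne
  have hcardG := card_G u x hu hx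
  refine ⟨?_, hcardG⟩
  have : Finite ↥Co0 := finite_Co0
  have : Nontrivial ↥(MulAction.stabilizer ↥Co0 u) :=
    Finite.one_lt_card_iff_nontrivial.mp (by rw [hcardG]; norm_num)
  have horb := orbit_eq_WS u x hu hx
  apply simple_of_prim x (stabG_isHS u x hu hx).1 ?_ (hmove u x hu hx) 5589 (by decide) ?_
    23 3 (by norm_num) (by norm_num) (by norm_num) (by norm_num) (by norm_num)
  · intro B hxB hBsub hinv hdiv
    rw [horb] at hBsub ⊢
    rw [hcardG] at hdiv
    exact hB u x hu hx B hxB hBsub hinv hdiv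
  · rw [horb, WS_ncard u hu]

end Cfsg.Agent.Lib.Helper11.LeechCo3S
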