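import Mathlib
import Cfsg.Agent.Lib.Helper11.LeechMod2

set_option autoImplicit false

namespace Cfsg.Agent.Lib.Helper11.LeechMod2

open Cfsg Cfsg.Agent.Lib.Helper3.Golay Cfsg.Agent.Lib.Helper3.Golay2
open Cfsg.Agent.Lib.Helper3.Leech Cfsg.Agent.Lib.Helper3.Leech2 Cfsg.Agent.Lib.Helper3.Leech4
open Cfsg.Agent.Lib.Helper3.GolayM24 Cfsg.Agent.Lib.Helper3.M24Trans
open Cfsg.Agent.Lib.Helper11.LeechGF Cfsg.Agent.Lib.Helper11.Co0Mono
open Cfsg.Agent.Lib.Helper11.LeechIP Cfsg.Agent.Lib.Helper11.LeechXi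
open Cfsg.Agent.Lib.Helper11.LeechCross Cfsg.Agent.Lib.Helper11.LeechSt

/-- An invariant function is constant on the vectors of a given short norm. -/
theorem Q_const (Q : ↥leechLattice → ZMod 2)
    (hinv : ∀ (g : ↥Co0) (v : ↥leechLattice), Q (g • v) = Q v)
    (u u' : ↥leechLattice) (n : ℤ) (hn : n = 32 ∨ n = 48 ∨ n = 64)
    (hu : sqNorm (u : GolayPt → ℤ) = n) (hu' : sqNorm (u' : GolayPt → ℤ) = n) : Q u = Q u' := by
  have ht : ∃ g ∈ Co0, g u = u' := by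
    rcases hn with rfl | rfl | rfl
    · exact min_trans u u' hu hu'
    · exact t6_trans u u' hu hu'
    · exact t8_trans u u' hu hu'
  obtain ⟨g, hg, e⟩ := ht
  have h := hinv ⟨g, hg⟩ u
  have e' : ((⟨g, hg⟩ : ↥Co0) • u : ↥leechLattice) = u' := e
  rw [e'] at h
  exact h.symm

theorem short_rep (v : ↥leechLattice) : ∃ y z : ↥leechLattice,
    (y = 0 ∨ sqNorm (y : GolayPt → ℤ) = 32 ∨ sqNorm (y : GolayPt → ℤ) = 48 ∨
      sqNorm (y : GolayPt → ℤ) = 64) ∧ v = y + (z + z) := by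
  obtain ⟨y, hy, hyn, z, hz, hxy⟩ := exists_short v v.2
  refine ⟨⟨y, hy⟩, ⟨z, hz⟩, ?_, ?_⟩
  · by_cases hy0 : y = 0
    · left
      exact Subtype.ext hy0
    · right
      have h32 := Cfsg.Agent.S0391.result y hy hy0
      obtain ⟨k, hk⟩ := Cfsg.Agent.S0392.result y hy
      show sqNorm y = 32 ∨ sqNorm y = 48 ∨ sqNorm y = 64
      omega
  · apply Subtype.ext
    rw [AddSubgroup.coe_add, AddSubgroup.coe_add]
    show (v : GolayPt → ℤ) = y + (z + z)
    rw [two_nsmul] at hxy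
    rw [← hxy]
    abel

theorem norm_id (y z : GolayPt → ℤ) :
    sqNorm (y + (z + z)) = 2 * sqNorm (y + z) - sqNorm y + 2 * sqNorm z := by
  unfold sqNorm
  rw [Finset.mul_sum, Finset.mul_sum, ← Finset.sum_sub_distrib, ← Finset.sum_add_distrib]
  refine Finset.sum_congr rfl fun i _ => ?_
  simp only [Pi.add_apply]
  ring

theorem norm_mod32 (y z : ↥leechLattice) : ∃ t : ℤ,
    sqNorm ((y + (z + z) : ↥leechLattice) : GolayPt → ℤ) = sqNorm (y : GolayPt → ℤ) + 32 * t := by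
  obtain ⟨a, ha⟩ := Cfsg.Agent.S0392.result _ (y + z).2
  obtain ⟨b, hb⟩ := Cfsg.Agent.S0392.result _ y.2
  obtain ⟨c, hc⟩ := Cfsg.Agent.S0392.result _ z.2
  refine ⟨a - b + c, ?_⟩
  rw [AddSubgroup.coe_add, AddSubgroup.coe_add, norm_id, ← AddSubgroup.coe_add, ha, hb, hc]
  ring

theorem cast_aux (k t : ℤ) : (((16 * k + 32 * t) / 16 : ℤ) : ZMod 2) = ((k : ℤ) : ZMod 2) := by
  have h : (16 * k + 32 * t) / 16 = k + 2 * t := by omega
  rw [h]
  push_cast
  have h2 : (2 : ZMod 2) = 0 := by decide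
  rw [h2]
  ring

theorem nA1 : sqNorm (vec 4 {some 1, some 2} ∅ + -vec 4 {some 1, some 3} {some 3} +
    -vec 4 {some 2, some 4} {some 4}) = 32 := by decide +kernel

theorem nA2 : sqNorm (vec 4 {some 1, some 2} ∅ + -vec 4 {some 1, some 3} {some 3}) = 32 := by
  decide +kernel

theorem nA3 : sqNorm (vec 4 {some 1, some 2} ∅ + -vec 4 {some 2, some 4} {some 4}) = 32 := by
  decide +kernel

theorem nA4 : sqNorm (-vec 4 {some 1, some 3} {some 3} + -vec 4 {some 2, some 4} {some 4}) = 64 := by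
  decide +kernel

theorem nA5 : sqNorm (-vec 4 {some 1, some 3} {some 3}) = 32 := by decide +kernel

theorem nA6 : sqNorm (-vec 4 {some 2, some 4} {some 4}) = 32 := by decide +kernel

theorem nB1 : sqNorm (vec 4 {some 1, some 5} ∅ + -vec 4 {some 5, some 2} {some 2} + -VB) = 32 := by
  decide +kernel

theorem nB2 : sqNorm (vec 4 {some 1, some 5} ∅ + -vec 4 {some 5, some 2} {some 2}) = 32 := by
  decide +kernel

theorem nB3 : sqNorm (vec 4 {some 1, some 5} ∅ + -VB) = 48 := by decide +kernel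

theorem nB4 : sqNorm (-vec 4 {some 5, some 2} {some 2} + -VB) = 48 := by decide +kernel

theorem nB5 : sqNorm (-vec 4 {some 5, some 2} {some 2}) = 32 := by decide +kernel

theorem nB6 : sqNorm (-VB) = 32 := by decide +kernel

/-- **The invariant quadratic form on the lattice modulo twice the lattice is unique.** -/
theorem quad_unique (Q : ↥leechLattice → ZMod 2)
    (hcoset : ∀ v w : ↥leechLattice, Q (v + (w + w)) = Q v)
    (hquad : ∀ u v w : ↥leechLattice,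
      Q (u + v + w) + Q u + Q v + Q w = Q (u + v) + Q (u + w) + Q (v + w))
    (hinv : ∀ (g : ↥Co0) (v : ↥leechLattice), Q (g • v) = Q v)
    (hne : ∃ v : ↥leechLattice, Q v ≠ 0) (v : ↥leechLattice) :
    Q v = ((sqNorm (v : GolayPt → ℤ) / 16 : ℤ) : ZMod 2) := by
  have two : ∀ x : ZMod 2, x + x = 0 := by decide
  -- the value at zero
  have hQ0 : Q 0 = 0 := by
    have h := hquad 0 0 0
    simp only [add_zero] at h
    linear_combination h
  -- first configuration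
  let a1 : ↥leechLattice := A (some 1) (some 2) (by decide)
  let b1 : ↥leechLattice := -B (some 1) (some 3) (by decide)
  let x1 : ↥leechLattice := -B (some 2) (some 4) (by decide)
  have ha1 : sqNorm (a1 : GolayPt → ℤ) = 32 := sqNorm_A _ _ _
  have hb1 : sqNorm (b1 : GolayPt → ℤ) = 32 := nA5
  have hx1 : sqNorm (x1 : GolayPt → ℤ) = 32 := nA6
  have hs1 : sqNorm ((a1 + b1 + x1 : ↥leechLattice) : GolayPt → ℤ) = 32 := nA1
  have hab1 : sqNorm ((a1 + b1 : ↥leechLattice) : GolayPt → ℤ) = 32 := nA2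
  have hax1 : sqNorm ((a1 + x1 : ↥leechLattice) : GolayPt → ℤ) = 32 := nA3
  have hbx1 : sqNorm ((b1 + x1 : ↥leechLattice) : GolayPt → ℤ) = 64 := nA4
  have c32 : ∀ u : ↥leechLattice, sqNorm (u : GolayPt → ℤ) = 32 → Q u = Q a1 :=
    fun u hu => Q_const Q hinv u a1 32 (Or.inl rfl) hu ha1
  have h64 : Q (b1 + x1) = 0 := by
    have h := hquad a1 b1 x1
    rw [c32 _ hs1, c32 _ hb1, c32 _ hx1, c32 _ hab1, c32 _ hax1] at h
    have t := two (Q a1)
    linear_combination t - h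
  have c64 : ∀ u : ↥leechLattice, sqNorm (u : GolayPt → ℤ) = 64 → Q u = 0 :=
    fun u hu => (Q_const Q hinv u (b1 + x1) 64 (Or.inr (Or.inr rfl)) hu hbx1).trans h64
  -- second configuration
  let a2 : ↥leechLattice := A (some 1) (some 5) (by decide)
  let b2 : ↥leechLattice := -B (some 5) (some 2) (by decide)
  let x2 : ↥leechLattice := -⟨VB, VB_mem⟩
  have ha2 : sqNorm (a2 : GolayPt → ℤ) = 32 := sqNorm_A _ _ _
  have hb2 : sqNorm (b2 : GolayPt → ℤ) = 32 := nB5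
  have hx2 : sqNorm (x2 : GolayPt → ℤ) = 32 := nB6
  have hs2 : sqNorm ((a2 + b2 + x2 : ↥leechLattice) : GolayPt → ℤ) = 32 := nB1
  have hab2 : sqNorm ((a2 + b2 : ↥leechLattice) : GolayPt → ℤ) = 32 := nB2
  have hax2 : sqNorm ((a2 + x2 : ↥leechLattice) : GolayPt → ℤ) = 48 := nB3
  have hbx2 : sqNorm ((b2 + x2 : ↥leechLattice) : GolayPt → ℤ) = 48 := nB4
  have c48 : ∀ u : ↥leechLattice, sqNorm (u : GolayPt → ℤ) = 48 → Q u = Q (a2 + x2) :=
    fun u hu => Q_const Q hinv u (a2 + x2) 48 (Or.inr (Or.inl rfl)) hu hax2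
  have h32 : Q a1 = 0 := by
    have h := hquad a2 b2 x2
    rw [c32 _ hs2, c32 _ ha2, c32 _ hb2, c32 _ hx2, c32 _ hab2, c48 _ hbx2] at h
    have t := two (Q a1)
    have t' := two (Q (a2 + x2))
    linear_combination 2 * t - t' - h
  have c32' : ∀ u : ↥leechLattice, sqNorm (u : GolayPt → ℤ) = 32 → Q u = 0 :=
    fun u hu => (c32 u hu).trans h32
  -- reduction to short vectors
  have red : ∀ w : ↥leechLattice, ∃ y : ↥leechLattice, ∃ k t : ℤ,
      (y = 0 ∧ k = 0 ∨ sqNorm (y : GolayPt → ℤ) = 32 ∧ k = 2 ∨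
        sqNorm (y : GolayPt → ℤ) = 48 ∧ k = 3 ∨ sqNorm (y : GolayPt → ℤ) = 64 ∧ k = 4) ∧
      Q w = Q y ∧ sqNorm (w : GolayPt → ℤ) = 16 * k + 32 * t := by
    intro w
    obtain ⟨y, z, hy, rfl⟩ := short_rep w
    obtain ⟨t, ht⟩ := norm_mod32 y z
    rcases hy with hy | hy | hy | hy
    · refine ⟨y, 0, t, Or.inl ⟨hy, rfl⟩, hcoset y z, ?_⟩
      rw [ht, hy]
      show sqNorm (0 : GolayPt → ℤ) + 32 * t = _
      rw [sqNorm_zero]
      ring
    · exact ⟨y, 2, t, Or.inr (Or.inl ⟨hy, rfl⟩), hcoset y z, by rw [ht, hy]; ring⟩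
    · exact ⟨y, 3, t, Or.inr (Or.inr (Or.inl ⟨hy, rfl⟩)), hcoset y z, by rw [ht, hy]; ring⟩
    · exact ⟨y, 4, t, Or.inr (Or.inr (Or.inr ⟨hy, rfl⟩)), hcoset y z, by rw [ht, hy]; ring⟩
  -- the value on norm 48
  have h48 : Q (a2 + x2) = 1 := by
    obtain ⟨w, hw⟩ := hne
    obtain ⟨y, k, t, hy, hQ, -⟩ := red w
    rw [hQ] at hw
    rcases hy with ⟨hy, -⟩ | ⟨hy, -⟩ | ⟨hy, -⟩ | ⟨hy, -⟩
    · rw [hy, hQ0] at hw; exact absurd rfl hw
    · rw [c32' y hy] at hw; exact absurd rfl hw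
    · rw [c48 y hy] at hw
      have dd : ∀ x : ZMod 2, x ≠ 0 → x = 1 := by decide
      exact dd _ hw
    · rw [c64 y hy] at hw; exact absurd rfl hw
  obtain ⟨y, k, t, hy, hQ, hn⟩ := red v
  rw [hQ, hn, cast_aux]
  rcases hy with ⟨hy, rfl⟩ | ⟨hy, rfl⟩ | ⟨hy, rfl⟩ | ⟨hy, rfl⟩
  · rw [hy, hQ0]; decide
  · rw [c32' y hy]; decide
  · rw [c48 y hy, h48]; decide
  · rw [c64 y hy]; decide

end Cfsg.Agent.Lib.Helper11.LeechMod2
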