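import Mathlib

set_option autoImplicit false

namespace Cfsg.Agent.Lib.Helper11.M24Conj

/-- conjugating by `τ` transports the stabiliser of `a` to the stabiliser of `τ • a` -/
theorem conj_smul_iff {G α : Type*} [Group G] [MulAction G α] {τ g : G} {a b : α}
    (h : τ • a = b) : (τ⁻¹ * g * τ) • a = a ↔ g • b = b := by
  rw [mul_smul, mul_smul, h, inv_smul_eq_iff, h]

/-- a subgroup `K` of `↥M` whose members are the `M`-conjugates by `τ` of the members of `K0`
is isomorphic to `K0` -/
theorem conj_iso {G : Type*} [Group G] (M : Subgroup G) {τ : G} (hτ : τ ∈ M) (K0 : Subgroup G)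
    (hK0 : K0 ≤ M) (K : Subgroup ↥M) (h : ∀ g : ↥M, g ∈ K ↔ τ⁻¹ * (g : G) * τ ∈ K0) :
    Nonempty (↥K ≃* ↥K0) := by
  have hle : K0.map (MulAut.conj τ).toMonoidHom ≤ M := by
    rintro _ ⟨k, hk, rfl⟩
    exact mul_mem (mul_mem hτ (hK0 hk)) (inv_mem hτ)
  have e : K = (K0.map (MulAut.conj τ).toMonoidHom).subgroupOf M := by
    ext g
    rw [h, Subgroup.mem_subgroupOf, Subgroup.mem_map_equiv, MulAut.conj_symm_apply]
  exact ⟨(MulEquiv.subgroupCongr e).trans ((Subgroup.subgroupOfEquivOfLe hle).trans
    ((MulAut.conj τ).subgroupMap K0).symm)⟩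

/-- a group of permutations preserving a finite set `s`, acting faithfully on it, and of order
`|s|!`, is isomorphic to the symmetric group of degree `|s|` -/
theorem perm_iso_of_faithful {α : Type*} [DecidableEq α] (K : Subgroup (Equiv.Perm α))
    (s : Finset α) (n : ℕ) (hs : s.card = n) (hK : ∀ g ∈ K, ∀ x, g x ∈ s ↔ x ∈ s)
    (hf : ∀ g ∈ K, (∀ x ∈ s, g x = x) → g = 1) (hc : Nat.card K = n.factorial) :
    Nonempty (K ≃* Equiv.Perm (Fin n)) := by
  let f : K →* Equiv.Perm {x // x ∈ s} :=
    { toFun := fun g => Equiv.Perm.subtypePerm g.1 (hK g.1 g.2)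
      map_one' := by
        ext x
        rfl
      map_mul' := by
        intro g g'
        ext x
        rfl }
  have hinj : Function.Injective f := by
    rw [injective_iff_map_eq_one]
    intro g hg
    apply Subtype.ext
    apply hf g.1 g.2
    intro x hx
    have := congrArg (fun σ : Equiv.Perm {x // x ∈ s} => (σ ⟨x, hx⟩ : α)) hg
    exact this
  have hcard : Nat.card (Equiv.Perm {x // x ∈ s}) = n.factorial := by
    rw [Nat.card_eq_fintype_card, Fintype.card_perm, Fintype.card_coe, hs]
  have hbij : Function.Bijective f :=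
    hinj.bijective_of_nat_card_le (by rw [hcard, hc])
  exact ⟨(MulEquiv.ofBijective f hbij).trans (Equiv.permCongrHom (s.equivFinOfCardEq hs))⟩

end Cfsg.Agent.Lib.Helper11.M24Conj
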