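import Mathlib
import Cfsg.Prelude.Def_SporadicCombinatorics
import Cfsg.Agent.Lib.Helper3.M24Dod
import Cfsg.Agent.Lib.Helper3.M24Orb
import Cfsg.Agent.Lib.Helper3.M24Gen

set_option autoImplicit false

namespace Cfsg.Agent.Lib.Helper11.Quartet

open Cfsg Cfsg.Agent.Lib.Helper3.Golay Cfsg.Agent.Lib.Helper3.Golay2
open Cfsg.Agent.Lib.Helper3.M24Perm Cfsg.Agent.Lib.Helper3.M24Cert
open Cfsg.Agent.Lib.Helper3.M24Trans Cfsg.Agent.Lib.Helper3.M24Dod
open Cfsg.Agent.Lib.Helper3.M24Orb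
open scoped Pointwise

/-! ### generic facts -/

theorem smul_hexadsOn {σ : Equiv.Perm GolayPt} (hσ : σ ∈ M24) {d h : Finset GolayPt}
    (hh : h ∈ hexadsOn d) : σ • h ∈ hexadsOn (σ • d) := by
  obtain ⟨hc, o, ho, rfl⟩ := hh
  refine ⟨by rw [Finset.card_smul_finset]; exact hc, σ • o, smul_mem_octads hσ ho, ?_⟩
  rw [Finset.smul_finset_inter]

theorem smul_quartets {σ : Equiv.Perm GolayPt} (hσ : σ ∈ M24) {d : Finset GolayPt}
    {Q : Finset (Finset GolayPt)} (hQ : Q ∈ quartets d) : σ • Q ∈ quartets (σ • d) := by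
  obtain ⟨h4, h3, hu⟩ := hQ
  refine ⟨by rw [Finset.card_smul_finset]; exact h4, ?_, ?_⟩
  · intro t ht
    obtain ⟨t', ht', rfl⟩ := Finset.mem_smul_finset.mp ht
    exact ⟨by rw [Finset.card_smul_finset]; exact (h3 t' ht').1,
      Finset.smul_finset_subset_smul_finset (h3 t' ht').2⟩
  · intro t ht u hu' hne
    obtain ⟨t', ht', rfl⟩ := Finset.mem_smul_finset.mp ht
    obtain ⟨u', hu'', rfl⟩ := Finset.mem_smul_finset.mp hu'
    rw [← Finset.smul_finset_union]
    exact smul_hexadsOn hσ (hu t' ht' u' hu'' (fun h => hne (by rw [h])))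

theorem hexad_eq {d h h' : Finset GolayPt} (hh : h ∈ hexadsOn d) (hh' : h' ∈ hexadsOn d)
    (h5 : 5 ≤ (h ∩ h').card) : h = h' := by
  obtain ⟨hc, o, ho, rfl⟩ := hh
  obtain ⟨hc', o', ho', rfl⟩ := hh'
  by_contra hne
  have hoo : o ≠ o' := fun h => hne (by rw [h])
  have h1 := octads_inter_le ho ho' hoo
  have h2 : ((o ∩ d) ∩ (o' ∩ d)).card ≤ (o ∩ o').card := Finset.card_le_card (by
    intro x hx
    simp only [Finset.mem_inter] at hx ⊢
    exact ⟨hx.1.1, hx.2.1⟩)
  omega

theorem hexad_subset {d h : Finset GolayPt} (hh : h ∈ hexadsOn d) : h ⊆ d := by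
  obtain ⟨_, o, _, rfl⟩ := hh
  exact Finset.inter_subset_right

/-! ### masks -/

theorem ms_or (a b : ℕ) : ms a ∪ ms b = ms (a ||| b) := by
  ext p
  simp [mem_ms, Nat.testBit_or]

theorem ms_sdiff (a b : ℕ) : ms a \ ms b = ms (a ^^^ (a &&& b)) := by
  ext p
  simp only [Finset.mem_sdiff, mem_ms, Nat.testBit_xor, Nat.testBit_and]
  cases a.testBit (idx p) <;> cases b.testBit (idx p) <;> simp

theorem ms_inj {a b : ℕ} (ha : a < 2 ^ 24) (hb : b < 2 ^ 24) (h : ms a = ms b) : a = b := by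
  apply Nat.eq_of_testBit_eq
  intro i
  by_cases hi : i < 24
  · have h1 : pt i ∈ ms a ↔ pt i ∈ ms b := by rw [h]
    rw [pt_mem_ms hi, pt_mem_ms hi] at h1
    cases ha' : a.testBit i <;> cases hb' : b.testBit i <;> simp_all
  · have h2 : (2 : ℕ) ^ 24 ≤ 2 ^ i := Nat.pow_le_pow_right (by norm_num) (by omega)
    rw [Nat.testBit_lt_two_pow (lt_of_lt_of_le ha h2),
      Nat.testBit_lt_two_pow (lt_of_lt_of_le hb h2)]

theorem ms_subset {a b : ℕ} (h : a &&& b = a) : ms a ⊆ ms b := by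
  rw [← Finset.inter_eq_left, ms_and, h]

theorem ms_cw_mem_octads {k : ℕ} (hk : k < 4096) (h8 : pc (cw k) = 8) : ms (cw k) ∈ octads := by
  rw [mem_octads]
  refine ⟨(mem_supports_iff _).mpr ⟨k, hk, ms_cw k⟩, ?_⟩
  rw [card_ms, h8]

theorem exists_cw_of_mem_octads {o : Finset GolayPt} (ho : o ∈ octads) :
    ∃ k < 4096, pc (cw k) = 8 ∧ o = ms (cw k) := by
  rw [mem_octads] at ho
  obtain ⟨k, hk, rfl⟩ := (mem_supports_iff _).mp ho.1
  refine ⟨k, hk, ?_, (ms_cw k).symm⟩
  rw [← card_ms, ms_cw]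
  exact ho.2

/-! ### hexads on the standard dodecad -/

def hexP : List (ℕ × ℕ) := [(343, 1308), (591, 1501), (797, 3284), (858, 1505), (4127, 345), (4430, 119), (4441, 960), (4691, 3235), (4700, 1380), (4875, 120), (4886, 1565), (4933, 1208), (8285, 1087), (8478, 690), (8523, 3108), (8731, 1046), (8790, 240), (8967, 478), (9036, 266), (9041, 1903), (12359, 370), (12378, 1815), (12557, 523), (12563, 1096), (12628, 3453), (12814, 2204), (12821, 714), (12873, 425), (13080, 135), (13122, 2006), (65627, 1577), (65807, 787), (65884, 438), (66078, 1574), (66133, 1778), (66323, 1131), (66374, 2813), (66377, 826), (69709, 2693), (69718, 211), (69909, 1630), (69914, 3993), (69955, 239), (70151, 845), (70169, 1294), (70218, 1963), (70412, 1330), (70480, 1617), (73751, 3474), (73806, 740), (74009, 2040), (74053, 1179), (74066, 1836), (74253, 1753), (74307, 537), (74328, 2127), (74506, 326), (74516, 1797), (77835, 1260), (77852, 1883), (77905, 957), (78086, 1697),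 (78152, 609), (78354, 1920), (78404, 305), (78593, 2959), (262238, 2958), (262427, 304), (262477, 1921), (262679, 608), (262745, 1696), (262926, 956), (262979, 1882), (262996, 1261), (266315, 1796), (266325, 327), (266503, 2126), (266524, 536), (266578, 1752), (266765, 1837), (266778, 1178), (266822, 2041), (267025, 741), (267080, 3475), (270351, 1616), (270419, 1331), (270613, 1962), (270662, 1295), (270680, 844), (270876, 238), (270917, 3992), (270922, 1631), (271113, 210), (271122, 2692), (274454, 827), (274457, 2812), (274508, 1130), (274698, 1779), (274753, 1575), (274947, 439), (275024, 786), (275204, 1576), (327709, 2007), (327751, 134), (327958, 424), (328010, 715), (328017, 2205), (328203, 3452), (328268, 1097), (328274, 522), (328453, 1814), (328472, 371), (331790, 1902), (331795, 267), (331864, 479), (332041, 241), (332100, 1047), (332308, 3109), (332353, 691), (332546, 1086), (335898, 1209), (335945, 1564), (335956, 121), (336131, 1381), (336140,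 3234), (336390, 961), (336401, 118), (336704, 344), (339973, 1504), (340034, 3285), (340240, 1500), (340488, 1309)]

def hexL : List ℕ := hexP.map Prod.fst

theorem hex_sound : hexP.all (fun p => Nat.blt p.2 4096 && Nat.beq (pc (cw p.2)) 8 &&
    Nat.beq (cw p.2 &&& cw 1) p.1 && Nat.beq (pc p.1) 6 && Nat.blt p.1 16777216) = true := by
  decide +kernel

theorem hex_complete : (List.range 4096).all (fun k =>
    !(Nat.beq (pc (cw k)) 8 && Nat.beq (pc (cw k &&& cw 1)) 6) ||
      hexL.contains (cw k &&& cw 1)) = true := by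
  decide +kernel

theorem hexL_lt {m : ℕ} (hm : m ∈ hexL) : m < 2 ^ 24 := by
  obtain ⟨p, hp, rfl⟩ := List.mem_map.mp hm
  have h := List.all_eq_true.mp hex_sound p hp
  simp only [Bool.and_eq_true] at h
  have := h.2
  simpa using this

theorem mem_hexadsOn_iff (h : Finset GolayPt) :
    h ∈ hexadsOn (ms (cw 1)) ↔ ∃ m ∈ hexL, h = ms m := by
  constructor
  · rintro ⟨hc, o, ho, rfl⟩
    obtain ⟨k, hk, h8, rfl⟩ := exists_cw_of_mem_octads ho
    rw [ms_and] at hc ⊢
    rw [card_ms] at hc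
    have h1 := List.all_eq_true.mp hex_complete k (List.mem_range.mpr hk)
    rw [h8, hc] at h1
    refine ⟨_, ?_, rfl⟩
    simpa using h1
  · rintro ⟨m, hm, rfl⟩
    obtain ⟨p, hp, rfl⟩ := List.mem_map.mp hm
    have h := List.all_eq_true.mp hex_sound p hp
    simp only [Bool.and_eq_true] at h
    obtain ⟨⟨⟨⟨h1, h2⟩, h3⟩, h4⟩, _⟩ := h
    have h1' : p.2 < 4096 := by simpa using h1
    have h2' := Nat.eq_of_beq_eq_true h2
    have h3' := Nat.eq_of_beq_eq_true h3
    have h4' := Nat.eq_of_beq_eq_true h4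
    refine ⟨by rw [card_ms, h4'], ms (cw p.2), ms_cw_mem_octads h1' h2', ?_⟩
    rw [ms_and, h3']

theorem ms_mem_hexadsOn {m : ℕ} (hm : hexL.contains m = true) : ms m ∈ hexadsOn (ms (cw 1)) :=
  (mem_hexadsOn_iff _).mpr ⟨m, by simpa using hm, rfl⟩


/-! ### quartets given by lists of masks -/

/-- the family of point sets given by a list of masks -/
def qset (l : List ℕ) : Finset (Finset GolayPt) := l.toFinset.image ms

theorem mem_qset {l : List ℕ} {t : Finset GolayPt} : t ∈ qset l ↔ ∃ a ∈ l, ms a = t := by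
  simp [qset]

theorem ms_mem_qset {l : List ℕ} {a : ℕ} (h : a ∈ l) : ms a ∈ qset l := mem_qset.mpr ⟨a, h, rfl⟩

theorem card_qset {l : List ℕ} (hl : ∀ a ∈ l, a < 2 ^ 24) (hn : l.Nodup) :
    (qset l).card = l.length := by
  unfold qset
  rw [Finset.card_image_of_injOn, List.toFinset_card_of_nodup hn]
  intro a ha b hb h
  exact ms_inj (hl a (List.mem_toFinset.mp ha)) (hl b (List.mem_toFinset.mp hb)) h

theorem smul_qset {T : ℕ} (h : good T = true) (l : List ℕ) :
    tp T • qset l = qset (l.map (apm T)) := by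
  ext t
  rw [Finset.mem_smul_finset, mem_qset]
  constructor
  · rintro ⟨u, hu, rfl⟩
    obtain ⟨a, ha, rfl⟩ := mem_qset.mp hu
    exact ⟨apm T a, List.mem_map.mpr ⟨a, ha, rfl⟩, (smul_ms h a).symm⟩
  · rintro ⟨b, hb, rfl⟩
    obtain ⟨a, ha, rfl⟩ := List.mem_map.mp hb
    exact ⟨ms a, ms_mem_qset ha, smul_ms h a⟩

/-- kernel-checkable: the list of masks is a quartet of the standard dodecad -/
def qchk (l : List ℕ) : Bool :=
  Nat.beq l.length 4 && decide l.Nodup &&
    l.all (fun a => Nat.beq (pc a) 3 && Nat.beq (a &&& cw 1) a && Nat.blt a 16777216) &&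
    l.all (fun a => l.all (fun b => Nat.beq a b || hexL.contains (a ||| b)))

theorem qchk_lt {l : List ℕ} (h : qchk l = true) : ∀ a ∈ l, a < 2 ^ 24 := by
  intro a ha
  simp only [qchk, Bool.and_eq_true, List.all_eq_true] at h
  have := (h.1.2 a ha).2
  simpa using this

theorem qchk_nodup {l : List ℕ} (h : qchk l = true) : l.Nodup := by
  simp only [qchk, Bool.and_eq_true, List.all_eq_true] at h
  simpa using h.1.1.2

theorem qchk_card {l : List ℕ} (h : qchk l = true) : (qset l).card = 4 := by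
  rw [card_qset (qchk_lt h) (qchk_nodup h)]
  simp only [qchk, Bool.and_eq_true, List.all_eq_true] at h
  exact Nat.eq_of_beq_eq_true h.1.1.1

theorem qchk_sound {l : List ℕ} (h : qchk l = true) : qset l ∈ quartets (ms (cw 1)) := by
  refine ⟨qchk_card h, ?_, ?_⟩
  · intro t ht
    obtain ⟨a, ha, rfl⟩ := mem_qset.mp ht
    simp only [qchk, Bool.and_eq_true, List.all_eq_true] at h
    obtain ⟨⟨h1, h2⟩, _⟩ := h.1.2 a ha
    exact ⟨by rw [card_ms, Nat.eq_of_beq_eq_true h1], ms_subset (Nat.eq_of_beq_eq_true h2)⟩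
  · intro t ht u hu hne
    obtain ⟨a, ha, rfl⟩ := mem_qset.mp ht
    obtain ⟨b, hb, rfl⟩ := mem_qset.mp hu
    simp only [qchk, Bool.and_eq_true, List.all_eq_true] at h
    have h1 := h.2 a ha b hb
    rw [Bool.or_eq_true] at h1
    rcases h1 with h1 | h1
    · exact absurd (by rw [Nat.eq_of_beq_eq_true h1]) hne
    · rw [ms_or]
      exact ms_mem_hexadsOn h1

/-! ### the standard quartet -/

def Q0 : Finset (Finset GolayPt) := qset [7, 4120, 8960, 327744]

theorem Q0_chk : qchk [7, 4120, 8960, 327744] = true := by decide +kernel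

theorem Q0_mem : Q0 ∈ quartets (ms (cw 1)) := qchk_sound Q0_chk

theorem Q0_card : Q0.card = 4 := qchk_card Q0_chk

theorem std_check : hexL.all (fun m => hexL.all (fun m' =>
    !(Nat.beq (m &&& 7) 7) || !(Nat.beq (m' &&& 4120) 4120) ||
    !(Nat.beq (m ^^^ (m &&& 7)) (m' ^^^ (m' &&& 4120))) ||
    Nat.beq (m ^^^ (m &&& 7)) 8960 || Nat.beq (m ^^^ (m &&& 7)) 327744)) = true := by
  decide +kernel

theorem sub_of_union {v : Finset GolayPt} {a m : ℕ} (hm : m < 2 ^ 24) (ha : a < 2 ^ 24)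
    (e : v ∪ ms a = ms m) : m &&& a = a := by
  have h1 : ms a ⊆ ms m := by rw [← e]; exact Finset.subset_union_right
  rw [← Finset.inter_eq_right, ms_and] at h1
  have h2 : m &&& a ≤ m := Nat.and_le_left
  have h3 : ms (m &&& a) ⊆ ms a := by rw [← ms_and]; exact Finset.inter_subset_right
  apply Nat.eq_of_testBit_eq
  intro i
  by_cases hi : i < 24
  · have h4 : pt i ∈ ms (m &&& a) ↔ pt i ∈ ms a := by rw [h1]
    rw [pt_mem_ms hi, pt_mem_ms hi] at h4
    cases ha' : (m &&& a).testBit i <;> cases hb' : a.testBit i <;> simp_all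
  · have h5 : (2 : ℕ) ^ 24 ≤ 2 ^ i := Nat.pow_le_pow_right (by norm_num) (by omega)
    rw [Nat.testBit_and, Nat.testBit_lt_two_pow (lt_of_lt_of_le hm h5),
      Nat.testBit_lt_two_pow (lt_of_lt_of_le ha h5)]
    simp

theorem std_third {v : Finset GolayPt} (hv3 : v.card = 3)
    (h1 : v ∪ ms 7 ∈ hexadsOn (ms (cw 1))) (h2 : v ∪ ms 4120 ∈ hexadsOn (ms (cw 1))) :
    v = ms 8960 ∨ v = ms 327744 := by
  obtain ⟨m, hm, e1⟩ := (mem_hexadsOn_iff _).mp h1
  obtain ⟨m', hm', e2⟩ := (mem_hexadsOn_iff _).mp h2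
  have c1 : (v ∪ ms 7).card = 6 := h1.1
  have c2 : (v ∪ ms 4120).card = 6 := h2.1
  have p7 : (ms 7).card = 3 := by rw [card_ms]; decide
  have p8 : (ms 4120).card = 3 := by rw [card_ms]; decide
  have d1 : Disjoint v (ms 7) := by
    rw [← Finset.card_union_eq_card_add_card, c1, hv3, p7]
  have d2 : Disjoint v (ms 4120) := by
    rw [← Finset.card_union_eq_card_add_card, c2, hv3, p8]
  have v1 : v = ms (m ^^^ (m &&& 7)) := by
    rw [← ms_sdiff, ← e1, Finset.union_sdiff_cancel_right d1]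
  have v2 : v = ms (m' ^^^ (m' &&& 4120)) := by
    rw [← ms_sdiff, ← e2, Finset.union_sdiff_cancel_right d2]
  have hml := hexL_lt hm
  have hml' := hexL_lt hm'
  have s1 : m &&& 7 = 7 := sub_of_union hml (by norm_num) e1
  have s2 : m' &&& 4120 = 4120 := sub_of_union hml' (by norm_num) e2
  have b1 : m ^^^ (m &&& 7) < 2 ^ 24 :=
    Nat.xor_lt_two_pow hml (lt_of_le_of_lt Nat.and_le_left hml)
  have b2 : m' ^^^ (m' &&& 4120) < 2 ^ 24 :=
    Nat.xor_lt_two_pow hml' (lt_of_le_of_lt Nat.and_le_left hml')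
  have e : m ^^^ (m &&& 7) = m' ^^^ (m' &&& 4120) := ms_inj b1 b2 (v1.symm.trans v2)
  have h := List.all_eq_true.mp (List.all_eq_true.mp std_check m hm) m' hm'
  rw [s1, s2] at h
  rw [s1] at v1 e
  rw [s2] at e
  rw [e] at h
  simp only [Nat.beq_refl, Bool.not_true, Bool.false_or] at h
  rw [Bool.or_eq_true] at h
  rcases h with h | h
  · left
    rw [v1, e, Nat.eq_of_beq_eq_true h]
  · right
    rw [v1, e, Nat.eq_of_beq_eq_true h]

theorem std_unique {Q : Finset (Finset GolayPt)} (hQ : Q ∈ quartets (ms (cw 1)))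
    (h7 : ms 7 ∈ Q) (hu : ms 4120 ∈ Q) : Q = Q0 := by
  obtain ⟨h4, h3, hU⟩ := hQ
  apply Finset.eq_of_subset_of_card_le
  · intro v hv
    by_cases e1 : v = ms 7
    · rw [e1]; exact ms_mem_qset (by decide)
    by_cases e2 : v = ms 4120
    · rw [e2]; exact ms_mem_qset (by decide)
    rcases std_third (h3 v hv).1 (hU v hv _ h7 e1) (hU v hv _ hu e2) with h | h
    · rw [h]; exact ms_mem_qset (by decide)
    · rw [h]; exact ms_mem_qset (by decide)
  · rw [h4, Q0_card]

/-! ### moving a pair of triples to the standard pair -/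

theorem ms7 : ms 7 = {pt 0, pt 1, pt 2} := by
  ext p
  revert p
  decide

theorem ms4127 : ms 7 ∪ ms 4120 = ms 4127 := by rw [ms_or]; rfl

theorem exists_std_pair {d t u : Finset GolayPt} (hd : d ∈ dodecads) (ht : t.card = 3)
    (hu : u.card = 3) (htu : Disjoint t u) (hh : t ∪ u ∈ hexadsOn d) :
    ∃ τ ∈ M24, τ • ms (cw 1) = d ∧ τ • ms 7 = t ∧ τ • ms 4120 = u := by
  obtain ⟨x0, x1, x2, h01, h02, h12, rfl⟩ := Finset.card_eq_three.mp ht
  obtain ⟨x3, x4, x5, h34, h35, h45, rfl⟩ := Finset.card_eq_three.mp hu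
  simp only [Finset.disjoint_insert_left, Finset.disjoint_singleton_left, Finset.mem_insert,
    Finset.mem_singleton, not_or] at htu
  obtain ⟨⟨h03, h04, h05⟩, ⟨h13, h14, h15⟩, h23, h24, h25⟩ := htu
  have hsub := hexad_subset hh
  let x : Fin 5 ↪ GolayPt := ⟨![x0, x1, x2, x3, x4], by
    intro i j hij
    fin_cases i <;> fin_cases j <;> simp_all⟩
  have hx5 : ∀ i, x i = x0 ∨ x i = x1 ∨ x i = x2 ∨ x i = x3 ∨ x i = x4 := by
    intro i
    fin_cases i
    · exact Or.inl rfl
    · exact Or.inr (Or.inl rfl)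
    · exact Or.inr (Or.inr (Or.inl rfl))
    · exact Or.inr (Or.inr (Or.inr (Or.inl rfl)))
    · exact Or.inr (Or.inr (Or.inr (Or.inr rfl)))
  have hx6 : ∀ i, x i ∈ ({x0, x1, x2} ∪ {x3, x4, x5} : Finset GolayPt) := by
    intro i
    simp only [Finset.mem_union, Finset.mem_insert, Finset.mem_singleton]
    have := hx5 i
    tauto
  have hx : ∀ i, x i ∈ d := fun i => hsub (hx6 i)
  have hc : ∀ i : Fin 5, pt (cs i) ∈ ms 4127 := by decide
  obtain ⟨τ, hτ, hτd, hτx⟩ := exists_frame hd x hx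
  have e0 : τ (pt 0) = x0 := hτx 0
  have e1 : τ (pt 1) = x1 := hτx 1
  have e2 : τ (pt 2) = x2 := hτx 2
  have e3 : τ (pt 3) = x3 := hτx 3
  have e4 : τ (pt 4) = x4 := hτx 4
  have ht7 : τ • ms 7 = {x0, x1, x2} := by
    rw [ms7, Finset.smul_finset_def]
    simp only [Finset.image_insert, Finset.image_singleton, Equiv.Perm.smul_def, e0, e1, e2]
  have hhex : τ • ms 4127 = {x0, x1, x2} ∪ {x3, x4, x5} := by
    apply hexad_eq (d := d) _ hh
    · have hs : Finset.univ.map x ⊆ τ • ms 4127 ∩ ({x0, x1, x2} ∪ {x3, x4, x5}) := by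
        intro y hy
        obtain ⟨i, _, rfl⟩ := Finset.mem_map.mp hy
        rw [Finset.mem_inter]
        constructor
        · rw [← hτx i]
          exact Finset.smul_mem_smul_finset (hc i)
        · exact hx6 i
      have := Finset.card_le_card hs
      rw [Finset.card_map] at this
      simpa using this
    · rw [← hτd]
      exact smul_hexadsOn hτ (ms_mem_hexadsOn (by decide +kernel))
  refine ⟨τ, hτ, hτd, ht7, ?_⟩
  have h1 : ms 4120 = ms 4127 \ ms 7 := by rw [ms_sdiff]; rfl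
  rw [h1, Finset.smul_finset_sdiff, hhex, ht7]
  apply Finset.union_sdiff_cancel_left
  simp only [Finset.disjoint_insert_left, Finset.disjoint_singleton_left, Finset.mem_insert,
    Finset.mem_singleton, not_or]
  exact ⟨⟨h03, h04, h05⟩, ⟨h13, h14, h15⟩, h23, h24, h25⟩

/-- every quartet of a dodecad, with two of its triples, is the image of the standard one -/
theorem exists_std_quartet_pair {d : Finset GolayPt} (hd : d ∈ dodecads)
    {Q : Finset (Finset GolayPt)} (hQ : Q ∈ quartets d) {t u : Finset GolayPt} (ht : t ∈ Q)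
    (hu : u ∈ Q) (hne : t ≠ u) :
    ∃ τ ∈ M24, τ • ms (cw 1) = d ∧ τ • ms 7 = t ∧ τ • ms 4120 = u ∧ τ • Q0 = Q := by
  have h3t := (hQ.2.1 t ht).1
  have h3u := (hQ.2.1 u hu).1
  have hh := hQ.2.2 t ht u hu hne
  have hdis : Disjoint t u := by
    rw [← Finset.card_union_eq_card_add_card, hh.1, h3t, h3u]
  obtain ⟨τ, hτ, hτd, hτt, hτu⟩ := exists_std_pair hd h3t h3u hdis hh
  refine ⟨τ, hτ, hτd, hτt, hτu, ?_⟩
  have h1 : τ⁻¹ • Q ∈ quartets (ms (cw 1)) := by
    have := smul_quartets (inv_mem hτ) hQ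
    rwa [← hτd, inv_smul_smul] at this
  have h2 := std_unique h1 (by rw [Finset.mem_inv_smul_finset_iff, hτt]; exact ht)
    (by rw [Finset.mem_inv_smul_finset_iff, hτu]; exact hu)
  rw [← h2, smul_inv_smul]

theorem exists_std_quartet {d : Finset GolayPt} (hd : d ∈ dodecads)
    {Q : Finset (Finset GolayPt)} (hQ : Q ∈ quartets d) :
    ∃ τ ∈ M24, τ • ms (cw 1) = d ∧ τ • Q0 = Q := by
  have h1 : 1 < Q.card := by rw [hQ.1]; norm_num
  obtain ⟨t, ht, u, hu, hne⟩ := Finset.one_lt_card.mp h1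
  obtain ⟨τ, hτ, hτd, _, _, hτQ⟩ := exists_std_quartet_pair hd hQ ht hu hne
  exact ⟨τ, hτ, hτd, hτQ⟩

/-- two triples whose union is a hexad lie in exactly one quartet -/
theorem unique_quartet (d : Finset GolayPt) (hd : d ∈ dodecads) (t u : Finset GolayPt)
    (ht : t.card = 3) (hu : u.card = 3) (htu : Disjoint t u) (hh : t ∪ u ∈ hexadsOn d) :
    ∃! Q : Finset (Finset GolayPt), Q ∈ quartets d ∧ t ∈ Q ∧ u ∈ Q := by
  obtain ⟨τ, hτ, hτd, hτt, hτu⟩ := exists_std_pair hd ht hu htu hh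
  refine ⟨τ • Q0, ⟨?_, ?_, ?_⟩, ?_⟩
  · rw [← hτd]; exact smul_quartets hτ Q0_mem
  · rw [← hτt]; exact Finset.smul_mem_smul_finset (ms_mem_qset (by decide))
  · rw [← hτu]; exact Finset.smul_mem_smul_finset (ms_mem_qset (by decide))
  · rintro Q ⟨hQ, htQ, huQ⟩
    have h1 : τ⁻¹ • Q ∈ quartets (ms (cw 1)) := by
      have := smul_quartets (inv_mem hτ) hQ
      rwa [← hτd, inv_smul_smul] at this
    have h2 := std_unique h1 (by rw [Finset.mem_inv_smul_finset_iff, hτt]; exact htQ)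
      (by rw [Finset.mem_inv_smul_finset_iff, hτu]; exact huQ)
    rw [← h2, smul_inv_smul]

end Cfsg.Agent.Lib.Helper11.Quartet
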