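import Mathlib
import Cfsg.Prelude.Def_SporadicCombinatorics
import Cfsg.Agent.Lib.Helper3.M24Dod
import Cfsg.Agent.Lib.Helper3.M24Orb
import Cfsg.Agent.Lib.Helper3.M24Gen
import Cfsg.Agent.Lib.Helper3.Coatom
import Cfsg.Agent.Lib.Helper11.Quartet

set_option autoImplicit false

namespace Cfsg.Agent.Lib.Helper11.Quartet

open Cfsg Cfsg.Agent.Lib.Helper3.Golay Cfsg.Agent.Lib.Helper3.Golay2
open Cfsg.Agent.Lib.Helper3.M24Perm Cfsg.Agent.Lib.Helper3.M24Cert
open Cfsg.Agent.Lib.Helper3.M24Trans Cfsg.Agent.Lib.Helper3.M24Dod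
open Cfsg.Agent.Lib.Helper3.M24Orb Cfsg.Agent.Lib.Helper3.M24Gen
open Cfsg.Agent.Lib.Helper3.Coatom
open scoped Pointwise

/-- stabiliser of the standard dodecad and the standard quartet -/
def stabQ : Subgroup (Equiv.Perm GolayPt) :=
  fixG [cw 1] [] ⊓ MulAction.stabilizer (Equiv.Perm GolayPt) Q0

theorem mem_fixd {g : Equiv.Perm GolayPt} :
    g ∈ fixG [cw 1] [] ↔ g ∈ M24 ∧ g • ms (cw 1) = ms (cw 1) := by
  simp [mem_fixG]

theorem mem_stabQ {g : Equiv.Perm GolayPt} :
    g ∈ stabQ ↔ g ∈ M24 ∧ g • ms (cw 1) = ms (cw 1) ∧ g • Q0 = Q0 := by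
  rw [stabQ, Subgroup.mem_inf, mem_fixd, and_assoc]
  exact Iff.rfl

theorem mem_fixK {g : Equiv.Perm GolayPt} : g ∈ fixG [cw 1, 7, 4120] [] ↔
    g ∈ M24 ∧ g • ms (cw 1) = ms (cw 1) ∧ g • ms 7 = ms 7 ∧ g • ms 4120 = ms 4120 := by
  simp [mem_fixG]

theorem fixK_le : fixG [cw 1, 7, 4120] [] ≤ stabQ := by
  intro g hg
  rw [mem_fixK] at hg
  obtain ⟨hM, hd, h7, h8⟩ := hg
  refine mem_stabQ.mpr ⟨hM, hd, ?_⟩
  have h1 : g • Q0 ∈ quartets (ms (cw 1)) := by
    have := smul_quartets hM Q0_mem
    rwa [hd] at this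
  exact std_unique h1 (by rw [← h7]; exact Finset.smul_mem_smul_finset (ms_mem_qset (by decide)))
    (by rw [← h8]; exact Finset.smul_mem_smul_finset (ms_mem_qset (by decide)))

def qg : List ℕ := [933532972014905877120956273494739152, 609412496548837998074135078336102465]

def prsA : List (ℕ × List ℕ) := [(984818244535754528103549039458486304, []), (609412496548837998074135078336102465, [1]), (809530155945763317040849829497078848, [0, 0, 1, 0]), (484978331804725429114921978952749164, [1, 0, 1, 0]), (974472608386964902950859342543621260, [1, 0, 0]), (860196563511836035639408435330035812, [1, 0, 0, 1]), (236832285060458999734162735897813293, [0, 1, 0]), (653720009452026998304466653145081101, [0, 0]), (482505493334308033104389666110977320, [0, 0, 1]), (838215549044023936872809898191110726, [0, 1]), (933532972014905877120956273494739152, [0]), (902633743791447788305334774785120848, [1, 0])]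

def prsK1 : List (ℕ × List ℕ) := [(984818244535754528103549039458486304, []), (891256915141300104684601826038906945, [1, 1, 1, 1]), (809648025571350634416323764134740994, [1, 1])]

def prsK2 : List (ℕ × List ℕ) := [(984818244535754528103549039458486304, []), (630395959291514176273967727838889024, [1, 0, 0, 1, 0, 1])]

def prsK3 : List (ℕ × List ℕ) := [(984818244535754528103549039458486304, []), (487607080158395075740321133224921120, [1, 1, 0, 1, 1, 0, 0]), (928718206277989008510816407558424608, [0, 0, 1, 1, 0])]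

def prsK4 : List (ℕ × List ℕ) := [(984818244535754528103549039458486304, []), (970499966350631336865513127433832480, [0, 1, 0, 1, 0, 1, 1, 0, 1])]

def prsT : List (ℕ × List ℕ) := [(984818244535754528103549039458486304, []), (609412496548837998074135078336102465, [1]), (809648025571350634416323764134740994, [1, 1]), (476626031673858665125518036970148227, [0, 1, 0, 0, 1]), (860196563511836035639408435330035812, [1, 0, 0, 1]), (838215549044023936872809898191110726, [0, 1]), (482505493334308033104389666110977320, [0, 0, 1]), (808233348531630453620909530016855305, [0, 1, 0, 1]), (974472608386964902950859342543621260, [1, 0, 0]), (653720009452026998304466653145081101, [0, 0]), (933532972014905877120956273494739152, [0]), (222567402846218115079519631594012882, [1, 0, 1])]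

theorem kl1 : levelCheck [cw 1, 7, 4120] [] (prsK1.map Prod.fst) 0 7 3 = true := by
  decide +kernel

theorem kl2 : levelCheck [cw 1, 7, 4120] [0] (prsK2.map Prod.fst) 1 6 2 = true := by
  decide +kernel

theorem kl3 : levelCheck [cw 1, 7, 4120] [1, 0] (prsK3.map Prod.fst) 3 4120 3 = true := by
  decide +kernel

theorem kl4 : levelCheck [cw 1, 7, 4120] [3, 1, 0] (prsK4.map Prod.fst) 4 4112 2 = true := by
  decide +kernel

theorem fixK_bot : fixG [cw 1, 7, 4120] [4, 3, 1, 0] = ⊥ := by
  rw [eq_bot_iff]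
  intro g hg
  rw [← fixd5_bot]
  rw [mem_fixG] at hg ⊢
  obtain ⟨hM, hD, hF⟩ := hg
  refine ⟨hM, fun D hD' => hD D (by simp only [List.mem_cons, List.not_mem_nil, or_false] at hD' ⊢; exact Or.inl hD'), ?_⟩
  have h7 : g • ms 7 = ms 7 := hD 7 (by simp)
  have h0 : g (pt 0) = pt 0 := hF 0 (by simp)
  have h1 : g (pt 1) = pt 1 := hF 1 (by simp)
  have h3 : g (pt 3) = pt 3 := hF 3 (by simp)
  have h4 : g (pt 4) = pt 4 := hF 4 (by simp)
  have h2 : g (pt 2) = pt 2 := by
    have hm : g (pt 2) ∈ ms 7 := by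
      rw [← h7]
      exact Finset.smul_mem_smul_finset (s := ms 7) (a := g) (by rw [ms7]; simp)
    rw [ms7] at hm
    simp only [Finset.mem_insert, Finset.mem_singleton] at hm
    rcases hm with h | h | h
    · exfalso
      rw [← h0] at h
      exact absurd (g.injective h) (by decide)
    · exfalso
      rw [← h1] at h
      exact absurd (g.injective h) (by decide)
    · exact h
  intro i hi
  simp only [List.mem_cons, List.not_mem_nil, or_false] at hi
  rcases hi with rfl | rfl | rfl | rfl | rfl <;> assumption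

theorem card_fixK : Nat.card (fixG [cw 1, 7, 4120] []) = 36 := by
  rw [level_card kl1 (by simp), level_card kl2 (by decide), level_card kl3 (by decide),
    level_card kl4 (by decide), fixK_bot, Subgroup.card_bot]

theorem card_stabQ : Nat.card stabQ = 432 := by
  have h := card_orbit_mul (G := Equiv.Perm GolayPt) stabQ (fixG [cw 1, 7, 4120] [])
    ((ms 7, ms 4120) : Finset GolayPt × Finset GolayPt)
    (↑(Q0.offDiag) : Set (Finset GolayPt × Finset GolayPt)) ?_ ?_ ?_
  · rw [h, Set.ncard_coe_finset, Finset.offDiag_card, Q0_card, card_fixK]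
  · intro g
    constructor
    · intro hg
      refine ⟨fixK_le hg, ?_⟩
      rw [mem_fixK] at hg
      rw [Prod.smul_mk, hg.2.2.1, hg.2.2.2]
    · rintro ⟨hg, he⟩
      rw [mem_stabQ] at hg
      rw [Prod.smul_mk, Prod.mk.injEq] at he
      exact mem_fixK.mpr ⟨hg.1, hg.2.1, he.1, he.2⟩
  · intro g hg
    rw [mem_stabQ] at hg
    rw [Finset.mem_coe, Finset.mem_offDiag, Prod.smul_mk]
    refine ⟨?_, ?_, ?_⟩
    · have := Finset.smul_mem_smul_finset (a := g) (ms_mem_qset (l := [7, 4120, 8960, 327744])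
        (a := 7) (by decide))
      rw [show qset [7, 4120, 8960, 327744] = Q0 from rfl, hg.2.2] at this
      exact this
    · have := Finset.smul_mem_smul_finset (a := g) (ms_mem_qset (l := [7, 4120, 8960, 327744])
        (a := 4120) (by decide))
      rw [show qset [7, 4120, 8960, 327744] = Q0 from rfl, hg.2.2] at this
      exact this
    · intro h
      exact absurd (ms_inj (by norm_num) (by norm_num) (smul_left_cancel g h)) (by norm_num)
  · rintro ⟨t, u⟩ hs
    rw [Finset.mem_coe, Finset.mem_offDiag] at hs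
    obtain ⟨τ, hτ, hτd, hτt, hτu, hτQ⟩ :=
      exists_std_quartet_pair d0_mem Q0_mem hs.1 hs.2.1 hs.2.2
    exact ⟨τ, mem_stabQ.mpr ⟨hτ, hτd, hτQ⟩, by rw [Prod.smul_mk, hτt, hτu]⟩

theorem ncard_quartets_d0 : (quartets (ms (cw 1))).ncard = 220 := by
  have h := card_orbit_mul (G := Equiv.Perm GolayPt) (fixG [cw 1] []) stabQ Q0
    (quartets (ms (cw 1))) ?_ ?_ ?_
  · rw [card_M12, card_stabQ] at h
    omega
  · intro g
    rw [stabQ, Subgroup.mem_inf]
    exact Iff.rfl
  · intro g hg
    rw [mem_fixd] at hg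
    have := smul_quartets hg.1 Q0_mem
    rwa [hg.2] at this
  · intro Q hQ
    obtain ⟨τ, hτ, hτd, hτQ⟩ := exists_std_quartet d0_mem hQ
    exact ⟨τ, mem_fixd.mpr ⟨hτ, hτd⟩, hτQ⟩

theorem quartets_smul {τ : Equiv.Perm GolayPt} (hτ : τ ∈ M24) (d : Finset GolayPt) :
    quartets (τ • d) = (fun Q => τ • Q) '' quartets d := by
  ext Q
  constructor
  · intro hQ
    refine ⟨τ⁻¹ • Q, ?_, smul_inv_smul τ Q⟩
    have := smul_quartets (inv_mem hτ) hQ
    rwa [inv_smul_smul] at this
  · rintro ⟨Q', hQ', rfl⟩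
    exact smul_quartets hτ hQ'

theorem ncard_quartets {d : Finset GolayPt} (hd : d ∈ dodecads) : (quartets d).ncard = 220 := by
  obtain ⟨σ, hσ, rfl⟩ := dodecad_orbit hd
  rw [quartets_smul hσ, Set.ncard_image_of_injective _ (MulAction.injective σ),
    ncard_quartets_d0]

theorem quartets_trans {d : Finset GolayPt} (hd : d ∈ dodecads)
    {Q Q' : Finset (Finset GolayPt)} (hQ : Q ∈ quartets d) (hQ' : Q' ∈ quartets d) :
    ∃ g : Equiv.Perm GolayPt, g ∈ M24 ∧ g • d = d ∧ g • Q = Q' := by
  obtain ⟨τ, hτ, hτd, hτQ⟩ := exists_std_quartet hd hQ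
  obtain ⟨τ', hτ', hτd', hτQ'⟩ := exists_std_quartet hd hQ'
  have e1 : τ⁻¹ • d = ms (cw 1) := inv_smul_eq_iff.mpr hτd.symm
  have e2 : τ⁻¹ • Q = Q0 := inv_smul_eq_iff.mpr hτQ.symm
  refine ⟨τ' * τ⁻¹, mul_mem hτ' (inv_mem hτ), ?_, ?_⟩
  · rw [mul_smul, e1, hτd']
  · rw [mul_smul, e2, hτQ']

end Cfsg.Agent.Lib.Helper11.Quartet
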