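import Mathlib
import Cfsg.Prelude.Def_SporadicCombinatorics
import Cfsg.Agent.Lib.Helper3.M24Dod
import Cfsg.Agent.Lib.Helper3.M24Orb
import Cfsg.Agent.Lib.Helper3.M24Gen
import Cfsg.Agent.Lib.Helper3.Coatom
import Cfsg.Agent.Lib.Helper11.Quartet
import Cfsg.Agent.Lib.Helper11.Quartet2

set_option autoImplicit false

namespace Cfsg.Agent.Lib.Helper11.Quartet

open Cfsg Cfsg.Agent.Lib.Helper3.Golay Cfsg.Agent.Lib.Helper3.Golay2
open Cfsg.Agent.Lib.Helper3.M24Perm Cfsg.Agent.Lib.Helper3.M24Cert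
open Cfsg.Agent.Lib.Helper3.M24Trans Cfsg.Agent.Lib.Helper3.M24Dod
open Cfsg.Agent.Lib.Helper3.M24Orb Cfsg.Agent.Lib.Helper3.M24Gen
open Cfsg.Agent.Lib.Helper3.Coatom
open scoped Pointwise

/-! ### generators of the quartet stabiliser -/

theorem qg_good : ∀ T ∈ qg, good T = true := by decide +kernel

/-- the two lists of masks have the same members -/
def sameL (l l' : List ℕ) : Bool :=
  l.all (fun a => l'.contains a) && l'.all (fun a => l.contains a)

theorem qset_congr {l l' : List ℕ} (h : sameL l l' = true) : qset l = qset l' := by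
  simp only [sameL, Bool.and_eq_true, List.all_eq_true] at h
  unfold qset
  congr 1
  ext a
  simp only [List.mem_toFinset]
  exact ⟨fun ha => by simpa using h.1 a ha, fun ha => by simpa using h.2 a ha⟩

/-- kernel-checkable: the table lies in `stabQ` -/
def inQ (T : ℕ) : Bool :=
  inFix [cw 1] [] T && sameL ([7, 4120, 8960, 327744].map (apm T)) [7, 4120, 8960, 327744]

theorem inQ_sound {T : ℕ} (h : inQ T = true) : tp T ∈ stabQ := by
  simp only [inQ, Bool.and_eq_true] at h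
  have h1 := tp_mem_fixG h.1
  rw [mem_fixd] at h1
  refine mem_stabQ.mpr ⟨h1.1, h1.2, ?_⟩
  rw [Q0, smul_qset (inFix_good h.1)]
  exact qset_congr h.2

theorem inQ_good {T : ℕ} (h : inQ T = true) : good T = true := by
  simp only [inQ, Bool.and_eq_true] at h
  exact inFix_good h.1

theorem qg_inQ : qg.all inQ = true := by decide +kernel

theorem qg_mem : ∀ T ∈ qg, tp T ∈ stabQ := fun T hT =>
  inQ_sound (List.all_eq_true.mp qg_inQ T hT)

theorem words_mem {prs : List (ℕ × List ℕ)}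
    (h : prs.all (fun pw => good pw.1 && wordIs qg pw.2 pw.1) = true)
    (H : Subgroup (Equiv.Perm GolayPt)) (hH : ∀ T ∈ qg, tp T ∈ H) :
    ∀ T ∈ prs.map Prod.fst, tp T ∈ H := by
  intro T hT
  obtain ⟨pw, hpw, rfl⟩ := List.mem_map.mp hT
  have h1 := List.all_eq_true.mp h pw hpw
  rw [Bool.and_eq_true] at h1
  exact word_mem qg_good h1.1 h1.2 H hH

theorem wA : prsA.all (fun pw => good pw.1 && wordIs qg pw.2 pw.1) = true := by decide +kernel

theorem wK1 : prsK1.all (fun pw => good pw.1 && wordIs qg pw.2 pw.1) = true := by decide +kernel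

theorem wK2 : prsK2.all (fun pw => good pw.1 && wordIs qg pw.2 pw.1) = true := by decide +kernel

theorem wK3 : prsK3.all (fun pw => good pw.1 && wordIs qg pw.2 pw.1) = true := by decide +kernel

theorem wK4 : prsK4.all (fun pw => good pw.1 && wordIs qg pw.2 pw.1) = true := by decide +kernel

theorem fixK_le_of (H : Subgroup (Equiv.Perm GolayPt)) (hH : ∀ T ∈ qg, tp T ∈ H) :
    fixG [cw 1, 7, 4120] [] ≤ H := by
  intro g hg
  refine strip_step H kl1 (by simp) (fun T hT _ => words_mem wK1 H hH T hT) ?_ g hg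
  refine strip_step H kl2 (by decide) (fun T hT _ => words_mem wK2 H hH T hT) ?_
  refine strip_step H kl3 (by decide) (fun T hT _ => words_mem wK3 H hH T hT) ?_
  refine strip_step H kl4 (by decide) (fun T hT _ => words_mem wK4 H hH T hT) ?_
  intro g hg
  rw [fixK_bot, Subgroup.mem_bot] at hg
  rw [hg]
  exact H.one_mem

theorem pairA : [7, 4120, 8960, 327744].all (fun a => [7, 4120, 8960, 327744].all (fun b =>
    Nat.beq a b || prsA.any (fun pw => inFix [cw 1] [] pw.1 && Nat.beq (apm pw.1 7) a &&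
      Nat.beq (apm pw.1 4120) b))) = true := by
  decide +kernel

/-- a subgroup containing the two generators contains the whole quartet stabiliser -/
theorem stabQ_le (H : Subgroup (Equiv.Perm GolayPt)) (hH : ∀ T ∈ qg, tp T ∈ H) : stabQ ≤ H := by
  intro g hg
  have hg' := mem_stabQ.mp hg
  have h7 : g • ms 7 ∈ Q0 := by
    have := Finset.smul_mem_smul_finset (a := g) (ms_mem_qset (l := [7, 4120, 8960, 327744])
      (a := 7) (by decide))
    rw [show qset [7, 4120, 8960, 327744] = Q0 from rfl, hg'.2.2] at this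
    exact this
  have h8 : g • ms 4120 ∈ Q0 := by
    have := Finset.smul_mem_smul_finset (a := g) (ms_mem_qset (l := [7, 4120, 8960, 327744])
      (a := 4120) (by decide))
    rw [show qset [7, 4120, 8960, 327744] = Q0 from rfl, hg'.2.2] at this
    exact this
  obtain ⟨a, ha, ea⟩ := mem_qset.mp h7
  obtain ⟨b, hb, eb⟩ := mem_qset.mp h8
  have hab : a ≠ b := by
    rintro rfl
    have h := ea.symm.trans eb
    exact absurd (ms_inj (by norm_num) (by norm_num) (smul_left_cancel g h)) (by norm_num)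
  have hc := List.all_eq_true.mp (List.all_eq_true.mp pairA a ha) b hb
  rw [Bool.or_eq_true] at hc
  rcases hc with hc | hc
  · exact absurd (Nat.eq_of_beq_eq_true hc) hab
  · obtain ⟨pw, hpw, h1⟩ := List.any_eq_true.mp hc
    simp only [Bool.and_eq_true] at h1
    obtain ⟨⟨hf, e7⟩, e8⟩ := h1
    have hT : tp pw.1 ∈ H := words_mem wA H hH _ (List.mem_map.mpr ⟨pw, hpw, rfl⟩)
    have hfix := tp_mem_fixG hf
    rw [mem_fixd] at hfix
    have hgood := inFix_good hf
    have e7' : tp pw.1 • ms 7 = ms a := by rw [smul_ms hgood, Nat.eq_of_beq_eq_true e7]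
    have e8' : tp pw.1 • ms 4120 = ms b := by rw [smul_ms hgood, Nat.eq_of_beq_eq_true e8]
    have hk : (tp pw.1)⁻¹ * g ∈ fixG [cw 1, 7, 4120] [] := by
      rw [mem_fixK]
      refine ⟨mul_mem (inv_mem hfix.1) hg'.1, ?_, ?_, ?_⟩
      · rw [mul_smul, hg'.2.1, inv_smul_eq_iff, hfix.2]
      · rw [mul_smul, ← ea, inv_smul_eq_iff, e7']
      · rw [mul_smul, ← eb, inv_smul_eq_iff, e8']
    have := H.mul_mem hT (fixK_le_of H hH hk)
    rwa [mul_inv_cancel_left] at this

/-! ### transitivity on the dodecad -/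

theorem transT : (List.range 24).all (fun q => !((cw 1).testBit q) ||
    prsT.any (fun pw => inQ pw.1 && Nat.beq (ent pw.1 0) q)) = true := by
  decide +kernel

theorem stabQ_trans0 {p : GolayPt} (hp : p ∈ ms (cw 1)) : ∃ g ∈ stabQ, g (pt 0) = p := by
  rw [mem_ms] at hp
  have h := List.all_eq_true.mp transT (idx p) (List.mem_range.mpr (idx_lt p))
  rw [hp] at h
  simp only [Bool.not_true, Bool.false_or] at h
  obtain ⟨pw, _, h1⟩ := List.any_eq_true.mp h
  rw [Bool.and_eq_true] at h1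
  refine ⟨tp pw.1, inQ_sound h1.1, ?_⟩
  rw [tp_pt (inQ_good h1.1) (by norm_num), Nat.eq_of_beq_eq_true h1.2, pt_idx]

theorem stabQ_trans {p q : GolayPt} (hp : p ∈ ms (cw 1)) (hq : q ∈ ms (cw 1)) :
    ∃ g ∈ stabQ, g p = q := by
  obtain ⟨g1, h1, e1⟩ := stabQ_trans0 hp
  obtain ⟨g2, h2, e2⟩ := stabQ_trans0 hq
  refine ⟨g2 * g1⁻¹, mul_mem h2 (inv_mem h1), ?_⟩
  rw [Equiv.Perm.mul_apply, ← e1]
  show g2 (g1.symm (g1 (pt 0))) = q
  rw [Equiv.symm_apply_apply, e2]

/-! ### the affine plane on the nine-point orbit -/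

def etaL : List ℕ := [5, 15, 19, 11, 22, 23, 20, 14, 21]

def etaI (v : Fin 2 → ZMod 3) : ℕ := etaL.getD (3 * (v 0).val + (v 1).val) 0

def eta (v : Fin 2 → ZMod 3) : GolayPt := pt (etaI v)

theorem etaI_lt : ∀ v, etaI v < 24 := by decide

theorem etaI_inj : Function.Injective etaI := by decide

theorem eta_inj : Function.Injective eta := fun v w h =>
  etaI_inj (pt_injOn (etaI_lt v) (etaI_lt w) h)

/-- `g` acts on the nine points as an affine map with linear part `A` -/
def ActsAs (g : Equiv.Perm GolayPt) (A : GL (Fin 2) (ZMod 3)) : Prop :=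
  ∃ b : Fin 2 → ZMod 3, ∀ v, g (eta v) = eta ((A : Matrix (Fin 2) (Fin 2) (ZMod 3)).mulVec v + b)

theorem actsAs_unique {g : Equiv.Perm GolayPt} {A A' : GL (Fin 2) (ZMod 3)} (h : ActsAs g A)
    (h' : ActsAs g A') : A = A' := by
  obtain ⟨b, hb⟩ := h
  obtain ⟨b', hb'⟩ := h'
  have e0 : b = b' := by
    have := eta_inj ((hb 0).symm.trans (hb' 0))
    simpa using this
  subst e0
  apply Units.ext
  apply Matrix.toLin'.injective
  apply LinearMap.ext
  intro v
  have := eta_inj ((hb v).symm.trans (hb' v))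
  simpa [Matrix.toLin'_apply] using this

theorem actsAs_one : ActsAs 1 1 := ⟨0, fun v => by simp⟩

theorem actsAs_mul {g g' : Equiv.Perm GolayPt} {A A' : GL (Fin 2) (ZMod 3)} (h : ActsAs g A)
    (h' : ActsAs g' A') : ActsAs (g * g') (A * A') := by
  obtain ⟨b, hb⟩ := h
  obtain ⟨b', hb'⟩ := h'
  refine ⟨(A : Matrix (Fin 2) (Fin 2) (ZMod 3)).mulVec b' + b, fun v => ?_⟩
  rw [Equiv.Perm.mul_apply, hb', hb, Matrix.mulVec_add, Units.val_mul, ← Matrix.mulVec_mulVec,
    add_assoc]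

theorem actsAs_inv {g : Equiv.Perm GolayPt} {A : GL (Fin 2) (ZMod 3)} (h : ActsAs g A) :
    ActsAs g⁻¹ A⁻¹ := by
  obtain ⟨b, hb⟩ := h
  refine ⟨-((A⁻¹ : GL (Fin 2) (ZMod 3)) : Matrix (Fin 2) (Fin 2) (ZMod 3)).mulVec b, fun v => ?_⟩
  rw [Equiv.Perm.inv_eq_iff_eq, hb]
  congr 1
  rw [Matrix.mulVec_add, Matrix.mulVec_neg, Matrix.mulVec_mulVec, Matrix.mulVec_mulVec,
    ← Units.val_mul, mul_inv_cancel, Units.val_one, Matrix.one_mulVec, Matrix.one_mulVec]
  abel

/-- the permutations acting affinely on the nine points -/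
def Aff : Subgroup (Equiv.Perm GolayPt) where
  carrier := {g | ∃ A, ActsAs g A}
  mul_mem' := fun ⟨A, h⟩ ⟨A', h'⟩ => ⟨A * A', actsAs_mul h h'⟩
  one_mem' := ⟨1, actsAs_one⟩
  inv_mem' := fun ⟨A, h⟩ => ⟨A⁻¹, actsAs_inv h⟩

theorem aff0 : ∀ v : Fin 2 → ZMod 3, ent (qg.getD 0 0) (etaI v) =
    etaI (Matrix.mulVec !![2, 1; 2, 0] v + ![0, 2]) := by decide

theorem aff1 : ∀ v : Fin 2 → ZMod 3, ent (qg.getD 1 0) (etaI v) =
    etaI (Matrix.mulVec !![1, 0; 0, 2] v + ![1, 0]) := by decide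

theorem qg_aff : ∀ T ∈ qg, tp T ∈ Aff := by
  intro T hT
  have hgood := qg_good T hT
  simp only [qg, List.mem_cons, List.not_mem_nil, or_false] at hT
  rcases hT with rfl | rfl
  · refine ⟨Matrix.GeneralLinearGroup.mkOfDetNeZero !![2, 1; 2, 0]
      (by rw [Matrix.det_fin_two_of]; decide), ![0, 2], fun v => ?_⟩
    rw [eta, tp_pt hgood (etaI_lt v)]
    exact congrArg pt (aff0 v)
  · refine ⟨Matrix.GeneralLinearGroup.mkOfDetNeZero !![1, 0; 0, 2]
      (by rw [Matrix.det_fin_two_of]; decide), ![1, 0], fun v => ?_⟩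
    rw [eta, tp_pt hgood (etaI_lt v)]
    exact congrArg pt (aff1 v)

theorem stabQ_le_Aff : stabQ ≤ Aff := stabQ_le Aff qg_aff

/-! ### the linear part -/

noncomputable def linPart : stabQ →* GL (Fin 2) (ZMod 3) where
  toFun g := Classical.choose (stabQ_le_Aff g.2)
  map_one' := actsAs_unique (Classical.choose_spec (stabQ_le_Aff (1 : stabQ).2)) actsAs_one
  map_mul' g h := actsAs_unique (Classical.choose_spec (stabQ_le_Aff (g * h).2))
    (actsAs_mul (Classical.choose_spec (stabQ_le_Aff g.2))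
      (Classical.choose_spec (stabQ_le_Aff h.2)))

theorem linPart_spec (g : stabQ) : ActsAs g.1 (linPart g) :=
  Classical.choose_spec (stabQ_le_Aff g.2)

theorem compl_d0_mem : (ms (cw 1))ᶜ ∈ dodecads := by
  rw [mem_dodecads]
  refine ⟨compl_mem_supports (mem_dodecads.mp d0_mem).1, ?_⟩
  rw [Finset.card_compl, card_golayPt, (mem_dodecads.mp d0_mem).2]

theorem smul_compl {g : Equiv.Perm GolayPt} {s : Finset GolayPt} (h : g • s = s) :
    g • sᶜ = sᶜ := by
  ext p
  rw [← Finset.inv_smul_mem_iff, Finset.mem_compl, Finset.mem_compl, Finset.inv_smul_mem_iff, h]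

def vs : Fin 5 → (Fin 2 → ZMod 3) := ![![0, 0], ![0, 1], ![0, 2], ![1, 0], ![1, 1]]

theorem vs_inj : Function.Injective vs := by decide

def x9 : Fin 5 ↪ GolayPt := ⟨fun i => eta (vs i), eta_inj.comp vs_inj⟩

theorem x9_mem : ∀ i, x9 i ∈ (ms (cw 1))ᶜ := by decide

theorem eq_one_of_fix {g : Equiv.Perm GolayPt} (hg : g ∈ stabQ) (h : ∀ v, g (eta v) = eta v) :
    g = 1 := by
  have hg' := mem_stabQ.mp hg
  exact m12_unique compl_d0_mem x9 x9_mem hg'.1 (smul_compl hg'.2.1) (fun i => h _)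

theorem card_ker_le : Nat.card linPart.ker ≤ 9 := by
  have key : ∀ g : linPart.ker, ∃ b : Fin 2 → ZMod 3,
      ∀ v, (g.1.1 : Equiv.Perm GolayPt) (eta v) = eta (v + b) := by
    intro g
    have h1 := linPart_spec g.1
    rw [MonoidHom.mem_ker.mp g.2] at h1
    obtain ⟨b, hb⟩ := h1
    exact ⟨b, fun v => by simpa using hb v⟩
  choose f hf using key
  have hinj : Function.Injective f := by
    intro g g' e
    have h2 : (g.1.1)⁻¹ * g'.1.1 = 1 := by
      apply eq_one_of_fix (mul_mem (inv_mem g.1.2) g'.1.2)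
      intro v
      rw [Equiv.Perm.mul_apply, hf g' v, ← e, ← hf g v]
      exact Equiv.symm_apply_apply _ _
    have h3 : g.1.1 = g'.1.1 := by
      rw [inv_mul_eq_one] at h2
      exact h2
    exact Subtype.ext (Subtype.ext h3)
  have h9 := Nat.card_le_card_of_injective f hinj
  have h10 : Nat.card (Fin 2 → ZMod 3) = 9 := by
    rw [Nat.card_eq_fintype_card, Fintype.card_fun, ZMod.card, Fintype.card_fin]
    norm_num
  rwa [h10] at h9

theorem card_GL23 : Nat.card (GL (Fin 2) (ZMod 3)) = 48 := by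
  rw [Matrix.card_GL_field, Fin.prod_univ_two, ZMod.card]
  norm_num

theorem linPart_facts : Nat.card linPart.ker = 9 ∧ Function.Surjective linPart := by
  have h1 := card_ker_le
  have h2 : Nat.card linPart.range ≤ 48 := by
    rw [← card_GL23]
    exact Subgroup.card_le_card_group _
  have h3 : Nat.card linPart.ker * Nat.card linPart.range = 432 := by
    rw [← Subgroup.index_ker, Subgroup.card_mul_index]
    exact card_stabQ
  have h4 : Nat.card linPart.ker = 9 ∧ Nat.card linPart.range = 48 := by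
    constructor <;> nlinarith
  refine ⟨h4.1, ?_⟩
  rw [← MonoidHom.range_eq_top]
  apply Subgroup.eq_top_of_card_eq
  rw [h4.2, card_GL23]

theorem stabQ_quot : ∃ (N : Subgroup stabQ) (_ : N.Normal),
    Nat.card N = 9 ∧ Nonempty (stabQ ⧸ N ≃* GL (Fin 2) (ZMod 3)) :=
  ⟨linPart.ker, inferInstance, linPart_facts.1,
    ⟨QuotientGroup.quotientKerEquivOfSurjective linPart linPart_facts.2⟩⟩

/-! ### transport to an arbitrary dodecad and quartet -/

/-- the stabiliser of `d` and `Q` inside the permutation group -/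
def stabDQ (d : Finset GolayPt) (Q : Finset (Finset GolayPt)) : Subgroup (Equiv.Perm GolayPt) :=
  M24 ⊓ MulAction.stabilizer (Equiv.Perm GolayPt) d ⊓ MulAction.stabilizer (Equiv.Perm GolayPt) Q

theorem mem_stabDQ {d : Finset GolayPt} {Q : Finset (Finset GolayPt)} {g : Equiv.Perm GolayPt} :
    g ∈ stabDQ d Q ↔ g ∈ M24 ∧ g • d = d ∧ g • Q = Q := by
  rw [stabDQ, Subgroup.mem_inf, Subgroup.mem_inf, and_assoc]
  exact Iff.rfl

theorem stabDQ_std : stabDQ (ms (cw 1)) Q0 = stabQ := by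
  ext g
  rw [mem_stabDQ, mem_stabQ]

theorem stabDQ_le (d : Finset GolayPt) (Q : Finset (Finset GolayPt)) : stabDQ d Q ≤ M24 :=
  fun _ hg => (mem_stabDQ.mp hg).1

theorem stab_eq (d : Finset GolayPt) (Q : Finset (Finset GolayPt)) :
    MulAction.stabilizer M24 d ⊓ MulAction.stabilizer M24 Q = (stabDQ d Q).subgroupOf M24 := by
  ext g
  rw [Subgroup.mem_inf, Subgroup.mem_subgroupOf, mem_stabDQ]
  constructor
  · rintro ⟨h1, h2⟩
    exact ⟨g.2, h1, h2⟩
  · rintro ⟨_, h1, h2⟩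
    exact ⟨h1, h2⟩

theorem stabDQ_smul {τ : Equiv.Perm GolayPt} (hτ : τ ∈ M24) (d : Finset GolayPt)
    (Q : Finset (Finset GolayPt)) :
    stabDQ (τ • d) (τ • Q) = (stabDQ d Q).map (MulAut.conj τ).toMonoidHom := by
  ext g
  rw [Subgroup.mem_map_equiv, mem_stabDQ, mem_stabDQ, MulAut.conj_symm_apply]
  constructor
  · rintro ⟨h1, h2, h3⟩
    refine ⟨mul_mem (mul_mem (inv_mem hτ) h1) hτ, ?_, ?_⟩
    · rw [mul_smul, mul_smul, h2, inv_smul_smul]
    · rw [mul_smul, mul_smul, h3, inv_smul_smul]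
  · rintro ⟨h1, h2, h3⟩
    refine ⟨?_, ?_, ?_⟩
    · have := mul_mem (mul_mem hτ h1) (inv_mem hτ)
      simpa [mul_assoc] using this
    · rw [mul_smul, mul_smul, inv_smul_eq_iff] at h2
      exact h2
    · rw [mul_smul, mul_smul, inv_smul_eq_iff] at h3
      exact h3

theorem stab_iso {τ : Equiv.Perm GolayPt} (hτ : τ ∈ M24) {d : Finset GolayPt}
    {Q : Finset (Finset GolayPt)} (hd : τ • ms (cw 1) = d) (hQ : τ • Q0 = Q) :
    Nonempty (↥(MulAction.stabilizer M24 d ⊓ MulAction.stabilizer M24 Q) ≃* ↥stabQ) := by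
  have e1 : stabDQ d Q = stabQ.map (MulAut.conj τ).toMonoidHom := by
    rw [← hd, ← hQ, stabDQ_smul hτ, stabDQ_std]
  exact ⟨(MulEquiv.subgroupCongr (stab_eq d Q)).trans
    ((Subgroup.subgroupOfEquivOfLe (stabDQ_le d Q)).trans
      ((MulEquiv.subgroupCongr e1).trans ((MulAut.conj τ).subgroupMap stabQ).symm))⟩

theorem quot_transfer {A B X : Type*} [Group A] [Group B] [Group X] (e : A ≃* B)
    (h : ∃ (N : Subgroup B) (_ : N.Normal), Nat.card N = 9 ∧ Nonempty (B ⧸ N ≃* X)) :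
    ∃ (N : Subgroup A) (_ : N.Normal), Nat.card N = 9 ∧ Nonempty (A ⧸ N ≃* X) := by
  obtain ⟨N, hN, h9, ⟨f⟩⟩ := h
  have hmap : (N.comap e.toMonoidHom).map e.toMonoidHom = N :=
    Subgroup.map_comap_eq_self_of_surjective e.surjective N
  refine ⟨N.comap e.toMonoidHom, inferInstance, ?_, ⟨?_⟩⟩
  · rw [← h9]
    have := Nat.card_congr (e.subgroupMap (N.comap e.toMonoidHom)).toEquiv
    rw [this]
    exact congrArg (fun K : Subgroup B => Nat.card K) hmap
  · exact (QuotientGroup.congr (N.comap e.toMonoidHom) N e hmap).trans f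

/-- the stabiliser of a quartet in the stabiliser of its dodecad -/
theorem quartet_stab (d : Finset GolayPt) (hd : d ∈ dodecads) (Q : Finset (Finset GolayPt))
    (hQ : Q ∈ quartets d) :
    Nat.card ↥(MulAction.stabilizer M24 d ⊓ MulAction.stabilizer M24 Q) = 432 ∧
    (∃ (N : Subgroup ↥(MulAction.stabilizer M24 d ⊓ MulAction.stabilizer M24 Q))
      (_ : N.Normal), Nat.card N = 9 ∧
      Nonempty (↥(MulAction.stabilizer M24 d ⊓ MulAction.stabilizer M24 Q) ⧸ N ≃*
        GL (Fin 2) (ZMod 3))) ∧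
    ∀ p ∈ d, ∀ q ∈ d, ∃ g ∈ (MulAction.stabilizer M24 d ⊓ MulAction.stabilizer M24 Q),
      ((g : ↥M24) : Equiv.Perm GolayPt) p = q := by
  obtain ⟨τ, hτ, hτd, hτQ⟩ := exists_std_quartet hd hQ
  obtain ⟨E⟩ := stab_iso hτ hτd hτQ
  refine ⟨?_, quot_transfer E stabQ_quot, ?_⟩
  · rw [Nat.card_congr E.toEquiv, card_stabQ]
  · intro p hp q hq
    rw [← hτd] at hp hq
    obtain ⟨p0, hp0, rfl⟩ := Finset.mem_smul_finset.mp hp
    obtain ⟨q0, hq0, rfl⟩ := Finset.mem_smul_finset.mp hq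
    obtain ⟨g0, hg0, e⟩ := stabQ_trans hp0 hq0
    have hg0' := mem_stabQ.mp hg0
    have hM : τ * g0 * τ⁻¹ ∈ M24 := mul_mem (mul_mem hτ hg0'.1) (inv_mem hτ)
    refine ⟨⟨τ * g0 * τ⁻¹, hM⟩, ?_, ?_⟩
    · rw [Subgroup.mem_inf]
      constructor
      · show (τ * g0 * τ⁻¹) • d = d
        rw [← hτd, mul_smul, mul_smul, inv_smul_smul, hg0'.2.1]
      · show (τ * g0 * τ⁻¹) • Q = Q
        rw [← hτQ, mul_smul, mul_smul, inv_smul_smul, hg0'.2.2]
    · show (τ * g0 * τ⁻¹) (τ p0) = τ q0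
      rw [Equiv.Perm.mul_apply, Equiv.Perm.mul_apply]
      show τ (g0 (τ.symm (τ p0))) = τ q0
      rw [Equiv.symm_apply_apply, e]

end Cfsg.Agent.Lib.Helper11.Quartet
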