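import Mathlib
import Cfsg.Prelude.Def_SporadicCombinatorics
import Cfsg.Agent.Lib.Helper3.M24Dod
import Cfsg.Agent.Lib.Helper3.M24Orb
import Cfsg.Agent.Lib.Helper3.M24Gen
import Cfsg.Agent.Lib.Helper3.Coatom
import Cfsg.Agent.Lib.Helper11.Quartet
import Cfsg.Agent.Lib.Helper11.Quartet2
import Cfsg.Agent.Lib.Helper11.Quartet3

set_option autoImplicit false

namespace Cfsg.Agent.Lib.Helper11.Quartet

open Cfsg Cfsg.Agent.Lib.Helper3.Golay Cfsg.Agent.Lib.Helper3.Golay2
open Cfsg.Agent.Lib.Helper3.M24Perm Cfsg.Agent.Lib.Helper3.M24Cert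
open Cfsg.Agent.Lib.Helper3.M24Trans Cfsg.Agent.Lib.Helper3.M24Dod
open Cfsg.Agent.Lib.Helper3.M24Gen
open scoped Pointwise

/-! ### orbit certificates for families of point sets -/

/-- the set of families given by a list of mask lists -/
def qsetOf (L : List (List ℕ)) : Set (Finset (Finset GolayPt)) := {Y | ∃ l ∈ L, Y = qset l}

theorem qsetOf_append (L L' : List (List ℕ)) : qsetOf (L ++ L') = qsetOf L ∪ qsetOf L' := by
  ext Y
  simp only [qsetOf, Set.mem_ofPred_eq, List.mem_append, Set.mem_union]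
  constructor
  · rintro ⟨l, hl | hl, rfl⟩
    · exact Or.inl ⟨l, hl, rfl⟩
    · exact Or.inr ⟨l, hl, rfl⟩
  · rintro (⟨l, hl, rfl⟩ | ⟨l, hl, rfl⟩)
    · exact ⟨l, Or.inl hl, rfl⟩
    · exact ⟨l, Or.inr hl, rfl⟩

theorem qsetOf_singleton (l : List ℕ) : qsetOf [l] = {qset l} := by
  ext Y
  simp [qsetOf]

/-- BFS-tree certificate: every entry is the image of an earlier one under a generator -/
def qtree (L : List (List ℕ)) (par : List (ℕ × ℕ)) : Bool :=
  (List.range L.length).all (fun i => Nat.beq i 0 ||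
    (Nat.blt (par.getD i (0, 0)).1 i && Nat.blt (par.getD i (0, 0)).2 qg.length &&
      sameL ((L.getD (par.getD i (0, 0)).1 []).map (apm (qg.getD (par.getD i (0, 0)).2 0)))
        (L.getD i [])))

theorem qtree_sound {L : List (List ℕ)} {par : List (ℕ × ℕ)} (h : qtree L par = true) :
    ∀ i < L.length, ∃ g ∈ stabQ, g • qset (L.getD 0 []) = qset (L.getD i []) := by
  intro i
  induction i using Nat.strong_induction_on with
  | _ i ih =>
    intro hi
    have h1 := List.all_eq_true.mp h i (List.mem_range.mpr hi)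
    rw [Bool.or_eq_true] at h1
    rcases h1 with h1 | h1
    · rw [Nat.eq_of_beq_eq_true h1]
      exact ⟨1, one_mem _, one_smul _ _⟩
    · simp only [Bool.and_eq_true] at h1
      obtain ⟨⟨hp, hs⟩, hsame⟩ := h1
      have hp' : (par.getD i (0, 0)).1 < i := by simpa using hp
      have hs' : (par.getD i (0, 0)).2 < qg.length := by simpa using hs
      obtain ⟨g, hg, e⟩ := ih _ hp' (lt_trans hp' hi)
      have hmem : qg.getD (par.getD i (0, 0)).2 0 ∈ qg := by
        rw [List.getD_eq_getElem _ _ hs']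
        exact List.getElem_mem hs'
      refine ⟨tp (qg.getD (par.getD i (0, 0)).2 0) * g, mul_mem (qg_mem _ hmem) hg, ?_⟩
      rw [mul_smul, e, smul_qset (qg_good _ hmem)]
      exact qset_congr hsame

/-- closure certificate: the generators map the list into itself, and onto -/
def qclosed (L : List (List ℕ)) : Bool :=
  qg.all (fun T => L.all (fun l => L.any (fun l' => sameL (l.map (apm T)) l')) &&
    L.all (fun l => L.any (fun l' => sameL (l'.map (apm T)) l)))

/-- the permutations preserving a set of families, together with their inverses -/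
def pres (S : Set (Finset (Finset GolayPt))) : Subgroup (Equiv.Perm GolayPt) where
  carrier := {g | ∀ Y ∈ S, g • Y ∈ S ∧ g⁻¹ • Y ∈ S}
  mul_mem' := fun {a b} ha hb Y hY =>
    ⟨by rw [mul_smul]; exact (ha _ (hb Y hY).1).1,
     by rw [mul_inv_rev, mul_smul]; exact (hb _ (ha Y hY).2).2⟩
  one_mem' := fun Y hY => ⟨by rwa [one_smul], by rwa [inv_one, one_smul]⟩
  inv_mem' := fun {a} ha Y hY => ⟨(ha Y hY).2, by rw [inv_inv]; exact (ha Y hY).1⟩

theorem qclosed_sound {L : List (List ℕ)} (h : qclosed L = true) :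
    ∀ T ∈ qg, tp T ∈ pres (qsetOf L) := by
  intro T hT
  have hgood := qg_good T hT
  have h1 := List.all_eq_true.mp h T hT
  rw [Bool.and_eq_true] at h1
  rintro Y ⟨l, hl, rfl⟩
  constructor
  · obtain ⟨l', hl', hs⟩ := List.any_eq_true.mp (List.all_eq_true.mp h1.1 l hl)
    exact ⟨l', hl', by rw [smul_qset hgood]; exact qset_congr hs⟩
  · obtain ⟨l', hl', hs⟩ := List.any_eq_true.mp (List.all_eq_true.mp h1.2 l hl)
    refine ⟨l', hl', ?_⟩
    rw [inv_smul_eq_iff, smul_qset hgood]
    exact (qset_congr hs).symm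

/-- distinctness certificate -/
def qdist (L : List (List ℕ)) : Bool :=
  decide L.Nodup && L.all (fun l => l.all (fun a => Nat.blt a 16777216)) &&
    L.all (fun l => L.all (fun l' => (l == l') || l.any (fun a => !l'.contains a)))

theorem qdist_ncard {L : List (List ℕ)} (h : qdist L = true) : (qsetOf L).ncard = L.length := by
  simp only [qdist, Bool.and_eq_true, List.all_eq_true] at h
  obtain ⟨⟨h1, h2⟩, h3⟩ := h
  have hnd : L.Nodup := by simpa using h1
  have heq : qsetOf L = qset '' (↑L.toFinset : Set (List ℕ)) := by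
    ext Y
    simp only [qsetOf, Set.mem_ofPred_eq, Set.mem_image, Finset.mem_coe, List.mem_toFinset]
    constructor
    · rintro ⟨l, hl, rfl⟩
      exact ⟨l, hl, rfl⟩
    · rintro ⟨l, hl, rfl⟩
      exact ⟨l, hl, rfl⟩
  rw [heq, Set.InjOn.ncard_image, Set.ncard_coe_finset, List.toFinset_card_of_nodup hnd]
  intro l hl l' hl' e
  rw [Finset.mem_coe, List.mem_toFinset] at hl hl'
  have h4 := h3 l hl l' hl'
  rw [Bool.or_eq_true] at h4
  rcases h4 with h4 | h4
  · simpa using h4
  · exfalso
    obtain ⟨a, ha, hna⟩ := List.any_eq_true.mp h4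
    have h5 : ms a ∈ qset l' := by
      rw [← e]
      exact ms_mem_qset ha
    obtain ⟨a', ha', e'⟩ := mem_qset.mp h5
    have hlt : a < 2 ^ 24 := by simpa using h2 l hl a ha
    have hlt' : a' < 2 ^ 24 := by simpa using h2 l' hl' a' ha'
    have := ms_inj hlt' hlt e'
    subst this
    simp at hna
    exact hna ha'

/-- orbit certificate: the orbit of the first entry under `stabQ` is the listed set -/
theorem orbit_eq {L : List (List ℕ)} {par : List (ℕ × ℕ)} (hpos : 0 < L.length)
    (ht : qtree L par = true) (hc : qclosed L = true) :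
    {Y | ∃ g ∈ stabQ, g • qset (L.getD 0 []) = Y} = qsetOf L := by
  have h0 : L.getD 0 [] ∈ L := by
    rw [List.getD_eq_getElem _ _ hpos]
    exact List.getElem_mem hpos
  ext Y
  constructor
  · rintro ⟨g, hg, rfl⟩
    exact (stabQ_le _ (qclosed_sound hc) hg _ ⟨_, h0, rfl⟩).1
  · rintro ⟨l, hl, rfl⟩
    obtain ⟨i, hi, rfl⟩ := List.getElem_of_mem hl
    obtain ⟨g, hg, e⟩ := qtree_sound ht i hi
    rw [List.getD_eq_getElem _ _ hi] at e
    exact ⟨g, hg, e⟩

def qL1 : List (List ℕ) := [[7, 336, 70144, 270344], [266, 4609, 8212, 327744], [7, 12352, 65800, 262672], [4162, 8960, 65556, 262153], [273, 524, 12290, 327744], [7, 584, 73744, 266496], [4120, 8258, 66049, 262404], [81, 8960, 65546, 266244], [530, 4356, 8201, 327744], [321, 4120, 73732, 262658], [76, 8960, 69633, 262162], [580, 4120, 65794, 270337]]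

def qP1 : List (ℕ × ℕ) := [(0, 0), (0, 0), (0, 1), (1, 0), (2, 0), (2, 1), (3, 1), (4, 0), (4, 1), (6, 0), (8, 0), (9, 0)]

def qL2 : List (List ℕ) := [[11, 4116, 8512, 328192], [259, 8708, 69696, 262168], [769, 8198, 65608, 266256], [4616, 8464, 65602, 262149], [22, 4105, 8768, 327936], [536, 12544, 65542, 262209], [26, 832, 4101, 335872], [67, 4624, 8456, 327684], [261, 8706, 69648, 262216], [517, 8450, 65616, 266248], [19, 4108, 66304, 270400], [4368, 8712, 65541, 262210], [262, 4168, 8705, 327696], [28, 4099, 65856, 270848], [776, 12304, 65601, 262150], [69, 4864, 8216, 327682], [518, 8449, 65560, 266304], [784, 12296, 65539, 262212], [21, 4106, 66112, 270592], [25, 4102, 73984, 262720], [280, 12800, 65604, 262147], [13, 4114, 74240, 262464], [14, 4113, 73792, 262912], [515, 4176, 8452, 327688], [772, 8195, 69640, 262224], [70, 4360, 8720, 327681], [88, 770, 8197, 331776]]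

def qP2 : List (ℕ × ℕ) := [(0, 0), (0, 0), (0, 1), (1, 0), (1, 1), (2, 0), (2, 1), (3, 1), (4, 0), (4, 1), (5, 0), (5, 1), (6, 0), (7, 0), (7, 1), (8, 0), (10, 1), (11, 1), (12, 1), (14, 0), (15, 1), (16, 1), (17, 0), (18, 0), (19, 0), (20, 1), (21, 0)]

def qL3 : List (List ℕ) := [[11, 4864, 65616, 270340], [22, 8456, 69696, 262657], [280, 4161, 8198, 328192], [4099, 8464, 66052, 262216], [74, 517, 12304, 327936], [4106, 8708, 65808, 262209], [4101, 8720, 65608, 262402], [262, 4624, 65545, 270400], [25, 4416, 8706, 327684], [4176, 8202, 66304, 262149], [4105, 8452, 66064, 262210], [13, 578, 12544, 327696], [84, 259, 4616, 335872], [28, 769, 77824, 262210], [21, 776, 73730, 266304], [69, 274, 69640, 270848], [4108, 8706, 65601, 262416], [67, 12292, 65560, 262912], [832, 8204, 69648, 262147], [4113, 8450, 66056, 262212], [19, 324, 8712, 331776], [4368, 8195, 66112, 262156], [4116, 8705, 65602, 262408], [832, 8209, 65542, 266248], [26, 8705, 69888, 262212], [784, 4102, 8257, 327688], [515, 8216,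 69636, 262464], [532, 4168, 73984, 262147], [69, 522, 73984, 266256], [592, 4108, 8449, 327682], [518, 12296, 65856, 262161], [88, 4353, 74240, 262150], [262, 8216, 66112, 266241], [70, 12289, 66304, 262168], [770, 4116, 73736, 262209], [26, 8452, 65601, 266752], [4610, 8512, 65541, 262168], [769, 4106, 8272, 327684], [4168, 8210, 65541, 262912], [14, 12800, 65793, 262224], [261, 536, 73792, 266242], [770, 4105, 65604, 270352], [70, 521, 69648, 270592], [536, 4164, 8195, 327936], [268, 8768, 65539, 266256], [4114, 8449, 65604, 262664], [4360, 8197, 65554, 262720], [21, 322, 12800, 327688], [4616, 8198, 65553, 262464], [4354, 8768, 65560, 262149], [328, 4113, 8708, 327682], [265, 4176, 65542, 270848], [73, 518, 4368, 335872], [88, 4612, 65539, 270592], [28, 4672, 8450, 327681], [4102, 8712, 65616, 262401], [772, 4114, 8264, 327681], [515, 4360, 73792, 262164], [4101, 8456, 66050, 262224], [82, 261, 12296, 328192], [67, 276, 74240, 266248], [280, 517, 69634, 270400], [13, 784, 69696, 270338], [25,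 772, 65602, 274432], [14, 577, 8464, 331776], [776, 4099, 8260, 327696], [259, 12304, 65548, 262720], [19, 12544, 65608, 262660], [4624, 8197, 65856, 262154], [529, 8512, 69640, 262150], [11, 8720, 65796, 266304], [22, 4864, 73729, 262216]]

def qP3 : List (ℕ × ℕ) := [(0, 0), (0, 0), (0, 1), (1, 0), (1, 1), (2, 0), (2, 1), (3, 1), (4, 0), (5, 0), (5, 1), (6, 0), (6, 1), (7, 0), (7, 1), (8, 0), (8, 1), (9, 1), (10, 0), (10, 1), (11, 0), (11, 1), (12, 0), (13, 0), (13, 1), (14, 0), (14, 1), (15, 1), (16, 0), (16, 1), (17, 0), (17, 1), (18, 0), (18, 1), (19, 1), (21, 0), (22, 0), (22, 1), (24, 0), (25, 0), (25, 1), (26, 0), (27, 1), (28, 0), (29, 0), (29, 1), (31, 0), (32, 1), (33, 0), (33, 1), (35, 1), (37, 0), (38, 0), (38, 1), (41, 1), (43, 1), (45, 1), (47, 1), (48, 1), (49, 0), (49, 1), (51, 0), (52, 1), (56, 1), (57, 1), (58, 0), (58, 1), (59, 1), (60, 0), (60, 1), (61, 1), (66, 1)]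

def qL4 : List (List ℕ) := [[11, 580, 77824, 262416], [522, 8209, 69696, 262404], [592, 8198, 69888, 262153], [4164, 8464, 65545, 262658], [81, 4610, 8204, 327936], [268, 8210, 70144, 262209], [4101, 8258, 65808, 262664], [76, 4624, 73730, 262401], [84, 8706, 65800, 266241], [268, 12289, 65616, 262658], [73, 8212, 66304, 266242], [4612, 8209, 65800, 262210], [321, 4612, 8202, 327696], [259, 8264, 66064, 266244], [28, 8257, 66050, 266496], [82, 776, 69636, 270337], [69, 12290, 66064, 262408], [322, 4108, 73744, 262657], [580, 8456, 65553, 266242], [76, 4354, 8209, 328192], [324, 4609, 65560, 270338], [832, 12290, 65545, 262164], [265, 4610, 73744, 262212], [4161, 8712, 65794, 262164], [265, 12292, 66112, 262162], [4353, 8204, 65602, 262672], [22, 321, 66056, 274432], [530, 8260, 65793, 266248], [336, 8705, 65548, 266242], [328, 4102, 66049, 270352], [4162, 8216, 65793, 262660], [4356, 8272, 66056, 262147], [322, 8201, 66052, 266256], [74, 8449, 70144, 262164], [592, 4099, 73736, 262404], [324,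 12304, 66050, 262153], [82, 8708, 65545, 266496], [276, 4610, 65608, 270337], [577, 12296, 65556, 262402], [266, 4164, 74240, 262161], [81, 262, 77824, 262664], [577, 4356, 73730, 262168], [84, 8201, 69634, 262912], [584, 8452, 69634, 262161], [580, 4353, 8210, 327688], [524, 8512, 65554, 266241], [274, 584, 12289, 327684], [529, 12292, 65794, 262216], [517, 4416, 73736, 262162], [266, 592, 65541, 274432], [324, 4106, 73729, 262672], [521, 4354, 73732, 262224], [261, 4672, 65546, 270352], [336, 4105, 73730, 262660], [73, 12800, 65554, 262404], [70, 273, 73736, 266752], [322, 536, 69633, 270340], [4416, 8212, 65539, 262664], [577, 4114, 65800, 270340], [25, 8260, 70144, 262402], [4864, 8258, 65548, 262161], [328, 530, 77824, 262149], [84, 12544, 66049, 262154], [268, 529, 4162, 335872], [578, 4113, 65796, 270344], [4162, 8197, 66056, 262416], [578, 8212, 69640, 262401], [21, 8264, 69888, 262658], [4616, 8257, 65796, 262162], [273, 8768, 69636, 262154], [518, 8272, 69633, 262408], [88, 12290, 65796,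 262657], [274, 4612, 73792, 262153], [74, 4356, 65553, 270848], [532, 4354, 65601, 270344], [522, 4353, 65556, 270400], [524, 4176, 73729, 262402], [276, 8202, 69633, 262720], [276, 521, 12352, 327682], [19, 4672, 73732, 262408], [266, 8257, 69648, 262660], [73, 8450, 69636, 262672], [81, 4360, 66052, 270338], [532, 12289, 65546, 262464], [4609, 8264, 65542, 262416], [772, 4161, 73744, 262154], [280, 578, 73729, 266244], [67, 524, 69888, 270352], [4368, 8260, 65546, 262657], [770, 12352, 65553, 262156], [336, 522, 12292, 327681], [82, 4609, 73984, 262156], [76, 515, 65808, 274432], [584, 4116, 65793, 270338], [13, 8272, 65794, 266752], [265, 532, 8258, 331776], [273, 4168, 66050, 270340], [769, 4164, 65554, 270344], [274, 8204, 66049, 266304], [529, 8202, 65604, 266496], [4672, 8201, 65808, 262150], [321, 8720, 69634, 262156], [521, 8210, 65856, 266244], [26, 12352, 66052, 262401], [74, 784, 73732, 266241], [328, 8195, 65556, 266752], [14, 4416, 66064, 270337], [530, 4161, 65548, 270592]]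

def qP4 : List (ℕ × ℕ) := [(0, 0), (0, 0), (0, 1), (1, 0), (1, 1), (2, 0), (2, 1), (3, 1), (4, 0), (4, 1), (5, 0), (5, 1), (6, 0), (6, 1), (7, 0), (7, 1), (8, 0), (8, 1), (9, 0), (9, 1), (10, 1), (11, 0), (11, 1), (12, 0), (12, 1), (13, 0), (13, 1), (14, 0), (14, 1), (15, 0), (15, 1), (16, 1), (17, 0), (17, 1), (18, 0), (18, 1), (19, 0), (19, 1), (20, 0), (20, 1), (21, 0), (21, 1), (22, 0), (24, 0), (24, 1), (25, 0), (25, 1), (26, 0), (26, 1), (28, 0), (28, 1), (29, 0), (29, 1), (30, 0), (30, 1), (31, 1), (32, 0), (33, 0), (33, 1), (35, 0), (35, 1), (36, 0), (37, 0), (37, 1), (38, 0), (39, 0), (39, 1), (40, 1), (41, 0), (41, 1), (42, 0), (42, 1), (44, 1), (46, 0), (46, 1), (47, 1), (50, 0), (51, 1), (52, 0), (52, 1), (53, 0), (53, 1), (54, 1), (55, 0), (57, 1), (58, 1), (60, 1), (61, 1), (62, 1), (64, 1), (65, 0), (66, 1), (67, 1), (68, 0), (70, 1), (72, 1), (73, 1), (75, 0), (75, 1), (78, 1), (85, 0), (86, 1), (87, 0), (88, 0), (88, 1), (91, 0), (92, 1), (96, 1)]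

theorem t1 : qtree qL1 qP1 = true := by decide +kernel

theorem t2 : qtree qL2 qP2 = true := by decide +kernel

theorem t3 : qtree qL3 qP3 = true := by decide +kernel

theorem t4 : qtree qL4 qP4 = true := by decide +kernel

theorem c1 : qclosed qL1 = true := by decide +kernel

theorem c2 : qclosed qL2 = true := by decide +kernel

theorem c3 : qclosed qL3 = true := by decide +kernel

theorem c4 : qclosed qL4 = true := by decide +kernel

theorem dist1 : qdist qL1 = true := by decide +kernel

theorem dist2 : qdist qL2 = true := by decide +kernel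

theorem dist3 : qdist qL3 = true := by decide +kernel

theorem dist4 : qdist qL4 = true := by decide +kernel

/-- all 220 quartets of the standard dodecad -/
def qAll : List (List ℕ) := [7, 4120, 8960, 327744] :: (qL1 ++ (qL2 ++ (qL3 ++ qL4)))

theorem distAll : qdist qAll = true := by decide +kernel

theorem chkAll : qAll.all qchk = true := by decide +kernel

theorem quartets_d0_eq : quartets (ms (cw 1)) = qsetOf qAll := by
  symm
  apply Set.eq_of_subset_of_ncard_le
  · rintro Y ⟨l, hl, rfl⟩
    exact qchk_sound (List.all_eq_true.mp chkAll l hl)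
  · rw [ncard_quartets_d0, qdist_ncard distAll]
    decide +kernel
  · exact Set.toFinite _

/-! ### orbits of the quartet stabiliser on quartets -/

theorem orbit_eq_perm (d : Finset GolayPt) (Q X : Finset (Finset GolayPt)) :
    MulAction.orbit ↥(MulAction.stabilizer M24 d ⊓ MulAction.stabilizer M24 Q) X =
      {Y | ∃ g ∈ stabDQ d Q, g • X = Y} := by
  ext Y
  rw [MulAction.mem_orbit_iff]
  constructor
  · rintro ⟨g, rfl⟩
    have hg := g.2
    rw [Subgroup.mem_inf] at hg
    exact ⟨g.1.1, mem_stabDQ.mpr ⟨g.1.2, hg.1, hg.2⟩, rfl⟩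
  · rintro ⟨g, hg, rfl⟩
    rw [mem_stabDQ] at hg
    exact ⟨⟨⟨g, hg.1⟩, Subgroup.mem_inf.mpr ⟨hg.2.1, hg.2.2⟩⟩, rfl⟩

theorem orb_smul {τ : Equiv.Perm GolayPt} (hτ : τ ∈ M24) (d : Finset GolayPt)
    (Q X : Finset (Finset GolayPt)) :
    {Y | ∃ g ∈ stabDQ (τ • d) (τ • Q), g • (τ • X) = Y} =
      (fun Y => τ • Y) '' {Y | ∃ g ∈ stabDQ d Q, g • X = Y} := by
  ext Y
  constructor
  · rintro ⟨g, hg, rfl⟩
    rw [stabDQ_smul hτ, Subgroup.mem_map_equiv, MulAut.conj_symm_apply] at hg
    refine ⟨(τ⁻¹ * g * τ) • X, ⟨_, hg, rfl⟩, ?_⟩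
    show τ • (τ⁻¹ * g * τ) • X = g • τ • X
    rw [mul_smul, mul_smul, smul_inv_smul]
  · rintro ⟨_, ⟨g, hg, rfl⟩, rfl⟩
    refine ⟨τ * g * τ⁻¹, ?_, ?_⟩
    · rw [stabDQ_smul hτ, Subgroup.mem_map_equiv, MulAut.conj_symm_apply]
      simpa [mul_assoc] using hg
    · rw [mul_smul, mul_smul, inv_smul_smul]

/-- the quartet stabiliser has orbits of sizes 1, 12, 27, 72, 108 on the quartets -/
theorem quartet_orbits (d : Finset GolayPt) (hd : d ∈ dodecads) (Q : Finset (Finset GolayPt))
    (hQ : Q ∈ quartets d) :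
    ∃ X₁ ∈ quartets d, ∃ X₂ ∈ quartets d, ∃ X₃ ∈ quartets d, ∃ X₄ ∈ quartets d,
      (MulAction.orbit ↥(MulAction.stabilizer M24 d ⊓ MulAction.stabilizer M24 Q) X₁).ncard = 12 ∧
      (MulAction.orbit ↥(MulAction.stabilizer M24 d ⊓ MulAction.stabilizer M24 Q) X₂).ncard = 27 ∧
      (MulAction.orbit ↥(MulAction.stabilizer M24 d ⊓ MulAction.stabilizer M24 Q) X₃).ncard = 72 ∧
      (MulAction.orbit ↥(MulAction.stabilizer M24 d ⊓ MulAction.stabilizer M24 Q) X₄).ncard = 108 ∧
      quartets d = {Q} ∪
        MulAction.orbit ↥(MulAction.stabilizer M24 d ⊓ MulAction.stabilizer M24 Q) X₁ ∪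
        MulAction.orbit ↥(MulAction.stabilizer M24 d ⊓ MulAction.stabilizer M24 Q) X₂ ∪
        MulAction.orbit ↥(MulAction.stabilizer M24 d ⊓ MulAction.stabilizer M24 Q) X₃ ∪
        MulAction.orbit ↥(MulAction.stabilizer M24 d ⊓ MulAction.stabilizer M24 Q) X₄ := by
  obtain ⟨τ, hτ, rfl, rfl⟩ := exists_std_quartet hd hQ
  have hX : ∀ l ∈ qAll, τ • qset l ∈ quartets (τ • ms (cw 1)) := fun l hl =>
    smul_quartets hτ (qchk_sound (List.all_eq_true.mp chkAll l hl))
  have key : ∀ (L : List (List ℕ)) (par : List (ℕ × ℕ)), 0 < L.length → qtree L par = true →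
      qclosed L = true →
      MulAction.orbit ↥(MulAction.stabilizer M24 (τ • ms (cw 1)) ⊓
        MulAction.stabilizer M24 (τ • Q0)) (τ • qset (L.getD 0 [])) =
        (fun Y => τ • Y) '' qsetOf L := by
    intro L par hpos ht hc
    rw [orbit_eq_perm, orb_smul hτ, stabDQ_std, orbit_eq hpos ht hc]
  refine ⟨τ • qset (qL1.getD 0 []), hX _ (by decide +kernel),
    τ • qset (qL2.getD 0 []), hX _ (by decide +kernel),
    τ • qset (qL3.getD 0 []), hX _ (by decide +kernel),
    τ • qset (qL4.getD 0 []), hX _ (by decide +kernel), ?_⟩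
  rw [key qL1 qP1 (by decide +kernel) t1 c1, key qL2 qP2 (by decide +kernel) t2 c2,
    key qL3 qP3 (by decide +kernel) t3 c3, key qL4 qP4 (by decide +kernel) t4 c4]
  refine ⟨?_, ?_, ?_, ?_, ?_⟩
  · rw [Set.ncard_image_of_injective _ (MulAction.injective τ), qdist_ncard dist1]
    decide +kernel
  · rw [Set.ncard_image_of_injective _ (MulAction.injective τ), qdist_ncard dist2]
    decide +kernel
  · rw [Set.ncard_image_of_injective _ (MulAction.injective τ), qdist_ncard dist3]
    decide +kernel
  · rw [Set.ncard_image_of_injective _ (MulAction.injective τ), qdist_ncard dist4]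
    decide +kernel
  · rw [quartets_smul hτ, quartets_d0_eq]
    show (fun Q => τ • Q) '' qsetOf ([[7, 4120, 8960, 327744]] ++
      (qL1 ++ (qL2 ++ (qL3 ++ qL4)))) = _
    rw [qsetOf_append, qsetOf_append, qsetOf_append, qsetOf_append, qsetOf_singleton,
      Set.image_union, Set.image_union, Set.image_union, Set.image_union, Set.image_singleton]
    simp only [Set.union_assoc]
    rfl

end Cfsg.Agent.Lib.Helper11.Quartet
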