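import Cfsg.Agent.Lib.Helper11.SuzBase

set_option autoImplicit false

namespace Cfsg.Agent.Lib.Helper11.SuzL

open Cfsg.Agent.Lib.Helper11.SuzD

theorem autt_0 : rangeOK stau 0 150 = true := by decide +kernel

theorem autt_1 : rangeOK stau 150 150 = true := by decide +kernel

theorem autt_2 : rangeOK stau 300 150 = true := by decide +kernel

theorem autt_3 : rangeOK stau 450 150 = true := by decide +kernel

theorem autt_4 : rangeOK stau 600 150 = true := by decide +kernel

theorem autt_5 : rangeOK stau 750 150 = true := by decide +kernel

theorem autt_6 : rangeOK stau 900 150 = true := by decide +kernel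

theorem autt_7 : rangeOK stau 1050 150 = true := by decide +kernel

theorem autt_8 : rangeOK stau 1200 150 = true := by decide +kernel

theorem autt_9 : rangeOK stau 1350 150 = true := by decide +kernel

theorem autt_10 : rangeOK stau 1500 150 = true := by decide +kernel

theorem autt_11 : rangeOK stau 1650 132 = true := by decide +kernel

theorem autt : AutRows stau := by
  intro x hx
  by_cases h0 : x < 150
  · exact rangeOK_spec _ 0 150 autt_0 x (by omega) (by omega)
  by_cases h1 : x < 300
  · exact rangeOK_spec _ 150 150 autt_1 x (by omega) (by omega)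
  by_cases h2 : x < 450
  · exact rangeOK_spec _ 300 150 autt_2 x (by omega) (by omega)
  by_cases h3 : x < 600
  · exact rangeOK_spec _ 450 150 autt_3 x (by omega) (by omega)
  by_cases h4 : x < 750
  · exact rangeOK_spec _ 600 150 autt_4 x (by omega) (by omega)
  by_cases h5 : x < 900
  · exact rangeOK_spec _ 750 150 autt_5 x (by omega) (by omega)
  by_cases h6 : x < 1050
  · exact rangeOK_spec _ 900 150 autt_6 x (by omega) (by omega)
  by_cases h7 : x < 1200
  · exact rangeOK_spec _ 1050 150 autt_7 x (by omega) (by omega)
  by_cases h8 : x < 1350
  · exact rangeOK_spec _ 1200 150 autt_8 x (by omega) (by omega)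
  by_cases h9 : x < 1500
  · exact rangeOK_spec _ 1350 150 autt_9 x (by omega) (by omega)
  by_cases h10 : x < 1650
  · exact rangeOK_spec _ 1500 150 autt_10 x (by omega) (by omega)
  exact rangeOK_spec _ 1650 132 autt_11 x (by omega) (by omega)

end Cfsg.Agent.Lib.Helper11.SuzL
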