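import Mathlib
import Cfsg.Agent.Lib.Helper11.SuzData
import Cfsg.Agent.Lib.Helper11.PrimSimple2

set_option autoImplicit false

namespace Cfsg.Agent.Lib.Helper11.SuzL

open Cfsg.Agent.Lib.Helper11.SuzD

/-! ### Computations on natural numbers -/

def nth : List ℕ → ℕ → ℕ
  | [], _ => 0
  | a :: _, 0 => a
  | _ :: l, n + 1 => nth l n

def nthL : List (List ℕ) → ℕ → List ℕ
  | [], _ => []
  | a :: _, 0 => a
  | _ :: l, n + 1 => nthL l n

/-- The adjacency bit mask of a point. -/
def row (x : ℕ) : ℕ := nth (nthL adjLL (Nat.div x 42)) (Nat.mod x 42)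

/-- The image of a point under the map packed in `l` (eleven bits per point). -/
def ap (l x : ℕ) : ℕ := Nat.mod (Nat.mod (Nat.shiftRight l (Nat.mul 11 x)) 2048) 1782

theorem ap_lt (l x : ℕ) : ap l x < 1782 := Nat.mod_lt _ (by norm_num)

def bit (m y : ℕ) : ℕ := Nat.land (Nat.shiftRight m y) 1

theorem bit_le (m y : ℕ) : bit m y ≤ 1 := Nat.and_le_right

/-- The relation between two points: `2` equal, `1` adjacent, `0` otherwise. -/
def relN (x y : ℕ) : ℕ := cond (Nat.beq x y) 2 (bit (row x) y)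

theorem beq_false' {x y : ℕ} (h : x ≠ y) : Nat.beq x y = false := by
  cases hb : Nat.beq x y
  · rfl
  · exact absurd (Nat.eq_of_beq_eq_true hb) h

theorem nbeq_true {a b : ℕ} : (not (Nat.beq a b)) = true ↔ a ≠ b := by
  constructor
  · intro h e
    rw [e, Nat.beq_refl] at h
    exact absurd h (by decide)
  · intro h
    rw [beq_false' h]
    rfl

theorem relN_self (x : ℕ) : relN x x = 2 := by
  unfold relN
  rw [Nat.beq_refl]
  rfl

theorem relN_ne {x y : ℕ} (h : x ≠ y) : relN x y = bit (row x) y := by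
  unfold relN
  rw [beq_false' h]
  rfl

theorem relN_two {x y : ℕ} (h : relN x y = 2) : x = y := by
  by_contra hne
  rw [relN_ne hne] at h
  have := bit_le (row x) y
  omega

def force (m : ℕ) (f : ℕ → Bool) : Bool := Nat.rec (f 0) (fun k _ => f (Nat.succ k)) m

theorem force_eq (m : ℕ) (f : ℕ → Bool) : force m f = f m := by
  cases m <;> rfl

def allTo (n : ℕ) (p : ℕ → Bool) : Bool := Nat.rec true (fun k acc => and (p k) acc) n

theorem allTo_spec (n : ℕ) (p : ℕ → Bool) (h : allTo n p = true) : ∀ k < n, p k = true := by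
  induction n with
  | zero =>
    intro k hk
    exact absurd hk (Nat.not_lt_zero k)
  | succ n ih =>
    have h' : (p n && allTo n p) = true := h
    rw [Bool.and_eq_true] at h'
    intro k hk
    rcases Nat.lt_succ_iff_lt_or_eq.mp hk with hlt | rfl
    · exact ih h'.2 k hlt
    · exact h'.1

def gl : ℕ → ℕ
  | 0 => sg0
  | 1 => sg1
  | 2 => sg2
  | _ => sg3

def wact : List ℕ → ℕ → ℕ
  | [], x => x
  | c :: w, x => ap (gl c) (wact w x)

def invOK (l li : ℕ) : Bool :=
  allTo 1782 (fun x => and (Nat.beq (ap li (ap l x)) x) (Nat.beq (ap l (ap li x)) x))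

/-- The check that the map packed in `l` respects the relations of the point `x`. -/
def rowChk (l x : ℕ) : Bool :=
  force (row x) (fun m => force (row (ap l x)) (fun m' =>
    allTo 1782 (fun y => or (Nat.beq x y) (Nat.beq (bit m' (ap l y)) (bit m y)))))

def rangeOK (l a k : ℕ) : Bool := allTo k (fun i => rowChk l (Nat.add a i))

theorem rangeOK_spec (l a k : ℕ) (h : rangeOK l a k = true) (x : ℕ) (h1 : a ≤ x)
    (h2 : x < a + k) : rowChk l x = true := by
  have h3 := allTo_spec _ _ h (x - a) (by omega)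
  have e : Nat.add a (x - a) = x := by
    show a + (x - a) = x
    omega
  rw [e] at h3
  exact h3

/-- The map packed in `l` respects the relations. -/
def AutRows (l : ℕ) : Prop := ∀ x < 1782, rowChk l x = true

def pow11OK (l : ℕ) : Bool :=
  allTo 1782 (fun x => Nat.beq ((ap l)^[11] x) x)

def sumTo (n : ℕ) (f : ℕ → ℕ) : ℕ := Nat.rec 0 (fun k s => Nat.add s (f k)) n

theorem sumTo_eq (n : ℕ) (f : ℕ → ℕ) : sumTo n f = ∑ k ∈ Finset.range n, f k := by
  induction n with
  | zero => rfl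
  | succ n ih =>
    rw [Finset.sum_range_succ, ← ih]
    rfl

def codeF (F : List ℕ) (u : ℕ) : ℕ := F.foldl (fun c f => Nat.add (Nat.mul 3 c) (relN u f)) 0

def gS (F : List ℕ) (u z : ℕ) : ℕ := cond (Nat.beq (relN u z) 1) (Nat.pow 128 (codeF F u)) 0

def SF (F : List ℕ) (z : ℕ) : ℕ := sumTo 1782 (fun u => gS F u z)

def patP (F : List ℕ) (b z : ℕ) : Bool := F.all (fun f => Nat.beq (relN z f) (relN b f))

/-- The class of `b` with respect to the list `F` (with the neighbour counts if `s`). -/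
def clsP (s : Bool) (F : List ℕ) (b z : ℕ) : Bool :=
  and (patP F b z) (or (not s) (Nat.beq (SF F z) (SF F b)))

def nthW : List (List ℕ) → ℕ → List ℕ
  | [], _ => []
  | a :: _, 0 => a
  | _ :: l, n + 1 => nthW l n

def memb : List ℕ → ℕ → Bool
  | [], _ => false
  | a :: l, x => or (Nat.beq a x) (memb l x)

theorem memb_spec : ∀ (l : List ℕ) (x : ℕ), memb l x = true → x ∈ l
  | [], _, h => absurd h Bool.false_ne_true
  | a :: l, x, h => by
    have h' : (Nat.beq a x || memb l x) = true := h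
    rw [Bool.or_eq_true] at h'
    rcases h' with h1 | h2
    · rw [← Nat.eq_of_beq_eq_true h1]
      exact List.mem_cons_self
    · exact List.mem_cons_of_mem _ (memb_spec l x h2)

theorem memb_complete : ∀ (l : List ℕ) (x : ℕ), x ∈ l → memb l x = true
  | [], _, h => absurd h List.not_mem_nil
  | a :: l, x, h => by
    show (Nat.beq a x || memb l x) = true
    rw [Bool.or_eq_true]
    rcases List.mem_cons.mp h with rfl | h
    · exact Or.inl (Nat.beq_refl _)
    · exact Or.inr (memb_complete l x h)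

def orbOK (W : List (List ℕ)) : List ℕ → List (ℕ × ℕ × ℕ) → Bool
  | _, [] => true
  | acc, (p, q, g) :: rest =>
    and (memb acc q) (and (Nat.beq (wact (nthW W g) q) p) (orbOK W (p :: acc) rest))

def fixOK (W : List (List ℕ)) (F : List ℕ) : Bool :=
  W.all (fun w => F.all (fun f => Nat.beq (wact w f) f))

def seenL (root : ℕ) (C : List (ℕ × ℕ × ℕ)) : List ℕ := root :: C.map (fun t => t.1)

def covP (p : ℕ → Bool) (seen : List ℕ) : Bool :=
  allTo 1782 (fun z => or (not (p z)) (memb seen z))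

def propOK : List ℕ → List (ℕ × List ℕ) → Bool
  | _, [] => true
  | fx, (w, D) :: rest =>
    and (D.all (fun f => and (memb fx f) (Nat.ble (Nat.succ f) 1782)))
      (and (allTo 1782 (fun z => or (Nat.beq z w)
        (D.any (fun f => not (Nat.beq (relN z f) (relN w f))))))
      (propOK (w :: fx) rest))

def sw1 (a b y : ℕ) : ℕ := cond (Nat.beq y a) b (cond (Nat.beq y b) a y)

def swact : List (ℕ × ℕ) → ℕ → ℕ
  | [], x => x
  | s :: l, x => sw1 (Nat.mod s.1 1782) (Nat.mod s.2 1782) (swact l x)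

/-- No entry of the list is repeated. -/
def pw : List ℕ → Bool
  | [] => true
  | a :: l => and (not (memb l a)) (pw l)

theorem pw_nodup : ∀ l : List ℕ, pw l = true → l.Nodup
  | [], _ => List.nodup_nil
  | a :: l, h => by
    have h' : (!(memb l a) && pw l) = true := h
    rw [Bool.and_eq_true] at h'
    refine List.nodup_cons.mpr ⟨fun hm => ?_, pw_nodup l h'.2⟩
    rw [memb_complete l a hm] at h'
    exact absurd h'.1 (by decide)

theorem nth_getD : ∀ (l : List ℕ) (k : ℕ), nth l k = l.getD k 0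
  | [], k => by cases k <;> rfl
  | a :: l, 0 => rfl
  | a :: l, k + 1 => by
    show nth l k = (a :: l).getD (k + 1) 0
    rw [nth_getD l k]
    rfl

/-! ### Permutations -/

abbrev P := Equiv.Perm (Fin 1782)

/-- The permutation packed in `l`, with inverse packed in `li`. -/
def permOf (l li : ℕ) (h : invOK l li = true) : P where
  toFun x := ⟨ap l x, ap_lt l x⟩
  invFun x := ⟨ap li x, ap_lt li x⟩
  left_inv x := by
    have := allTo_spec _ _ h x x.2
    rw [Bool.and_eq_true] at this
    exact Fin.ext (Nat.eq_of_beq_eq_true this.1)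
  right_inv x := by
    have := allTo_spec _ _ h x x.2
    rw [Bool.and_eq_true] at this
    exact Fin.ext (Nat.eq_of_beq_eq_true this.2)

theorem permOf_apply (l li : ℕ) (h : invOK l li = true) (x : Fin 1782) :
    ((permOf l li h x : Fin 1782) : ℕ) = ap l x := rfl

/-- The group of the automorphisms of the graph. -/
def Aut : Subgroup P where
  carrier := {σ | ∀ x y : Fin 1782, relN (σ x) (σ y) = relN x y}
  mul_mem' := by
    intro a b ha hb x y
    show relN (a (b x)) (a (b y)) = relN x y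
    rw [ha, hb]
  one_mem' := fun x y => rfl
  inv_mem' := by
    intro a ha x y
    have := ha (a⁻¹ x) (a⁻¹ y)
    have e1 : a (a⁻¹ x) = x := Equiv.apply_symm_apply a x
    have e2 : a (a⁻¹ y) = y := Equiv.apply_symm_apply a y
    rw [e1, e2] at this
    exact this.symm

theorem permOf_mem_Aut (l li : ℕ) (h : invOK l li = true) (ha : AutRows l) :
    permOf l li h ∈ Aut := by
  intro x y
  by_cases hxy : x = y
  · rw [hxy, relN_self, relN_self]
  · have hne : (permOf l li h x : Fin 1782) ≠ permOf l li h y :=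
      fun e => hxy ((permOf l li h).injective e)
    have hv : (x : ℕ) ≠ y := fun e => hxy (Fin.ext e)
    have hv' : ((permOf l li h x : Fin 1782) : ℕ) ≠ (permOf l li h y : Fin 1782) :=
      fun e => hne (Fin.ext e)
    have h1 := ha x x.2
    unfold rowChk at h1
    rw [force_eq, force_eq] at h1
    have h2 := allTo_spec _ _ h1 y y.2
    rw [beq_false' hv, Bool.false_or] at h2
    rw [relN_ne hv', relN_ne hv]
    exact Nat.eq_of_beq_eq_true h2

/-- The elements of `H` fixing every point of the list `F`. -/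
def fixS (H : Subgroup P) (F : List ℕ) : Subgroup P where
  carrier := {σ | σ ∈ H ∧ ∀ f ∈ F, ∀ h : f < 1782, σ ⟨f, h⟩ = ⟨f, h⟩}
  mul_mem' := by
    rintro a b ⟨ha, ha'⟩ ⟨hb, hb'⟩
    refine ⟨H.mul_mem ha hb, fun f hf h => ?_⟩
    rw [Equiv.Perm.mul_apply, hb' f hf h, ha' f hf h]
  one_mem' := ⟨H.one_mem, fun f hf h => rfl⟩
  inv_mem' := by
    rintro a ⟨ha, ha'⟩
    refine ⟨H.inv_mem ha, fun f hf h => ?_⟩
    rw [Equiv.Perm.inv_eq_iff_eq]
    exact (ha' f hf h).symm

theorem fixS_nil (H : Subgroup P) : fixS H [] = H := by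
  ext σ
  constructor
  · exact fun h => h.1
  · exact fun h => ⟨h, fun f hf => absurd hf List.not_mem_nil⟩

theorem fixS_mono {H H' : Subgroup P} (hle : H ≤ H') (F : List ℕ) : fixS H F ≤ fixS H' F :=
  fun _ h => ⟨hle h.1, h.2⟩

theorem fixS_cons_le (H : Subgroup P) (b : ℕ) (F : List ℕ) : fixS H (b :: F) ≤ fixS H F :=
  fun _ h => ⟨h.1, fun f hf => h.2 f (List.mem_cons_of_mem _ hf)⟩

theorem chain (H : Subgroup P) (F : List ℕ) (b : ℕ) (hb : b < 1782) :
    Nat.card ↥(fixS H F) =
      (MulAction.orbit ↥(fixS H F) (⟨b, hb⟩ : Fin 1782)).ncard * Nat.card ↥(fixS H (b :: F)) := by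
  have hst : MulAction.stabilizer ↥(fixS H F) (⟨b, hb⟩ : Fin 1782) =
      (fixS H (b :: F)).subgroupOf (fixS H F) := by
    ext k
    rw [Subgroup.mem_subgroupOf, MulAction.mem_stabilizer_iff]
    constructor
    · intro h
      refine ⟨k.2.1, fun f hf hf' => ?_⟩
      rcases List.mem_cons.mp hf with rfl | hf
      · exact h
      · exact k.2.2 f hf hf'
    · intro h
      exact h.2 b List.mem_cons_self hb
  have h1 := Subgroup.card_mul_index (MulAction.stabilizer ↥(fixS H F) (⟨b, hb⟩ : Fin 1782))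
  rw [MulAction.index_stabilizer, hst,
    Nat.card_congr (Subgroup.subgroupOfEquivOfLe (fixS_cons_le H b F)).toEquiv] at h1
  rw [← h1, mul_comm]

/-! ### Invariants -/

theorem foldl_congr' (F : List ℕ) (g g' : ℕ → ℕ → ℕ) (h : ∀ f ∈ F, ∀ c, g c f = g' c f)
    (c0 : ℕ) : F.foldl g c0 = F.foldl g' c0 := by
  induction F generalizing c0 with
  | nil => rfl
  | cons a l ih =>
    simp only [List.foldl_cons]
    rw [h a List.mem_cons_self c0]
    exact ih (fun f hf c => h f (List.mem_cons_of_mem _ hf) c) _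

theorem rel_fix (F : List ℕ) (hF : ∀ f ∈ F, f < 1782) (σ : P) (hσ : σ ∈ fixS Aut F)
    (u : Fin 1782) (f : ℕ) (hf : f ∈ F) : relN (σ u) f = relN u f := by
  have h := hσ.1 u ⟨f, hF f hf⟩
  rw [hσ.2 f hf (hF f hf)] at h
  exact h

theorem codeF_fix (F : List ℕ) (hF : ∀ f ∈ F, f < 1782) (σ : P) (hσ : σ ∈ fixS Aut F)
    (u : Fin 1782) : codeF F (σ u) = codeF F u := by
  unfold codeF
  apply foldl_congr'
  intro f hf c
  show Nat.add (Nat.mul 3 c) (relN (σ u) f) = Nat.add (Nat.mul 3 c) (relN u f)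
  rw [rel_fix F hF σ hσ u f hf]

theorem SF_sum (F : List ℕ) (z : ℕ) : SF F z = ∑ u : Fin 1782, gS F (u : ℕ) z := by
  unfold SF
  rw [sumTo_eq]
  exact (Fin.sum_univ_eq_sum_range (fun u => gS F u z) 1782).symm

theorem SF_fix (F : List ℕ) (hF : ∀ f ∈ F, f < 1782) (σ : P) (hσ : σ ∈ fixS Aut F)
    (z : Fin 1782) : SF F (σ z) = SF F z := by
  calc SF F (σ z) = ∑ u : Fin 1782, gS F (u : ℕ) (σ z) := SF_sum F _
    _ = ∑ u : Fin 1782, gS F ((σ u : Fin 1782) : ℕ) (σ z) :=
        (Equiv.sum_comp σ (fun u : Fin 1782 => gS F (u : ℕ) (σ z))).symm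
    _ = ∑ u : Fin 1782, gS F (u : ℕ) z := by
        apply Finset.sum_congr rfl
        intro u _
        unfold gS
        rw [hσ.1 u z, codeF_fix F hF σ hσ u]
    _ = SF F z := (SF_sum F _).symm

theorem cls_of_fix (s : Bool) (F : List ℕ) (hF : ∀ f ∈ F, f < 1782) (σ : P)
    (hσ : σ ∈ fixS Aut F) (b : Fin 1782) : clsP s F b (σ b) = true := by
  unfold clsP
  rw [Bool.and_eq_true]
  refine ⟨?_, ?_⟩
  · unfold patP
    rw [List.all_eq_true]
    intro f hf
    rw [rel_fix F hF σ hσ b f hf]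
    exact Nat.beq_refl _
  · rw [SF_fix F hF σ hσ b, Nat.beq_refl, Bool.or_true]

theorem orbit_sub (s : Bool) (H : Subgroup P) (hH : H ≤ Aut) (F : List ℕ)
    (hF : ∀ f ∈ F, f < 1782) (b : Fin 1782) :
    MulAction.orbit ↥(fixS H F) b ⊆ {z : Fin 1782 | clsP s F b z = true} := by
  rintro z ⟨σ, rfl⟩
  exact cls_of_fix s F hF σ.1 (fixS_mono hH F σ.2) b

theorem cls_card (p : ℕ → Bool) :
    Set.ncard {z : Fin 1782 | p z = true} = sumTo 1782 (fun z => cond (p z) 1 0) := by
  have e : ∀ z : ℕ, (cond (p z) 1 0 : ℕ) = if p z = true then 1 else 0 := by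
    intro z
    cases p z <;> rfl
  rw [sumTo_eq, Finset.sum_congr rfl (fun z _ => e z),
    ← Fin.sum_univ_eq_sum_range (fun z => if p z = true then 1 else 0) 1782,
    ← Finset.card_filter, ← Set.ncard_coe_finset]
  congr 1
  ext z
  simp

theorem ub (s : Bool) (H : Subgroup P) (hH : H ≤ Aut) (F : List ℕ) (hF : ∀ f ∈ F, f < 1782)
    (b : ℕ) (hb : b < 1782) (n : ℕ)
    (hcnt : sumTo 1782 (fun z => cond (clsP s F b z) 1 0) = n) :
    (MulAction.orbit ↥(fixS H F) (⟨b, hb⟩ : Fin 1782)).ncard ≤ n := by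
  rw [← hcnt, ← cls_card]
  exact Set.ncard_le_ncard (orbit_sub s H hH F hF ⟨b, hb⟩) (Set.toFinite _)

/-! ### The generators -/

theorem inv02 : invOK sg0 sg2 = true := by decide +kernel

theorem inv13 : invOK sg1 sg3 = true := by decide +kernel

theorem invtt : invOK stau stau = true := by decide +kernel

theorem pow0 : pow11OK sg0 = true := by decide +kernel

theorem pow1 : pow11OK sg1 = true := by decide +kernel

def p0 : P := permOf sg0 sg2 inv02

def p1 : P := permOf sg1 sg3 inv13

def pt : P := permOf stau stau invtt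

def pl : ℕ → P
  | 0 => p0
  | 1 => p1
  | 2 => p0⁻¹
  | _ => p1⁻¹

theorem pl_apply (c : ℕ) (x : Fin 1782) : ((pl c x : Fin 1782) : ℕ) = ap (gl c) x := by
  rcases c with _ | _ | _ | c <;> rfl

def wperm : List ℕ → P
  | [] => 1
  | c :: w => pl c * wperm w

theorem wperm_apply (w : List ℕ) (x : Fin 1782) : ((wperm w x : Fin 1782) : ℕ) = wact w x := by
  induction w with
  | nil => rfl
  | cons c w ih =>
    show ((pl c (wperm w x) : Fin 1782) : ℕ) = ap (gl c) (wact w x)
    rw [pl_apply, ih]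

/-- The group generated by the two elements of order eleven. -/
def K : Subgroup P := Subgroup.closure {p0, p1}

/-- The group of the even automorphisms of the graph. -/
def G : Subgroup P := Aut ⊓ alternatingGroup (Fin 1782)

theorem pow_apply_val (l li : ℕ) (h : invOK l li = true) :
    ∀ (k : ℕ) (x : Fin 1782), (((permOf l li h) ^ k) x : ℕ) = (ap l)^[k] x
  | 0, _ => rfl
  | k + 1, x => by
    rw [pow_succ, Equiv.Perm.mul_apply, pow_apply_val l li h k, Function.iterate_succ_apply]
    rfl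

theorem pow11_eq (l li : ℕ) (h : invOK l li = true) (h5 : pow11OK l = true) :
    (permOf l li h) ^ 11 = 1 := by
  apply Equiv.ext
  intro x
  apply Fin.ext
  rw [pow_apply_val, Equiv.Perm.one_apply]
  have h6 := allTo_spec _ _ h5 x x.2
  exact Nat.eq_of_beq_eq_true h6

theorem sign_of_pow11 (σ : P) (h : σ ^ 11 = 1) : Equiv.Perm.sign σ = 1 := by
  have h5 : (Equiv.Perm.sign σ) ^ 11 = 1 := by rw [← map_pow, h, map_one]
  rcases Int.units_eq_one_or (Equiv.Perm.sign σ) with e | e
  · exact e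
  · rw [e] at h5
    exact absurd h5 (by decide)

theorem p0_pow : p0 ^ 11 = 1 := pow11_eq _ _ _ pow0

theorem p1_pow : p1 ^ 11 = 1 := pow11_eq _ _ _ pow1

theorem pl_mem (c : ℕ) : pl c ∈ K := by
  have h0 : p0 ∈ K := Subgroup.subset_closure (Set.mem_insert _ _)
  have h1 : p1 ∈ K := Subgroup.subset_closure (Set.mem_insert_of_mem _ rfl)
  rcases c with _ | _ | _ | c
  · exact h0
  · exact h1
  · exact K.inv_mem h0
  · exact K.inv_mem h1

theorem wperm_mem (w : List ℕ) : wperm w ∈ K := by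
  induction w with
  | nil => exact K.one_mem
  | cons c w ih => exact K.mul_mem (pl_mem c) ih

theorem nthW_mem : ∀ (W : List (List ℕ)) (g : ℕ), nthW W g = [] ∨ nthW W g ∈ W
  | [], _ => Or.inl rfl
  | _ :: _, 0 => Or.inr List.mem_cons_self
  | _ :: l, n + 1 => by
    rcases nthW_mem l n with h | h
    · exact Or.inl h
    · exact Or.inr (List.mem_cons_of_mem _ h)

theorem wperm_fix (W : List (List ℕ)) (F : List ℕ) (h : fixOK W F = true) (w : List ℕ)
    (hw : w ∈ W) : wperm w ∈ fixS K F := by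
  refine ⟨wperm_mem w, fun f hf hlt => Fin.ext ?_⟩
  have := List.all_eq_true.mp (List.all_eq_true.mp h w hw) f hf
  rw [wperm_apply]
  exact Nat.eq_of_beq_eq_true this

def InOrb (F : List ℕ) (root : Fin 1782) (a : ℕ) : Prop :=
  ∃ σ ∈ fixS K F, ((σ root : Fin 1782) : ℕ) = a

theorem orb_step (W : List (List ℕ)) (F : List ℕ) (hfix : fixOK W F = true) (root : Fin 1782) :
    ∀ (C : List (ℕ × ℕ × ℕ)) (acc : List ℕ), (∀ a ∈ acc, InOrb F root a) →
      orbOK W acc C = true → ∀ t ∈ C, InOrb F root t.1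
  | [], _, _, _ => fun t ht => absurd ht List.not_mem_nil
  | (p, q, g) :: rest, acc, hacc, hok => by
    have hok' : (memb acc q && (Nat.beq (wact (nthW W g) q) p && orbOK W (p :: acc) rest))
        = true := hok
    rw [Bool.and_eq_true, Bool.and_eq_true] at hok'
    obtain ⟨hq, hp, hrest⟩ := hok'
    have hpO : InOrb F root p := by
      obtain ⟨σ, hσ, e⟩ := hacc q (memb_spec acc q hq)
      have hw : wperm (nthW W g) ∈ fixS K F := by
        rcases nthW_mem W g with h0 | hm
        · rw [h0]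
          exact (fixS K F).one_mem
        · exact wperm_fix W F hfix _ hm
      refine ⟨wperm (nthW W g) * σ, (fixS K F).mul_mem hw hσ, ?_⟩
      rw [Equiv.Perm.mul_apply, wperm_apply, e]
      exact Nat.eq_of_beq_eq_true hp
    intro t ht
    rcases List.mem_cons.mp ht with rfl | ht
    · exact hpO
    · refine orb_step W F hfix root rest (p :: acc) (fun a ha => ?_) hrest t ht
      rcases List.mem_cons.mp ha with rfl | ha
      · exact hpO
      · exact hacc a ha

theorem orb_cover (W : List (List ℕ)) (F : List ℕ) (root : ℕ) (hr : root < 1782)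
    (C : List (ℕ × ℕ × ℕ)) (p : ℕ → Bool) (hfix : fixOK W F = true)
    (hok : orbOK W [root] C = true) (hcov : covP p (seenL root C) = true) :
    ∀ z : Fin 1782, p z = true → ∃ σ ∈ fixS K F, σ (⟨root, hr⟩ : Fin 1782) = z := by
  intro z hz
  have h1 := allTo_spec _ _ hcov z z.2
  rw [hz] at h1
  have hmem : (z : ℕ) ∈ seenL root C := memb_spec _ _ h1
  have hroot : InOrb F ⟨root, hr⟩ root := ⟨1, (fixS K F).one_mem, rfl⟩
  have hin : InOrb F ⟨root, hr⟩ z := by
    rcases List.mem_cons.mp hmem with e | hm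
    · rw [e]
      exact hroot
    · obtain ⟨t, ht, e⟩ := List.mem_map.mp hm
      rw [← e]
      exact orb_step W F hfix ⟨root, hr⟩ C [root]
        (fun a ha => by rw [List.mem_singleton.mp ha]; exact hroot) hok t ht
  obtain ⟨σ, hσ, e⟩ := hin
  exact ⟨σ, hσ, Fin.ext e⟩

theorem orb_pair (W : List (List ℕ)) (F : List ℕ) (root : ℕ) (hr : root < 1782)
    (C : List (ℕ × ℕ × ℕ)) (p : ℕ → Bool) (hfix : fixOK W F = true)
    (hok : orbOK W [root] C = true) (hcov : covP p (seenL root C) = true)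
    (z z' : Fin 1782) (hz : p z = true) (hz' : p z' = true) : ∃ σ ∈ fixS K F, σ z = z' := by
  obtain ⟨σ, hσ, e⟩ := orb_cover W F root hr C p hfix hok hcov z hz
  obtain ⟨σ', hσ', e'⟩ := orb_cover W F root hr C p hfix hok hcov z' hz'
  refine ⟨σ' * σ⁻¹, (fixS K F).mul_mem hσ' ((fixS K F).inv_mem hσ), ?_⟩
  have e1 : σ⁻¹ z = ⟨root, hr⟩ := by
    rw [Equiv.Perm.inv_eq_iff_eq]
    exact e.symm
  rw [Equiv.Perm.mul_apply, e1]
  exact e'

theorem lb (W : List (List ℕ)) (F : List ℕ) (root : ℕ) (hr : root < 1782)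
    (C : List (ℕ × ℕ × ℕ)) (p : ℕ → Bool) (n : ℕ) (hfix : fixOK W F = true)
    (hok : orbOK W [root] C = true) (hcov : covP p (seenL root C) = true)
    (hcnt : sumTo 1782 (fun z => cond (p z) 1 0) = n) :
    n ≤ (MulAction.orbit ↥(fixS K F) (⟨root, hr⟩ : Fin 1782)).ncard := by
  rw [← hcnt, ← cls_card]
  refine Set.ncard_le_ncard (fun z hz => ?_) (Set.toFinite _)
  obtain ⟨σ, hσ, e⟩ := orb_cover W F root hr C p hfix hok hcov z hz
  exact ⟨⟨σ, hσ⟩, e⟩

/-! ### Propagation -/

theorem prop_step (σ : P) (hσ : σ ∈ Aut) :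
    ∀ (C : List (ℕ × List ℕ)) (fx : List ℕ),
      (∀ f ∈ fx, ∀ h : f < 1782, σ ⟨f, h⟩ = ⟨f, h⟩) → propOK fx C = true →
      ∀ t ∈ C, ∀ h : t.1 < 1782, σ ⟨t.1, h⟩ = ⟨t.1, h⟩
  | [], _, _, _ => fun t ht => absurd ht List.not_mem_nil
  | (w, D) :: rest, fx, hfx, hok => by
    have hok' : (D.all (fun f => and (memb fx f) (Nat.ble (Nat.succ f) 1782)) &&
        (allTo 1782 (fun z => or (Nat.beq z w)
          (D.any (fun f => not (Nat.beq (relN z f) (relN w f))))) &&
        propOK (w :: fx) rest)) = true := hok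
    rw [Bool.and_eq_true, Bool.and_eq_true] at hok'
    obtain ⟨hD, hz, hrest⟩ := hok'
    have hw : ∀ h : w < 1782, σ ⟨w, h⟩ = ⟨w, h⟩ := by
      intro h
      have h1 := allTo_spec _ _ hz (σ ⟨w, h⟩ : Fin 1782) (σ ⟨w, h⟩).2
      rw [Bool.or_eq_true] at h1
      rcases h1 with h1 | h2
      · exact Fin.ext (Nat.eq_of_beq_eq_true h1)
      · exfalso
        rw [List.any_eq_true] at h2
        obtain ⟨f, hf, hne⟩ := h2
        have hDf := List.all_eq_true.mp hD f hf
        rw [Bool.and_eq_true] at hDf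
        have hffx : f ∈ fx := memb_spec fx f hDf.1
        have hf100 : f < 1782 := Nat.le_of_ble_eq_true hDf.2
        have e := hσ ⟨w, h⟩ ⟨f, hf100⟩
        rw [hfx f hffx hf100] at e
        exact (nbeq_true.mp hne) e
    intro t ht
    rcases List.mem_cons.mp ht with rfl | ht
    · exact hw
    · refine prop_step σ hσ rest (w :: fx) (fun f hf => ?_) hrest t ht
      rcases List.mem_cons.mp hf with rfl | hf
      · exact hw
      · exact hfx f hf

/-! ### The odd automorphism -/

def mkF (a : ℕ) : Fin 1782 := ⟨Nat.mod a 1782, Nat.mod_lt _ (by norm_num)⟩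

def swapsP : List (ℕ × ℕ) → P
  | [] => 1
  | s :: l => Equiv.swap (mkF s.1) (mkF s.2) * swapsP l

theorem swapsP_apply (l : List (ℕ × ℕ)) (x : Fin 1782) :
    ((swapsP l x : Fin 1782) : ℕ) = swact l x := by
  induction l with
  | nil => rfl
  | cons s l ih =>
    show ((Equiv.swap (mkF s.1) (mkF s.2) (swapsP l x) : Fin 1782) : ℕ) =
      sw1 (Nat.mod s.1 1782) (Nat.mod s.2 1782) (swact l x)
    rw [← ih]
    generalize swapsP l x = y
    unfold sw1
    rw [Equiv.swap_apply_def]
    by_cases h1 : y = mkF s.1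
    · have e1 : Nat.beq (y : ℕ) (Nat.mod s.1 1782) = true := by
        rw [h1]
        exact Nat.beq_refl _
      rw [if_pos h1, e1]
      rfl
    · have n1 : (y : ℕ) ≠ Nat.mod s.1 1782 := fun e => h1 (Fin.ext e)
      rw [if_neg h1, beq_false' n1]
      by_cases h2 : y = mkF s.2
      · have e2 : Nat.beq (y : ℕ) (Nat.mod s.2 1782) = true := by
          rw [h2]
          exact Nat.beq_refl _
        rw [if_pos h2]
        show ((mkF s.1 : Fin 1782) : ℕ) = cond (Nat.beq (y : ℕ) (Nat.mod s.2 1782)) _ _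
        rw [e2]
        rfl
      · have n2 : (y : ℕ) ≠ Nat.mod s.2 1782 := fun e => h2 (Fin.ext e)
        rw [if_neg h2]
        show (y : ℕ) = cond (Nat.beq (y : ℕ) (Nat.mod s.2 1782)) _ _
        rw [beq_false' n2]
        rfl

theorem sign_swapsP : ∀ l : List (ℕ × ℕ), (∀ s ∈ l, mkF s.1 ≠ mkF s.2) →
    Equiv.Perm.sign (swapsP l) = (-1) ^ l.length
  | [], _ => by
    rw [swapsP, map_one, List.length_nil, pow_zero]
  | s :: l, h => by
    rw [swapsP, map_mul, Equiv.Perm.sign_swap (h s List.mem_cons_self),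
      sign_swapsP l (fun t ht => h t (List.mem_cons_of_mem _ ht)), List.length_cons, pow_succ,
      mul_comm]

end Cfsg.Agent.Lib.Helper11.SuzL
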