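import Cfsg.Agent.Lib.Helper11.SuzBase

set_option autoImplicit false

namespace Cfsg.Agent.Lib.Helper11.SuzL

open Cfsg.Agent.Lib.Helper11.SuzD

theorem fix0 : fixOK V0 [] = true := by decide +kernel

theorem fix1 : fixOK V1 [0] = true := by decide +kernel

theorem fix2 : fixOK V2 [1, 0] = true := by decide +kernel

theorem fix3 : fixOK V3 [2, 1, 0] = true := by decide +kernel

theorem fix4 : fixOK V4 [3, 2, 1, 0] = true := by decide +kernel

theorem fix5 : fixOK V5 [101, 3, 2, 1, 0] = true := by decide +kernel

theorem ok0 : orbOK V0 [0] D0 = true := by decide +kernel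

theorem ok1 : orbOK V1 [1] D1 = true := by decide +kernel

theorem ok2 : orbOK V2 [2] D2 = true := by decide +kernel

theorem ok3 : orbOK V3 [3] D3 = true := by decide +kernel

theorem ok4 : orbOK V4 [101] D4 = true := by decide +kernel

theorem ok5 : orbOK V5 [80] D5 = true := by decide +kernel

theorem ok1365 : orbOK V1 [417] D1365 = true := by decide +kernel

theorem covT : covP (fun _ => true) (seenL 0 D0) = true := by decide +kernel

theorem cov1 : covP (clsP false [0] 1) (seenL 1 D1) = true := by decide +kernel

theorem cov2 : covP (clsP false [1, 0] 2) (seenL 2 D2) = true := by decide +kernel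

theorem cov3 : covP (clsP false [2, 1, 0] 3) (seenL 3 D3) = true := by decide +kernel

theorem cov4 : covP (clsP false [3, 2, 1, 0] 101) (seenL 101 D4) = true := by decide +kernel

theorem cov5 : covP (clsP true [101, 3, 2, 1, 0] 80) (seenL 80 D5) = true := by decide +kernel

theorem covA : covP (fun z => Nat.beq (relN z 0) 1) (seenL 1 D1) = true := by decide +kernel

theorem covN : covP (fun z => Nat.beq (relN z 0) 0) (seenL 417 D1365) = true := by
  decide +kernel

end Cfsg.Agent.Lib.Helper11.SuzL
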