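import Cfsg.Agent.Lib.Helper11.SuzBase

set_option autoImplicit false

namespace Cfsg.Agent.Lib.Helper11.SuzL

open Cfsg.Agent.Lib.Helper11.SuzD

theorem cntT : sumTo 1782 (fun z => cond ((fun _ : ℕ => true) z) 1 0) = 1782 := by
  decide +kernel

theorem cnt1 : sumTo 1782 (fun z => cond (clsP false [0] 1 z) 1 0) = 416 := by decide +kernel

theorem cnt2 : sumTo 1782 (fun z => cond (clsP false [1, 0] 2 z) 1 0) = 100 := by
  decide +kernel

theorem cnt3 : sumTo 1782 (fun z => cond (clsP false [2, 1, 0] 3 z) 1 0) = 36 := by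
  decide +kernel

theorem cnt4 : sumTo 1782 (fun z => cond (clsP false [3, 2, 1, 0] 101 z) 1 0) = 42 := by
  decide +kernel

theorem cnt5 : sumTo 1782 (fun z => cond (clsP true [101, 3, 2, 1, 0] 80 z) 1 0) = 4 := by
  decide +kernel

theorem cnt417 :
    sumTo 1782 (fun z => cond ((fun z : ℕ => not (Nat.beq (relN z 0) 0)) z) 1 0) = 417 := by
  decide +kernel

theorem cnt1366 :
    sumTo 1782 (fun z => cond ((fun z : ℕ => not (Nat.beq (relN z 0) 1)) z) 1 0) = 1366 := by
  decide +kernel

theorem last2 : allTo 1782 (fun z => or (not (clsP true [80, 101, 3, 2, 1, 0] 4 z))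
    (or (Nat.beq z 4) (Nat.beq z 35))) = true := by decide +kernel

theorem propc : propOK [4, 80, 101, 3, 2, 1, 0] spcert = true := by decide +kernel

theorem FstarOK : Fstar.all (fun f => and
    (memb ([4, 80, 101, 3, 2, 1, 0] ++ spcert.map (fun t : ℕ × List ℕ => t.1)) f)
    (Nat.ble (Nat.succ f) 1782)) = true := by decide +kernel

theorem codesOK : allTo 1782 (fun z => Nat.beq (codeF Fstar z) (nth codesL z)) = true := by
  decide +kernel

theorem pwOK : pw codesL = true := by decide +kernel

theorem codes_len : codesL.length = 1782 := by decide +kernel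

theorem taufix : [80, 101, 3, 2, 1, 0].all (fun f => Nat.beq (ap stau f) f) = true := by
  decide +kernel

theorem tau4 : ap stau 4 = 35 := by decide +kernel

end Cfsg.Agent.Lib.Helper11.SuzL
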