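import Cfsg.Agent.Lib.Helper11.SuzBase

set_option autoImplicit false

namespace Cfsg.Agent.Lib.Helper11.SuzL

open Cfsg.Agent.Lib.Helper11.SuzD

def forceN (m : ℕ) (f : ℕ → ℕ) : ℕ := Nat.rec (f 0) (fun k _ => f (Nat.succ k)) m

theorem forceN_eq (m : ℕ) (f : ℕ → ℕ) : forceN m f = f m := by
  cases m <;> rfl

/-- The image of a point under a product of transpositions, evaluated step by step. -/
def swactF : List (ℕ × ℕ) → ℕ → ℕ
  | [], x => x
  | s :: l, x => forceN (swactF l x) (fun y => sw1 (Nat.mod s.1 1782) (Nat.mod s.2 1782) y)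

theorem swactF_eq (l : List (ℕ × ℕ)) (x : ℕ) : swactF l x = swact l x := by
  induction l with
  | nil => rfl
  | cons s l ih =>
    show forceN (swactF l x) (fun y => sw1 (Nat.mod s.1 1782) (Nat.mod s.2 1782) y) =
      sw1 (Nat.mod s.1 1782) (Nat.mod s.2 1782) (swact l x)
    rw [forceN_eq, ih]

theorem swOKF : allTo 1782 (fun x => Nat.beq (ap stau x) (swactF sswapsL x)) = true := by
  decide +kernel

theorem swne : sswapsL.all
    (fun s => not (Nat.beq (Nat.mod s.1 1782) (Nat.mod s.2 1782))) = true := by decide +kernel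

theorem swlen : sswapsL.length = 841 := by decide +kernel

end Cfsg.Agent.Lib.Helper11.SuzL
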