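import Cfsg.Agent.Lib.Helper11.SuzA0
import Cfsg.Agent.Lib.Helper11.SuzA1
import Cfsg.Agent.Lib.Helper11.SuzAt
import Cfsg.Agent.Lib.Helper11.SuzC1
import Cfsg.Agent.Lib.Helper11.SuzC2
import Cfsg.Agent.Lib.Helper11.SuzS

set_option autoImplicit false

namespace Cfsg.Agent.Lib.Helper11.SuzL

open Cfsg.Agent.Lib.Helper11.SuzD

theorem p0_mem : p0 ∈ G :=
  ⟨permOf_mem_Aut _ _ _ aut0, Equiv.Perm.mem_alternatingGroup.mpr (sign_of_pow11 _ p0_pow)⟩

theorem p1_mem : p1 ∈ G :=
  ⟨permOf_mem_Aut _ _ _ aut1, Equiv.Perm.mem_alternatingGroup.mpr (sign_of_pow11 _ p1_pow)⟩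

theorem K_le : K ≤ G := by
  refine (Subgroup.closure_le G).mpr ?_
  intro σ hσ
  rcases hσ with rfl | rfl
  · exact p0_mem
  · exact p1_mem

theorem pt_eq : pt = swapsP sswapsL := by
  apply Equiv.ext
  intro x
  apply Fin.ext
  rw [swapsP_apply]
  have h6 := allTo_spec _ _ swOKF x x.2
  have h7 := Nat.eq_of_beq_eq_true h6
  rw [swactF_eq] at h7
  exact (permOf_apply stau stau invtt x).trans h7

theorem sign_pt : Equiv.Perm.sign pt = -1 := by
  have hne : ∀ s ∈ sswapsL, mkF s.1 ≠ mkF s.2 := by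
    intro s hs h
    have := List.all_eq_true.mp swne s hs
    exact (nbeq_true.mp this) (congrArg Fin.val h)
  rw [pt_eq, sign_swapsP sswapsL hne, swlen]
  exact Odd.neg_one_pow (by decide)

/-! ### The last stabiliser -/

theorem trivial_of_fix7 (σ : P) (hσ : σ ∈ Aut)
    (hfix : ∀ f ∈ [4, 80, 101, 3, 2, 1, 0], ∀ h : f < 1782, σ ⟨f, h⟩ = ⟨f, h⟩) : σ = 1 := by
  have hFs : ∀ f ∈ Fstar, f < 1782 := by
    intro f hf
    have h1 := List.all_eq_true.mp FstarOK f hf
    rw [Bool.and_eq_true] at h1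
    exact Nat.le_of_ble_eq_true h1.2
  have hstar : σ ∈ fixS Aut Fstar := by
    refine ⟨hσ, fun f hf h => ?_⟩
    have h1 := List.all_eq_true.mp FstarOK f hf
    rw [Bool.and_eq_true] at h1
    have hm := memb_spec _ _ h1.1
    rcases List.mem_append.mp hm with h2 | h2
    · exact hfix f h2 h
    · obtain ⟨t, ht, e⟩ := List.mem_map.mp h2
      subst e
      exact prop_step σ hσ spcert [4, 80, 101, 3, 2, 1, 0] hfix propc t ht h
  apply Equiv.ext
  intro x
  apply Fin.ext
  have hc := codeF_fix Fstar hFs σ hstar x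
  have c1 := Nat.eq_of_beq_eq_true (allTo_spec _ _ codesOK ((σ x : Fin 1782) : ℕ) (σ x).2)
  have c2 := Nat.eq_of_beq_eq_true (allTo_spec _ _ codesOK (x : ℕ) x.2)
  have e : nth codesL ((σ x : Fin 1782) : ℕ) = nth codesL (x : ℕ) := by
    rw [← c1, ← c2, hc]
  rw [nth_getD, nth_getD] at e
  have hl1 : ((σ x : Fin 1782) : ℕ) < codesL.length := by
    rw [codes_len]
    exact (σ x).2
  have hl2 : (x : ℕ) < codesL.length := by
    rw [codes_len]
    exact x.2
  rw [List.getD_eq_getElem _ _ hl1, List.getD_eq_getElem _ _ hl2] at e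
  exact (List.Nodup.getElem_inj_iff (pw_nodup codesL pwOK)).mp e

theorem hF6 : ∀ f ∈ [80, 101, 3, 2, 1, 0], f < 1782 := by decide

theorem fix6_trivial (σ : P) (hσ : σ ∈ fixS G [80, 101, 3, 2, 1, 0]) : σ = 1 := by
  have hA : σ ∈ Aut := hσ.1.1
  have hsign : Equiv.Perm.sign σ = 1 := Equiv.Perm.mem_alternatingGroup.mp hσ.1.2
  have hc : clsP true [80, 101, 3, 2, 1, 0] 4 (σ (⟨4, by norm_num⟩ : Fin 1782)) = true :=
    cls_of_fix true [80, 101, 3, 2, 1, 0] hF6 σ ⟨hA, hσ.2⟩ (⟨4, by norm_num⟩ : Fin 1782)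
  have h1 := allTo_spec _ _ last2 (σ (⟨4, by norm_num⟩ : Fin 1782))
    (σ (⟨4, by norm_num⟩ : Fin 1782)).2
  rw [hc] at h1
  simp only [Bool.not_true, Bool.false_or, Bool.or_eq_true] at h1
  rcases h1 with h2 | h33
  · apply trivial_of_fix7 σ hA
    intro f hf h
    rcases List.mem_cons.mp hf with rfl | hf
    · exact Fin.ext (Nat.eq_of_beq_eq_true h2)
    · exact hσ.2 f hf h
  · exfalso
    have hpt : pt ∈ Aut := permOf_mem_Aut _ _ _ autt
    have hρ : pt⁻¹ * σ = 1 := by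
      apply trivial_of_fix7 _ (Aut.mul_mem (Aut.inv_mem hpt) hA)
      intro f hf h
      rw [Equiv.Perm.mul_apply, Equiv.Perm.inv_eq_iff_eq]
      rcases List.mem_cons.mp hf with rfl | hf
      · apply Fin.ext
        have e4 : ((pt ⟨4, h⟩ : Fin 1782) : ℕ) = ap stau 4 := permOf_apply stau stau invtt ⟨4, h⟩
        exact (Nat.eq_of_beq_eq_true h33).trans (tau4.symm.trans e4.symm)
      · rw [hσ.2 f hf h]
        apply Fin.ext
        have := List.all_eq_true.mp taufix f hf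
        have ef : ((pt ⟨f, h⟩ : Fin 1782) : ℕ) = ap stau f := permOf_apply stau stau invtt ⟨f, h⟩
        exact (Nat.eq_of_beq_eq_true this).symm.trans ef.symm
    have hσpt : pt = σ := eq_of_inv_mul_eq_one hρ
    rw [← hσpt, sign_pt] at hsign
    exact absurd hsign (by decide)

/-! ### The order -/

theorem G_le_Aut : G ≤ Aut := inf_le_left

theorem card_G_le : Nat.card ↥G ≤ 448345497600 := by
  have c0 := chain G [] 0 (by norm_num)
  have c1 := chain G [0] 1 (by norm_num)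
  have c2 := chain G [1, 0] 2 (by norm_num)
  have c3 := chain G [2, 1, 0] 3 (by norm_num)
  have c4 := chain G [3, 2, 1, 0] 101 (by norm_num)
  have c5 := chain G [101, 3, 2, 1, 0] 80 (by norm_num)
  have u0 : (MulAction.orbit ↥(fixS G []) (⟨0, by norm_num⟩ : Fin 1782)).ncard ≤ 1782 := by
    have h := Set.ncard_le_ncard (Set.subset_univ
      (MulAction.orbit ↥(fixS G []) (⟨0, by norm_num⟩ : Fin 1782))) (Set.toFinite _)
    rwa [Set.ncard_univ, Nat.card_eq_fintype_card, Fintype.card_fin] at h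
  have u1 := ub false G G_le_Aut [0] (by decide) 1 (by norm_num) 416 cnt1
  have u2 := ub false G G_le_Aut [1, 0] (by decide) 2 (by norm_num) 100 cnt2
  have u3 := ub false G G_le_Aut [2, 1, 0] (by decide) 3 (by norm_num) 36 cnt3
  have u4 := ub false G G_le_Aut [3, 2, 1, 0] (by decide) 101 (by norm_num) 42 cnt4
  have u5 := ub true G G_le_Aut [101, 3, 2, 1, 0] (by decide) 80 (by norm_num) 4 cnt5
  have h6 : Nat.card ↥(fixS G [80, 101, 3, 2, 1, 0]) = 1 := by
    rw [Subgroup.card_eq_one, Subgroup.eq_bot_iff_forall]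
    exact fun σ hσ => fix6_trivial σ hσ
  have e : Nat.card ↥(fixS G []) = Nat.card ↥G := by rw [fixS_nil]
  rw [← e, c0, c1, c2, c3, c4, c5, h6]
  calc _ ≤ 1782 * (416 * (100 * (36 * (42 * (4 * 1))))) :=
        Nat.mul_le_mul u0 (Nat.mul_le_mul u1 (Nat.mul_le_mul u2 (Nat.mul_le_mul u3
          (Nat.mul_le_mul u4 (Nat.mul_le_mul u5 le_rfl)))))
    _ = 448345497600 := by norm_num

theorem card_K_ge : 448345497600 ≤ Nat.card ↥K := by
  have c0 := chain K [] 0 (by norm_num)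
  have c1 := chain K [0] 1 (by norm_num)
  have c2 := chain K [1, 0] 2 (by norm_num)
  have c3 := chain K [2, 1, 0] 3 (by norm_num)
  have c4 := chain K [3, 2, 1, 0] 101 (by norm_num)
  have c5 := chain K [101, 3, 2, 1, 0] 80 (by norm_num)
  have l0 := lb V0 [] 0 (by norm_num) D0 (fun _ => true) 1782 fix0 ok0 covT cntT
  have l1 := lb V1 [0] 1 (by norm_num) D1 (clsP false [0] 1) 416 fix1 ok1 cov1 cnt1
  have l2 := lb V2 [1, 0] 2 (by norm_num) D2 (clsP false [1, 0] 2) 100 fix2 ok2 cov2 cnt2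
  have l3 := lb V3 [2, 1, 0] 3 (by norm_num) D3 (clsP false [2, 1, 0] 3) 36 fix3 ok3 cov3 cnt3
  have l4 := lb V4 [3, 2, 1, 0] 101 (by norm_num) D4 (clsP false [3, 2, 1, 0] 101) 42
    fix4 ok4 cov4 cnt4
  have l5 := lb V5 [101, 3, 2, 1, 0] 80 (by norm_num) D5 (clsP true [101, 3, 2, 1, 0] 80) 4
    fix5 ok5 cov5 cnt5
  have e : Nat.card ↥(fixS K []) = Nat.card ↥K := by rw [fixS_nil]
  rw [← e, c0, c1, c2, c3, c4, c5]
  calc 448345497600 = 1782 * (416 * (100 * (36 * (42 * (4 * 1))))) := by norm_num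
    _ ≤ _ := Nat.mul_le_mul l0 (Nat.mul_le_mul l1 (Nat.mul_le_mul l2 (Nat.mul_le_mul l3
        (Nat.mul_le_mul l4 (Nat.mul_le_mul l5 Nat.card_pos)))))

theorem card_G : Nat.card ↥G = 448345497600 :=
  le_antisymm card_G_le (card_K_ge.trans (Subgroup.card_le_of_le K_le))

theorem K_eq : K = G :=
  Subgroup.eq_of_le_of_card_ge K_le (by rw [card_G]; exact card_K_ge)

/-! ### Simplicity -/

theorem x0_orbit (z : Fin 1782) : ∃ g ∈ G, g (⟨0, by norm_num⟩ : Fin 1782) = z := by
  obtain ⟨σ, hσ, e⟩ := orb_cover V0 [] 0 (by norm_num) D0 (fun _ => true) fix0 ok0 covT z rfl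
  exact ⟨σ, K_le hσ.1, e⟩

theorem adj_pair (z z' : Fin 1782) (hz : relN z 0 = 1) (hz' : relN z' 0 = 1) :
    ∃ g ∈ G, g (⟨0, by norm_num⟩ : Fin 1782) = ⟨0, by norm_num⟩ ∧ g z = z' := by
  have b1 : (fun z : ℕ => Nat.beq (relN z 0) 1) z = true := by
    show Nat.beq (relN z 0) 1 = true
    rw [hz]
    rfl
  have b2 : (fun z : ℕ => Nat.beq (relN z 0) 1) z' = true := by
    show Nat.beq (relN z' 0) 1 = true
    rw [hz']
    rfl
  obtain ⟨σ, hσ, e⟩ := orb_pair V1 [0] 1 (by norm_num) D1 (fun z => Nat.beq (relN z 0) 1)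
    fix1 ok1 covA z z' b1 b2
  exact ⟨σ, K_le hσ.1, hσ.2 0 List.mem_cons_self (by norm_num), e⟩

theorem non_pair (z z' : Fin 1782) (hz : relN z 0 = 0) (hz' : relN z' 0 = 0) :
    ∃ g ∈ G, g (⟨0, by norm_num⟩ : Fin 1782) = ⟨0, by norm_num⟩ ∧ g z = z' := by
  have b1 : (fun z : ℕ => Nat.beq (relN z 0) 0) z = true := by
    show Nat.beq (relN z 0) 0 = true
    rw [hz]
    rfl
  have b2 : (fun z : ℕ => Nat.beq (relN z 0) 0) z' = true := by
    show Nat.beq (relN z' 0) 0 = true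
    rw [hz']
    rfl
  obtain ⟨σ, hσ, e⟩ := orb_pair V1 [0] 417 (by norm_num) D1365 (fun z => Nat.beq (relN z 0) 0)
    fix1 ok1365 covN z z' b1 b2
  exact ⟨σ, K_le hσ.1, hσ.2 0 List.mem_cons_self (by norm_num), e⟩

theorem rel_cases (z : ℕ) : relN z 0 = 2 ∨ relN z 0 = 1 ∨ relN z 0 = 0 := by
  by_cases h : z = 0
  · left
    rw [h]
    exact relN_self 0
  · right
    rw [relN_ne h]
    have := bit_le (row z) 0
    omega

theorem rel_two (z : Fin 1782) (h : relN z 0 = 2) : z = ⟨0, by norm_num⟩ :=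
  Fin.ext (relN_two h)

theorem simpleG : IsSimpleGroup ↥G := by
  have hcard := card_G
  have : Nontrivial ↥G := Finite.one_lt_card_iff_nontrivial.mp (by rw [hcard]; norm_num)
  refine ⟨fun N hNn => ?_⟩
  by_cases hN : N = ⊥
  · exact Or.inl hN
  right
  have hx0 : ∃ x0 : Fin 1782, x0 = ⟨0, by norm_num⟩ := ⟨_, rfl⟩
  obtain ⟨x0, hx0⟩ := hx0
  have hdvd : ({y : Fin 1782 | ∃ n ∈ N, n • x0 = y}).ncard ∣ 1782 := by
    have h := PrimSimple2.normal_orbit_dvd x0 N hNn
    have horb : MulAction.orbit ↥G x0 = Set.univ := by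
      ext z
      simp only [Set.mem_univ, iff_true]
      obtain ⟨g, hg, e⟩ := x0_orbit z
      rw [hx0]
      exact ⟨⟨g, hg⟩, e⟩
    rw [horb, Set.ncard_univ, Nat.card_eq_fintype_card, Fintype.card_fin] at h
    exact h
  have hx0B : x0 ∈ {y : Fin 1782 | ∃ n ∈ N, n • x0 = y} := ⟨1, N.one_mem, one_smul _ _⟩
  have hinv : ∀ g : ↥G, (g : P) x0 = x0 → ∀ y ∈ {y : Fin 1782 | ∃ n ∈ N, n • x0 = y},
      (g : P) y ∈ {y : Fin 1782 | ∃ n ∈ N, n • x0 = y} := by
    rintro g hg y ⟨n, hn, rfl⟩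
    refine ⟨g * n * g⁻¹, hNn.conj_mem n hn g, ?_⟩
    have hgi : ((g : P)⁻¹) x0 = x0 := by
      rw [Equiv.Perm.inv_eq_iff_eq]
      exact hg.symm
    show (g : P) ((n : P) ((g : P)⁻¹ x0)) = (g : P) ((n : P) x0)
    rw [hgi]
  have hadj : ∀ z z' : Fin 1782, relN z 0 = 1 → relN z' 0 = 1 →
      z ∈ {y : Fin 1782 | ∃ n ∈ N, n • x0 = y} →
      z' ∈ {y : Fin 1782 | ∃ n ∈ N, n • x0 = y} := by
    intro z z' hz hz' hzB
    obtain ⟨g, hg, hg0, e⟩ := adj_pair z z' hz hz'
    have := hinv ⟨g, hg⟩ (by rw [hx0]; exact hg0) z hzB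
    rw [← e]
    exact this
  have hnon : ∀ z z' : Fin 1782, relN z 0 = 0 → relN z' 0 = 0 →
      z ∈ {y : Fin 1782 | ∃ n ∈ N, n • x0 = y} →
      z' ∈ {y : Fin 1782 | ∃ n ∈ N, n • x0 = y} := by
    intro z z' hz hz' hzB
    obtain ⟨g, hg, hg0, e⟩ := non_pair z z' hz hz'
    have := hinv ⟨g, hg⟩ (by rw [hx0]; exact hg0) z hzB
    rw [← e]
    exact this
  have hB : {y : Fin 1782 | ∃ n ∈ N, n • x0 = y} = Set.univ := by
    by_cases c1 : ∃ z ∈ {y : Fin 1782 | ∃ n ∈ N, n • x0 = y}, relN z 0 = 1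
    · obtain ⟨a, haB, ha⟩ := c1
      by_cases c0 : ∃ z ∈ {y : Fin 1782 | ∃ n ∈ N, n • x0 = y}, relN z 0 = 0
      · obtain ⟨b, hbB, hb⟩ := c0
        ext z
        simp only [Set.mem_univ, iff_true]
        rcases rel_cases z with h | h | h
        · rw [rel_two z h, ← hx0]
          exact hx0B
        · exact hadj a z ha h haB
        · exact hnon b z hb h hbB
      · exfalso
        have hBeq : {y : Fin 1782 | ∃ n ∈ N, n • x0 = y} =
            {z : Fin 1782 | (fun z : ℕ => not (Nat.beq (relN z 0) 0)) z = true} := by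
          ext z
          constructor
          · intro hz
            show (not (Nat.beq (relN z 0) 0)) = true
            rw [nbeq_true]
            intro h
            exact c0 ⟨z, hz, h⟩
          · intro hz
            have hz' : relN z 0 ≠ 0 := nbeq_true.mp hz
            rcases rel_cases z with h | h | h
            · rw [rel_two z h, ← hx0]
              exact hx0B
            · exact hadj a z ha h haB
            · exact absurd h hz'
        rw [hBeq, cls_card (fun z : ℕ => not (Nat.beq (relN z 0) 0)), cnt417] at hdvd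
        exact absurd hdvd (by norm_num)
    · by_cases c0 : ∃ z ∈ {y : Fin 1782 | ∃ n ∈ N, n • x0 = y}, relN z 0 = 0
      · exfalso
        obtain ⟨b, hbB, hb⟩ := c0
        have hBeq : {y : Fin 1782 | ∃ n ∈ N, n • x0 = y} =
            {z : Fin 1782 | (fun z : ℕ => not (Nat.beq (relN z 0) 1)) z = true} := by
          ext z
          constructor
          · intro hz
            show (not (Nat.beq (relN z 0) 1)) = true
            rw [nbeq_true]
            intro h
            exact c1 ⟨z, hz, h⟩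
          · intro hz
            have hz' : relN z 0 ≠ 1 := nbeq_true.mp hz
            rcases rel_cases z with h | h | h
            · rw [rel_two z h, ← hx0]
              exact hx0B
            · exact absurd h hz'
            · exact hnon b z hb h hbB
        rw [hBeq, cls_card (fun z : ℕ => not (Nat.beq (relN z 0) 1)), cnt1366] at hdvd
        exact absurd hdvd (by norm_num)
      · exfalso
        have hfixN : ∀ n ∈ N, (n : P) x0 = x0 := by
          intro n hn
          have hmem : (n : P) x0 ∈ {y : Fin 1782 | ∃ n ∈ N, n • x0 = y} := ⟨n, hn, rfl⟩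
          rcases rel_cases ((n : P) x0) with h | h | h
          · rw [rel_two _ h, hx0]
          · exact absurd ⟨_, hmem, h⟩ c1
          · exact absurd ⟨_, hmem, h⟩ c0
        apply hN
        rw [Subgroup.eq_bot_iff_forall]
        intro n hn
        apply Subtype.ext
        apply Equiv.ext
        intro y
        obtain ⟨g, hg, e⟩ := x0_orbit y
        have hc : (⟨g, hg⟩ : ↥G)⁻¹ * n * (⟨g, hg⟩ : ↥G) ∈ N := by
          have := hNn.conj_mem n hn (⟨g, hg⟩ : ↥G)⁻¹
          rwa [inv_inv] at this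
        have hfix := hfixN _ hc
        have hfix' : g⁻¹ ((n : P) (g x0)) = x0 := hfix
        rw [Equiv.Perm.inv_eq_iff_eq] at hfix'
        rw [← e, ← hx0]
        exact hfix'
  have h100 : 1782 ∣ Nat.card ↥N := by
    have h1 := Subgroup.card_mul_index (MulAction.stabilizer ↥N x0)
    have horbN : MulAction.orbit ↥N x0 = Set.univ := by
      ext z
      simp only [Set.mem_univ, iff_true]
      have hz : z ∈ {y : Fin 1782 | ∃ n ∈ N, n • x0 = y} := by
        rw [hB]
        trivial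
      obtain ⟨n, hn, e⟩ := hz
      exact ⟨⟨n, hn⟩, e⟩
    rw [MulAction.index_stabilizer, horbN, Set.ncard_univ,
      Nat.card_eq_fintype_card (α := Fin 1782), Fintype.card_fin] at h1
    exact Dvd.intro_left _ h1
  have hidx : Nat.card ↥N * N.index = 448345497600 := by rw [Subgroup.card_mul_index, hcard]
  have hcop : Nat.Coprime 11 N.index := by
    obtain ⟨m, hm⟩ := h100
    rw [hm] at hidx
    have h6 : m * N.index = 251596800 := by
      have : 1782 * (m * N.index) = 1782 * 251596800 := by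
        rw [← mul_assoc]
        exact hidx
      exact Nat.eq_of_mul_eq_mul_left (by norm_num) this
    refine (Nat.Prime.coprime_iff_not_dvd (by norm_num)).mpr (fun h5 => ?_)
    have : 11 ∣ 251596800 := by
      rw [← h6]
      exact Dvd.dvd.mul_left h5 m
    exact absurd this (by norm_num)
  have h5N : ∀ t : ↥G, t ^ 11 = 1 → t ∈ N := by
    intro t ht
    have := hNn
    have hq5 : ((t : ↥G ⧸ N)) ^ 11 = 1 := by
      rw [← QuotientGroup.mk_pow, ht]
      rfl
    have hqi : ((t : ↥G ⧸ N)) ^ N.index = 1 := pow_card_eq_one'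
    have ho : orderOf (t : ↥G ⧸ N) ∣ Nat.gcd 11 N.index :=
      Nat.dvd_gcd (orderOf_dvd_of_pow_eq_one hq5) (orderOf_dvd_of_pow_eq_one hqi)
    rw [hcop.gcd_eq_one] at ho
    have h1 : (t : ↥G ⧸ N) = 1 := orderOf_eq_one_iff.mp (Nat.dvd_one.mp ho)
    exact (QuotientGroup.eq_one_iff t).mp h1
  have hp0 : (⟨p0, p0_mem⟩ : ↥G) ∈ N := h5N _ (Subtype.ext p0_pow)
  have hp1 : (⟨p1, p1_mem⟩ : ↥G) ∈ N := h5N _ (Subtype.ext p1_pow)
  rw [eq_top_iff]
  intro g _
  have hgK : (g : P) ∈ K := by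
    rw [K_eq]
    exact g.2
  have hle : K ≤ N.map G.subtype := by
    refine (Subgroup.closure_le _).mpr ?_
    intro σ hσ
    rcases hσ with rfl | rfl
    · exact ⟨_, hp0, rfl⟩
    · exact ⟨_, hp1, rfl⟩
  obtain ⟨n, hn, e⟩ := hle hgK
  have : n = g := Subtype.ext e
  rw [← this]
  exact hn

theorem isSuz : IsSimpleGroup ↥G ∧ Nat.card ↥G = 448345497600 := ⟨simpleG, card_G⟩

end Cfsg.Agent.Lib.Helper11.SuzL
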