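import Mathlib
import Cfsg.Prelude.Def_SporadicCombinatorics

set_option autoImplicit false

/-!
Model of the ternary code `Cfsg.ternaryGolayCode` of length 12: the word number `n < 729`
is `tw n`; its support is `ofMask (sup n)` (bit mask of 12 bits).
-/

namespace Cfsg.Agent.Lib.Helper11.TGolay

open Cfsg

theorem parity (x0 x1 x2 x3 x4 x5 x6 x7 x8 x9 x10 x11 s : ZMod 3)
    (E0 : x0 + x1 + x2 = -s) (E1 : x3 + x4 + x5 = -s) (E2 : x6 + x7 + x8 = -s)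
    (E3 : x9 + x10 + x11 = -s) (T00 : x0 + x3 + x6 + x9 = s) (T01 : x1 + x3 + x7 + x11 = s)
    (T10 : x0 + x4 + x7 + x10 = s) :
    x5 = x0 + x1 + x2 + 2 * x3 + 2 * x4 ∧
    x7 = 2 * x1 + x2 + 2 * x3 + x4 + x6 ∧
    x8 = x0 + 2 * x1 + x3 + 2 * x4 + x6 ∧
    x9 = x0 + 2 * x1 + 2 * x2 + 2 * x3 + 2 * x6 ∧
    x10 = x0 + x2 + x3 + x4 + 2 * x6 ∧
    x11 = 2 * x0 + 2 * x1 + x2 + 2 * x4 + 2 * x6 := by
  have h3 : (3 : ZMod 3) = 0 := by decide
  refine ⟨?_, ?_, ?_, ?_, ?_, ?_⟩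
  · linear_combination (2) * E0 + (1) * E1 + ((-1) * x0 + (-1) * x1 + (-1) * x2 + (-1) * x3 + (-1) * x4 + (-1) * s) * h3
  · linear_combination (2) * E0 + (1) * E3 + (2) * T00 + (2) * T01 + (2) * T10 + ((-2) * x0 + (-2) * x1 + (-1) * x2 + (-2) * x3 + (-1) * x4 + (-1) * x6 + (-1) * x7 + (-1) * x9 + (-1) * x10 + (-1) * x11 + (1) * s) * h3
  · linear_combination (1) * E2 + (2) * E3 + (1) * T00 + (1) * T01 + (1) * T10 + ((-1) * x0 + (-1) * x1 + (-1) * x3 + (-1) * x4 + (-1) * x6 + (-1) * x7 + (-1) * x9 + (-1) * x10 + (-1) * x11) * h3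
  · linear_combination (1) * E0 + (1) * T00 + ((-1) * x0 + (-1) * x1 + (-1) * x2 + (-1) * x3 + (-1) * x6) * h3
  · linear_combination (2) * E0 + (2) * E3 + (1) * T00 + (1) * T01 + (2) * T10 + ((-2) * x0 + (-1) * x1 + (-1) * x2 + (-1) * x3 + (-1) * x4 + (-1) * x6 + (-1) * x7 + (-1) * x9 + (-1) * x10 + (-1) * x11) * h3
  · linear_combination (2) * E0 + (2) * E3 + (1) * T00 + (2) * T01 + (1) * T10 + ((-2) * x0 + (-2) * x1 + (-1) * x2 + (-1) * x3 + (-1) * x4 + (-1) * x6 + (-1) * x7 + (-1) * x9 + (-1) * x10 + (-1) * x11) * h3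


theorem sum_zmod3 {M : Type*} [AddCommMonoid M] (f : ZMod 3 → M) :
    ∑ r : ZMod 3, f r = f 0 + f 1 + f 2 := Fin.sum_univ_three f

theorem v1_mem : (![0, 1, 1, 1] : Fin 4 → ZMod 3) ∈ tetracode :=
  Submodule.subset_span (by simp)

theorem v2_mem : (![1, 0, 1, 2] : Fin 4 → ZMod 3) ∈ tetracode :=
  Submodule.subset_span (by simp)

/-- the six parity equations satisfied by a code word -/
theorem word_eqs (x : ArrayPt → ZMod 3) (hx : x ∈ ternaryGolayCode) :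
    x (1, 2) = x (0, 0) + x (0, 1) + x (0, 2) + 2 * x (1, 0) + 2 * x (1, 1) ∧
    x (2, 1) = 2 * x (0, 1) + x (0, 2) + 2 * x (1, 0) + x (1, 1) + x (2, 0) ∧
    x (2, 2) = x (0, 0) + 2 * x (0, 1) + x (1, 0) + 2 * x (1, 1) + x (2, 0) ∧
    x (3, 0) = x (0, 0) + 2 * x (0, 1) + 2 * x (0, 2) + 2 * x (1, 0) + 2 * x (2, 0) ∧
    x (3, 1) = x (0, 0) + x (0, 2) + x (1, 0) + x (1, 1) + 2 * x (2, 0) ∧
    x (3, 2) = 2 * x (0, 0) + 2 * x (0, 1) + x (0, 2) + 2 * x (1, 1) + 2 * x (2, 0) := by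
  obtain ⟨s, hcol, htet⟩ := hx
  have E0 : x (0, 0) + x (0, 1) + x (0, 2) = -s := by
    rw [← sum_zmod3 (fun r => x (0, r))]; exact hcol 0
  have E1 : x (1, 0) + x (1, 1) + x (1, 2) = -s := by
    rw [← sum_zmod3 (fun r => x (1, r))]; exact hcol 1
  have E2 : x (2, 0) + x (2, 1) + x (2, 2) = -s := by
    rw [← sum_zmod3 (fun r => x (2, r))]; exact hcol 2
  have E3 : x (3, 0) + x (3, 1) + x (3, 2) = -s := by
    rw [← sum_zmod3 (fun r => x (3, r))]; exact hcol 3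
  have T00 : x (0, 0) + x (1, 0) + x (2, 0) + x (3, 0) = s := by
    have := htet 0 (Submodule.zero_mem _)
    rw [Fin.sum_univ_four] at this
    exact this
  have T01 : x (0, 1) + x (1, 0) + x (2, 1) + x (3, 2) = s := by
    have := htet _ v2_mem
    rw [Fin.sum_univ_four] at this
    exact this
  have T10 : x (0, 0) + x (1, 1) + x (2, 1) + x (3, 1) = s := by
    have := htet _ v1_mem
    rw [Fin.sum_univ_four] at this
    exact this
  exact parity _ _ _ _ _ _ _ _ _ _ _ _ s E0 E1 E2 E3 T00 T01 T10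

theorem forall_pt {P : ArrayPt → Prop} (h00 : P (0, 0)) (h01 : P (0, 1)) (h02 : P (0, 2))
    (h10 : P (1, 0)) (h11 : P (1, 1)) (h12 : P (1, 2)) (h20 : P (2, 0)) (h21 : P (2, 1))
    (h22 : P (2, 2)) (h30 : P (3, 0)) (h31 : P (3, 1)) (h32 : P (3, 2)) : ∀ p, P p := by
  rintro ⟨i, r⟩
  fin_cases i <;> fin_cases r
  · exact h00
  · exact h01
  · exact h02
  · exact h10
  · exact h11
  · exact h12
  · exact h20
  · exact h21
  · exact h22
  · exact h30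
  · exact h31
  · exact h32

/-! ### the numerical model -/

def pidx : ArrayPt → ℕ := fun p => 3 * p.1.val + ZMod.val p.2

theorem pidx_lt : ∀ p : ArrayPt, pidx p < 12 := by decide

theorem pidx_injective : Function.Injective pidx := by
  intro p q; revert p q; decide

theorem pidx_surj : ∀ i < 12, ∃ p : ArrayPt, pidx p = i := by decide

theorem image_pidx : (Finset.univ : Finset ArrayPt).image pidx = Finset.range 12 := by decide

def trit (n j : ℕ) : ℕ := Nat.mod (Nat.div n (Nat.pow 3 j)) 3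

def grow : ℕ → ℕ
  | 0 => 439831
  | 1 => 411402
  | 2 => 278001
  | 3 => 109863
  | 4 => 429219
  | 5 => 521235
  | _ => 0

def gm (k j : ℕ) : ℕ := trit (grow k) j

def coord (n j : ℕ) : ℕ :=
  Nat.mod (Nat.add (Nat.mul (trit n 0) (gm 0 j)) (Nat.add (Nat.mul (trit n 1) (gm 1 j))
    (Nat.add (Nat.mul (trit n 2) (gm 2 j)) (Nat.add (Nat.mul (trit n 3) (gm 3 j))
    (Nat.add (Nat.mul (trit n 4) (gm 4 j)) (Nat.mul (trit n 5) (gm 5 j))))))) 3

theorem coord_def (n j : ℕ) : coord n j =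
    (trit n 0 * gm 0 j + (trit n 1 * gm 1 j + (trit n 2 * gm 2 j + (trit n 3 * gm 3 j +
      (trit n 4 * gm 4 j + trit n 5 * gm 5 j))))) % 3 := rfl

theorem coord_lt (n j : ℕ) : coord n j < 3 := by
  rw [coord_def]; exact Nat.mod_lt _ (by norm_num)

/-- the word number `n` -/
def tw (n : ℕ) : ArrayPt → ZMod 3 := fun p => ((coord n (pidx p) : ℕ) : ZMod 3)

/-- the basis words -/
def B (k : ℕ) : ArrayPt → ZMod 3 := fun p => ((gm k (pidx p) : ℕ) : ZMod 3)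

theorem tw_eq (n : ℕ) : tw n = ∑ k ∈ Finset.range 6, ((trit n k : ℕ) : ZMod 3) • B k := by
  funext p
  simp only [tw, B, Finset.sum_apply, Pi.smul_apply, smul_eq_mul, Finset.sum_range_succ,
    Finset.sum_range_zero, zero_add]
  rw [coord_def, ZMod.natCast_mod]
  push_cast
  ring

theorem B_word : ∀ k < 6, ∃ s : ZMod 3, (∀ i : Fin 4, ∑ r : ZMod 3, B k (i, r) = -s) ∧
    ∀ c d : ZMod 3, ∑ i : Fin 4,
      B k (i, (c • (![0, 1, 1, 1] : Fin 4 → ZMod 3) + d • (![1, 0, 1, 2] : Fin 4 → ZMod 3)) i) = s := by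
  decide +kernel

theorem B_mem (k : ℕ) (hk : k < 6) : B k ∈ ternaryGolayCode := by
  obtain ⟨s, h1, h2⟩ := B_word k hk
  refine ⟨s, h1, fun t ht => ?_⟩
  obtain ⟨c, d, rfl⟩ := Submodule.mem_span_pair.mp ht
  exact h2 c d

theorem tw_mem (n : ℕ) : tw n ∈ ternaryGolayCode := by
  rw [tw_eq]
  exact Submodule.sum_mem _ (fun k hk => Submodule.smul_mem _ _ (B_mem k (Finset.mem_range.mp hk)))

/-- the number of a word: its six information coordinates in base 3 -/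
def num (x : ArrayPt → ZMod 3) : ℕ :=
  ZMod.val (x (0, 0)) + 3 * ZMod.val (x (0, 1)) + 9 * ZMod.val (x (0, 2)) +
    27 * ZMod.val (x (1, 0)) + 81 * ZMod.val (x (1, 1)) + 243 * ZMod.val (x (2, 0))

theorem num_lt (x : ArrayPt → ZMod 3) : num x < 729 := by
  have h0 := ZMod.val_lt (x (0, 0))
  have h1 := ZMod.val_lt (x (0, 1))
  have h2 := ZMod.val_lt (x (0, 2))
  have h3 := ZMod.val_lt (x (1, 0))
  have h4 := ZMod.val_lt (x (1, 1))
  have h5 := ZMod.val_lt (x (2, 0))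
  unfold num
  omega

theorem trit_def (n j : ℕ) : trit n j = n / 3 ^ j % 3 := rfl

theorem trit_num (x : ArrayPt → ZMod 3) :
    trit (num x) 0 = ZMod.val (x (0, 0)) ∧ trit (num x) 1 = ZMod.val (x (0, 1)) ∧
    trit (num x) 2 = ZMod.val (x (0, 2)) ∧ trit (num x) 3 = ZMod.val (x (1, 0)) ∧
    trit (num x) 4 = ZMod.val (x (1, 1)) ∧ trit (num x) 5 = ZMod.val (x (2, 0)) := by
  have h0 := ZMod.val_lt (x (0, 0))
  have h1 := ZMod.val_lt (x (0, 1))
  have h2 := ZMod.val_lt (x (0, 2))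
  have h3 := ZMod.val_lt (x (1, 0))
  have h4 := ZMod.val_lt (x (1, 1))
  have h5 := ZMod.val_lt (x (2, 0))
  simp only [trit_def, num]
  norm_num
  omega

theorem systematic : ∀ n < 729, coord n 0 = trit n 0 ∧ coord n 1 = trit n 1 ∧
    coord n 2 = trit n 2 ∧ coord n 3 = trit n 3 ∧ coord n 4 = trit n 4 ∧
    coord n 6 = trit n 5 := by
  decide +kernel

theorem eq_tw_num (x : ArrayPt → ZMod 3) (hx : x ∈ ternaryGolayCode) : x = tw (num x) := by
  have hy : x - tw (num x) ∈ ternaryGolayCode := Submodule.sub_mem _ hx (tw_mem _)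
  obtain ⟨t0, t1, t2, t3, t4, t5⟩ := trit_num x
  obtain ⟨s0, s1, s2, s3, s4, s5⟩ := systematic (num x) (num_lt x)
  have z0 : (x - tw (num x)) (0, 0) = 0 := by
    show x (0, 0) - ((coord (num x) 0 : ℕ) : ZMod 3) = 0
    rw [s0, t0, ZMod.natCast_zmod_val, sub_self]
  have z1 : (x - tw (num x)) (0, 1) = 0 := by
    show x (0, 1) - ((coord (num x) 1 : ℕ) : ZMod 3) = 0
    rw [s1, t1, ZMod.natCast_zmod_val, sub_self]
  have z2 : (x - tw (num x)) (0, 2) = 0 := by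
    show x (0, 2) - ((coord (num x) 2 : ℕ) : ZMod 3) = 0
    rw [s2, t2, ZMod.natCast_zmod_val, sub_self]
  have z3 : (x - tw (num x)) (1, 0) = 0 := by
    show x (1, 0) - ((coord (num x) 3 : ℕ) : ZMod 3) = 0
    rw [s3, t3, ZMod.natCast_zmod_val, sub_self]
  have z4 : (x - tw (num x)) (1, 1) = 0 := by
    show x (1, 1) - ((coord (num x) 4 : ℕ) : ZMod 3) = 0
    rw [s4, t4, ZMod.natCast_zmod_val, sub_self]
  have z6 : (x - tw (num x)) (2, 0) = 0 := by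
    show x (2, 0) - ((coord (num x) 6 : ℕ) : ZMod 3) = 0
    rw [s5, t5, ZMod.natCast_zmod_val, sub_self]
  obtain ⟨h5, h7, h8, h9, h10, h11⟩ := word_eqs _ hy
  simp only [z0, z1, z2, z3, z4, z6, mul_zero, add_zero] at h5
  simp only [z0, z1, z2, z3, z4, z6, mul_zero, add_zero] at h7
  simp only [z0, z1, z2, z3, z4, z6, mul_zero, add_zero] at h8
  simp only [z0, z1, z2, z3, z4, z6, mul_zero, add_zero] at h9
  simp only [z0, z1, z2, z3, z4, z6, mul_zero, add_zero] at h10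
  simp only [z0, z1, z2, z3, z4, z6, mul_zero, add_zero] at h11
  have hzero : ∀ p, (x - tw (num x)) p = 0 :=
    forall_pt z0 z1 z2 z3 z4 h5 z6 h7 h8 h9 h10 h11
  exact sub_eq_zero.mp (funext hzero)

theorem mem_iff (x : ArrayPt → ZMod 3) : x ∈ ternaryGolayCode ↔ ∃ n < 729, x = tw n :=
  ⟨fun hx => ⟨num x, num_lt x, eq_tw_num x hx⟩, by rintro ⟨n, _, rfl⟩; exact tw_mem n⟩

theorem num_tw (n : ℕ) (hn : n < 729) : num (tw n) = n := by
  obtain ⟨s0, s1, s2, s3, s4, s5⟩ := systematic n hn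
  have e0 : ZMod.val (tw n (0, 0)) = trit n 0 := by
    show ZMod.val ((coord n 0 : ℕ) : ZMod 3) = _
    rw [ZMod.val_natCast_of_lt (coord_lt n 0), s0]
  have e1 : ZMod.val (tw n (0, 1)) = trit n 1 := by
    show ZMod.val ((coord n 1 : ℕ) : ZMod 3) = _
    rw [ZMod.val_natCast_of_lt (coord_lt n 1), s1]
  have e2 : ZMod.val (tw n (0, 2)) = trit n 2 := by
    show ZMod.val ((coord n 2 : ℕ) : ZMod 3) = _
    rw [ZMod.val_natCast_of_lt (coord_lt n 2), s2]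
  have e3 : ZMod.val (tw n (1, 0)) = trit n 3 := by
    show ZMod.val ((coord n 3 : ℕ) : ZMod 3) = _
    rw [ZMod.val_natCast_of_lt (coord_lt n 3), s3]
  have e4 : ZMod.val (tw n (1, 1)) = trit n 4 := by
    show ZMod.val ((coord n 4 : ℕ) : ZMod 3) = _
    rw [ZMod.val_natCast_of_lt (coord_lt n 4), s4]
  have e5 : ZMod.val (tw n (2, 0)) = trit n 5 := by
    show ZMod.val ((coord n 6 : ℕ) : ZMod 3) = _
    rw [ZMod.val_natCast_of_lt (coord_lt n 6), s5]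
  unfold num
  rw [e0, e1, e2, e3, e4, e5]
  simp only [trit_def]
  norm_num
  omega

theorem tw_injOn : ∀ n < 729, ∀ n' < 729, tw n = tw n' → n = n' := by
  intro n hn n' hn' h
  rw [← num_tw n hn, ← num_tw n' hn', h]

theorem tw_zero : tw 0 = 0 := by
  have h : ∀ j < 12, coord 0 j = 0 := by decide +kernel
  funext p
  show ((coord 0 (pidx p) : ℕ) : ZMod 3) = 0
  rw [h _ (pidx_lt p)]
  rfl

theorem code_eq_image : ((ternaryGolayCode : Submodule (ZMod 3) (ArrayPt → ZMod 3)) :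
    Set (ArrayPt → ZMod 3)) = tw '' {n | n < 729} := by
  ext x
  simp only [SetLike.mem_coe, mem_iff, Set.mem_image, Set.mem_ofPred_eq]
  constructor
  · rintro ⟨n, hn, rfl⟩; exact ⟨n, hn, rfl⟩
  · rintro ⟨n, hn, rfl⟩; exact ⟨n, hn, rfl⟩

theorem natCard_code : Nat.card ternaryGolayCode = 729 := by
  have h2 : Nat.card ternaryGolayCode =
      ((ternaryGolayCode : Submodule (ZMod 3) (ArrayPt → ZMod 3)) : Set (ArrayPt → ZMod 3)).ncard :=
    (Nat.card_coe_set_eq _)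
  rw [h2, code_eq_image, Set.InjOn.ncard_image]
  · have h3 : {k : ℕ | k < 729} = ↑(Finset.range 729) := by
      ext k; simp
    rw [h3, Set.ncard_coe_finset, Finset.card_range]
  · intro k hk k' hk' h
    exact tw_injOn k hk k' hk' h

/-! ### supports as bit masks -/

/-- the support of word number `n` as a 12-bit mask -/
def sup (n : ℕ) : ℕ :=
  Nat.add (Nat.div (Nat.add (coord n 0) 1) 2)
  (Nat.add (Nat.mul (Nat.div (Nat.add (coord n 1) 1) 2) 2)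
  (Nat.add (Nat.mul (Nat.div (Nat.add (coord n 2) 1) 2) 4)
  (Nat.add (Nat.mul (Nat.div (Nat.add (coord n 3) 1) 2) 8)
  (Nat.add (Nat.mul (Nat.div (Nat.add (coord n 4) 1) 2) 16)
  (Nat.add (Nat.mul (Nat.div (Nat.add (coord n 5) 1) 2) 32)
  (Nat.add (Nat.mul (Nat.div (Nat.add (coord n 6) 1) 2) 64)
  (Nat.add (Nat.mul (Nat.div (Nat.add (coord n 7) 1) 2) 128)
  (Nat.add (Nat.mul (Nat.div (Nat.add (coord n 8) 1) 2) 256)
  (Nat.add (Nat.mul (Nat.div (Nat.add (coord n 9) 1) 2) 512)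
  (Nat.add (Nat.mul (Nat.div (Nat.add (coord n 10) 1) 2) 1024)
  (Nat.mul (Nat.div (Nat.add (coord n 11) 1) 2) 2048)))))))))))

theorem sup_testBit : ∀ n < 729, ∀ j < 12, (sup n).testBit j = !(Nat.beq (coord n j) 0) := by
  decide +kernel

theorem sup_lt : ∀ n < 729, sup n < 4096 := by
  decide +kernel

def ofMask (m : ℕ) : Finset ArrayPt := Finset.univ.filter (fun p => m.testBit (pidx p) = true)

theorem mem_ofMask (m : ℕ) (p : ArrayPt) : p ∈ ofMask m ↔ m.testBit (pidx p) = true := by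
  simp [ofMask]

theorem supp_tw (n : ℕ) (hn : n < 729) : ternarySupport (tw n) = ofMask (sup n) := by
  ext p
  rw [mem_ofMask, sup_testBit n hn _ (pidx_lt p)]
  have hmem : p ∈ ternarySupport (tw n) ↔ tw n p ≠ 0 := by simp [ternarySupport]
  rw [hmem]
  have hlt := coord_lt n (pidx p)
  have hz : tw n p = 0 ↔ coord n (pidx p) = 0 := by
    show ((coord n (pidx p) : ℕ) : ZMod 3) = 0 ↔ _
    rw [ZMod.natCast_eq_zero_iff]
    constructor
    · rintro ⟨c, hc⟩; omega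
    · intro h; rw [h]; exact dvd_zero _
  rw [Ne, hz]
  cases hc : Nat.beq (coord n (pidx p)) 0 with
  | false =>
    constructor
    · intro _; rfl
    · intro _ h0
      rw [h0] at hc
      exact absurd hc (by decide)
  | true =>
    constructor
    · intro h; exact absurd (Nat.eq_of_beq_eq_true hc) h
    · intro h; exact absurd h (by decide)

def pc12 (m : ℕ) : ℕ :=
  Nat.add (Nat.mod m 2)
  (Nat.add (Nat.mod (Nat.div m 2) 2)
  (Nat.add (Nat.mod (Nat.div m 4) 2)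
  (Nat.add (Nat.mod (Nat.div m 8) 2)
  (Nat.add (Nat.mod (Nat.div m 16) 2)
  (Nat.add (Nat.mod (Nat.div m 32) 2)
  (Nat.add (Nat.mod (Nat.div m 64) 2)
  (Nat.add (Nat.mod (Nat.div m 128) 2)
  (Nat.add (Nat.mod (Nat.div m 256) 2)
  (Nat.add (Nat.mod (Nat.div m 512) 2)
  (Nat.add (Nat.mod (Nat.div m 1024) 2)
  (Nat.mod (Nat.div m 2048) 2)))))))))))

theorem pc12_def (m : ℕ) : pc12 m = m % 2 + (m / 2 % 2 + (m / 4 % 2 + (m / 8 % 2 + (m / 16 % 2 +
    (m / 32 % 2 + (m / 64 % 2 + (m / 128 % 2 + (m / 256 % 2 + (m / 512 % 2 + (m / 1024 % 2 +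
    m / 2048 % 2)))))))))) := rfl

theorem pc12_eq_sum (m : ℕ) : pc12 m = ∑ i ∈ Finset.range 12, m / 2 ^ i % 2 := by
  rw [pc12_def]
  simp only [Finset.sum_range_succ, Finset.sum_range_zero]
  norm_num
  ring

theorem card_ofMask (m : ℕ) : (ofMask m).card = pc12 m := by
  have h1 : (ofMask m).card = ((Finset.range 12).filter (fun i => m.testBit i = true)).card := by
    rw [ofMask, ← image_pidx, Finset.filter_image, Finset.card_image_of_injective _ pidx_injective]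
  rw [h1, pc12_eq_sum, Finset.card_filter]
  apply Finset.sum_congr rfl
  intro i _
  rw [← Nat.toNat_testBit]
  cases m.testBit i <;> rfl

theorem card_supp_tw (n : ℕ) (hn : n < 729) : (ternarySupport (tw n)).card = pc12 (sup n) := by
  rw [supp_tw n hn, card_ofMask]

theorem ofMask_injOn : ∀ a < 4096, ∀ b < 4096, ofMask a = ofMask b → a = b := by
  intro a ha b hb h
  apply Nat.eq_of_testBit_eq
  intro i
  by_cases hi : i < 12
  · obtain ⟨p, rfl⟩ := pidx_surj i hi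
    have h1 : p ∈ ofMask a ↔ p ∈ ofMask b := by rw [h]
    rw [mem_ofMask, mem_ofMask] at h1
    cases ha' : a.testBit (pidx p) <;> cases hb' : b.testBit (pidx p) <;> simp_all
  · have h12 : 2 ^ 12 ≤ 2 ^ i := Nat.pow_le_pow_right (by norm_num) (by omega)
    rw [Nat.testBit_lt_two_pow (lt_of_lt_of_le ha h12),
      Nat.testBit_lt_two_pow (lt_of_lt_of_le hb h12)]

theorem ofMask_subset (a b : ℕ) (ha : a < 4096) : ofMask a ⊆ ofMask b ↔ a &&& b = a := by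
  constructor
  · intro h
    apply Nat.eq_of_testBit_eq
    intro i
    rw [Nat.testBit_and]
    by_cases hi : i < 12
    · obtain ⟨p, rfl⟩ := pidx_surj i hi
      have h1 : p ∈ ofMask a → p ∈ ofMask b := fun hp => h hp
      rw [mem_ofMask, mem_ofMask] at h1
      cases ha' : a.testBit (pidx p) <;> cases hb' : b.testBit (pidx p) <;> simp_all
    · have h12 : 2 ^ 12 ≤ 2 ^ i := Nat.pow_le_pow_right (by norm_num) (by omega)
      rw [Nat.testBit_lt_two_pow (lt_of_lt_of_le ha h12)]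
      rfl
  · intro h p hp
    rw [mem_ofMask] at hp ⊢
    rw [← h, Nat.testBit_and] at hp
    simp only [Bool.and_eq_true] at hp
    exact hp.2

/-- every set of points is `ofMask m` for some `m < 4096` -/
theorem exists_mask (s : Finset ArrayPt) : ∃ m < 4096, ofMask m = s := by
  classical
  have hcard : ((Finset.range 4096).image ofMask).card = 4096 := by
    rw [Finset.card_image_of_injOn, Finset.card_range]
    intro a ha b hb h
    exact ofMask_injOn a (Finset.mem_range.mp ha) b (Finset.mem_range.mp hb) h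
  have huniv : (Finset.range 4096).image ofMask = Finset.univ := by
    apply Finset.eq_univ_of_card
    rw [hcard, Fintype.card_finset]
    decide
  have hs : s ∈ (Finset.range 4096).image ofMask := by rw [huniv]; exact Finset.mem_univ _
  rw [Finset.mem_image] at hs
  obtain ⟨m, hm, rfl⟩ := hs
  exact ⟨m, Finset.mem_range.mp hm, rfl⟩

/-! ### orthogonality and explicit basis values -/

theorem B_orth : ∀ k < 6, ∀ l < 6, ∑ p, B k p * B l p = 0 := by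
  decide +kernel

theorem dot_B_tw (k : ℕ) (hk : k < 6) (n : ℕ) : ∑ p, B k p * tw n p = 0 := by
  rw [tw_eq]
  simp only [Finset.sum_apply, Pi.smul_apply, smul_eq_mul, Finset.mul_sum]
  rw [Finset.sum_comm]
  apply Finset.sum_eq_zero
  intro l hl
  have : ∀ p, B k p * (((trit n l : ℕ) : ZMod 3) * B l p)
      = ((trit n l : ℕ) : ZMod 3) * (B k p * B l p) := fun p => by ring
  simp only [this, ← Finset.mul_sum, B_orth k hk l (Finset.mem_range.mp hl), mul_zero]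

theorem dot_tw_tw (m n : ℕ) : ∑ p, tw m p * tw n p = 0 := by
  have hm := tw_eq m
  have key : ∀ p, tw m p * tw n p
      = ∑ k ∈ Finset.range 6, ((trit m k : ℕ) : ZMod 3) * (B k p * tw n p) := by
    intro p
    rw [hm]
    simp only [Finset.sum_apply, Pi.smul_apply, smul_eq_mul, Finset.sum_mul, mul_assoc]
  simp only [key]
  rw [Finset.sum_comm]
  apply Finset.sum_eq_zero
  intro k hk
  rw [← Finset.mul_sum, dot_B_tw k (Finset.mem_range.mp hk) n, mul_zero]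

theorem B0_vals : B 0 (0, 0) = 1 ∧ B 0 (0, 1) = 0 ∧ B 0 (0, 2) = 0 ∧ B 0 (1, 0) = 0 ∧ B 0 (1, 1) = 0 ∧ B 0 (1, 2) = 1 ∧ B 0 (2, 0) = 0 ∧ B 0 (2, 1) = 0 ∧ B 0 (2, 2) = 1 ∧ B 0 (3, 0) = 1 ∧ B 0 (3, 1) = 1 ∧ B 0 (3, 2) = 2 := by
  decide +kernel

theorem B1_vals : B 1 (0, 0) = 0 ∧ B 1 (0, 1) = 1 ∧ B 1 (0, 2) = 0 ∧ B 1 (1, 0) = 0 ∧ B 1 (1, 1) = 0 ∧ B 1 (1, 2) = 1 ∧ B 1 (2, 0) = 0 ∧ B 1 (2, 1) = 2 ∧ B 1 (2, 2) = 2 ∧ B 1 (3, 0) = 2 ∧ B 1 (3, 1) = 0 ∧ B 1 (3, 2) = 2 := by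
  decide +kernel

theorem B2_vals : B 2 (0, 0) = 0 ∧ B 2 (0, 1) = 0 ∧ B 2 (0, 2) = 1 ∧ B 2 (1, 0) = 0 ∧ B 2 (1, 1) = 0 ∧ B 2 (1, 2) = 1 ∧ B 2 (2, 0) = 0 ∧ B 2 (2, 1) = 1 ∧ B 2 (2, 2) = 0 ∧ B 2 (3, 0) = 2 ∧ B 2 (3, 1) = 1 ∧ B 2 (3, 2) = 1 := by
  decide +kernel

theorem B3_vals : B 3 (0, 0) = 0 ∧ B 3 (0, 1) = 0 ∧ B 3 (0, 2) = 0 ∧ B 3 (1, 0) = 1 ∧ B 3 (1, 1) = 0 ∧ B 3 (1, 2) = 2 ∧ B 3 (2, 0) = 0 ∧ B 3 (2, 1) = 2 ∧ B 3 (2, 2) = 1 ∧ B 3 (3, 0) = 2 ∧ B 3 (3, 1) = 1 ∧ B 3 (3, 2) = 0 := by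
  decide +kernel

theorem B4_vals : B 4 (0, 0) = 0 ∧ B 4 (0, 1) = 0 ∧ B 4 (0, 2) = 0 ∧ B 4 (1, 0) = 0 ∧ B 4 (1, 1) = 1 ∧ B 4 (1, 2) = 2 ∧ B 4 (2, 0) = 0 ∧ B 4 (2, 1) = 1 ∧ B 4 (2, 2) = 2 ∧ B 4 (3, 0) = 0 ∧ B 4 (3, 1) = 1 ∧ B 4 (3, 2) = 2 := by
  decide +kernel

theorem B5_vals : B 5 (0, 0) = 0 ∧ B 5 (0, 1) = 0 ∧ B 5 (0, 2) = 0 ∧ B 5 (1, 0) = 0 ∧ B 5 (1, 1) = 0 ∧ B 5 (1, 2) = 0 ∧ B 5 (2, 0) = 1 ∧ B 5 (2, 1) = 1 ∧ B 5 (2, 2) = 1 ∧ B 5 (3, 0) = 2 ∧ B 5 (3, 1) = 2 ∧ B 5 (3, 2) = 2 := by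
  decide +kernel

theorem units3 : ∀ u : (ZMod 3)ˣ, u = 1 ∨ u = -1 := by decide

end Cfsg.Agent.Lib.Helper11.TGolay
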